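import Cfsg.Agent.Lib.Blocks.SubgroupChain
import Cfsg.Agent.Lib.Blocks.MaximalCriterion

/-!
The Brauer correspondence between a group and a subgroup containing a normalizer.
-/

namespace CfsgLib.Blocks

set_option linter.style.haveILetI false

open scoped ComplexConjugate
open Cfsg CfsgLib.Chars

universe u

variable {G : Type u} [Group G] [Fintype G] {p : ℕ} {M : Ideal AlgInt}

/-- Every pair belongs to some block. -/
theorem exists_block_of_pair (hM : IsPModular p M) {Q : Subgroup G}
    {e : Set (IrrCharacter (Subgroup.centralizer (Q : Set G)))} (he : IsBrauerPair p M Q e) :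
    ∃ B : Set (IrrCharacter G), IsBrauerPairOf p M B Q e := by
  classical
  haveI : Fact p.Prime := ⟨hM.1⟩
  set H := Q ⊔ Subgroup.centralizer (Q : Set G) with hH
  haveI : Fintype H := Fintype.ofFinite _
  obtain ⟨b, hb, hcoef⟩ := exists_pc_block hM he.1 hH he.2
  obtain ⟨ξ₀, hξ₀⟩ := IsPBlock.nonempty hM hb
  have hN : H ≤ Subgroup.normalizer (Q : Set G) := pc_le_normalizer Q
  obtain ⟨B, hB, hne⟩ := exists_block_brVal hM hN ξ₀
  exact ⟨B, (pc_induced_iff hM he.1 hH he.2 hb hcoef hB).mp
    ((isInducedBlock_iff_brVal hM he.1 le_sup_left le_sup_right hN hb hB hξ₀).mpr hne)⟩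

/-- A pair determines its block. -/
theorem block_of_pair_unique (hM : IsPModular p M) {Q : Subgroup G}
    {e : Set (IrrCharacter (Subgroup.centralizer (Q : Set G)))} {B B' : Set (IrrCharacter G)}
    (h : IsBrauerPairOf p M B Q e) (h' : IsBrauerPairOf p M B' Q e) : B = B' := by
  classical
  by_contra hne
  obtain ⟨ξ, hξ⟩ := IsPBlock.nonempty hM h.1.2
  have h0 : Chars.conv (blockCoeff B) (blockCoeff B') = fun _ => 0 := by
    rw [show blockCoeff B = coeffFun (indic B) from funext (blockCoeff_eq_coeffFun B),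
      show blockCoeff B' = coeffFun (indic B') from funext (blockCoeff_eq_coeffFun B'), ← coeffFun_mul]
    have e0 : indic B * indic B' = fun _ => (0 : ℂ) := by
      funext φ
      by_cases hφ : φ ∈ B
      · rw [Pi.mul_apply, indic_of_notMem (fun h2 => hne
          ((IsPBlock.eq_blockOf hM h.2.1 hφ).trans (IsPBlock.eq_blockOf hM h'.2.1 h2).symm)), mul_zero]
      · rw [Pi.mul_apply, indic_of_notMem hφ, zero_mul]
    rw [e0]
    funext g
    simp [coeffFun]
  have hc := ConjInv.of_isClassFunction (S := Q) (blockCoeff_isClassFunction B)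
  have key := mli_brauerOmega_conv hM h.1.1 hc
    (ConjInv.of_isClassFunction (blockCoeff_isClassFunction B'))
    (ConjInv.of_isClassFunction (blockCoeff_isClassFunction B))
    (ConjInv.of_isClassFunction (blockCoeff_isClassFunction B'))
    (mlr_blockCoeff hM h.2.1) (mlr_blockCoeff hM h'.2.1) ξ
  rw [h0, show brauerOmega Q (fun _ : G => (0 : ℂ)) (ξ : Subgroup.centralizer (Q : Set G) → ℂ) = 0 by
    simp [brauerOmega], zero_sub] at key
  have k1 := h.2.2 ξ hξ
  have k2 := h'.2.2 ξ hξ
  exact ((fun hx hy hxy => (mli_mul_cases hM hx hy hxy).elim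
    (not_mli_of_sub_one hM k1) (not_mli_of_sub_one hM k2))
    (by rw [brauerOmega_eq_omega]; exact mlr_omega hM ξ (rest_isClassFunction _
      (ConjInv.of_isClassFunction (blockCoeff_isClassFunction B))) fun c => mlr_blockCoeff hM h.2.1 _)
    (by rw [brauerOmega_eq_omega]; exact mlr_omega hM ξ (rest_isClassFunction _
      (ConjInv.of_isClassFunction (blockCoeff_isClassFunction B'))) fun c => mlr_blockCoeff hM h'.2.1 _)
    (by simpa using mli_neg key))

variable {P H : Subgroup G} [Fintype H]

/-- The block `f` of `C(P)` is seen in the block `c` of `H`. -/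
def SeenIn (M : Ideal AlgInt) (P : Subgroup G) (c : Set (IrrCharacter H))
    (f : Set (IrrCharacter (Subgroup.centralizer (P : Set G)))) : Prop :=
  ∀ ξ ∈ f, MemLocalIdeal M (brauerOmega P (subgroupBlockCoeff H c)
    (ξ : Subgroup.centralizer (P : Set G) → ℂ) - 1)

theorem brauerOmega_sub_centEquiv (hP : P ≤ H) (hC : Subgroup.centralizer (P : Set G) ≤ H)
    (c : Set (IrrCharacter H))
    (ξ' : IrrCharacter (Subgroup.centralizer ((P.subgroupOf H : Subgroup H) : Set H))) :
    brauerOmega (P.subgroupOf H) (blockCoeff c) (ξ' : _ → ℂ) =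
      brauerOmega P (subgroupBlockCoeff H c)
        (pullIrr (centEquiv hP hC).symm ξ' : Subgroup.centralizer (P : Set G) → ℂ) := by
  rw [brauerOmega, brauerOmega]
  refine finsum_eq_of_bijective (centEquiv hP hC) (MulEquiv.bijective _) fun k => ?_
  rw [pullIrr_apply, pullIrr_apply, MulEquiv.symm_apply_apply, map_one]
  congr 2
  exact (sbc_apply H c (k : H)).symm

theorem seenIn_iff (hM : IsPModular p M) (hP : P ≤ H) (hC : Subgroup.centralizer (P : Set G) ≤ H)
    (hPp : IsPGroup p P) {f : Set (IrrCharacter (Subgroup.centralizer (P : Set G)))}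
    (hf : IsPBlock M f) {c : Set (IrrCharacter H)} (hc : IsPBlock M c) :
    SeenIn M P c f ↔
      IsBrauerPairOf p M c (P.subgroupOf H) (mapBlock (centEquiv hP hC).symm f) := by
  refine ⟨isBrauerPairOf_subgroup hM hP hC hPp hf hc, fun h ξ hξ => ?_⟩
  have hm : pullIrr (centEquiv hP hC).symm (pullIrr (centEquiv hP hC) ξ) = ξ :=
    pullIrr_apply_symm _ ξ
  have h1 := h.2.2 (pullIrr (centEquiv hP hC) ξ)
    (show pullIrr (centEquiv hP hC).symm (pullIrr (centEquiv hP hC) ξ) ∈ f by rwa [hm])
  rwa [brauerOmega_sub_centEquiv hP hC, hm] at h1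

theorem exists_seenIn (hM : IsPModular p M) (hP : P ≤ H) (hC : Subgroup.centralizer (P : Set G) ≤ H)
    (hPp : IsPGroup p P) {f : Set (IrrCharacter (Subgroup.centralizer (P : Set G)))}
    (hf : IsPBlock M f) : ∃ c : Set (IrrCharacter H), IsPBlock M c ∧ SeenIn M P c f := by
  classical
  obtain ⟨c, hc⟩ := exists_block_of_pair hM (G := H) (Q := P.subgroupOf H)
    (e := mapBlock (centEquiv hP hC).symm f)
    ⟨hPp.of_equiv (Subgroup.subgroupOfEquivOfLe hP).symm, isPBlock_mapBlock hM _ hf⟩
  exact ⟨c, hc.2.1, (seenIn_iff hM hP hC hPp hf hc.2.1).mpr hc⟩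

/-- Defect group `P` in `G` passes to `H`. -/
theorem seenIn_defect_down (hM : IsPModular p M) (hP : P ≤ H)
    (hC : Subgroup.centralizer (P : Set G) ≤ H) (hPp : IsPGroup p P)
    {f : Set (IrrCharacter (Subgroup.centralizer (P : Set G)))} {B : Set (IrrCharacter G)}
    (hpair : IsBrauerPairOf p M B P f) (hD : IsDefectGroup p M B P)
    {c : Set (IrrCharacter H)} (hc : IsPBlock M c) (hs : SeenIn M P c f) :
    IsDefectGroup p M c (P.subgroupOf H) := by
  classical
  have hp' := (seenIn_iff hM hP hC hPp hpair.1.2 hc).mp hs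
  obtain ⟨D', d', hmax', hle'⟩ := exists_maximal_above hM _ _ hp'
  have hmap : (P.subgroupOf H).map H.subtype = P := subgroupOf_map P H hP
  have hC1 : Subgroup.centralizer (((P.subgroupOf H).map H.subtype : Subgroup G) : Set G) ≤ H := by
    rw [hmap]; exact hC
  have hC2 : Subgroup.centralizer ((D'.map H.subtype : Subgroup G) : Set G) ≤ H :=
    le_trans (Subgroup.centralizer_le (Subgroup.map_mono (SubpairLE.le hle') :
      (P.subgroupOf H).map H.subtype ≤ D'.map H.subtype)) hC1
  have hup := subpairLE_up hM hC1 hC2 hle'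
  have hup' : (⟨(P.subgroupOf H).map H.subtype,
      mapBlock (centUp (P.subgroupOf H) hC1) (mapBlock (centEquiv hP hC).symm f)⟩ :
        BrauerPairIdx G) = ⟨P, f⟩ := by
    have key : ∀ (A' : Subgroup G) (_ : A' = P)
        (φ : Subgroup.centralizer (P : Set G) ≃* Subgroup.centralizer (A' : Set G)),
        (∀ k, ((φ k : Subgroup.centralizer (A' : Set G)) : G) = (k : G)) →
        (⟨A', mapBlock φ f⟩ : BrauerPairIdx G) = ⟨P, f⟩ := by
      intro A' h φ hφ
      subst h
      refine congrArg (Sigma.mk _) (Set.ext fun χ => ?_)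
      show pullIrr φ χ ∈ f ↔ χ ∈ f
      rw [show pullIrr φ χ = χ from Subtype.ext (funext fun k =>
        congrArg (χ : _ → ℂ) (Subtype.ext (hφ k)))]
    refine Eq.trans ?_ (key _ hmap ((centEquiv hP hC).symm.trans (centUp (P.subgroupOf H) hC1))
      fun k => rfl)
    rfl
  have hle : SubpairLE p M P f (D'.map H.subtype) (mapBlock (centUp D' hC2) d') :=
    subpairLE_congr_left hmap _ _ hup' hup
  have hdb : IsBrauerPair p M (D'.map H.subtype) (mapBlock (centUp D' hC2) d') :=
    ⟨hmax'.1.1.1.map _, isPBlock_mapBlock hM _ hmax'.1.1.2⟩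
  have hR := (maximal_of_defectGroup hM hpair hD).2 _ _
    ((brauerPairOf_iff_le hM hle hpair.2.1).mpr hpair) hle
  have e : D' = P.subgroupOf H :=
    Subgroup.map_injective H.subtype_injective (hR.trans hmap.symm)
  have := maximal_isDefectGroup hM hmax'
  rwa [e] at this

/-- Defect group `P` in `H` passes to `G`. -/
theorem seenIn_defect_up (hM : IsPModular p M) (hP : P ≤ H)
    (hN : Subgroup.normalizer (P : Set G) ≤ H) (hPp : IsPGroup p P)
    {f : Set (IrrCharacter (Subgroup.centralizer (P : Set G)))} {B : Set (IrrCharacter G)}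
    (hpair : IsBrauerPairOf p M B P f)
    {c : Set (IrrCharacter H)} (hc : IsPBlock M c) (hs : SeenIn M P c f)
    (hD : IsDefectGroup p M c (P.subgroupOf H)) : IsDefectGroup p M B P := by
  classical
  refine maximal_isDefectGroup hM (e := f) ⟨hpair, fun R g hg hle => ?_⟩
  by_contra hne
  obtain ⟨R', g', hlt, hstep, -⟩ := SubpairLE.first_step hM hle (Ne.symm hne)
  have hR'H : R' ≤ H := hstep.2.2.2.1.trans hN
  have hC : Subgroup.centralizer (P : Set G) ≤ H :=
    (Subgroup.centralizer_le_normalizer (P : Set G)).trans hN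
  obtain ⟨η, hη⟩ := IsPBlock.nonempty hM hstep.1.2
  have hinv := sbc_conjInv_self H c
  have hseen' : ∀ ξ ∈ g', MemLocalIdeal M (brauerOmega R' (subgroupBlockCoeff H c)
      (ξ : Subgroup.centralizer (R' : Set G) → ℂ) - 1) := fun ξ hξ => by
    have h1 := mli_brauerOmega_compose hM hlt.le hstep.2.1.1 hstep.1.2 hstep.2.2.2.2.1 hη ξ
      (hstep.2.2.2.2.2 ξ hξ) (hinv.mono hR'H) (hinv.mono hC) (sbc_mlr hM H hc) (conv_sbc_self H c)
    convert mli_add hM h1 (hs η hη) using 1
    ring
  have hp' := isBrauerPairOf_subgroup hM hR'H ((Subgroup.centralizer_le hlt.le).trans hC)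
    hstep.2.1.1 hstep.2.1.2 hc hseen'
  obtain ⟨x, hx⟩ := pair_le_defectGroup hM hp' hD
  have h1 := Subgroup.card_le_of_le hx
  rw [card_map_conj, Nat.card_congr (Subgroup.subgroupOfEquivOfLe hR'H).toEquiv,
    Nat.card_congr (Subgroup.subgroupOfEquivOfLe hP).toEquiv] at h1
  exact hlt.ne (Subgroup.eq_of_le_of_card_ge hlt.le h1)

/-- Blocks with defect group `P` seeing a common pair see the same pairs. -/
theorem seen_same (hM : IsPModular p M) (hP : P ≤ H) (hN : Subgroup.normalizer (P : Set G) ≤ H)
    (hPp : IsPGroup p P) {f : Set (IrrCharacter (Subgroup.centralizer (P : Set G)))}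
    {B : Set (IrrCharacter G)} (hpair : IsBrauerPairOf p M B P f) (hBD : IsDefectGroup p M B P)
    {c : Set (IrrCharacter H)} (hc : IsPBlock M c) (hs : SeenIn M P c f)
    (hcD : IsDefectGroup p M c (P.subgroupOf H))
    {f' : Set (IrrCharacter (Subgroup.centralizer (P : Set G)))} (hf' : IsPBlock M f') :
    IsBrauerPairOf p M B P f' ↔ SeenIn M P c f' := by
  classical
  have hC : Subgroup.centralizer (P : Set G) ≤ H :=
    (Subgroup.centralizer_le_normalizer (P : Set G)).trans hN
  have htrans : ∀ (a b : BrauerPairIdx G), a = b →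
      (∀ ξ ∈ a.2, MemLocalIdeal M (brauerOmega a.1 (subgroupBlockCoeff H c)
        (ξ : Subgroup.centralizer (a.1 : Set G) → ℂ) - 1)) →
      ∀ ξ ∈ b.2, MemLocalIdeal M (brauerOmega b.1 (subgroupBlockCoeff H c)
        (ξ : Subgroup.centralizer (b.1 : Set G) → ℂ) - 1) := fun a b h => h ▸ id
  have htransB : ∀ (a b : BrauerPairIdx G), a = b →
      IsBrauerPairOf p M B a.1 a.2 → IsBrauerPairOf p M B b.1 b.2 := fun a b h => h ▸ id
  constructor
  · intro hpair'
    obtain ⟨m, hm, hme⟩ := maximal_conj_normalizer hM (maximal_of_defectGroup hM hpair hBD)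
      (maximal_of_defectGroup hM hpair' hBD)
    refine htrans _ _ hme (fun (ξ : IrrCharacter (Subgroup.centralizer
      ((P.map (MulAut.conj m).toMonoidHom : Subgroup G) : Set G))) hξ => ?_)
    have hξ' : pullIrr (cEquiv (centralizer_conj_iff P m)) ξ ∈ f := by
      have h2 : ξ ∈ conjBlock P m f := hξ
      rw [conjBlock_eq_map] at h2
      exact h2
    show MemLocalIdeal M (brauerOmega (P.map (MulAut.conj m).toMonoidHom) (subgroupBlockCoeff H c)
      (ξ : Subgroup.centralizer ((P.map (MulAut.conj m).toMonoidHom : Subgroup G) : Set G) → ℂ) - 1)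
    rw [brauerOmega_conj P m (subgroupBlockCoeff H c) _ (fun g => sbc_conjInv_self H c m (hN hm) g)]
    exact hs _ hξ'
  · intro hs'
    obtain ⟨m, -, -, hme⟩ := subgroup_pairs_conj hM hP hC hPp hpair.1.2 hf' hc hs hs' hcD
    exact htransB _ _ hme (isBrauerPairOf_conj hM hpair m)

/-- Congruence of the idempotents on `C(P)` through the pairs seen. -/
theorem congr_iff_seen (hM : IsPModular p M) (hP : P ≤ H)
    (hC : Subgroup.centralizer (P : Set G) ≤ H) (hPp : IsPGroup p P)
    {B : Set (IrrCharacter G)} (hB : IsPBlock M B) {c : Set (IrrCharacter H)} (hc : IsPBlock M c) :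
    (∀ x : G, x ∈ Subgroup.centralizer (P : Set G) →
      MemLocalIdeal M (blockCoeff B x - subgroupBlockCoeff H c x)) ↔
    ∀ f, IsPBlock M f → (IsBrauerPairOf p M B P f ↔ SeenIn M P c f) := by
  classical
  set r : Subgroup.centralizer (P : Set G) → ℂ := fun x => blockCoeff B (x : G) with hr
  set s : Subgroup.centralizer (P : Set G) → ℂ := fun x => subgroupBlockCoeff H c (x : G) with hs
  have hinv := sbc_conjInv_self H c
  have hrc : IsClassFunction _ r :=
    rest_isClassFunction _ (ConjInv.of_isClassFunction (blockCoeff_isClassFunction B))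
  have hsc : IsClassFunction _ s := rest_isClassFunction _ (hinv.mono hC)
  have hrl : ∀ x, MemLocalRing M (r x) := fun x => mlr_blockCoeff hM hB _
  have hsl : ∀ x, MemLocalRing M (s x) := fun x => sbc_mlr hM H hc _
  constructor
  · intro h f hf
    have hdiff : ∀ ξ : IrrCharacter (Subgroup.centralizer (P : Set G)),
        MemLocalIdeal M (omega (ξ : Subgroup.centralizer (P : Set G) → ℂ) r -
          omega (ξ : Subgroup.centralizer (P : Set G) → ℂ) s) := fun ξ => by
      rw [← omega_sub]
      exact mli_omega hM ξ (fun a z => congrArg₂ (fun u v : ℂ => u - v) (hrc a z) (hsc a z))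
        fun x => h x x.2
    constructor
    · intro hp ξ hξ
      have h1 := hp.2.2 ξ hξ
      rw [brauerOmega_eq_omega] at h1 ⊢
      convert mli_sub hM h1 (hdiff ξ) using 1
      ring
    · intro hs'
      refine ⟨⟨hPp, hf⟩, hB, fun ξ hξ => ?_⟩
      have h1 := hs' ξ hξ
      rw [brauerOmega_eq_omega] at h1 ⊢
      convert mli_add hM h1 (hdiff ξ) using 1
      ring
  · intro h x hx
    have hrr : ∀ y, MemLocalIdeal M (Chars.conv r r y - r y) := fun y => by
      have := mli_conv_rest hM hPp (ConjInv.of_isClassFunction (S := P) (blockCoeff_isClassFunction B))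
        (ConjInv.of_isClassFunction (blockCoeff_isClassFunction B)) (mlr_blockCoeff hM hB)
        (mlr_blockCoeff hM hB) y
      rw [conv_blockCoeff_self] at this
      have := mli_neg this
      rwa [neg_sub] at this
    have hss : ∀ y, MemLocalIdeal M (Chars.conv s s y - s y) := fun y => by
      have := mli_conv_rest hM hPp (hinv.mono hP) (hinv.mono hP) (sbc_mlr hM H hc)
        (sbc_mlr hM H hc) y
      rw [conv_sbc_self] at this
      have := mli_neg this
      rwa [neg_sub] at this
    have hrscc := IsClassFunction.conv hrc hsc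
    -- both idempotents agree with their product
    have key : ∀ (a b : Subgroup.centralizer (P : Set G) → ℂ), IsClassFunction _ a →
        IsClassFunction _ b → (∀ y, MemLocalRing M (a y)) → (∀ y, MemLocalRing M (b y)) →
        (∀ y, MemLocalIdeal M (Chars.conv a a y - a y)) →
        (∀ y, MemLocalIdeal M (Chars.conv b b y - b y)) →
        (∀ f : Set (IrrCharacter (Subgroup.centralizer (P : Set G))), IsPBlock M f → (∀ ξ ∈ f, MemLocalIdeal M
            (omega (ξ : Subgroup.centralizer (P : Set G) → ℂ) a - 1)) →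
          ∀ ξ ∈ f, MemLocalIdeal M (omega (ξ : Subgroup.centralizer (P : Set G) → ℂ) b - 1)) →
        ∀ y, MemLocalIdeal M (a y - Chars.conv a b y) := by
      intro a b hac hbc hal hbl haa hbb himp
      set d : Subgroup.centralizer (P : Set G) → ℂ := fun y => a y - Chars.conv a b y with hd
      have hab := IsClassFunction.conv hac hbc
      have habl : ∀ y, MemLocalRing M (Chars.conv a b y) := fun y => mlr_sum hM Finset.univ fun z _ => mlr_mul hM (hal z) (hbl _)
      by_contra hno
      push Not at hno
      obtain ⟨z, hz⟩ := hno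
      have hdc : IsClassFunction _ d := fun u v => congrArg₂ (fun m n : ℂ => m - n) (hac u v) (hab u v)
      set q : Subgroup.centralizer (P : Set G) → ℂ := Chars.conv b b - b - b with hq
      have hqc : IsClassFunction _ q := fun u v => by
        simp only [hq, Pi.sub_apply, IsClassFunction.conv hbc hbc u v, hbc u v]
      have hql : ∀ y, MemLocalRing M (q y) := fun y =>
        mlr_sub hM (mlr_sub hM (mlr_sum hM Finset.univ fun z _ => mlr_mul hM (hbl z) (hbl _)) (hbl y)) (hbl y)
      set A : Subgroup.centralizer (P : Set G) → ℂ := Chars.conv a a - a with hA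
      set Bb : Subgroup.centralizer (P : Set G) → ℂ := Chars.conv b b - b with hBb
      have hAc : IsClassFunction _ A := fun u v =>
        congrArg₂ (fun m n : ℂ => m - n) (IsClassFunction.conv hac hac u v) (hac u v)
      have hBc : IsClassFunction _ Bb := fun u v =>
        congrArg₂ (fun m n : ℂ => m - n) (IsClassFunction.conv hbc hbc u v) (hbc u v)
      have hexp : Chars.conv d d - d = A + (Chars.conv A q + Chars.conv a Bb) := by
        have h1 : IsClassFunction _ (Chars.conv d d - d) := fun u v =>
          congrArg₂ (fun m n : ℂ => m - n) (IsClassFunction.conv hdc hdc u v) (hdc u v)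
        have h2 : IsClassFunction _ (A + (Chars.conv A q + Chars.conv a Bb)) := fun u v => by
          simp only [Pi.add_apply, hAc u v, IsClassFunction.conv hAc hqc u v,
            IsClassFunction.conv hac hBc u v]
        rw [← coeffFun_omega h1, ← coeffFun_omega h2]
        congr 1
        funext θ
        rw [omega_sub, omega_conv θ hdc hdc, omega_add, omega_add, omega_conv θ hAc hqc,
          omega_conv θ hac hBc, show d = a - Chars.conv a b from rfl, hA, hBb, hq, omega_sub, omega_sub,
          omega_sub, omega_sub, omega_conv θ hac hac, omega_conv θ hbc hbc, omega_conv θ hac hbc]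
        ring
      have hdd : ∀ y, MemLocalIdeal M (Chars.conv d d y - d y) := fun y => by
        have e := congrFun hexp y
        simp only [Pi.sub_apply, Pi.add_apply] at e
        rw [e]
        exact mli_add hM (haa y) (mli_add hM
          (mli_sum hM Finset.univ (f := fun z => A z * q (z⁻¹ * y)) fun z _ => mli_mul_right hM (haa z) (hql _))
          (mli_sum hM Finset.univ (f := fun z => a z * Bb (z⁻¹ * y)) fun z _ => mli_mul_left hM (hal z) (hbb _)))
      obtain ⟨f, hf, h1⟩ := exists_block_omega_one hM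
        hdc
        (fun y => mlr_sub hM (hal y) (habl y)) hdd (z := z) hz
      obtain ⟨ξ, hξ⟩ := IsPBlock.nonempty hM hf
      have e1 : omega (ξ : Subgroup.centralizer (P : Set G) → ℂ) d =
          omega (ξ : Subgroup.centralizer (P : Set G) → ℂ) a -
            omega (ξ : Subgroup.centralizer (P : Set G) → ℂ) a *
              omega (ξ : Subgroup.centralizer (P : Set G) → ℂ) b := by
        rw [show d = a - Chars.conv a b from rfl, omega_sub, omega_conv ξ hac hbc]
      have h2 := h1 ξ hξ
      rw [e1] at h2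
      have hall : ∀ θ ∈ f, MemLocalIdeal M (omega (θ : Subgroup.centralizer (P : Set G) → ℂ) a - 1) := by
        intro θ hθ
        have hs2 := mli_omega_sub hM (IsPBlock.sameBlock hM hf hθ hξ) hac hal
        have hA : MemLocalIdeal M (omega (ξ : Subgroup.centralizer (P : Set G) → ℂ) a - 1) := by
          have hxl := mlr_omega hM ξ hac hal
          have hyl := mlr_omega hM ξ hbc hbl
          have e2 := mli_omega hM ξ
            (fun u v => congrArg₂ (fun m n : ℂ => m - n) (IsClassFunction.conv hac hac u v) (hac u v))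
            (f := fun y => Chars.conv a a y - a y) haa
          rw [show (fun y => Chars.conv a a y - a y) = Chars.conv a a - a from rfl, omega_sub,
            omega_conv ξ hac hac] at e2
          refine (mli_mul_cases hM hxl (mlr_sub hM hxl (mlr_one hM)) ?_).resolve_left ?_
          · convert e2 using 1
            ring
          · intro hx0
            refine not_mli_one hM ?_
            have h3 := mli_sub hM (mli_mul_right hM hx0 (mlr_sub hM (mlr_one hM) hyl)) h2
            convert h3 using 1
            ring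
        convert mli_add hM hs2 hA using 1
        ring
      have h4 := himp f hf hall ξ hξ
      refine not_mli_one hM ?_
      have h5 := mli_sub hM (mli_mul_left hM (mlr_omega hM ξ hac hal) (mli_neg h4)) h2
      convert h5 using 1
      ring
    have h1 := key r s hrc hsc hrl hsl hrr hss (fun f hf ha ξ hξ => by
      have := (h f hf).mp ⟨⟨hPp, hf⟩, hB, fun θ hθ => by rw [brauerOmega_eq_omega]; exact ha θ hθ⟩ ξ hξ
      rwa [brauerOmega_eq_omega] at this) ⟨x, hx⟩
    have h2 := key s r hsc hrc hsl hrl hss hrr (fun f hf ha ξ hξ => by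
      have := ((h f hf).mpr fun θ hθ => by rw [brauerOmega_eq_omega]; exact ha θ hθ).2.2 ξ hξ
      rwa [brauerOmega_eq_omega] at this) ⟨x, hx⟩
    have hcomm : Chars.conv r s = Chars.conv s r := by
      rw [← coeffFun_omega hrscc, ← coeffFun_omega (IsClassFunction.conv hsc hrc)]
      congr 1
      funext θ
      rw [omega_conv θ hrc hsc, omega_conv θ hsc hrc, mul_comm]
    have := mli_sub hM h1 h2
    rw [hcomm, sub_sub_sub_cancel_right] at this
    exact this

theorem brauer_correspondence (hM : IsPModular p M) {P H : Subgroup G} [Fintype H]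
    (hPp : IsPGroup p P) (hN : Subgroup.normalizer (P : Set G) ≤ H) :
    (∀ B : Set (IrrCharacter G), IsPBlock M B → IsDefectGroup p M B P →
      ∃! c : Set (IrrCharacter H), IsPBlock M c ∧ IsDefectGroup p M c (P.subgroupOf H) ∧
        ∀ x : G, x ∈ Subgroup.centralizer (P : Set G) →
          MemLocalIdeal M (blockCoeff B x - subgroupBlockCoeff H c x)) ∧
    (∀ c : Set (IrrCharacter H), IsPBlock M c → IsDefectGroup p M c (P.subgroupOf H) →
      ∃! B : Set (IrrCharacter G), IsPBlock M B ∧ IsDefectGroup p M B P ∧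
        ∀ x : G, x ∈ Subgroup.centralizer (P : Set G) →
          MemLocalIdeal M (blockCoeff B x - subgroupBlockCoeff H c x)) := by
  classical
  haveI : Fact p.Prime := ⟨hM.1⟩
  have hP : P ≤ H := Subgroup.le_normalizer.trans hN
  have hC : Subgroup.centralizer (P : Set G) ≤ H :=
    (Subgroup.centralizer_le_normalizer (P : Set G)).trans hN
  refine ⟨fun B hB hBD => ?_, fun c hc hcD => ?_⟩
  · obtain ⟨g, hg, S, hS⟩ := id hBD
    obtain ⟨f, hf⟩ := exists_pair_at hM hB hPp (z := g) (by
      rw [Subgroup.mem_centralizer_iff]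
      intro q hq
      exact Subgroup.mem_centralizer_singleton_iff.mp ((hS ▸ Subgroup.map_subtype_le _ : P ≤ _) hq))
      hg.2.1
    obtain ⟨c, hc, hs⟩ := exists_seenIn hM hP hC hPp hf.1.2
    have hcD := seenIn_defect_down hM hP hC hPp hf hBD hc hs
    refine ⟨c, ⟨hc, hcD, (congr_iff_seen hM hP hC hPp hB hc).mpr fun f' hf' =>
      seen_same hM hP hN hPp hf hBD hc hs hcD hf'⟩, ?_⟩
    rintro c' ⟨hc', -, hcong⟩
    have hs' := ((congr_iff_seen hM hP hC hPp hB hc').mp hcong f hf.1.2).mp hf
    exact block_of_pair_unique hM ((seenIn_iff hM hP hC hPp hf.1.2 hc').mp hs')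
      ((seenIn_iff hM hP hC hPp hf.1.2 hc).mp hs)
  · obtain ⟨g, hg, S, hS⟩ := id hcD
    obtain ⟨f', hf'⟩ := exists_pair_at hM hc (defectGroup_isPGroup hcD) (z := g) (by
      rw [Subgroup.mem_centralizer_iff]
      intro q hq
      exact Subgroup.mem_centralizer_singleton_iff.mp
        ((hS ▸ Subgroup.map_subtype_le _ : P.subgroupOf H ≤ _) hq))
      hg.2.1
    set f := mapBlock (centEquiv hP hC) f' with hfdef
    have hfb : IsPBlock M f := isPBlock_mapBlock hM _ hf'.1.2
    have hs : SeenIn M P c f := by
      refine (seenIn_iff hM hP hC hPp hfb hc).mpr ?_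
      rw [show mapBlock (centEquiv hP hC).symm f = f' from Set.ext fun χ => by
        show pullIrr (centEquiv hP hC) (pullIrr (centEquiv hP hC).symm χ) ∈ f' ↔ χ ∈ f'
        rw [show pullIrr (centEquiv hP hC) (pullIrr (centEquiv hP hC).symm χ) = χ from
          Subtype.ext (funext fun k => congrArg (χ : _ → ℂ) ((centEquiv hP hC).symm_apply_apply k))]]
      exact hf'
    obtain ⟨B, hpair⟩ := exists_block_of_pair hM (⟨hPp, hfb⟩ : IsBrauerPair p M P f)
    have hBD := seenIn_defect_up hM hP hN hPp hpair hc hs hcD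
    refine ⟨B, ⟨hpair.2.1, hBD, (congr_iff_seen hM hP hC hPp hpair.2.1 hc).mpr fun f'' hf'' =>
      seen_same hM hP hN hPp hpair hBD hc hs hcD hf''⟩, ?_⟩
    rintro B' ⟨hB', -, hcong⟩
    exact block_of_pair_unique hM (((congr_iff_seen hM hP hC hPp hB' hc).mp hcong f hfb).mpr hs) hpair

end CfsgLib.Blocks
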