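import Cfsg.Agent.Lib.Blocks.InertialQuotient
import Cfsg.Prelude.Def_BlockFusion

/-!
Brauer pairs of a subgroup containing the centralizer; abelian maximal pairs.
-/

namespace CfsgLib.Blocks

set_option linter.style.haveILetI false

open scoped ComplexConjugate
open Cfsg CfsgLib.Chars

universe u

variable {G : Type u} [Group G] [Fintype G] {p : ℕ} {M : Ideal AlgInt}

/-- The centralizer of `P` computed in a subgroup containing it. -/
def centEquiv {H P : Subgroup G} (hP : P ≤ H) (hC : Subgroup.centralizer (P : Set G) ≤ H) :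
    Subgroup.centralizer ((P.subgroupOf H : Subgroup H) : Set H) ≃*
      Subgroup.centralizer (P : Set G) where
  toFun c := ⟨((c : H) : G), Subgroup.mem_centralizer_iff.mpr fun q hq =>
    congrArg Subtype.val (Subgroup.mem_centralizer_iff.mp c.2 ⟨q, hP hq⟩ hq)⟩
  invFun c := ⟨⟨(c : G), hC c.2⟩, Subgroup.mem_centralizer_iff.mpr fun q hq =>
    Subtype.ext (Subgroup.mem_centralizer_iff.mp c.2 (q : G) hq)⟩
  left_inv c := Subtype.ext (Subtype.ext rfl)
  right_inv c := Subtype.ext rfl
  map_mul' a b := Subtype.ext rfl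

/-- A pair seen in a subgroup. -/
theorem isBrauerPairOf_subgroup (hM : IsPModular p M) {H P : Subgroup G} [Fintype H] (hP : P ≤ H)
    (hC : Subgroup.centralizer (P : Set G) ≤ H) (hPp : IsPGroup p P)
    {e : Set (IrrCharacter (Subgroup.centralizer (P : Set G)))} (he : IsPBlock M e)
    {c : Set (IrrCharacter H)} (hc : IsPBlock M c)
    (h : ∀ ξ ∈ e, MemLocalIdeal M (brauerOmega P (subgroupBlockCoeff H c)
      (ξ : Subgroup.centralizer (P : Set G) → ℂ) - 1)) :
    IsBrauerPairOf p M c (P.subgroupOf H) (mapBlock (centEquiv hP hC).symm e) := by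
  classical
  refine ⟨⟨hPp.of_equiv (Subgroup.subgroupOfEquivOfLe hP).symm, isPBlock_mapBlock hM _ he⟩, hc,
    fun ξ' hξ' => ?_⟩
  have h1 := h _ hξ'
  have e1 : brauerOmega (P.subgroupOf H) (blockCoeff c) (ξ' : _ → ℂ) =
      brauerOmega P (subgroupBlockCoeff H c)
        (pullIrr (centEquiv hP hC).symm ξ' : Subgroup.centralizer (P : Set G) → ℂ) := by
    rw [brauerOmega, brauerOmega]
    refine finsum_eq_of_bijective (centEquiv hP hC) (MulEquiv.bijective _) fun k => ?_
    rw [pullIrr_apply, pullIrr_apply, MulEquiv.symm_apply_apply, map_one]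
    congr 2
    exact (sbc_apply H c (k : H)).symm
  rwa [e1]

/-- Pairs on a common defect group of a block of a subgroup are conjugate in it. -/
theorem subgroup_pairs_conj (hM : IsPModular p M) {H P : Subgroup G} [Fintype H] (hP : P ≤ H)
    (hC : Subgroup.centralizer (P : Set G) ≤ H) (hPp : IsPGroup p P)
    {e e' : Set (IrrCharacter (Subgroup.centralizer (P : Set G)))} (he : IsPBlock M e)
    (he' : IsPBlock M e') {c : Set (IrrCharacter H)} (hc : IsPBlock M c)
    (h : ∀ ξ ∈ e, MemLocalIdeal M (brauerOmega P (subgroupBlockCoeff H c)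
      (ξ : Subgroup.centralizer (P : Set G) → ℂ) - 1))
    (h' : ∀ ξ ∈ e', MemLocalIdeal M (brauerOmega P (subgroupBlockCoeff H c)
      (ξ : Subgroup.centralizer (P : Set G) → ℂ) - 1))
    (hD : IsDefectGroup p M c (P.subgroupOf H)) :
    ∃ m ∈ H, m ∈ Subgroup.normalizer (P : Set G) ∧
      pairConj m ⟨P, e⟩ = (⟨P, e'⟩ : BrauerPairIdx G) := by
  classical
  obtain ⟨m, hm, hme⟩ := maximal_conj_normalizer hM
    (maximal_of_defectGroup hM (isBrauerPairOf_subgroup hM hP hC hPp he hc h) hD)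
    (maximal_of_defectGroup hM (isBrauerPairOf_subgroup hM hP hC hPp he' hc h') hD)
  have hmN : (m : G) ∈ Subgroup.normalizer (P : Set G) := by
    refine Subgroup.mem_normalizer_iff.mpr fun g => ?_
    constructor
    · intro hg
      exact (Subgroup.mem_normalizer_iff.mp hm ⟨g, hP hg⟩).mp hg
    · intro hg
      have hgH : g ∈ H := by
        have := mul_mem (mul_mem (inv_mem m.2) (hP hg)) m.2
        simpa [mul_assoc] using this
      exact (Subgroup.mem_normalizer_iff.mp hm ⟨g, hgH⟩).mpr hg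
  refine ⟨(m : G), m.2, hmN, ?_⟩
  rw [pairConj_normalizer P hmN]
  rw [pairConj_normalizer (P.subgroupOf H) hm] at hme
  have h2 := eq_of_heq (Sigma.mk.inj_iff.mp hme).2
  refine congrArg (Sigma.mk P) (Set.ext fun χ => ?_)
  have h3 := Set.ext_iff.mp h2 (pullIrr (centEquiv hP hC) χ)
  have e1 : pullIrr (normConj _ (mem_normalizer_centralizer hm)) (pullIrr (centEquiv hP hC) χ) =
      pullIrr (centEquiv hP hC) (pullIrr (normConj _ (mem_normalizer_centralizer hmN)) χ) :=
    Subtype.ext (funext fun k => rfl)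
  have e2 : ∀ ψ : IrrCharacter (Subgroup.centralizer (P : Set G)),
      pullIrr (centEquiv hP hC).symm (pullIrr (centEquiv hP hC) ψ) = ψ :=
    fun ψ => pullIrr_apply_symm _ ψ
  change pullIrr (centEquiv hP hC).symm (pullIrr (normConj _ (mem_normalizer_centralizer hm))
    (pullIrr (centEquiv hP hC) χ)) ∈ e ↔
      pullIrr (centEquiv hP hC).symm (pullIrr (centEquiv hP hC) χ) ∈ e' at h3
  rw [e1, e2, e2] at h3
  exact h3

theorem abelian_defect (hM : IsPModular p M) {B : Set (IrrCharacter G)} {P Q : Subgroup G}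
    {e : Set (IrrCharacter (Subgroup.centralizer (P : Set G)))}
    (hmax : IsMaximalBrauerPair p M B P e) (hPC : P ≤ Subgroup.centralizer (Q : Set G))
    {f : Set (IrrCharacter (Subgroup.centralizer (Q : Set G)))} (hle : SubpairLE p M Q f P e) :
    IsDefectGroup p M f (P.subgroupOf (Subgroup.centralizer (Q : Set G))) := by
  classical
  obtain ⟨D, hD, hge⟩ := defect_ge_of_le hM hmax.1.1 hle
  rw [inf_eq_left.mpr hPC] at hge
  obtain ⟨x, hx, hDx⟩ := exists_fullyCentralized hM hmax
    ((brauerPairOf_iff_le hM hle hmax.1.2.1).mp hmax.1)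
  have hc := card_defect_le (hf := (SubpairLE.left_block hle hmax.1.1).2) hM hD hDx
  rwa [Subgroup.eq_of_le_of_card_ge hge (hc.trans (le_of_eq
    (Nat.card_congr (Subgroup.subgroupOfEquivOfLe hPC).toEquiv).symm))]
where
  card_defect_le {P : Subgroup G} {Q : Subgroup G}
      {f : Set (IrrCharacter (Subgroup.centralizer (Q : Set G)))} (hM : IsPModular p M)
      {hf : IsPBlock M f} {D : Subgroup (Subgroup.centralizer (Q : Set G))}
      (hD : IsDefectGroup p M f D) {x : G}
      (hDx : IsDefectGroup p M (conjBlock Q x f)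
        ((P ⊓ Subgroup.centralizer ((Q.map (MulAut.conj x).toMonoidHom) : Set G)).subgroupOf
          (Subgroup.centralizer ((Q.map (MulAut.conj x).toMonoidHom) : Set G)))) :
      Nat.card D ≤ Nat.card P := by
    classical
    haveI : Fact p.Prime := ⟨hM.1⟩
    have h1 : IsDefectGroup p M (conjBlock Q x f)
        (D.map (cEquiv (centralizer_conj_iff Q x)).toMonoidHom) := by
      rw [conjBlock_eq_map]; exact isDefectGroup_mapBlock _ hD
    have hf' : IsPBlock M (conjBlock Q x f) := by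
      rw [conjBlock_eq_map]; exact isPBlock_mapBlock hM _ hf
    rw [← Subgroup.card_map_of_injective (f := (cEquiv (centralizer_conj_iff Q x)).toMonoidHom)
      (K := D) (MulEquiv.injective _), card_defectGroup hM hf' h1, ← card_defectGroup hM hf' hDx,
      Nat.card_congr (Subgroup.subgroupOfEquivOfLe inf_le_right).toEquiv]
    exact Subgroup.card_le_of_le inf_le_left

/-- Burnside's fusion lemma for an abelian maximal pair. -/
theorem abelian_fusion (hM : IsPModular p M) {B : Set (IrrCharacter G)} {P Q : Subgroup G}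
    {e : Set (IrrCharacter (Subgroup.centralizer (P : Set G)))}
    (hmax : IsMaximalBrauerPair p M B P e) (hab : ∀ x ∈ P, ∀ y ∈ P, x * y = y * x)
    {f : Set (IrrCharacter (Subgroup.centralizer (Q : Set G)))} (hle : SubpairLE p M Q f P e)
    {x : G} (hxN : x ∈ Subgroup.normalizer (Q : Set G))
    (hxf : StabilizesBlock (Subgroup.centralizer (Q : Set G)) f x) :
    ∃ y : G, (y ∈ Subgroup.normalizer (P : Set G) ∧
        StabilizesBlock (Subgroup.centralizer (P : Set G)) e y) ∧
      ∃ c ∈ Subgroup.centralizer (Q : Set G), x = y * c := by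
  classical
  haveI : Fact p.Prime := ⟨hM.1⟩
  haveI : Fintype (Subgroup.centralizer (Q : Set G)) := Fintype.ofFinite _
  have hQP : Q ≤ P := SubpairLE.le hle
  have hPC : P ≤ Subgroup.centralizer (Q : Set G) := fun a ha =>
    Subgroup.mem_centralizer_iff.mpr fun q hq => hab q (hQP hq) a ha
  have hC : Subgroup.centralizer (P : Set G) ≤ Subgroup.centralizer (Q : Set G) :=
    Subgroup.centralizer_le hQP
  have hf := (SubpairLE.left_block hle hmax.1.1).2
  have hPD := abelian_defect hM hmax hPC hle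
  have hN : IsNormalSubpair p M Q f P e := normalSubpair_of_le hM hmax.1.1 hle
    Relation.ReflTransGen.refl hQP (hPC.trans (Subgroup.centralizer_le_normalizer (Q : Set G)))
  have hx : pairConj x ⟨Q, f⟩ = (⟨Q, f⟩ : BrauerPairIdx G) :=
    (stabilizesBlock_iff_pairConj hM hf hxN).mp hxf
  -- move the conjugate of `P` back inside the centralizer
  have hiff : ∀ c, x * c * x⁻¹ ∈ Subgroup.centralizer (Q : Set G) ↔
      c ∈ Subgroup.centralizer (Q : Set G) :=
    fun c => (Subgroup.mem_normalizer_iff.mp (mem_normalizer_centralizer hxN) c).symm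
  obtain ⟨hxC, hfix⟩ := (stabilizesBlock_iff hM _ hf).mp hxf
  have hPx : IsDefectGroup p M f ((P.subgroupOf (Subgroup.centralizer (Q : Set G))).map
      (normConj (Subgroup.centralizer (Q : Set G)) hxC).toMonoidHom) := by
    have := isDefectGroup_mapBlock (normConj (Subgroup.centralizer (Q : Set G)) hxC) hPD
    rwa [hfix] at this
  obtain ⟨c, hc⟩ := defectGroup_conj hM hf hPx hPD
  set y₀ := (c : G) * x with hy₀
  have hy₀f : pairConj y₀ ⟨Q, f⟩ = (⟨Q, f⟩ : BrauerPairIdx G) := by
    rw [pairConj_mul, hx]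
    exact (mem_pairStab_iff hM hf).mp (centralizer_le_pairStab hM hf c.2)
  have hy₀P : y₀ ∈ Subgroup.normalizer (P : Set G) := by
    have hmap : P.map (MulAut.conj y₀).toMonoidHom = P := by
      refine Subgroup.eq_of_le_of_card_ge ?_ (card_map_conj P _).ge
      rintro _ ⟨q, hq, rfl⟩
      have : c * normConj (Subgroup.centralizer (Q : Set G)) hxC ⟨q, hPC hq⟩ * c⁻¹ ∈
          P.subgroupOf (Subgroup.centralizer (Q : Set G)) := by
        rw [hc]
        exact ⟨_, ⟨⟨q, hPC hq⟩, hq, rfl⟩, rfl⟩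
      have h2 : (c : G) * (x * q * x⁻¹) * (c : G)⁻¹ ∈ P := this
      show (c : G) * x * q * ((c : G) * x)⁻¹ ∈ P
      rwa [show (c : G) * x * q * ((c : G) * x)⁻¹ = (c : G) * (x * q * x⁻¹) * (c : G)⁻¹ by group]
    refine Subgroup.mem_normalizer_iff.mpr fun g => ?_
    conv_rhs => rw [← hmap]
    exact ⟨fun hg => ⟨g, hg, rfl⟩, fun ⟨q, hq, e⟩ => (MulAut.conj y₀).injective e ▸ hq⟩
  set e'' := mapBlock (normConj _ (mem_normalizer_centralizer hy₀P)) e with he''
  have hy₀e : pairConj y₀ ⟨P, e⟩ = (⟨P, e''⟩ : BrauerPairIdx G) := pairConj_normalizer P hy₀P e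
  have hN' : NormalSubpairRel p M ⟨Q, f⟩ ⟨P, e''⟩ := by
    rw [← hy₀e, ← hy₀f]
    exact isNormalSubpair_conj hM hN y₀
  obtain ⟨h, hhC, hhN, hhe⟩ := subgroup_pairs_conj hM hPC hC hmax.1.1.1 hN'.2.1.2 hmax.1.1.2 hf
    hN'.2.2.2.2.2 hN.2.2.2.2.2 hPD
  have hye : pairConj (h * y₀) ⟨P, e⟩ = (⟨P, e⟩ : BrauerPairIdx G) := by
    rw [pairConj_mul, hy₀e, hhe]
  refine ⟨h * y₀, (mem_pairStab_iff hM hmax.1.1.2).mpr hye, x⁻¹ * (h * (c : G))⁻¹ * x, ?_, ?_⟩
  · have h1 : (h * (c : G))⁻¹ ∈ Subgroup.centralizer (Q : Set G) := inv_mem (mul_mem hhC c.2)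
    have h2 := (Subgroup.mem_normalizer_iff.mp (mem_normalizer_centralizer (inv_mem hxN)) _).mp h1
    simpa using h2
  · rw [hy₀]; group

/-- Nilpotency of a block with an abelian maximal pair. -/
theorem abelian_nilpotent_iff (hM : IsPModular p M) {B : Set (IrrCharacter G)} {P : Subgroup G}
    {e : Set (IrrCharacter (Subgroup.centralizer (P : Set G)))}
    (hmax : IsMaximalBrauerPair p M B P e) (hab : ∀ x ∈ P, ∀ y ∈ P, x * y = y * x) :
    IsNilpotentBlock p M B ↔ ∀ x : G, x ∈ Subgroup.normalizer (P : Set G) →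
      StabilizesBlock (Subgroup.centralizer (P : Set G)) e x →
        x ∈ Subgroup.centralizer (P : Set G) := by
  classical
  have he := hmax.1.1.2
  constructor
  · rintro ⟨-, hnil⟩ x hxN hxe
    obtain ⟨z, v, hzv, -, ⟨k, hk⟩, hv⟩ := exists_pPart hM.1 (⟨x, hxN, hxe⟩ : pairStab hM he)
    have h1 : (v : G) ∈ Subgroup.centralizer (P : Set G) :=
      hnil P e hmax.1 (v : G) v.2.1 v.2.2 (by
        show ¬ p ∣ orderOf (v : G)
        rwa [Subgroup.orderOf_coe])
    have h2 := maximal_pElement_mem hM hmax z.2.1 z.2.2 ⟨k, by rw [Subgroup.orderOf_coe]; exact hk⟩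
    have hPle : P ≤ Subgroup.centralizer (P : Set G) := fun a ha =>
      Subgroup.mem_centralizer_iff.mpr fun q hq => hab q hq a ha
    rw [sup_eq_right.mpr hPle] at h2
    have := mul_mem h2 h1
    rwa [← Subgroup.coe_mul, hzv] at this
  · intro hcl
    refine ⟨hmax.1.2.1, fun Q f hQf x hxN hxf _ => ?_⟩
    obtain ⟨g, hg⟩ := exists_conj_le_maximal hM hmax hQf
    have hf' := (SubpairLE.left_block hg hmax.1.1).2
    have hx' : g * x * g⁻¹ ∈ pairStab hM hf' :=
      (mem_pairStab_conj_iff hM hQf.1.2 g x hf').mpr ⟨hxN, hxf⟩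
    obtain ⟨y, ⟨hyN, hye⟩, c, hc, hxyc⟩ := abelian_fusion hM hmax hab hg hx'.1 hx'.2
    have hy : y ∈ Subgroup.centralizer
        ((Q.map (MulAut.conj g).toMonoidHom : Subgroup G) : Set G) :=
      Subgroup.centralizer_le (SubpairLE.le hg) (hcl y hyN hye)
    exact (centralizer_conj_iff Q g x).mp (hxyc ▸ mul_mem hy hc)

end CfsgLib.Blocks
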