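import Cfsg.Agent.Lib.Blocks.CyclicInertial
import Cfsg.Agent.Lib.Blocks.SubgroupPairs
import Cfsg.Agent.Lib.Blocks.Correspondence

/-!
Blocks of centralizers below a maximal pair on an abelian group.
-/

namespace CfsgLib.Blocks

set_option linter.style.haveILetI false

open scoped ComplexConjugate
open Cfsg CfsgLib.Chars

universe u

variable {G : Type u} [Group G] [Fintype G] {p : ℕ} {M : Ideal AlgInt}

theorem inducedBlockIn_iff (hM : IsPModular p M) {H P : Subgroup G} (hP : P ≤ H)
    (hC : Subgroup.centralizer (P : Set G) ≤ H)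
    {c : Set (IrrCharacter (Subgroup.centralizer (P : Set G)))} (hc : IsPBlock M c)
    {f : Set (IrrCharacter H)} :
    IsInducedBlockIn M H (Subgroup.centralizer (P : Set G)) c f ↔
      IsInducedBlock M (Subgroup.centralizer ((P.subgroupOf H : Subgroup H) : Set H))
        (mapBlock (centEquiv hP hC).symm c) f := by
  classical
  haveI : Fintype H := Fintype.ofFinite _
  have key : ∀ (ξ : IrrCharacter (Subgroup.centralizer (P : Set G))) (h : H),
      inducedCentralChar (Subgroup.centralizer ((P.subgroupOf H : Subgroup H) : Set H))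
        (pullIrr (centEquiv hP hC) ξ : _ → ℂ) h =
      inducedCentralCharIn H (Subgroup.centralizer (P : Set G))
        (ξ : Subgroup.centralizer (P : Set G) → ℂ) (h : G) := by
    intro ξ h
    rw [inducedCentralChar, inducedCentralCharIn]
    refine finsum_mem_eq_of_bijOn (centEquiv hP hC) ⟨fun k hk => ?_, ?_, fun k hk => ?_⟩ fun k _ => ?_
    · obtain ⟨x, hx⟩ := isConj_iff.mp (hk : IsConj h (k : H)).symm
      exact ⟨x, congrArg Subtype.val hx⟩
    · exact (MulEquiv.injective _).injOn
    · obtain ⟨x, hx⟩ := hk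
      refine ⟨(centEquiv hP hC).symm k, ?_, MulEquiv.apply_symm_apply _ _⟩
      exact (isConj_iff.mpr ⟨x, Subtype.ext hx⟩ :
        IsConj (((centEquiv hP hC).symm k : _) : H) h).symm
    · rw [pullIrr_apply, pullIrr_apply, map_one]
  have hback : ∀ ξ : IrrCharacter (Subgroup.centralizer (P : Set G)),
      pullIrr (centEquiv hP hC).symm (pullIrr (centEquiv hP hC) ξ) = ξ := fun ξ => pullIrr_apply_symm _ ξ
  constructor
  · rintro ⟨-, hf, h⟩
    refine ⟨isPBlock_mapBlock hM _ hc, hf, fun ξ' hξ' χ hχ g => ?_⟩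
    have hξ : pullIrr (centEquiv hP hC) (pullIrr (centEquiv hP hC).symm ξ') = ξ' :=
      Subtype.ext (funext fun k => congrArg (ξ' : _ → ℂ) ((centEquiv hP hC).symm_apply_apply k))
    have h1 := h _ hξ' χ hχ g
    rwa [← key, hξ] at h1
  · rintro ⟨-, hf, h⟩
    refine ⟨hc, hf, fun ξ hξ χ hχ g => ?_⟩
    have h1 := h (pullIrr (centEquiv hP hC) ξ)
      (show pullIrr (centEquiv hP hC).symm (pullIrr (centEquiv hP hC) ξ) ∈ c by rwa [hback]) χ hχ g
    rwa [key] at h1

/-- For abelian `P`, inducing inside `H` is being a pair. -/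
theorem inducedBlockIn_iff_seen (hM : IsPModular p M) {H P : Subgroup G} [Fintype H] (hP : P ≤ H)
    (hC : Subgroup.centralizer (P : Set G) ≤ H) (hPp : IsPGroup p P)
    (hab : P ≤ Subgroup.centralizer (P : Set G))
    {c : Set (IrrCharacter (Subgroup.centralizer (P : Set G)))} (hc : IsPBlock M c)
    {f : Set (IrrCharacter H)} (hf : IsPBlock M f) :
    IsInducedBlockIn M H (Subgroup.centralizer (P : Set G)) c f ↔ SeenIn M P f c := by
  classical
  haveI : Fintype (Subgroup.centralizer ((P.subgroupOf H : Subgroup H) : Set H)) := Fintype.ofFinite _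
  have hPp' : IsPGroup p (P.subgroupOf H) := hPp.of_equiv (Subgroup.subgroupOfEquivOfLe hP).symm
  have hab' : P.subgroupOf H ≤ Subgroup.centralizer ((P.subgroupOf H : Subgroup H) : Set H) :=
    fun x hx => Subgroup.mem_centralizer_iff.mpr fun y hy =>
      Subtype.ext (Subgroup.mem_centralizer_iff.mp (hab hx) (y : G) hy)
  rw [inducedBlockIn_iff hM hP hC hc, seenIn_iff hM hP hC hPp hc hf]
  exact pc_induced_iff hM hPp' (sup_eq_right.mpr hab').symm (isPBlock_mapBlock hM _ hc)
    (isPBlock_mapBlock hM _ hc) (fun t => (sbc_apply _ _ t).symm) hf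

variable {B : Set (IrrCharacter G)} {P Q : Subgroup G}
  {c : Set (IrrCharacter (Subgroup.centralizer (P : Set G)))}

theorem induced_le (hM : IsPModular p M) (hP : IsPGroup p P)
    (hab : P ≤ Subgroup.centralizer (P : Set G)) (hQP : Q ≤ P)
    {f : Set (IrrCharacter (Subgroup.centralizer (Q : Set G)))}
    (hf : IsInducedBlockIn M (Subgroup.centralizer (Q : Set G)) (Subgroup.centralizer (P : Set G)) c f) :
    IsNormalSubpair p M Q f P c := by
  classical
  have hPC : P ≤ Subgroup.centralizer (Q : Set G) := hab.trans (Subgroup.centralizer_le hQP)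
  have hs := (inducedBlockIn_iff_seen hM hPC (Subgroup.centralizer_le hQP) hP hab hf.1 hf.2.1).mp hf
  exact ⟨⟨hP.to_le hQP, hf.2.1⟩, ⟨hP, hf.1⟩, hQP,
    hPC.trans (Subgroup.centralizer_le_normalizer (Q : Set G)),
    fun x hx => (centralizer_le_pairStab hM hf.2.1 (hPC hx)).2, hs⟩

theorem exists_induced (hM : IsPModular p M) (hab : P ≤ Subgroup.centralizer (P : Set G))
    (hPe : IsBrauerPair p M P c) (hQP : Q ≤ P) :
    ∃ f : Set (IrrCharacter (Subgroup.centralizer (Q : Set G))),
      IsInducedBlockIn M (Subgroup.centralizer (Q : Set G)) (Subgroup.centralizer (P : Set G)) c f := by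
  classical
  have hPC : P ≤ Subgroup.centralizer (Q : Set G) := hab.trans (Subgroup.centralizer_le hQP)
  obtain ⟨f, hf⟩ := exists_subpair_below hM hPe Q hQP
  have hN := normalSubpair_of_le hM hPe hf Relation.ReflTransGen.refl hQP
    (hPC.trans (Subgroup.centralizer_le_normalizer (Q : Set G)))
  exact ⟨f, (inducedBlockIn_iff_seen hM hPC (Subgroup.centralizer_le hQP) hPe.1 hab hPe.2 hN.1.2).mpr
    hN.2.2.2.2.2⟩

/-- The maximal pair of the local block. -/
theorem local_maximal (hM : IsPModular p M) (hmax : IsMaximalBrauerPair p M B P c)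
    (hab : P ≤ Subgroup.centralizer (P : Set G))
    {f : Set (IrrCharacter (Subgroup.centralizer (Q : Set G)))} (hN : IsNormalSubpair p M Q f P c) :
    ∃ (hPC : P ≤ Subgroup.centralizer (Q : Set G))
      (hC : Subgroup.centralizer (P : Set G) ≤ Subgroup.centralizer (Q : Set G)),
      IsDefectGroup p M f (P.subgroupOf (Subgroup.centralizer (Q : Set G))) ∧
      IsMaximalBrauerPair p M f (P.subgroupOf (Subgroup.centralizer (Q : Set G)))
        (mapBlock (centEquiv hPC hC).symm c) := by
  classical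
  have hQP := hN.2.2.1
  have hPC : P ≤ Subgroup.centralizer (Q : Set G) := hab.trans (Subgroup.centralizer_le hQP)
  refine ⟨hPC, Subgroup.centralizer_le hQP, ?_⟩
  have hle : SubpairLE p M Q f P c := Relation.ReflTransGen.single hN
  have hf := hN.1.2
  obtain ⟨D, hD, hge⟩ := defect_ge_of_le hM hmax.1.1 hle
  rw [inf_eq_left.mpr hPC] at hge
  obtain ⟨x, hx, hDx⟩ := exists_fullyCentralized hM hmax
    ((brauerPairOf_iff_le hM hle hmax.1.2.1).mp hmax.1)
  have hDx' : IsDefectGroup p M (conjBlock Q x f)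
      (D.map (cEquiv (centralizer_conj_iff Q x)).toMonoidHom) := by
    haveI : Fact p.Prime := ⟨hM.1⟩
    rw [conjBlock_eq_map]; exact isDefectGroup_mapBlock _ hD
  have hfx := (SubpairLE.left_block hx hmax.1.1).2
  have hcard := (card_defectGroup hM hfx hDx').trans (card_defectGroup hM hfx hDx).symm
  rw [Subgroup.card_map_of_injective (MulEquiv.injective _),
    Nat.card_congr (Subgroup.subgroupOfEquivOfLe inf_le_right).toEquiv] at hcard
  have hDeq : P.subgroupOf (Subgroup.centralizer (Q : Set G)) = D := by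
    refine Subgroup.eq_of_le_of_card_ge hge ?_
    rw [hcard, Nat.card_congr (Subgroup.subgroupOfEquivOfLe hPC).toEquiv]
    exact Subgroup.card_le_of_le inf_le_left
  refine ⟨hDeq ▸ hD, maximal_of_defectGroup hM ?_ (hDeq ▸ hD)⟩
  exact (seenIn_iff hM hPC (Subgroup.centralizer_le hQP) hmax.1.1.1 hmax.1.1.2 hf).mp hN.2.2.2.2.2

/-- The local blocks are nilpotent exactly for a free action of the inertial group. -/
theorem free_iff_local_nilpotent (hM : IsPModular p M) (hmax : IsMaximalBrauerPair p M B P c)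
    (habel : ∀ x ∈ P, ∀ y ∈ P, x * y = y * x) {T : Subgroup G}
    (hT : ∀ g : G, g ∈ T ↔ (g ∈ Subgroup.normalizer (P : Set G) ∧
      StabilizesBlock (Subgroup.centralizer (P : Set G)) c g)) :
    (∀ g ∈ T, ∀ x ∈ P, x ≠ 1 → g * x * g⁻¹ = x → g ∈ Subgroup.centralizer (P : Set G)) ↔
      ∀ Q : Subgroup G, Q ≤ P → Q ≠ ⊥ →
        ∀ f : Set (IrrCharacter (Subgroup.centralizer (Q : Set G))),
          IsInducedBlockIn M (Subgroup.centralizer (Q : Set G)) (Subgroup.centralizer (P : Set G)) c f →
            IsNilpotentBlock p M f := by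
  classical
  have hab : P ≤ Subgroup.centralizer (P : Set G) := fun a ha =>
    Subgroup.mem_centralizer_iff.mpr fun q hq => habel q hq a ha
  have hc := hmax.1.1.2
  have hP := hmax.1.1.1
  have hab' : ∀ H : Subgroup G, ∀ x ∈ P.subgroupOf H, ∀ y ∈ P.subgroupOf H, x * y = y * x :=
    fun H x hx y hy => Subtype.ext (habel _ hx _ hy)
  -- transfer of stabilizers
  have htrans : ∀ {H : Subgroup G} (hPH : P ≤ H) (hC : Subgroup.centralizer (P : Set G) ≤ H) (x : H),
      (x ∈ Subgroup.normalizer ((P.subgroupOf H : Subgroup H) : Set H) ∧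
        StabilizesBlock (Subgroup.centralizer ((P.subgroupOf H : Subgroup H) : Set H))
          (mapBlock (centEquiv hPH hC).symm c) x) ↔ (x : G) ∈ T := by
    intro H hPH hC x
    have hN : x ∈ Subgroup.normalizer ((P.subgroupOf H : Subgroup H) : Set H) ↔
        (x : G) ∈ Subgroup.normalizer (P : Set G) := by
      constructor
      · intro h
        refine Subgroup.mem_normalizer_iff.mpr fun g => ⟨fun hg => ?_, fun hg => ?_⟩
        · exact (Subgroup.mem_normalizer_iff.mp h ⟨g, hPH hg⟩).mp hg
        · have hgH : g ∈ H := by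
            have := mul_mem (mul_mem (inv_mem x.2) (hPH hg)) x.2
            simpa [mul_assoc] using this
          exact (Subgroup.mem_normalizer_iff.mp h ⟨g, hgH⟩).mpr hg
      · intro h
        exact Subgroup.mem_normalizer_iff.mpr fun g => Subgroup.mem_normalizer_iff.mp h (g : G)
    rw [hT, hN]
    refine and_congr_right fun hxN => ?_
    have hxC := mem_normalizer_centralizer hxN
    have hxC' := mem_normalizer_centralizer (hN.mpr hxN)
    have e : ∀ χ, pullIrr (centEquiv hPH hC).symm (pullIrr (normConj _ hxC') χ) =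
        pullIrr (normConj _ hxC) (pullIrr (centEquiv hPH hC).symm χ) :=
      fun χ => Subtype.ext (funext fun k => by
        simp only [pullIrr_apply]
        exact congrArg (χ : Subgroup.centralizer ((P.subgroupOf H : Subgroup H) : Set H) → ℂ)
          (Subtype.ext (Subtype.ext rfl)))
    constructor
    · intro h
      obtain ⟨_, hfix⟩ := (stabilizesBlock_iff hM _ (isPBlock_mapBlock hM _ hc)).mp h
      refine (stabilizesBlock_iff hM _ hc).mpr ⟨hxC, ?_⟩
      ext χ
      have h1 := Set.ext_iff.mp hfix (pullIrr (centEquiv hPH hC) χ)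
      change pullIrr (centEquiv hPH hC).symm (pullIrr (normConj _ hxC') (pullIrr (centEquiv hPH hC) χ)) ∈ c ↔
        pullIrr (centEquiv hPH hC).symm (pullIrr (centEquiv hPH hC) χ) ∈ c at h1
      rw [e, pullIrr_apply_symm] at h1
      exact h1
    · intro h
      obtain ⟨_, hfix⟩ := (stabilizesBlock_iff hM _ hc).mp h
      refine (stabilizesBlock_iff hM _ (isPBlock_mapBlock hM _ hc)).mpr ⟨hxC', ?_⟩
      ext χ
      show pullIrr (centEquiv hPH hC).symm (pullIrr (normConj _ hxC') χ) ∈ c ↔
        pullIrr (centEquiv hPH hC).symm χ ∈ c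
      rw [e]
      exact Set.ext_iff.mp hfix _
  constructor
  · intro hfree Q hQP hQ1 f hf
    obtain ⟨hPC, hC, -, hmax'⟩ := local_maximal hM hmax hab (induced_le hM hP hab hQP hf)
    refine (abelian_nilpotent_iff hM hmax' (hab' _)).mpr fun x hxN hxs => ?_
    obtain ⟨z, hz, hz1⟩ := (Subgroup.ne_bot_iff_exists_ne_one.mp hQ1).elim
      fun a ha => (⟨(a : G), a.2, fun h => ha (Subtype.ext h)⟩ : ∃ z ∈ Q, z ≠ 1)
    have hxT := (htrans hPC hC x).mp ⟨hxN, hxs⟩
    have hfix : (x : G) * z * (x : G)⁻¹ = z := by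
      rw [← Subgroup.mem_centralizer_iff.mp x.2 z hz, mul_inv_cancel_right]
    have h := hfree x hxT z (hQP hz) hz1 hfix
    exact Subgroup.mem_centralizer_iff.mpr fun y hy =>
      Subtype.ext (Subgroup.mem_centralizer_iff.mp h (y : G) hy)
  · intro hnil g hg x hx hx1 hfix
    have hQP : Subgroup.zpowers x ≤ P := Subgroup.zpowers_le.mpr hx
    obtain ⟨f, hf⟩ := exists_induced hM hab hmax.1.1 hQP
    obtain ⟨hPC, hC, -, hmax'⟩ := local_maximal hM hmax hab (induced_le hM hP hab hQP hf)
    have hgQ : g ∈ Subgroup.centralizer ((Subgroup.zpowers x : Subgroup G) : Set G) := by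
      rw [Subgroup.mem_centralizer_iff]
      rintro _ ⟨j, rfl⟩
      exact ((show Commute g x from mul_inv_eq_iff_eq_mul.mp hfix).zpow_right j).eq.symm
    have h1 := (abelian_nilpotent_iff hM hmax' (hab' _)).mp
      (hnil _ hQP (by rwa [Ne, Subgroup.zpowers_eq_bot]) f hf) ⟨g, hgQ⟩
      ((htrans hPC hC ⟨g, hgQ⟩).mpr hg).1 ((htrans hPC hC ⟨g, hgQ⟩).mpr hg).2
    exact Subgroup.mem_centralizer_iff.mpr fun y hy =>
      congrArg Subtype.val (Subgroup.mem_centralizer_iff.mp h1 ⟨y, hPC hy⟩ hy)

end CfsgLib.Blocks
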