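import Cfsg.Agent.Lib.Blocks.LocalPairs
import Cfsg.Prelude.Def_BlockFusion

/-!
Fully centralized, fully normalized and centric subgroups in the fusion system of a block.
-/

namespace CfsgLib.Blocks

set_option linter.style.haveILetI false

open scoped ComplexConjugate
open Cfsg CfsgLib.Chars

universe u

variable {G : Type u} [Group G] [Fintype G] {p : ℕ} {M : Ideal AlgInt}
variable {B : Set (IrrCharacter G)} {P Q : Subgroup G}
variable {e : Set (IrrCharacter (Subgroup.centralizer (P : Set G)))}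
variable {f : Set (IrrCharacter (Subgroup.centralizer (Q : Set G)))} {F : FusionSystem P}

/-- Conjugates in the fusion system of a block are conjugate pairs below the maximal one. -/
theorem blockFusion_isConj_iff (hM : IsPModular p M) (hF : IsBlockFusionSystemOn p M B P e F)
    (hQP : Q ≤ P) (hle : SubpairLE p M Q f P e) (Q' : Subgroup G) :
    F.IsConj Q Q' ↔ ∃ g : G, Q' = Q.map (MulAut.conj g).toMonoidHom ∧
      SubpairLE p M (Q.map (MulAut.conj g).toMonoidHom) (conjBlock Q g f) P e := by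
  constructor
  · rintro ⟨φ, hφ, rfl⟩
    obtain ⟨-, g, hg, -, f', hf', hf''⟩ := (hF.2 Q φ).mp hφ
    obtain rfl := subpair_below_unique hM hF.1.1.1 Q f' f hf' hle
    refine ⟨g, ?_, hf''⟩
    ext x
    constructor
    · rintro ⟨u, rfl⟩
      exact ⟨u, u.2, (hg u).symm⟩
    · rintro ⟨u, hu, rfl⟩
      exact ⟨⟨u, hu⟩, hg ⟨u, hu⟩⟩
  · rintro ⟨g, rfl, hg⟩
    refine ⟨conjHom Q g, (hF.2 Q _).mpr ⟨hQP, g, fun u => rfl, SubpairLE.le hg, f, hle, hg⟩, ?_⟩
    rw [conjHom, MonoidHom.range_comp, Subgroup.range_subtype]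

omit [Fintype G] in
theorem card_center_conj (Q : Subgroup G) (g : G) :
    Nat.card (Q.map (MulAut.conj g).toMonoidHom ⊓ Subgroup.centralizer
      ((Q.map (MulAut.conj g).toMonoidHom : Subgroup G) : Set G) : Subgroup G) =
      Nat.card (Q ⊓ Subgroup.centralizer (Q : Set G) : Subgroup G) := by
  rw [← card_map_conj (Q ⊓ Subgroup.centralizer (Q : Set G)) g]
  congr 2
  have hsurj := (MulAut.conj g).surjective
  ext x
  obtain ⟨y, rfl⟩ := hsurj x
  have key : ∀ (H : Subgroup G), MulAut.conj g y ∈ H.map (MulAut.conj g).toMonoidHom ↔ y ∈ H :=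
    fun H => ⟨fun ⟨z, hz, e⟩ => (MulAut.conj g).injective e ▸ hz, fun h => ⟨y, h, rfl⟩⟩
  rw [Subgroup.mem_inf, key, key, Subgroup.mem_inf]
  exact and_congr Iff.rfl (centralizer_conj_iff Q g y)

theorem card_defect_conj (hM : IsPModular p M) (hf : IsPBlock M f)
    {D : Subgroup (Subgroup.centralizer (Q : Set G))} (hD : IsDefectGroup p M f D) {g : G}
    {D' : Subgroup (Subgroup.centralizer ((Q.map (MulAut.conj g).toMonoidHom : Subgroup G) : Set G))}
    (hD' : IsDefectGroup p M (conjBlock Q g f) D') : Nat.card D' = Nat.card D := by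
  classical
  haveI : Fact p.Prime := ⟨hM.1⟩
  have h1 : IsDefectGroup p M (conjBlock Q g f)
      (D.map (cEquiv (centralizer_conj_iff Q g)).toMonoidHom) := by
    rw [conjBlock_eq_map]; exact isDefectGroup_mapBlock _ hD
  have hf' : IsPBlock M (conjBlock Q g f) := by
    rw [conjBlock_eq_map]; exact isPBlock_mapBlock hM _ hf
  rw [card_defectGroup hM hf' hD', ← card_defectGroup hM hf' h1,
    Subgroup.card_map_of_injective (MulEquiv.injective _)]

theorem blockFusion_fullyCentralized_iff (hM : IsPModular p M)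
    (hF : IsBlockFusionSystemOn p M B P e F) (hQP : Q ≤ P) (hle : SubpairLE p M Q f P e) :
    F.IsFullyCentralized Q ↔ IsDefectGroup p M f
      ((P ⊓ Subgroup.centralizer (Q : Set G)).subgroupOf (Subgroup.centralizer (Q : Set G))) := by
  classical
  have hmax := hF.1
  have hf := (SubpairLE.left_block hle hmax.1.1).2
  have hsub : ∀ R : Subgroup G, Nat.card ((P ⊓ Subgroup.centralizer (R : Set G)).subgroupOf
      (Subgroup.centralizer (R : Set G))) =
      Nat.card (FusionSystem.centralizerIn P R) := fun R =>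
    Nat.card_congr (Subgroup.subgroupOfEquivOfLe inf_le_right).toEquiv
  constructor
  · rintro ⟨-, hfc⟩
    obtain ⟨x, hx, hD⟩ := exists_fullyCentralized hM hmax
      ((brauerPairOf_iff_le hM hle hmax.1.2.1).mp hmax.1)
    obtain ⟨D, hD₁, hge⟩ := defect_ge_of_le hM hmax.1.1 hle
    have h1 := hfc _ ((blockFusion_isConj_iff hM hF hQP hle _).mpr ⟨x, rfl, hx⟩)
    rw [← hsub, ← hsub, card_defect_conj hM hf hD₁ hD] at h1
    rwa [Subgroup.eq_of_le_of_card_ge hge h1]
  · intro hD
    refine ⟨hQP, fun R hR => ?_⟩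
    obtain ⟨g, rfl, hg⟩ := (blockFusion_isConj_iff hM hF hQP hle R).mp hR
    obtain ⟨D', hD', hge⟩ := defect_ge_of_le hM hmax.1.1 hg
    rw [← hsub, ← hsub, ← card_defect_conj hM hf hD hD']
    exact Subgroup.card_le_of_le hge

theorem blockFusion_centric_iff (hM : IsPModular p M)
    (hF : IsBlockFusionSystemOn p M B P e F) (hQP : Q ≤ P) (hle : SubpairLE p M Q f P e) :
    F.IsCentric Q ↔ IsDefectGroup p M f
      ((Q ⊓ Subgroup.centralizer (Q : Set G)).subgroupOf (Subgroup.centralizer (Q : Set G))) := by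
  classical
  have hmax := hF.1
  have hf := (SubpairLE.left_block hle hmax.1.1).2
  have hsub : ∀ (A R : Subgroup G), Nat.card ((A ⊓ Subgroup.centralizer (R : Set G)).subgroupOf
      (Subgroup.centralizer (R : Set G))) =
      Nat.card (A ⊓ Subgroup.centralizer (R : Set G) : Subgroup G) := fun A R =>
    Nat.card_congr (Subgroup.subgroupOfEquivOfLe inf_le_right).toEquiv
  constructor
  · rintro ⟨-, hcen⟩
    obtain ⟨x, hx, hD⟩ := exists_fullyCentralized hM hmax
      ((brauerPairOf_iff_le hM hle hmax.1.2.1).mp hmax.1)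
    obtain ⟨D, hD₁, hge⟩ := defect_ge_of_le hM hmax.1.1 hle
    have h1 : P ⊓ Subgroup.centralizer ((Q.map (MulAut.conj x).toMonoidHom : Subgroup G) : Set G) ≤
        Q.map (MulAut.conj x).toMonoidHom :=
      hcen _ ((blockFusion_isConj_iff hM hF hQP hle _).mpr ⟨x, rfl, hx⟩)
    have h2 : Nat.card D ≤ Nat.card (Q ⊓ Subgroup.centralizer (Q : Set G) : Subgroup G) := by
      rw [← card_defect_conj hM hf hD₁ hD, hsub, ← card_center_conj Q x]
      exact Subgroup.card_le_of_le (le_inf h1 inf_le_right)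
    have hle' : (Q ⊓ Subgroup.centralizer (Q : Set G)).subgroupOf (Subgroup.centralizer (Q : Set G)) ≤
        (P ⊓ Subgroup.centralizer (Q : Set G)).subgroupOf (Subgroup.centralizer (Q : Set G)) :=
      Subgroup.comap_mono (inf_le_inf_right _ hQP)
    rwa [Subgroup.eq_of_le_of_card_ge (hle'.trans hge) (by rw [hsub]; exact h2)]
  · intro hD
    refine ⟨hQP, fun R hR => ?_⟩
    obtain ⟨g, rfl, hg⟩ := (blockFusion_isConj_iff hM hF hQP hle R).mp hR
    obtain ⟨D', hD', hge⟩ := defect_ge_of_le hM hmax.1.1 hg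
    have h1 := Subgroup.card_le_of_le hge
    rw [card_defect_conj hM hf hD hD', hsub, hsub, ← card_center_conj Q g] at h1
    have h2 := Subgroup.eq_of_le_of_card_ge
      (inf_le_inf_right (Subgroup.centralizer ((Q.map (MulAut.conj g).toMonoidHom : Subgroup G) : Set G))
        (SubpairLE.le hg)) h1
    exact le_trans (le_of_eq h2.symm) inf_le_left

theorem blockFusion_fullyNormalized_iff (hM : IsPModular p M)
    (hF : IsBlockFusionSystemOn p M B P e F) (hQP : Q ≤ P) (hle : SubpairLE p M Q f P e)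
    {T : Subgroup G} [Fintype T]
    (hT : ∀ y : G, y ∈ T ↔ y ∈ Subgroup.normalizer (Q : Set G) ∧
      StabilizesBlock (Subgroup.centralizer (Q : Set G)) f y) :
    F.IsFullyNormalized Q ↔ ∃ F' : Set (IrrCharacter T), IsPBlock M F' ∧
      (∀ t : T, blockCoeff F' t = subgroupBlockCoeff (Subgroup.centralizer (Q : Set G)) f (t : G)) ∧
      IsDefectGroup p M F' ((P ⊓ Subgroup.normalizer (Q : Set G)).subgroupOf T) := by
  classical
  haveI : Fact p.Prime := ⟨hM.1⟩
  have hmax := hF.1
  have hQf := (brauerPairOf_iff_le hM hle hmax.1.2.1).mp hmax.1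
  have hf := hQf.1.2
  obtain ⟨E, hE, hcoef⟩ := exists_stab_block hM hQf.1.1 hf (T := T)
    (fun q hq => (hT q).mpr (le_pairStab hM hf hq))
    (fun q hq => (hT q).mpr (centralizer_le_pairStab hM hf hq))
    (fun q hq => ((hT q).mp hq).1) (fun q hq => ((hT q).mp hq).2)
  have key : ∀ {g : G}, SubpairLE p M (Q.map (MulAut.conj g).toMonoidHom) (conjBlock Q g f) P e →
      P ⊓ Subgroup.normalizer ((Q.map (MulAut.conj g).toMonoidHom : Subgroup G) : Set G) ≤
        pairStab hM (isBrauerPair_conj hM hQf.1 g).2 := by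
    intro g hg y hy
    obtain ⟨g', hg'⟩ := exists_subpair_below hM hmax.1.1
      (P ⊓ Subgroup.normalizer ((Q.map (MulAut.conj g).toMonoidHom : Subgroup G) : Set G)) inf_le_left
    exact ⟨hy.2, (normalSubpair_of_le hM hmax.1.1 hg hg'
      (le_inf (SubpairLE.le hg) Subgroup.le_normalizer) inf_le_right).2.2.2.2.1 y hy⟩
  have hsub : ∀ (g : G) (hg : SubpairLE p M (Q.map (MulAut.conj g).toMonoidHom) (conjBlock Q g f) P e),
      Nat.card ((P ⊓ Subgroup.normalizer ((Q.map (MulAut.conj g).toMonoidHom : Subgroup G) : Set G)).subgroupOf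
        (pairStab hM (isBrauerPair_conj hM hQf.1 g).2)) =
        Nat.card (FusionSystem.normalizerIn P (Q.map (MulAut.conj g).toMonoidHom)) := fun g hg =>
    Nat.card_congr (Subgroup.subgroupOfEquivOfLe (key hg)).toEquiv
  have hsubQ : Nat.card ((P ⊓ Subgroup.normalizer (Q : Set G)).subgroupOf T) =
      Nat.card (FusionSystem.normalizerIn P Q) := by
    refine Nat.card_congr (Subgroup.subgroupOfEquivOfLe ?_).toEquiv
    intro y hy
    obtain ⟨g', hg'⟩ := exists_subpair_below hM hmax.1.1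
      (P ⊓ Subgroup.normalizer (Q : Set G)) inf_le_left
    exact (hT y).mpr ⟨hy.2, (normalSubpair_of_le hM hmax.1.1 hle hg'
      (le_inf hQP Subgroup.le_normalizer) inf_le_right).2.2.2.2.1 y hy⟩
  have htrans : ∀ (g : G) (D : Subgroup T), IsDefectGroup p M E D →
      ∃ (F' : Set (IrrCharacter (pairStab hM (isBrauerPair_conj hM hQf.1 g).2))),
        IsPBlock M F' ∧ (∀ t, blockCoeff F' t = subgroupBlockCoeff
            (Subgroup.centralizer ((Q.map (MulAut.conj g).toMonoidHom) : Set G))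
            (conjBlock Q g f) (t : G)) ∧
          ∀ D', IsDefectGroup p M F' D' → Nat.card D' = Nat.card D := by
    intro g D hD
    haveI : Fintype (pairStab hM (isBrauerPair_conj hM hQf.1 g).2) := Fintype.ofFinite _
    have hiff : ∀ y, g * y * g⁻¹ ∈ pairStab hM (isBrauerPair_conj hM hQf.1 g).2 ↔ y ∈ T :=
      fun y => by rw [mem_pairStab_conj_iff hM hf, hT]; rfl
    refine ⟨mapBlock (cEquiv hiff) E, isPBlock_mapBlock hM _ hE, fun t => ?_, fun D' hD' => ?_⟩
    · obtain ⟨s, rfl⟩ := (cEquiv hiff).surjective t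
      rw [blockCoeff_mapBlock, hcoef]
      exact (sbc_conjBlock Q g f (s : G)).symm
    · have hF' := isPBlock_mapBlock hM (cEquiv hiff) hE
      rw [card_defectGroup hM hF' hD',
        ← card_defectGroup hM hF' (isDefectGroup_mapBlock (cEquiv hiff) hD),
        Subgroup.card_map_of_injective (MulEquiv.injective _)]
  constructor
  · rintro ⟨-, hfn⟩
    refine ⟨E, hE, hcoef, ?_⟩
    obtain ⟨x, hx, hx'⟩ := exists_fullyNormalized hM hmax hQf hT hE hcoef
    obtain ⟨F₁, hF₁, hc₁, hD₁⟩ := hx' (pairStab hM (isBrauerPair_conj hM hQf.1 x).2) fun y => Iff.rfl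
    obtain ⟨D, hD, hge⟩ := stab_defect_ge hM hmax.1.1 hle hT hE hcoef
    obtain ⟨F₂, hF₂, hc₂, hcard⟩ := htrans x D hD
    haveI : Fintype (pairStab hM (isBrauerPair_conj hM hQf.1 x).2) := Fintype.ofFinite _
    obtain rfl := block_ext hM hF₁ hF₂ fun t => by rw [hc₁, hc₂]
    have h1 := hfn _ ((blockFusion_isConj_iff hM hF hQP hle _).mpr ⟨x, rfl, hx⟩)
    rw [← hsub x hx, ← hsubQ, hcard _ hD₁] at h1
    rwa [Subgroup.eq_of_le_of_card_ge hge h1]
  · rintro ⟨F', hF', hc', hD⟩
    obtain rfl := block_ext hM hE hF' fun t => by rw [hcoef, hc']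
    refine ⟨hQP, fun R hR => ?_⟩
    obtain ⟨g, rfl, hg⟩ := (blockFusion_isConj_iff hM hF hQP hle R).mp hR
    obtain ⟨F₂, hF₂, hc₂, hcard⟩ := htrans g _ hD
    haveI : Fintype (pairStab hM (isBrauerPair_conj hM hQf.1 g).2) := Fintype.ofFinite _
    obtain ⟨D', hD', hge⟩ := stab_defect_ge hM hmax.1.1 hg (fun y => Iff.rfl) hF₂ hc₂
    rw [← hsubQ, ← hsub g hg, ← hcard D' hD']
    exact Subgroup.card_le_of_le hge

end CfsgLib.Blocks
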