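import Cfsg.Agent.Lib.Blocks.InertialQuotient

/-!
A defect group of the block of a stabilizer covers the `p`-part of `T / C(Q)`.
-/

namespace CfsgLib.Blocks

set_option linter.style.haveILetI false

open scoped ComplexConjugate
open Cfsg CfsgLib.Chars

universe u

variable {G : Type u} [Group G] [Fintype G] {p : ℕ} {M : Ideal AlgInt}

/-- A `p`-subgroup stabilizing a block of a centralizer fixes a class carrying a unit
coefficient. -/
theorem exists_fixed_unit_class (hM : IsPModular p M) {Q S : Subgroup G}
    {f : Set (IrrCharacter (Subgroup.centralizer (Q : Set G)))} (hf : IsPBlock M f)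
    (hS : IsPGroup p S) (hSN : S ≤ Subgroup.normalizer (Q : Set G))
    (hst : ∀ x ∈ S, StabilizesBlock (Subgroup.centralizer (Q : Set G)) f x) :
    ∃ c : Subgroup.centralizer (Q : Set G), ¬ MemLocalIdeal M (blockCoeff f c) ∧
      ∀ s ∈ S, ∃ k : Subgroup.centralizer (Q : Set G),
        ((k : G) * s) * (c : G) = (c : G) * ((k : G) * s) := by
  classical
  haveI : Fact p.Prime := ⟨hM.1⟩
  obtain ⟨η, hη⟩ := IsPBlock.nonempty hM hf
  have hnorm : ∀ y ∈ S, y ∈ Subgroup.normalizer ((Subgroup.centralizer (Q : Set G) : Subgroup G) : Set G) :=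
    fun y hy => mem_normalizer_centralizer (hSN hy)
  letI : MulAction S (ConjClasses (Subgroup.centralizer (Q : Set G))) :=
    { smul := fun s q => ConjClasses.map (normConj _ (hnorm s s.2)).toMonoidHom q
      one_smul := fun q => by
        induction q using Quotient.inductionOn with
        | h a => exact congrArg ConjClasses.mk (Subtype.ext (by simp [normConj]))
      mul_smul := fun s t q => by
        induction q using Quotient.inductionOn with
        | h a => exact congrArg ConjClasses.mk (Subtype.ext (by simp [normConj, mul_assoc])) }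
  haveI : Finite (ConjClasses (Subgroup.centralizer (Q : Set G))) :=
    Finite.of_surjective _ ConjClasses.mk_surjective
  haveI : Fintype (ConjClasses (Subgroup.centralizer (Q : Set G))) := Fintype.ofFinite _
  set w : IrrCharacter (Subgroup.centralizer (Q : Set G)) →
      ConjClasses (Subgroup.centralizer (Q : Set G)) → ℂ :=
    fun θ q => centralChar (θ : Subgroup.centralizer (Q : Set G) → ℂ) q.out with hw
  set a : ConjClasses (Subgroup.centralizer (Q : Set G)) → ℂ := fun q => blockCoeff f q.out with ha
  have hout : ∀ (b : Subgroup.centralizer (Q : Set G)) (φ : Subgroup.centralizer (Q : Set G) → ℂ),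
      IsClassFunction _ φ → φ (ConjClasses.mk b).out = φ b := by
    intro b φ hφ
    obtain ⟨u, hu⟩ := isConj_iff.mp (ConjClasses.mk_eq_mk_iff_isConj.mp (Quotient.out_eq (ConjClasses.mk b)))
    rw [← hφ _ u]
    exact congrArg φ hu
  have hcc : ∀ θ : IrrCharacter (Subgroup.centralizer (Q : Set G)),
      IsClassFunction _ (fun c => centralChar (θ : Subgroup.centralizer (Q : Set G) → ℂ) c) := by
    intro θ c u
    have hcl := IsCharacter.isClassFunction (isCharacter_irr θ)
    simp only [← omega_classInd hcl]
    congr 1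
    funext y
    simp only [classInd]
    have hc : IsConj c (u * c * u⁻¹) := isConj_iff.mpr ⟨u, rfl⟩
    congr 1
    exact propext ⟨fun h => hc.trans h, fun h => hc.symm.trans h⟩
  have hequiv : ∀ (s : S) (q : ConjClasses (Subgroup.centralizer (Q : Set G))),
      a (s • q) = a q ∧ MemLocalIdeal M (w η (s • q) - w η q) := by
    intro s q
    induction q using Quotient.inductionOn with
    | h b =>
      set φ := normConj (Subgroup.centralizer (Q : Set G)) (hnorm s s.2)
      obtain ⟨hs', hfix⟩ := (stabilizesBlock_iff hM _ hf).mp (hst s s.2)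
      have e : s • (ConjClasses.mk b) = ConjClasses.mk (φ b) := rfl
      show a (s • ConjClasses.mk b) = a (ConjClasses.mk b) ∧
        MemLocalIdeal M (w η (s • ConjClasses.mk b) - w η (ConjClasses.mk b))
      rw [e]
      simp only [ha, hw]
      rw [hout _ _ (blockCoeff_isClassFunction f), hout _ _ (blockCoeff_isClassFunction f),
        hout _ _ (hcc η), hout _ _ (hcc η)]
      refine ⟨?_, ?_⟩
      · conv_lhs => rw [← hfix]
        exact blockCoeff_mapBlock φ f b
      · have hη' : pullIrr φ η ∈ f := by
          have : η ∈ mapBlock φ f := by rw [hfix]; exact hη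
          exact this
        rw [← show centralChar (pullIrr φ η : Subgroup.centralizer (Q : Set G) → ℂ) b =
          centralChar (η : Subgroup.centralizer (Q : Set G) → ℂ) (φ b) from
            centralChar_comp_equiv φ.symm η b]
        exact (IsPBlock.sameBlock hM hf hη' hη) b
  obtain ⟨q, hfix, hne⟩ : ∃ q : ConjClasses (Subgroup.centralizer (Q : Set G)),
      (∀ s : S, s • q = q) ∧ ¬ MemLocalIdeal M (a q) := by
    by_contra hno
    push Not at hno
    apply not_mli_one hM
    have h1 : ∑ q, a q * w η q = 1 := by
      rw [← indic_of_mem hη, ← omega_blockCoeff f η,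
        omega_eq_sum_centralChar (IsCharacter.isClassFunction (isCharacter_irr η))
          (blockCoeff_isClassFunction f)]
    let rep : ConjClasses (Subgroup.centralizer (Q : Set G)) →
        ConjClasses (Subgroup.centralizer (Q : Set G)) :=
      fun q => (Quotient.mk (MulAction.orbitRel S (ConjClasses (Subgroup.centralizer (Q : Set G)))) q).out
    have hl : ∀ q, MemLocalRing M (a q) := fun q => mlr_blockCoeff hM hf _
    have hlw : ∀ q, MemLocalRing M (w η q) := fun q => mlr_centralChar hM η _
    have hdiff : ∀ q, MemLocalIdeal M (a q * w η q - a q * w η (rep q)) := by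
      intro q
      rw [← mul_sub]
      refine mli_mul_left hM (hl q) ?_
      obtain ⟨s, hs⟩ : rep q ∈ MulAction.orbit S q :=
        MulAction.orbitRel_apply.mp (Quotient.exact (Quotient.out_eq _))
      have := mli_neg ((hequiv s q).2)
      rw [show s • q = rep q from hs, neg_sub] at this
      exact this
    have h2 : MemLocalIdeal M (∑ q, a q * w η (rep q)) := by
      refine mli_sum_of_no_fixed hM hS (fun s q => ?_) (fun q => mlr_mul hM (hl q) (hlw _))
        fun q hq => mli_mul_right hM (hno q hq) (hlw _)
      rw [(hequiv s q).1, show rep (s • q) = rep q from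
        congrArg Quotient.out (Quotient.sound (MulAction.orbitRel_apply.mpr ⟨s, rfl⟩))]
    have h3 := mli_add hM (mli_sum hM Finset.univ (f := fun q => a q * w η q - a q * w η (rep q))
      fun q _ => hdiff q) h2
    rwa [Finset.sum_sub_distrib, sub_add_cancel, h1] at h3
  obtain ⟨c, rfl⟩ := ConjClasses.mk_surjective q
  simp only [ha] at hne
  rw [hout _ _ (blockCoeff_isClassFunction f)] at hne
  refine ⟨c, hne, fun s hs => ?_⟩
  obtain ⟨k, hk⟩ := isConj_iff.mp (ConjClasses.mk_eq_mk_iff_isConj.mp (hfix ⟨s, hs⟩))
  have h1 : (k : G) * (s * (c : G) * s⁻¹) * (k : G)⁻¹ = (c : G) := congrArg Subtype.val hk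
  exact ⟨k, by
    calc (k : G) * s * (c : G) = (k : G) * (s * (c : G) * s⁻¹) * (k : G)⁻¹ * ((k : G) * s) := by group
      _ = _ := by rw [h1]⟩

/-- A defect group of the block of the stabilizer covers a Sylow subgroup of `T / C(Q)`. -/
theorem stab_index_not_dvd (hM : IsPModular p M) {Q T : Subgroup G} [Fintype T]
    {f : Set (IrrCharacter (Subgroup.centralizer (Q : Set G)))}
    (hf : IsPBlock M f) (hCT : Subgroup.centralizer (Q : Set G) ≤ T)
    (hTN : T ≤ Subgroup.normalizer (Q : Set G))
    (hst : ∀ x ∈ T, StabilizesBlock (Subgroup.centralizer (Q : Set G)) f x)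
    {F : Set (IrrCharacter T)} (hF : IsPBlock M F)
    (hcoef : ∀ t : T,
      blockCoeff F t = subgroupBlockCoeff (Subgroup.centralizer (Q : Set G)) f (t : G))
    {D : Subgroup T} (hD : IsDefectGroup p M F D) :
    ¬ p ∣ (D ⊔ (Subgroup.centralizer (Q : Set G)).subgroupOf T).index := by
  classical
  haveI : Fact p.Prime := ⟨hM.1⟩
  haveI : ((Subgroup.centralizer (Q : Set G)).subgroupOf T).Normal :=
    (Subgroup.normal_subgroupOf_iff_le_normalizer hCT).mpr fun y hy =>
      mem_normalizer_centralizer (hTN hy)
  obtain ⟨S⟩ : Nonempty (Sylow p T) := inferInstance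
  obtain ⟨c, hne, hfix⟩ := exists_fixed_unit_class hM hf (S.2.map T.subtype)
    ((Subgroup.map_subtype_le _).trans hTN) fun x hx => hst x (Subgroup.map_subtype_le _ hx)
  set cT : T := ⟨(c : G), hCT c.2⟩ with hcT
  set C := Subgroup.centralizer ({cT} : Set T) with hC
  have hF1 : ¬ MemLocalIdeal M (blockCoeff F cT) := by rw [hcoef, sbc_apply]; exact hne
  obtain ⟨U⟩ : Nonempty (Sylow p C) := inferInstance
  obtain ⟨x, hx⟩ := pGroup_le_defectGroup hM hF hD hF1 (U.2.map C.subtype) (Subgroup.map_subtype_le _)
  set K' := (Subgroup.centralizer (Q : Set G)).subgroupOf T with hK'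
  let π := QuotientGroup.mk' K'
  have hsurj : Function.Surjective π := QuotientGroup.mk'_surjective K'
  have hker : π.ker = K' := QuotientGroup.ker_mk' K'
  have hidx : ∀ A : Subgroup T, (A.map π).index = (A ⊔ K').index := fun A => by
    rw [Subgroup.index_map, hker, MonoidHom.range_eq_top.mpr hsurj, Subgroup.index_top, mul_one]
  have hSC : (S : Subgroup T).map π ≤ C.map π := by
    rintro _ ⟨s, hs, rfl⟩
    obtain ⟨k, hk⟩ := hfix (s : G) ⟨s, hs, rfl⟩
    refine ⟨⟨(k : G), hCT k.2⟩ * s, Subgroup.mem_centralizer_singleton_iff.mpr (Subtype.ext hk), ?_⟩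
    rw [map_mul, show π ⟨(k : G), hCT k.2⟩ = 1 from
      (QuotientGroup.eq_one_iff _).mpr (Subgroup.mem_subgroupOf.mpr k.2), one_mul]
  have h1 : ¬ p ∣ (C.map π).index := fun h => S.not_dvd_index
    (h.trans ((Subgroup.index_dvd_of_le hSC).trans (Subgroup.index_map_dvd _ hsurj)))
  have h2 : ¬ p ∣ (((U : Subgroup C).map C.subtype).map π).relIndex (C.map π) := fun h => by
    refine U.not_dvd_index (h.trans ?_)
    refine (Subgroup.index_dvd_of_le ?_).trans
      (Subgroup.index_map_dvd (U : Subgroup C) (π.subgroupMap_surjective C))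
    rintro _ ⟨u, hu, rfl⟩
    exact ⟨u, ⟨u, hu, rfl⟩, rfl⟩
  have h3 : ¬ p ∣ (((U : Subgroup C).map C.subtype).map π).index := fun h => by
    rw [← Subgroup.relIndex_mul_index (Subgroup.map_mono (Subgroup.map_subtype_le _) :
      ((U : Subgroup C).map C.subtype).map π ≤ C.map π)] at h
    exact ((Fact.out : p.Prime).dvd_mul.mp h).elim h2 h1
  intro hp
  rw [← hidx] at hp
  apply h3
  refine hp.trans ?_
  have := Subgroup.index_dvd_of_le (Subgroup.map_mono (f := π) hx)
  rw [Subgroup.map_map, show π.comp (MulAut.conj x).toMonoidHom =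
    ((MulAut.conj (π x)).toMonoidHom).comp π from MonoidHom.ext fun y => by simp,
    ← Subgroup.map_map] at this
  rwa [Subgroup.index_map_of_bijective
    (f := (MulAut.conj (π x)).toMonoidHom) (MulAut.conj (π x)).bijective] at this

end CfsgLib.Blocks
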