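import Cfsg.Agent.Lib.Blocks.SubgroupPairs

/-!
Chains of pairs in subgroups, and the extension lemma above a fully normalized pair.
-/

namespace CfsgLib.Blocks

set_option linter.style.haveILetI false

open scoped ComplexConjugate
open Cfsg CfsgLib.Chars

universe u

variable {G : Type u} [Group G] [Fintype G] {p : ℕ} {M : Ideal AlgInt}

section Up

variable {H : Subgroup G}

/-- The centralizer of a subgroup of `H` computed in `G`. -/
def centUp (A : Subgroup H) (hC : Subgroup.centralizer ((A.map H.subtype : Subgroup G) : Set G) ≤ H) :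
    Subgroup.centralizer (A : Set H) ≃*
      Subgroup.centralizer ((A.map H.subtype : Subgroup G) : Set G) where
  toFun c := ⟨((c : H) : G), Subgroup.mem_centralizer_iff.mpr (by
    rintro _ ⟨a, ha, rfl⟩
    exact congrArg Subtype.val (Subgroup.mem_centralizer_iff.mp c.2 a ha))⟩
  invFun c := ⟨⟨(c : G), hC c.2⟩, Subgroup.mem_centralizer_iff.mpr fun a ha =>
    Subtype.ext (Subgroup.mem_centralizer_iff.mp c.2 (a : G) ⟨a, ha, rfl⟩)⟩
  left_inv c := Subtype.ext (Subtype.ext rfl)
  right_inv c := Subtype.ext rfl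
  map_mul' a b := Subtype.ext rfl

variable [Fintype H]

theorem brauerOmega_up (A : Subgroup H)
    (hC : Subgroup.centralizer ((A.map H.subtype : Subgroup G) : Set G) ≤ H) (β : H → ℂ) (β' : G → ℂ)
    (hβ : ∀ h : H, β' (h : G) = β h)
    (ξ : IrrCharacter (Subgroup.centralizer ((A.map H.subtype : Subgroup G) : Set G))) :
    brauerOmega (A.map H.subtype) β' (ξ : _ → ℂ) =
      brauerOmega A β (pullIrr (centUp A hC) ξ : Subgroup.centralizer (A : Set H) → ℂ) := by
  rw [brauerOmega, brauerOmega]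
  refine (finsum_eq_of_bijective (centUp A hC) (MulEquiv.bijective _) fun k => ?_).symm
  rw [pullIrr_apply, pullIrr_apply, map_one]
  congr 2
  exact (hβ (k : H)).symm

theorem normalSubpair_up (hM : IsPModular p M) {A B : Subgroup H}
    {a : Set (IrrCharacter (Subgroup.centralizer (A : Set H)))}
    {b : Set (IrrCharacter (Subgroup.centralizer (B : Set H)))}
    (hA : Subgroup.centralizer ((A.map H.subtype : Subgroup G) : Set G) ≤ H)
    (hB : Subgroup.centralizer ((B.map H.subtype : Subgroup G) : Set G) ≤ H)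
    (h : IsNormalSubpair p M A a B b) :
    IsNormalSubpair p M (A.map H.subtype) (mapBlock (centUp A hA) a)
      (B.map H.subtype) (mapBlock (centUp B hB) b) := by
  classical
  obtain ⟨hAa, hBb, hAB, hN, hst, hone⟩ := h
  have hN' : B.map H.subtype ≤ Subgroup.normalizer ((A.map H.subtype : Subgroup G) : Set G) := by
    rintro _ ⟨b, hb, rfl⟩
    refine Subgroup.mem_normalizer_iff.mpr fun g => ⟨?_, ?_⟩
    · rintro ⟨x, hx, rfl⟩
      exact ⟨b * x * b⁻¹, (Subgroup.mem_normalizer_iff.mp (hN hb) x).mp hx, rfl⟩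
    · rintro ⟨x, hx, e⟩
      refine ⟨b⁻¹ * x * b, ?_, ?_⟩
      · have := (Subgroup.mem_normalizer_iff.mp (inv_mem (hN hb)) x).mp hx
        simpa using this
      · show (b : G)⁻¹ * (x : G) * (b : G) = g
        rw [show (x : G) = (b : G) * g * (b : G)⁻¹ from e]
        group
  refine ⟨⟨hAa.1.map _, isPBlock_mapBlock hM _ hAa.2⟩, ⟨hBb.1.map _, isPBlock_mapBlock hM _ hBb.2⟩,
    Subgroup.map_mono hAB, hN', ?_, fun ξ hξ => ?_⟩
  · rintro _ ⟨y, hy, rfl⟩
    obtain ⟨hyC, hfix⟩ := (stabilizesBlock_iff hM _ hAa.2).mp (hst y hy)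
    have hyC' := mem_normalizer_centralizer (hN' ⟨y, hy, rfl⟩)
    refine (stabilizesBlock_iff hM _ (isPBlock_mapBlock hM _ hAa.2)).mpr ⟨hyC', ?_⟩
    ext χ
    show pullIrr (centUp A hA) (pullIrr (normConj _ hyC') χ) ∈ a ↔ pullIrr (centUp A hA) χ ∈ a
    conv_rhs => rw [← hfix]
    show _ ↔ pullIrr (normConj _ hyC) (pullIrr (centUp A hA) χ) ∈ a
    rw [show pullIrr (centUp A hA) (pullIrr (normConj _ hyC') χ) =
      pullIrr (normConj _ hyC) (pullIrr (centUp A hA) χ) from Subtype.ext (funext fun k => rfl)]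
  · rw [brauerOmega_up B hB (subgroupBlockCoeff (Subgroup.centralizer (A : Set H)) a)]
    · exact hone _ hξ
    · intro h
      by_cases hh : h ∈ Subgroup.centralizer (A : Set H)
      · rw [show (h : G) = ((centUp A hA ⟨h, hh⟩ : _) : G) from rfl, sbc_apply, blockCoeff_mapBlock]
        exact (sbc_apply _ a ⟨h, hh⟩).symm
      · rw [sbc_of_notMem _ _ hh, sbc_of_notMem _ _ fun hc => hh ?_]
        exact ((centUp A hA).symm ⟨(h : G), hc⟩).2

theorem subpairLE_up (hM : IsPModular p M) {A B : Subgroup H}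
    {a : Set (IrrCharacter (Subgroup.centralizer (A : Set H)))}
    {b : Set (IrrCharacter (Subgroup.centralizer (B : Set H)))}
    (hA : Subgroup.centralizer ((A.map H.subtype : Subgroup G) : Set G) ≤ H)
    (hB : Subgroup.centralizer ((B.map H.subtype : Subgroup G) : Set G) ≤ H)
    (h : SubpairLE p M A a B b) :
    SubpairLE p M (A.map H.subtype) (mapBlock (centUp A hA) a)
      (B.map H.subtype) (mapBlock (centUp B hB) b) := by
  have key : ∀ x y : BrauerPairIdx H, Relation.ReflTransGen (NormalSubpairRel p M) x y →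
      ∀ (hx : Subgroup.centralizer ((x.1.map H.subtype : Subgroup G) : Set G) ≤ H)
        (hy : Subgroup.centralizer ((y.1.map H.subtype : Subgroup G) : Set G) ≤ H),
      Relation.ReflTransGen (NormalSubpairRel p M)
        (⟨x.1.map H.subtype, mapBlock (centUp x.1 hx) x.2⟩ : BrauerPairIdx G)
        ⟨y.1.map H.subtype, mapBlock (centUp y.1 hy) y.2⟩ := fun x y h => by
    induction h using Relation.ReflTransGen.head_induction_on with
    | refl => exact fun _ _ => Relation.ReflTransGen.refl
    | @head x z hxz _ ih =>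
      intro hx hy
      have hz : Subgroup.centralizer ((z.1.map H.subtype : Subgroup G) : Set G) ≤ H :=
        le_trans (Subgroup.centralizer_le (Subgroup.map_mono hxz.2.2.1 :
          x.1.map H.subtype ≤ z.1.map H.subtype)) hx
      exact Relation.ReflTransGen.head (show NormalSubpairRel p M
        (⟨x.1.map H.subtype, mapBlock (centUp x.1 hx) x.2⟩ : BrauerPairIdx G)
        ⟨z.1.map H.subtype, mapBlock (centUp z.1 hz) z.2⟩ from normalSubpair_up hM hx hz hxz) (ih hz hy)
  exact key ⟨A, a⟩ ⟨B, b⟩ h hA hB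

end Up

omit [Fintype G] in
theorem subgroupOf_map (A H : Subgroup G) (h : A ≤ H) : (A.subgroupOf H).map H.subtype = A := by
  rw [Subgroup.subgroupOf_map_subtype, inf_eq_left.mpr h]

theorem subpairLE_congr_left {A A' P : Subgroup G} (hA : A = A')
    (a : Set (IrrCharacter (Subgroup.centralizer (A : Set G))))
    (a' : Set (IrrCharacter (Subgroup.centralizer (A' : Set G))))
    (h : (⟨A, a⟩ : BrauerPairIdx G) = ⟨A', a'⟩)
    {e : Set (IrrCharacter (Subgroup.centralizer (P : Set G)))}
    (hle : SubpairLE p M A a P e) : SubpairLE p M A' a' P e := by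
  subst hA
  obtain rfl := eq_of_heq (Sigma.mk.inj_iff.mp h).2
  exact hle

/-- Extension: a pair normally above a fully normalized pair moves below the maximal pair by an
element of the stabilizer. -/
theorem exists_conj_le_in_stab (hM : IsPModular p M) {P R D H : Subgroup G} [Fintype H]
    {e : Set (IrrCharacter (Subgroup.centralizer (P : Set G)))}
    (hPe : IsBrauerPair p M P e)
    {fR : Set (IrrCharacter (Subgroup.centralizer (R : Set G)))} (hle : SubpairLE p M R fR P e)
    (hCH : Subgroup.centralizer (R : Set G) ≤ H)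
    (hHN : H ≤ Subgroup.normalizer (R : Set G))
    (hst : ∀ x ∈ H, StabilizesBlock (Subgroup.centralizer (R : Set G)) fR x)
    (hDP : D ≤ P) (hRD : R ≤ D) (hDH : D ≤ H)
    {F : Set (IrrCharacter H)} (hF : IsPBlock M F)
    (hcoef : ∀ t : H,
      blockCoeff F t = subgroupBlockCoeff (Subgroup.centralizer (R : Set G)) fR (t : G))
    (hFD : IsDefectGroup p M F (D.subgroupOf H))
    {A : Subgroup G} {a : Set (IrrCharacter (Subgroup.centralizer (A : Set G)))}
    (hA : IsNormalSubpair p M R fR A a) (hAH : A ≤ H) :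
    ∃ t ∈ H, SubpairLE p M (A.map (MulAut.conj t).toMonoidHom) (conjBlock A t a) P e := by
  classical
  haveI : Fact p.Prime := ⟨hM.1⟩
  have hsbc : subgroupBlockCoeff H F = subgroupBlockCoeff (Subgroup.centralizer (R : Set G)) fR := by
    funext g
    by_cases hg : g ∈ H
    · rw [show g = ((⟨g, hg⟩ : H) : G) from rfl, sbc_apply, hcoef]
    · rw [sbc_of_notMem _ _ hg, sbc_of_notMem _ _ fun h => hg (hCH h)]
  have hinv : ConjInv H (subgroupBlockCoeff (Subgroup.centralizer (R : Set G)) fR) :=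
    sbc_conjInv_of_stabilizes hM _ hA.1.2 hst
  -- extend inside `H`
  have hCA : Subgroup.centralizer (A : Set G) ≤ H :=
    le_trans (Subgroup.centralizer_le hA.2.2.1) hCH
  have hpair : IsBrauerPairOf p M F (A.subgroupOf H) (mapBlock (centEquiv hAH hCA).symm a) :=
    isBrauerPairOf_subgroup hM hAH hCA hA.2.1.1 hA.2.1.2 hF (by rw [hsbc]; exact hA.2.2.2.2.2)
  obtain ⟨D', d', hmax', hle'⟩ := exists_maximal_above hM (A.subgroupOf H) _ hpair
  have hAA' : (A.subgroupOf H).map H.subtype = A := subgroupOf_map A H hAH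
  have hC1 : Subgroup.centralizer (((A.subgroupOf H).map H.subtype : Subgroup G) : Set G) ≤ H := by
    rw [hAA']; exact hCA
  have hC2 : Subgroup.centralizer ((D'.map H.subtype : Subgroup G) : Set G) ≤ H :=
    le_trans (Subgroup.centralizer_le (Subgroup.map_mono (SubpairLE.le hle') :
      (A.subgroupOf H).map H.subtype ≤ D'.map H.subtype)) hC1
  have hupA : (⟨(A.subgroupOf H).map H.subtype,
      mapBlock (centUp (A.subgroupOf H) hC1) (mapBlock (centEquiv hAH hCA).symm a)⟩ :
        BrauerPairIdx G) = ⟨A, a⟩ := by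
    have key : ∀ (A' : Subgroup G) (_ : A' = A)
        (φ : Subgroup.centralizer (A : Set G) ≃* Subgroup.centralizer (A' : Set G)),
        (∀ k, ((φ k : Subgroup.centralizer (A' : Set G)) : G) = (k : G)) →
        (⟨A', mapBlock φ a⟩ : BrauerPairIdx G) = ⟨A, a⟩ := by
      intro A' h φ hφ
      subst h
      refine congrArg (Sigma.mk _) (Set.ext fun χ => ?_)
      show pullIrr φ χ ∈ a ↔ χ ∈ a
      rw [show pullIrr φ χ = χ from Subtype.ext (funext fun k =>
        congrArg (χ : _ → ℂ) (Subtype.ext (hφ k)))]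
    refine Eq.trans ?_ (key _ hAA' ((centEquiv hAH hCA).symm.trans (centUp (A.subgroupOf H) hC1))
      fun k => rfl)
    rfl
  have hup := subpairLE_up hM hC1 hC2 hle'
  set D'' := D'.map H.subtype with hD''
  set d'' := mapBlock (centUp D' hC2) d' with hd''
  have hleG : SubpairLE p M A a D'' d'' := subpairLE_congr_left hAA' _ _ hupA hup
  -- move it onto `D`
  obtain ⟨t, ht⟩ := defectGroup_conj hM hF (maximal_isDefectGroup hM hmax') hFD
  have htD : D''.map (MulAut.conj (t : G)).toMonoidHom = D := by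
    rw [← subgroupOf_map D H hDH, ht, hD'', Subgroup.map_map, Subgroup.map_map]
    rfl
  have hd1 : ∀ ξ ∈ d'', MemLocalIdeal M (brauerOmega D'' (subgroupBlockCoeff
      (Subgroup.centralizer (R : Set G)) fR) (ξ : Subgroup.centralizer (D'' : Set G) → ℂ) - 1) := by
    intro ξ hξ
    rw [← hsbc, brauerOmega_up D' hC2 (blockCoeff F) _ (fun h => sbc_apply H F h)]
    exact hmax'.1.2.2 _ hξ
  obtain ⟨gD, hgD⟩ := exists_subpair_below hM hPe D hDP
  have hgD1 := (normalSubpair_of_le hM hPe hle hgD hRD (hDH.trans hHN)).2.2.2.2.2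
  have hpairD := isBrauerPair_conj hM (⟨(defectGroup_isPGroup (maximal_isDefectGroup hM hmax')).map _,
    isPBlock_mapBlock hM _ hmax'.1.1.2⟩ : IsBrauerPair p M D'' d'') (t : G)
  have hd2 : ∀ ξ ∈ conjBlock D'' (t : G) d'', MemLocalIdeal M
      (brauerOmega (D''.map (MulAut.conj (t : G)).toMonoidHom)
        (subgroupBlockCoeff (Subgroup.centralizer (R : Set G)) fR) (ξ : _ → ℂ) - 1) := by
    intro ξ hξ
    rw [brauerOmega_conj D'' (t : G) (subgroupBlockCoeff (Subgroup.centralizer (R : Set G)) fR) _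
      (fun g => hinv t t.2 g)]
    rw [conjBlock_eq_map] at hξ
    exact hd1 _ hξ
  have hgen : ∀ (E : Subgroup G) (g' : Set (IrrCharacter (Subgroup.centralizer (E : Set G)))),
      E = D → IsPBlock M g' →
      (∀ ξ ∈ g', MemLocalIdeal M (brauerOmega E (subgroupBlockCoeff
        (Subgroup.centralizer (R : Set G)) fR) (ξ : _ → ℂ) - 1)) →
      ∃ m ∈ H, pairConj m ⟨E, g'⟩ = (⟨D, gD⟩ : BrauerPairIdx G) := by
    intro E g' hE hg' h1
    subst hE
    obtain ⟨m, hmH, -, hm⟩ := subgroup_pairs_conj hM hDH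
      (le_trans (Subgroup.centralizer_le hRD) hCH) (hPe.1.to_le hDP) hg'
      (SubpairLE.left_block hgD hPe).2 hF (by rw [hsbc]; exact h1) (by rw [hsbc]; exact hgD1) hFD
    exact ⟨m, hmH, hm⟩
  obtain ⟨m, hmH, hm⟩ := hgen _ _ htD hpairD.2 hd2
  refine ⟨m * (t : G), mul_mem hmH t.2, ?_⟩
  have h1 := subpairLE_conj hM hleG (m * (t : G))
  refine Relation.ReflTransGen.trans h1 ?_
  show Relation.ReflTransGen (NormalSubpairRel p M) (pairConj (m * (t : G)) ⟨D'', d''⟩) _
  rw [pairConj_mul]
  show Relation.ReflTransGen (NormalSubpairRel p M)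
    (pairConj m ⟨_, conjBlock D'' (t : G) d''⟩) _
  rw [hm]
  exact hgD

end CfsgLib.Blocks
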