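import Cfsg.Agent.Lib.Blocks.BlockFusionFC
import Cfsg.Agent.Lib.Blocks.StabIndex
import Cfsg.Agent.Lib.Blocks.SubgroupChain

/-!
The fusion system of a block: construction and saturation.
-/

namespace CfsgLib.Blocks

set_option linter.style.haveILetI false

open scoped ComplexConjugate
open Cfsg CfsgLib.Chars

universe u

variable {G : Type u} [Group G] [Fintype G] {p : ℕ} {M : Ideal AlgInt}
variable {B : Set (IrrCharacter G)} {P : Subgroup G}
variable {e : Set (IrrCharacter (Subgroup.centralizer (P : Set G)))}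

theorem pairs_eq_of_below (hM : IsPModular p M) (hPe : IsBrauerPair p M P e) {a b : BrauerPairIdx G}
    (ha : Relation.ReflTransGen (NormalSubpairRel p M) a (⟨P, e⟩ : BrauerPairIdx G))
    (hb : Relation.ReflTransGen (NormalSubpairRel p M) b (⟨P, e⟩ : BrauerPairIdx G))
    (h : a.1 = b.1) : a = b := by
  obtain ⟨Q, f⟩ := a
  obtain ⟨Q', f'⟩ := b
  obtain rfl : Q = Q' := h
  rw [subpair_below_unique hM hPe Q f f' ha hb]

theorem pairConj_mono (hM : IsPModular p M) {a b : BrauerPairIdx G}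
    (h : Relation.ReflTransGen (NormalSubpairRel p M) a b) (x : G) :
    Relation.ReflTransGen (NormalSubpairRel p M) (pairConj x a) (pairConj x b) := by
  obtain ⟨Q, f⟩ := a
  obtain ⟨P', e'⟩ := b
  exact subpairLE_conj hM h x

theorem pairConj_top (hM : IsPModular p M) (hPe : IsBrauerPair p M P e) {u : G} (hu : u ∈ P) :
    pairConj u (⟨P, e⟩ : BrauerPairIdx G) = ⟨P, e⟩ :=
  (mem_pairStab_iff hM hPe.2).mp (le_pairStab hM hPe.2 hu)

/-- The maps of the fusion system of a block. -/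
def blockHom (p : ℕ) (M : Ideal AlgInt) (P : Subgroup G)
    (e : Set (IrrCharacter (Subgroup.centralizer (P : Set G)))) (Q : Subgroup G) : Set (Q →* G) :=
  {φ | Q ≤ P ∧ ∃ g : G, (∀ u : Q, φ u = g * (u : G) * g⁻¹) ∧
    Q.map (MulAut.conj g).toMonoidHom ≤ P ∧
    ∃ f : Set (IrrCharacter (Subgroup.centralizer (Q : Set G))), SubpairLE p M Q f P e ∧
      SubpairLE p M (Q.map (MulAut.conj g).toMonoidHom) (conjBlock Q g f) P e}

/-- The fusion system of a block on a maximal pair. -/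
noncomputable def blockFusionSystem (hM : IsPModular p M) (hPe : IsBrauerPair p M P e) :
    FusionSystem P where
  Hom := blockHom p M P e
  le_of_mem := by
    rintro Q φ ⟨hQ, g, hg, hgP, -⟩
    exact ⟨hQ, fun x => hgP ⟨x, x.2, (hg x).symm⟩⟩
  injective_of_mem := by
    rintro Q φ ⟨-, g, hg, -⟩ a b hab
    rw [hg, hg] at hab
    exact Subtype.ext (mul_left_cancel (mul_right_cancel hab))
  conj_mem := by
    intro Q g hQ hg
    obtain ⟨f, hf⟩ := exists_subpair_below hM hPe Q hQ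
    have h : Relation.ReflTransGen (NormalSubpairRel p M) (pairConj g ⟨Q, f⟩)
        (⟨P, e⟩ : BrauerPairIdx G) := by
      have := pairConj_mono hM hf g
      rwa [pairConj_top hM hPe hg] at this
    exact ⟨hQ, g, fun u => rfl, SubpairLE.le h, f, hf, h⟩
  comp_mem := by
    rintro Q R φ ψ ⟨hQ, g, hg, -, f, hf, hf'⟩ ⟨-, k, hk, -, h, hh, hh'⟩ hsub
    have hle : Q.map (MulAut.conj g).toMonoidHom ≤ R := by
      rintro _ ⟨q, hq, rfl⟩
      have h1 := hsub ⟨q, hq⟩
      rw [hg] at h1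
      exact h1
    obtain ⟨h₀, hh₀⟩ := exists_subpair_below hM (SubpairLE.left_block hh hPe) _ hle
    have heq : (⟨_, h₀⟩ : BrauerPairIdx G) = pairConj g ⟨Q, f⟩ :=
      pairs_eq_of_below hM hPe (Relation.ReflTransGen.trans hh₀ hh) hf' rfl
    have hfin : Relation.ReflTransGen (NormalSubpairRel p M) (pairConj (k * g) ⟨Q, f⟩)
        (⟨P, e⟩ : BrauerPairIdx G) := by
      rw [pairConj_mul, ← heq]
      exact Relation.ReflTransGen.trans (pairConj_mono hM hh₀ k) hh'
    refine ⟨hQ, k * g, fun u => ?_, SubpairLE.le hfin, f, hf, hfin⟩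
    show ψ (φ.codRestrict R hsub u) = _
    rw [hk]
    show k * φ u * k⁻¹ = _
    rw [hg]
    group
  inv_mem := by
    rintro Q φ ⟨hQ, g, hg, hgP, f, hf, hf'⟩
    have hr : φ.range = Q.map (MulAut.conj g).toMonoidHom := by
      ext x
      constructor
      · rintro ⟨u, rfl⟩
        exact ⟨u, u.2, (hg u).symm⟩
      · rintro ⟨u, hu, rfl⟩
        exact ⟨⟨u, hu⟩, hg ⟨u, hu⟩⟩
    refine ⟨conjHom φ.range g⁻¹, ⟨hr.le.trans hgP, g⁻¹, fun u => rfl, ?_⟩, fun x => ?_⟩
    · rw [hr]
      have h : Relation.ReflTransGen (NormalSubpairRel p M)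
          (pairConj g⁻¹ (pairConj g ⟨Q, f⟩)) (⟨P, e⟩ : BrauerPairIdx G) := by
        rw [← pairConj_mul, inv_mul_cancel, pairConj_one]
        exact hf
      exact ⟨SubpairLE.le h, _, hf', h⟩
    · show g⁻¹ * φ x * g⁻¹⁻¹ = (x : G)
      rw [hg]
      group

theorem blockFusionSystem_spec (hM : IsPModular p M) (hmax : IsMaximalBrauerPair p M B P e) :
    IsBlockFusionSystemOn p M B P e (blockFusionSystem hM hmax.1.1) :=
  ⟨hmax, fun _ _ => Iff.rfl⟩

/-- A pair with a large stabilizer block is fully automized. -/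
theorem blockFusion_fullyAutomized (hM : IsPModular p M) {F : FusionSystem P}
    (hF : IsBlockFusionSystemOn p M B P e F) {R : Subgroup G}
    {fR : Set (IrrCharacter (Subgroup.centralizer (R : Set G)))} (hle : SubpairLE p M R fR P e)
    {T : Subgroup G} [Fintype T]
    (hT : ∀ y, y ∈ T ↔ y ∈ Subgroup.normalizer (R : Set G) ∧
      StabilizesBlock (Subgroup.centralizer (R : Set G)) fR y)
    {F' : Set (IrrCharacter T)} (hF' : IsPBlock M F')
    (hcoef : ∀ t : T,
      blockCoeff F' t = subgroupBlockCoeff (Subgroup.centralizer (R : Set G)) fR (t : G))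
    (hD : IsDefectGroup p M F' ((P ⊓ Subgroup.normalizer (R : Set G)).subgroupOf T)) :
    F.IsFullyAutomized p R := by
  classical
  haveI : Fact p.Prime := ⟨hM.1⟩
  have hPe := hF.1.1.1
  have hRP : R ≤ P := SubpairLE.le hle
  have hfR := (SubpairLE.left_block hle hPe).2
  have hTN : ∀ t : T, (t : G) ∈ Subgroup.normalizer (R : Set G) := fun t => ((hT t).mp t.2).1
  let ρ : T →* MulAut R :=
    { toFun := fun t =>
        { toFun := fun x => ⟨(t : G) * (x : G) * (t : G)⁻¹, (Subgroup.mem_normalizer_iff.mp (hTN t) x).mp x.2⟩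
          invFun := fun x => ⟨(t : G)⁻¹ * (x : G) * (t : G), by
            have := (Subgroup.mem_normalizer_iff.mp (inv_mem (hTN t)) x).mp x.2
            simpa using this⟩
          left_inv := fun x => Subtype.ext (by simp [mul_assoc])
          right_inv := fun x => Subtype.ext (by simp [mul_assoc])
          map_mul' := fun x y => Subtype.ext (by simp [mul_assoc]) }
      map_one' := by ext x; simp
      map_mul' := fun s t => by ext x; simp [mul_assoc] }
  have hmem_norm : ∀ (α : MulAut R) (g : G), (∀ x : R, ((α x : R) : G) = g * (x : G) * g⁻¹) →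
      g ∈ Subgroup.normalizer (R : Set G) := by
    intro α g h
    refine Subgroup.mem_normalizer_iff.mpr fun x => ⟨fun hx => h ⟨x, hx⟩ ▸ (α ⟨x, hx⟩).2, fun hx => ?_⟩
    have h1 := h (α.symm ⟨_, hx⟩)
    rw [MulEquiv.apply_symm_apply] at h1
    have h2 : x = ((α.symm ⟨_, hx⟩ : R) : G) := mul_left_cancel (mul_right_cancel h1)
    rw [h2]
    exact (α.symm ⟨_, hx⟩).2
  have hNT : ∀ g ∈ P, g ∈ Subgroup.normalizer (R : Set G) → g ∈ T := fun g hg hgN => by
    obtain ⟨gD, hgD⟩ := exists_subpair_below hM hPe _ (inf_le_left :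
      P ⊓ Subgroup.normalizer (R : Set G) ≤ P)
    have hN := normalSubpair_of_le hM hPe hle hgD (le_inf hRP Subgroup.le_normalizer) inf_le_right
    exact (hT g).mpr ⟨hgN, hN.2.2.2.2.1 g ⟨hg, hgN⟩⟩
  have hrange : F.autGroup R = ρ.range := by
    refine le_antisymm ((Subgroup.closure_le _).mpr fun α hα => ?_) ?_
    · obtain ⟨-, g, hg, -, f, hf, hf'⟩ := (hF.2 R _).mp hα
      obtain rfl := subpair_below_unique hM hPe R f fR hf hle
      have hgN := hmem_norm α g hg
      have hmap : R.map (MulAut.conj g).toMonoidHom = R := by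
        ext x
        constructor
        · rintro ⟨r, hr, rfl⟩
          exact (Subgroup.mem_normalizer_iff.mp hgN r).mp hr
        · intro hx
          refine ⟨g⁻¹ * x * g, ?_, by simp [mul_assoc]⟩
          have := (Subgroup.mem_normalizer_iff.mp (inv_mem hgN) x).mp hx
          simpa using this
      have hgT : g ∈ T := (hT g).mpr ⟨hgN, ((mem_pairStab_iff hM hfR).mpr
        (pairs_eq_of_below hM hPe hf' hle hmap)).2⟩
      exact ⟨⟨g, hgT⟩, MulEquiv.ext fun x => Subtype.ext (hg x).symm⟩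
    · rintro _ ⟨t, rfl⟩
      refine Subgroup.subset_closure ((hF.2 R _).mpr ⟨hRP, (t : G), fun u => rfl, ?_, fR, hle, ?_⟩)
      · rintro _ ⟨r, hr, rfl⟩
        exact hRP ((Subgroup.mem_normalizer_iff.mp (hTN t) r).mp hr)
      · have h := (mem_pairStab_iff hM hfR).mp (⟨hTN t, ((hT t).mp t.2).2⟩ : (t : G) ∈ pairStab hM hfR)
        show Relation.ReflTransGen (NormalSubpairRel p M) (pairConj (t : G) ⟨R, fR⟩)
          (⟨P, e⟩ : BrauerPairIdx G)
        rw [h]
        exact hle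
  set D' := (P ⊓ Subgroup.normalizer (R : Set G)).subgroupOf T with hD'
  have hind : autInducedBy P R = D'.map ρ := by
    refine le_antisymm ((Subgroup.closure_le _).mpr ?_) ?_
    · rintro α ⟨g, hg, h⟩
      have hgN := hmem_norm α g h
      exact ⟨⟨g, hNT g hg hgN⟩, ⟨hg, hgN⟩, MulEquiv.ext fun x => Subtype.ext (h x).symm⟩
    · rintro _ ⟨t, ht, rfl⟩
      exact Subgroup.subset_closure ⟨(t : G), ht.1, fun x => rfl⟩
  have hleA : D'.map ρ ≤ F.autGroup R := hrange ▸ fun α ⟨t, _, h⟩ => ⟨t, h⟩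
  have hp' : IsPGroup p ((D'.map ρ).subgroupOf (F.autGroup R)) :=
    ((defectGroup_isPGroup hD).map ρ).of_equiv (Subgroup.subgroupOfEquivOfLe hleA).symm
  have hidx : ¬ p ∣ ((D'.map ρ).subgroupOf (F.autGroup R)).index := by
    intro h
    change p ∣ (D'.map ρ).relIndex (F.autGroup R) at h
    rw [hrange, MonoidHom.range_eq_map, Subgroup.relIndex_map_map, top_sup_eq,
      Subgroup.relIndex_top_right] at h
    refine stab_index_not_dvd hM hfR
      (fun y hy => (hT y).mpr (centralizer_le_pairStab hM hfR hy)) (fun y hy => ((hT y).mp hy).1)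
      (fun y hy => ((hT y).mp hy).2) hF' hcoef hD (h.trans (Subgroup.index_dvd_of_le ?_))
    refine sup_le le_sup_left (le_trans ?_ le_sup_right)
    intro t ht
    refine MulEquiv.ext fun x => Subtype.ext ?_
    show (t : G) * (x : G) * (t : G)⁻¹ = x
    rw [← Subgroup.mem_centralizer_iff.mp (Subgroup.mem_subgroupOf.mp ht : (t : G) ∈ _) (x : G) x.2,
      mul_inv_cancel_right]
  exact ⟨hRP, hp'.toSylow hidx, by rw [hind]; rfl⟩

/-- A pair with a large stabilizer block is receptive. -/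
theorem blockFusion_receptive (hM : IsPModular p M) {F : FusionSystem P}
    (hF : IsBlockFusionSystemOn p M B P e F) {R : Subgroup G}
    {fR : Set (IrrCharacter (Subgroup.centralizer (R : Set G)))} (hle : SubpairLE p M R fR P e)
    {T : Subgroup G} [Fintype T]
    (hT : ∀ y, y ∈ T ↔ y ∈ Subgroup.normalizer (R : Set G) ∧
      StabilizesBlock (Subgroup.centralizer (R : Set G)) fR y)
    {F' : Set (IrrCharacter T)} (hF' : IsPBlock M F')
    (hcoef : ∀ t : T,
      blockCoeff F' t = subgroupBlockCoeff (Subgroup.centralizer (R : Set G)) fR (t : G))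
    (hD : IsDefectGroup p M F' ((P ⊓ Subgroup.normalizer (R : Set G)).subgroupOf T)) :
    F.IsReceptive R := by
  classical
  haveI : Fact p.Prime := ⟨hM.1⟩
  have hPe := hF.1.1.1
  have hRP : R ≤ P := SubpairLE.le hle
  obtain ⟨hRp, hfR⟩ := SubpairLE.left_block hle hPe
  refine ⟨hRP, fun A φ hφ hrg => ?_⟩
  obtain ⟨hAP, g, hg, -, a, ha, ha'⟩ := (hF.2 A φ).mp hφ
  have hmap : A.map (MulAut.conj g).toMonoidHom = R := by
    rw [← hrg]
    ext x
    constructor
    · rintro ⟨r, hr, rfl⟩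
      exact ⟨⟨r, hr⟩, hg ⟨r, hr⟩⟩
    · rintro ⟨r, rfl⟩
      exact ⟨r, r.2, (hg r).symm⟩
  have hpair : pairConj g (⟨A, a⟩ : BrauerPairIdx G) = ⟨R, fR⟩ :=
    pairs_eq_of_below hM hPe ha' hle hmap
  set N := FusionSystem.extender P A φ with hN
  set D := P ⊓ Subgroup.normalizer (R : Set G) with hDdef
  have hgens : ∀ z, (z ∈ P ∧ z ∈ Subgroup.normalizer (A : Set G) ∧
      ∃ h ∈ P, ∀ (x : A) (hx : z * (x : G) * z⁻¹ ∈ A), φ ⟨z * x * z⁻¹, hx⟩ = h * φ x * h⁻¹) →
      g * z * g⁻¹ ∈ D ⊔ (Subgroup.centralizer (R : Set G)) := by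
    rintro z ⟨hzP, hzN, h, hhP, hh⟩
    have hzR : ∀ r ∈ R, g * z * g⁻¹ * r * (g * z * g⁻¹)⁻¹ = h * r * h⁻¹ := by
      intro r hr
      rw [← hmap] at hr
      obtain ⟨x, hx, rfl⟩ := hr
      have h1 := hh ⟨x, hx⟩ ((Subgroup.mem_normalizer_iff.mp hzN x).mp hx)
      rw [hg, hg] at h1
      show g * z * g⁻¹ * (g * x * g⁻¹) * (g * z * g⁻¹)⁻¹ = h * (g * x * g⁻¹) * h⁻¹
      rw [← h1]
      group
    have hzNR : g * z * g⁻¹ ∈ Subgroup.normalizer (R : Set G) := by
      refine Subgroup.mem_normalizer_iff.mpr fun r => ?_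
      have key : ∀ y, g * y * g⁻¹ ∈ R ↔ y ∈ A := fun y => by
        rw [← hmap]
        exact ⟨fun ⟨q, hq, e⟩ => (MulAut.conj g).injective e ▸ hq, fun hy => ⟨y, hy, rfl⟩⟩
      rw [show r = g * (g⁻¹ * r * g) * g⁻¹ by group, key,
        show g * z * g⁻¹ * (g * (g⁻¹ * r * g) * g⁻¹) * (g * z * g⁻¹)⁻¹ =
          g * (z * (g⁻¹ * r * g) * z⁻¹) * g⁻¹ by group, key]
      exact Subgroup.mem_normalizer_iff.mp hzN _
    have hc : (g * z * g⁻¹)⁻¹ * h ∈ (Subgroup.centralizer (R : Set G)) := by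
      refine Subgroup.mem_centralizer_iff.mpr fun r hr => ?_
      calc r * ((g * z * g⁻¹)⁻¹ * h)
          = (g * z * g⁻¹)⁻¹ * (g * z * g⁻¹ * r * (g * z * g⁻¹)⁻¹) * h := by group
        _ = (g * z * g⁻¹)⁻¹ * (h * r * h⁻¹) * h := by rw [hzR r hr]
        _ = _ := by group
    have hhN : h ∈ Subgroup.normalizer (R : Set G) := by
      have := mul_mem hzNR (Subgroup.centralizer_le_normalizer (R : Set G) hc)
      rwa [mul_inv_cancel_left] at this
    have h1 : h * ((g * z * g⁻¹)⁻¹ * h)⁻¹ ∈ D ⊔ (Subgroup.centralizer (R : Set G)) := mul_mem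
      ((le_sup_left : D ≤ D ⊔ (Subgroup.centralizer (R : Set G))) ⟨hhP, hhN⟩) ((le_sup_right : (Subgroup.centralizer (R : Set G)) ≤ D ⊔ (Subgroup.centralizer (R : Set G))) (inv_mem hc))
    simpa [mul_assoc] using h1
  have hAN : A ≤ N := fun x hx => by
    refine Subgroup.subset_closure ⟨hAP hx, Subgroup.le_normalizer hx, φ ⟨x, hx⟩,
      hRP (hrg ▸ ⟨_, rfl⟩), fun y hy => ?_⟩
    show φ (⟨x, hx⟩ * y * ⟨x, hx⟩⁻¹) = _
    rw [map_mul, map_mul, map_inv]
  have hNP : N ≤ P ⊓ Subgroup.normalizer (A : Set G) :=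
    (Subgroup.closure_le _).mpr fun z hz => ⟨hz.1, hz.2.1⟩
  obtain ⟨gN, hgN⟩ := exists_subpair_below hM hPe N (hNP.trans inf_le_left)
  have hnorm := normalSubpair_of_le hM hPe ha hgN hAN (hNP.trans inf_le_right)
  have hnorm1 : NormalSubpairRel p M (pairConj g ⟨A, a⟩) (pairConj g ⟨N, gN⟩) :=
    isNormalSubpair_conj hM hnorm g
  rw [hpair] at hnorm1
  have hnorm' : IsNormalSubpair p M R fR (N.map (MulAut.conj g).toMonoidHom) (conjBlock N g gN) :=
    hnorm1
  have hNH : N.map (MulAut.conj g).toMonoidHom ≤ D ⊔ (Subgroup.centralizer (R : Set G)) :=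
    Subgroup.map_le_iff_le_comap.mpr ((Subgroup.closure_le _).mpr fun z hz => hgens z hz)
  -- the block of `D (Subgroup.centralizer (R : Set G))(R)`
  obtain ⟨gD, hgD⟩ := exists_subpair_below hM hPe D inf_le_left
  have hRD : R ≤ D := le_inf hRP Subgroup.le_normalizer
  have hDN := normalSubpair_of_le hM hPe hle hgD hRD inf_le_right
  have hDT : D ≤ T := fun z hz => (hT z).mpr ⟨hz.2, hDN.2.2.2.2.1 z hz⟩
  have hCT : (Subgroup.centralizer (R : Set G)) ≤ T := fun z hz => (hT z).mpr (centralizer_le_pairStab hM hfR hz)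
  have hHT : D ⊔ (Subgroup.centralizer (R : Set G)) ≤ T := sup_le hDT hCT
  have hHN : D ⊔ (Subgroup.centralizer (R : Set G)) ≤ Subgroup.normalizer (R : Set G) := fun z hz => ((hT z).mp (hHT hz)).1
  have hst : ∀ z ∈ D ⊔ (Subgroup.centralizer (R : Set G)), StabilizesBlock (Subgroup.centralizer (R : Set G)) fR z := fun z hz => ((hT z).mp (hHT hz)).2
  haveI : Fintype (D ⊔ (Subgroup.centralizer (R : Set G)) : Subgroup G) := Fintype.ofFinite _
  obtain ⟨FH, hFH, hcoefH⟩ := exists_stab_block hM hRp hfR (hRD.trans le_sup_left)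
    (le_sup_right : (Subgroup.centralizer (R : Set G)) ≤ D ⊔ (Subgroup.centralizer (R : Set G))) hHN hst
  obtain ⟨z, hzC, hz⟩ := exists_unit_of_normalSubpair hM hDN
  have hzK : z ∈ (Subgroup.centralizer (R : Set G)) := Subgroup.centralizer_le hRD hzC
  obtain ⟨D₁, hD₁, hge⟩ := exists_defect_ge hM hFH
    (S := D.subgroupOf (D ⊔ (Subgroup.centralizer (R : Set G)))) ((hPe.1.to_le inf_le_left).of_equiv
      (Subgroup.subgroupOfEquivOfLe le_sup_left).symm)
    (z := ⟨z, (le_sup_right : (Subgroup.centralizer (R : Set G)) ≤ D ⊔ (Subgroup.centralizer (R : Set G))) hzK⟩)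
    (Subgroup.mem_centralizer_iff.mpr fun s hs =>
      Subtype.ext (Subgroup.mem_centralizer_iff.mp hzC (s : G) hs))
    (by rw [hcoefH]; exact hz)
  have hFD : IsDefectGroup p M FH (D.subgroupOf (D ⊔ (Subgroup.centralizer (R : Set G)))) := by
    obtain ⟨c, hc, S, hS⟩ := id hD₁
    have hcD : ∀ d ∈ D₁, d * c = c * d := fun d hd =>
      Subgroup.mem_centralizer_singleton_iff.mp ((hS ▸ Subgroup.map_subtype_le _ : D₁ ≤ _) hd)
    obtain ⟨x, hx⟩ := pGroup_le_defectGroup hM hF' hD (h := Subgroup.inclusion hHT c)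
      (by rw [hcoef]; exact fun h => hc.2.1 (by rw [hcoefH]; exact h))
      ((defectGroup_isPGroup hD₁).map (Subgroup.inclusion hHT))
      (by
        rintro _ ⟨d, hd, rfl⟩
        exact Subgroup.mem_centralizer_singleton_iff.mpr (Subtype.ext
          (congrArg Subtype.val (hcD d hd) : _)))
    have hcard := Subgroup.card_le_of_le hx
    rw [Subgroup.card_map_of_injective (MulEquiv.injective _),
      Subgroup.card_map_of_injective (Subgroup.inclusion_injective _),
      Nat.card_congr (Subgroup.subgroupOfEquivOfLe hDT).toEquiv] at hcard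
    rwa [Subgroup.eq_of_le_of_card_ge hge
      (by rw [Nat.card_congr (Subgroup.subgroupOfEquivOfLe le_sup_left).toEquiv]; exact hcard)]
  obtain ⟨t, ht, hle'⟩ := exists_conj_le_in_stab hM hPe hle (le_sup_right : (Subgroup.centralizer (R : Set G)) ≤ D ⊔ (Subgroup.centralizer (R : Set G))) hHN hst
    inf_le_left hRD le_sup_left hFH hcoefH hFD hnorm' hNH
  rw [← SetLike.mem_coe, Subgroup.coe_mul_of_left_le_normalizer_right D (Subgroup.centralizer (R : Set G))
    (fun y hy => mem_normalizer_centralizer hy.2)] at ht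
  obtain ⟨d, hd, c, hc, hdc⟩ := ht
  have hdc' : d * c = t := hdc
  have h1 : Relation.ReflTransGen (NormalSubpairRel p M) (pairConj t (pairConj g ⟨N, gN⟩))
      (⟨P, e⟩ : BrauerPairIdx G) := hle'
  have h2 := pairConj_mono hM h1 d⁻¹
  rw [pairConj_top hM hPe (inv_mem hd.1), ← pairConj_mul, ← pairConj_mul,
    show d⁻¹ * t * g = c * g by rw [← hdc', inv_mul_cancel_left]] at h2
  refine ⟨conjHom N (c * g), (hF.2 N _).mpr
    ⟨hNP.trans inf_le_left, c * g, fun u => rfl, SubpairLE.le h2, gN, hgN, h2⟩, fun x hxA hxN => ?_⟩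
  show c * g * x * (c * g)⁻¹ = φ ⟨x, hxA⟩
  rw [hg]
  have h3 : g * x * g⁻¹ * c = c * (g * x * g⁻¹) :=
    Subgroup.mem_centralizer_iff.mp hc _ (hmap ▸ ⟨x, hxA, rfl⟩)
  calc c * g * x * (c * g)⁻¹ = c * (g * x * g⁻¹) * c⁻¹ := by group
    _ = _ := by rw [← h3, mul_inv_cancel_right]

/-- The fusion system of a block is saturated. -/
theorem blockFusion_saturated (hM : IsPModular p M) {F : FusionSystem P}
    (hF : IsBlockFusionSystemOn p M B P e F) : F.IsSaturated p := by
  classical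
  intro A hAP
  have hPe := hF.1.1.1
  obtain ⟨a, ha⟩ := exists_subpair_below hM hPe A hAP
  obtain ⟨hAp, hfa⟩ := SubpairLE.left_block ha hPe
  haveI : Fintype (pairStab hM hfa) := Fintype.ofFinite _
  obtain ⟨F₀, hF₀, hcoef₀⟩ := exists_stab_block hM hAp hfa (le_pairStab hM hfa)
    (centralizer_le_pairStab hM hfa) (fun y hy => hy.1) (fun y hy => hy.2)
  obtain ⟨x, hx, hfn⟩ := exists_fullyNormalized hM hF.1
    ((brauerPairOf_iff_le hM ha hF.1.1.2.1).mp hF.1.1) (T := pairStab hM hfa) (fun y => Iff.rfl)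
    hF₀ hcoef₀
  have hf' := (SubpairLE.left_block hx hPe).2
  obtain ⟨F', hF', hcoef', hD⟩ := hfn (pairStab hM hf') (fun y => Iff.rfl)
  haveI : Fintype (pairStab hM hf') := Fintype.ofFinite _
  exact ⟨_, (blockFusion_isConj_iff hM hF hAP ha _).mpr ⟨x, rfl, hx⟩,
    blockFusion_fullyAutomized hM hF hx (fun y => Iff.rfl) hF' hcoef' hD,
    blockFusion_receptive hM hF hx (fun y => Iff.rfl) hF' hcoef' hD⟩

end CfsgLib.Blocks
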