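import Cfsg.Agent.Lib.Blocks.PrincipalOrth
import Cfsg.Agent.Lib.Blocks.PrincipalSection
import Cfsg.Agent.Lib.Blocks.PPart

/-!
Principal block columns at `p`-elements whose centralizers have normal `p`-complements.
-/

set_option linter.style.haveILetI false

namespace CfsgLib.Blocks.CS

open scoped ComplexConjugate
open Cfsg CfsgLib.Chars

universe u

variable {G : Type u} [Group G] [Fintype G] {p : ℕ} {M : Ideal AlgInt} {x : G} {k : ℕ}

/-- The `p`-regular elements are those of the core. -/
theorem mem_core_iff (hp : p.Prime)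
    (hidx : ∃ j : ℕ, (pPrimeCore p (Subgroup.centralizer ({x} : Set G))).index = p ^ j)
    (a : Subgroup.centralizer ({x} : Set G)) :
    a ∈ pPrimeCore p (Subgroup.centralizer ({x} : Set G)) ↔ ¬ p ∣ orderOf a := by
  obtain ⟨j, hj⟩ := hidx
  set O := pPrimeCore p (Subgroup.centralizer ({x} : Set G))
  haveI hOn : O.Normal := by
    haveI := Core.pPrimeCore_characteristic (G := Subgroup.centralizer ({x} : Set G)) p
    infer_instance
  have hOcop : (Nat.card O).Coprime p := Core.card_pPrimeCore_coprime p
  constructor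
  · intro ha h
    refine (Nat.Prime.coprime_iff_not_dvd hp).mp hOcop.symm (h.trans ?_)
    rw [← Subgroup.orderOf_mk a ha]
    exact orderOf_dvd_natCard _
  · intro ha
    have h1 : orderOf (QuotientGroup.mk' O a) ∣ p ^ j := by
      rw [← hj, Subgroup.index_eq_card]; exact orderOf_dvd_natCard _
    have h2 : orderOf (QuotientGroup.mk' O a) ∣ orderOf a := orderOf_map_dvd _ a
    exact (QuotientGroup.eq_one_iff a).mp (orderOf_eq_one_iff.mp
      (Nat.eq_one_of_dvd_coprimes
        (Nat.Coprime.pow_left j ((Nat.Prime.coprime_iff_not_dvd hp).mpr ha)) h1 h2))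

/-- Constancy on a section. -/
theorem value_const (hM : IsPModular p M) (hx : orderOf x = p ^ k)
    (hidx : ∃ j : ℕ, (pPrimeCore p (Subgroup.centralizer ({x} : Set G))).index = p ^ j)
    {χ : IrrCharacter G} (hχ : χ ∈ principalBlock M G) {y : G} (hy : Commute y x)
    (hyr : ¬ p ∣ orderOf y) : (χ : G → ℂ) (x * y) = (χ : G → ℂ) x := by
  haveI : (pPrimeCore p (Subgroup.centralizer ({x} : Set G))).Normal := by
    haveI := Core.pPrimeCore_characteristic (G := Subgroup.centralizer ({x} : Set G)) p
    infer_instance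
  exact principal_const_on_core hM hx (pPrimeCore p (Subgroup.centralizer ({x} : Set G)))
    (Core.card_pPrimeCore_coprime p) (v := ⟨y, Subgroup.mem_centralizer_singleton_iff.mpr hy.eq⟩)
    ((mem_core_iff hM.1 hidx _).mpr (by rwa [← Subgroup.orderOf_coe])) hχ

/-- The column has square sum the `p`-part of the centralizer. -/
theorem col_sq (hM : IsPModular p M) (hx : orderOf x = p ^ k)
    (hidx : ∃ j : ℕ, (pPrimeCore p (Subgroup.centralizer ({x} : Set G))).index = p ^ j)
    [DecidablePred (· ∈ principalBlock M G)] :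
    ∑ χ ∈ Finset.univ.filter (· ∈ principalBlock M G), (χ : G → ℂ) x * conj ((χ : G → ℂ) x) =
      ((p ^ (Nat.card (Subgroup.centralizer ({x} : Set G))).factorization p : ℕ) : ℂ) := by
  classical
  haveI : Fintype (Subgroup.centralizer ({x} : Set G)) := Fintype.ofFinite _
  have h1 := principal_sec_sq (C := Subgroup.centralizer ({x} : Set G)) hM hx
    (fun g => Subgroup.mem_centralizer_singleton_iff)
    (y := (1 : Subgroup.centralizer ({x} : Set G))) (not_dvd_orderOf_one hM)
  rw [principal_sum_sq_of_complement hM hidx (not_dvd_orderOf_one hM)] at h1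
  simpa only [OneMemClass.coe_one, mul_one] using h1

open Classical in
/-- Characters outside the principal block sum to zero over `x O`. -/
theorem core_sum (hM : IsPModular p M) (hx : orderOf x = p ^ k)
    (hidx : ∃ j : ℕ, (pPrimeCore p (Subgroup.centralizer ({x} : Set G))).index = p ^ j)
    [Fintype (Subgroup.centralizer ({x} : Set G))] (χ : IrrCharacter G) :
    ∑ o ∈ Finset.univ.filter (· ∈ pPrimeCore p (Subgroup.centralizer ({x} : Set G))),
        (χ : G → ℂ) (x * (o : G)) =
      if χ ∈ principalBlock M G then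
        (Nat.card (pPrimeCore p (Subgroup.centralizer ({x} : Set G))) : ℂ) * (χ : G → ℂ) x
      else 0 := by
  have hC : ∀ g : G, g ∈ Subgroup.centralizer ({x} : Set G) ↔ Commute g x := fun g =>
    Subgroup.mem_centralizer_singleton_iff
  haveI hn : (pPrimeCore p (Subgroup.centralizer ({x} : Set G))).Normal := by
    haveI := Core.pPrimeCore_characteristic (G := Subgroup.centralizer ({x} : Set G)) p
    infer_instance
  obtain ⟨j, hj⟩ := id hidx
  have hcard := (pPrimeCore p (Subgroup.centralizer ({x} : Set G))).card_mul_index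
  rw [hj] at hcard
  set O := Finset.univ.filter (· ∈ pPrimeCore p (Subgroup.centralizer ({x} : Set G))) with hO
  have hOcard : (O.card : ℂ) = (Nat.card (pPrimeCore p (Subgroup.centralizer ({x} : Set G))) : ℂ) := by
    rw [hO, ← Fintype.card_subtype, ← Nat.card_eq_fintype_card]
  have hj' : (Nat.card (Subgroup.centralizer ({x} : Set G))).factorization p = j := by
    rw [← hcard, Nat.factorization_mul Nat.card_pos.ne' (pow_ne_zero _ hM.1.ne_zero),
      Finsupp.add_apply, hM.1.factorization_pow, Finsupp.single_eq_same,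
      Nat.factorization_eq_zero_of_not_dvd ((Nat.Prime.coprime_iff_not_dvd hM.1).mp
        (Core.card_pPrimeCore_coprime (G := Subgroup.centralizer ({x} : Set G)) p).symm), zero_add]
  have hreg : ∀ o ∈ O, ¬ p ∣ orderOf o := fun o ho =>
    (mem_core_iff hM.1 hidx o).mp (Finset.mem_filter.mp ho).2
  have hval : ∀ ψ ∈ principalBlock M G,
      ∑ o ∈ O, (ψ : G → ℂ) (x * (o : G)) = (O.card : ℂ) * (ψ : G → ℂ) x := by
    intro ψ hψ
    rw [Finset.sum_congr rfl (g := fun _ => (ψ : G → ℂ) x) fun o ho => ?_, Finset.sum_const,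
      nsmul_eq_mul]
    exact value_const hM hx hidx hψ ((hC _).mp o.2) (by rw [Subgroup.orderOf_coe]; exact hreg o ho)
  set T : IrrCharacter G → ℂ := fun ψ => ∑ o ∈ O, (ψ : G → ℂ) (x * (o : G)) with hT
  have htot : ∑ ψ : IrrCharacter G, T ψ * conj (T ψ) =
      (O.card : ℂ) * (Nat.card (Subgroup.centralizer ({x} : Set G)) : ℂ) := by
    simp only [hT, map_sum, Finset.sum_mul_sum]
    rw [Finset.sum_comm, Finset.sum_congr rfl
      (g := fun _ => (Nat.card (Subgroup.centralizer ({x} : Set G)) : ℂ)) fun o ho => ?_,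
      Finset.sum_const, nsmul_eq_mul]
    rw [Finset.sum_comm, Finset.sum_congr rfl fun o' ho' =>
      sec_col_orth hM.1 hx hC (hreg o ho) (hreg o' ho')]
    rw [Finset.sum_subset (Finset.subset_univ O) (fun c _ hc => ?_), Finset.sum_comm,
      Finset.sum_eq_single (trivIrr (Subgroup.centralizer ({x} : Set G)))]
    · simp [trivIrr, Nat.card_eq_fintype_card]
    · intro φ _ hφ
      have h := sum_mul_conj_irr (trivIrr (Subgroup.centralizer ({x} : Set G))) φ
      rw [if_neg (Ne.symm hφ)] at h
      simp only [trivIrr, one_mul] at h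
      rw [← Finset.mul_sum, h, mul_zero]
    · simp
    · rw [col_orth, if_neg]
      intro hcon
      obtain ⟨d, hd⟩ := isConj_iff.mp hcon.symm
      refine hc (Finset.mem_filter.mpr ⟨Finset.mem_univ _, ?_⟩)
      rw [← hd]
      exact Subgroup.Normal.conj_mem hn _ (Finset.mem_filter.mp ho).2 d
  have hblock : ∑ ψ ∈ Finset.univ.filter (· ∈ principalBlock M G), T ψ * conj (T ψ) =
      (O.card : ℂ) * (Nat.card (Subgroup.centralizer ({x} : Set G)) : ℂ) := by
    rw [Finset.sum_congr rfl (g := fun ψ : IrrCharacter G => (O.card : ℂ) * (O.card : ℂ) *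
      ((ψ : G → ℂ) x * conj ((ψ : G → ℂ) x))) fun ψ hψ => ?_, ← Finset.mul_sum,
      col_sq hM hx hidx, hj', ← hcard, Nat.cast_mul, ← hOcard]
    · ring
    · rw [show T ψ = _ from hval ψ (Finset.mem_filter.mp hψ).2, map_mul, Complex.conj_natCast]
      ring
  have hrest : ∀ ψ : IrrCharacter G, ψ ∉ principalBlock M G → T ψ = 0 := by
    intro ψ hψ
    have h := Finset.sum_filter_add_sum_filter_not Finset.univ (· ∈ principalBlock M G)
      (fun ψ : IrrCharacter G => T ψ * conj (T ψ))
    rw [htot, hblock, add_eq_left] at h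
    simp only [Complex.mul_conj, ← Complex.ofReal_sum, Complex.ofReal_eq_zero] at h
    rw [Finset.sum_eq_zero_iff_of_nonneg (fun _ _ => Complex.normSq_nonneg _)] at h
    exact Complex.normSq_eq_zero.mp (h ψ (Finset.mem_filter.mpr ⟨Finset.mem_univ _, hψ⟩))
  split_ifs with h
  · rw [← hOcard]; exact hval χ h
  · exact hrest χ h

/-- Columns of non-conjugate `p`-elements are orthogonal within the principal block. -/
theorem col_cross (hM : IsPModular p M) (hx : orderOf x = p ^ k)
    (hidx : ∃ j : ℕ, (pPrimeCore p (Subgroup.centralizer ({x} : Set G))).index = p ^ j)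
    [DecidablePred (· ∈ principalBlock M G)] {x' : G} {k' : ℕ} (hx' : orderOf x' = p ^ k')
    (hne : ¬ IsConj x' x) :
    ∑ χ ∈ Finset.univ.filter (· ∈ principalBlock M G),
      (χ : G → ℂ) x * conj ((χ : G → ℂ) x') = 0 := by
  classical
  haveI : Fintype (Subgroup.centralizer ({x} : Set G)) := Fintype.ofFinite _
  have h0 : ∑ χ : IrrCharacter G,
      (∑ o ∈ Finset.univ.filter (· ∈ pPrimeCore p (Subgroup.centralizer ({x} : Set G))),
        (χ : G → ℂ) (x * (o : G))) * conj ((χ : G → ℂ) x') = 0 := by
    simp only [Finset.sum_mul]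
    rw [Finset.sum_comm]
    refine Finset.sum_eq_zero fun o ho => ?_
    rw [col_orth, if_neg]
    intro hcon
    have hor := (mem_core_iff hM.1 hidx o).mp (Finset.mem_filter.mp ho).2
    have h1 : IsPPart p (x * (o : G)) x :=
      ⟨(o : G), rfl, (Subgroup.mem_centralizer_singleton_iff.mp o.2).symm, ⟨k, hx⟩,
        by rwa [Subgroup.orderOf_coe]⟩
    have h2 : IsPPart p x' x' :=
      ⟨1, mul_one _, Commute.one_right _, ⟨k', hx'⟩, not_dvd_orderOf_one hM⟩
    exact hne (isConj_pPart hM.1 h2 h1 hcon)
  simp only [core_sum hM hx hidx, ite_mul, zero_mul] at h0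
  rw [← Finset.sum_filter] at h0
  simp only [mul_assoc, ← Finset.mul_sum] at h0
  exact (mul_eq_zero.mp h0).resolve_left (natCast_card_ne_zero _)

end CfsgLib.Blocks.CS
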