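import Mathlib.Algebra.Order.BigOperators.Group.Finset
import Mathlib.Data.Fintype.BigOperators
import Mathlib.Algebra.BigOperators.Ring.Finset
import Mathlib.Tactic

/-!
Integral vectors with the inner products of a coherent family.
-/

namespace CfsgLib.Blocks.CV

variable {β ι : Type*} [Fintype β] [DecidableEq β] [Fintype ι] [DecidableEq ι]

/-- The unit vector. -/
def unit (a : β) : β → ℤ := fun b => if b = a then 1 else 0

theorem sum_unit_mul (a : β) (f : β → ℤ) : ∑ b, unit a b * f b = f a := by
  simp [unit]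

theorem unit_self (a : β) : unit a a = 1 := if_pos rfl

theorem unit_ne {a b : β} (h : b ≠ a) : unit a b = 0 := if_neg h

/-- A vector of norm two orthogonal to a positive vector is a difference of two units. -/
theorem norm_two {D d : β → ℤ} (hd : ∀ b, 0 < d b) (h2 : ∑ b, D b * D b = 2)
    (h0 : ∑ b, d b * D b = 0) : ∃ P Q, P ≠ Q ∧ ∀ b, D b = unit P b - unit Q b := by
  classical
  have hle : ∀ b, D b * D b ≤ 2 := fun b =>
    h2 ▸ Finset.single_le_sum (f := fun b => D b * D b) (fun i _ => mul_self_nonneg _) (Finset.mem_univ b)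
  have h01 : ∀ b, D b = -1 ∨ D b = 0 ∨ D b = 1 := fun b => by
    have := hle b
    have h1 : -1 ≤ D b := by nlinarith
    have h1' : D b ≤ 1 := by nlinarith
    omega
  set S := Finset.univ.filter (fun b => D b ≠ 0) with hS
  have hsq : ∀ b, D b * D b = if b ∈ S then 1 else 0 := fun b => by
    rcases h01 b with h | h | h <;> simp [hS, h]
  have hcard : S.card = 2 := by
    have : (S.card : ℤ) = 2 := by
      rw [← h2]
      simp only [hsq, Finset.sum_ite_mem, Finset.univ_inter, Finset.sum_const, nsmul_eq_mul, mul_one]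
    exact_mod_cast this
  obtain ⟨a, b, hab, hSab⟩ := Finset.card_eq_two.mp hcard
  have hout : ∀ c, c ≠ a → c ≠ b → D c = 0 := fun c ha hb => by
    by_contra h
    have : c ∈ ({a, b} : Finset β) := hSab ▸ Finset.mem_filter.mpr ⟨Finset.mem_univ _, h⟩
    simp [ha, hb] at this
  have hsum : d a * D a + d b * D b = 0 := by
    rw [← h0, ← Finset.sum_subset (Finset.subset_univ ({a, b} : Finset β)) fun c _ hc => ?_,
      Finset.sum_pair hab]
    simp only [Finset.mem_insert, Finset.mem_singleton, not_or] at hc
    rw [hout c hc.1 hc.2, mul_zero]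
  have ha0 : D a ≠ 0 := (Finset.mem_filter.mp (hSab.symm ▸ Finset.mem_insert_self a {b} : a ∈ S)).2
  have hb0 : D b ≠ 0 :=
    (Finset.mem_filter.mp (hSab.symm ▸ Finset.mem_insert_of_mem (Finset.mem_singleton_self b) : b ∈ S)).2
  have := hd a
  have := hd b
  rcases (h01 a) with h | h | h
  · refine ⟨b, a, hab.symm, fun c => ?_⟩
    have hb1 : D b = 1 := by
      rcases h01 b with h' | h' | h' <;> first | exact h' | exact absurd h' hb0 | (exfalso; rw [h, h'] at hsum; linarith)
    by_cases hca : c = a
    · subst hca; rw [h, unit_self, unit_ne hab]; norm_num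
    by_cases hcb : c = b
    · subst hcb; rw [hb1, unit_self, unit_ne hca]; norm_num
    rw [hout c hca hcb, unit_ne hcb, unit_ne hca]; norm_num
  · exact absurd h ha0
  · refine ⟨a, b, hab, fun c => ?_⟩
    have hb1 : D b = -1 := by
      rcases h01 b with h' | h' | h' <;> first | exact h' | exact absurd h' hb0 | (exfalso; rw [h, h'] at hsum; linarith)
    by_cases hca : c = a
    · subst hca; rw [h, unit_self, unit_ne hab]; norm_num
    by_cases hcb : c = b
    · subst hcb; rw [hb1, unit_self, unit_ne hca]; norm_num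
    rw [hout c hca hcb, unit_ne hcb, unit_ne hca]; norm_num

/-- The inner product of two differences of units. -/
theorem sum_diff_mul (P Q R S : β) :
    ∑ b, (unit P b - unit Q b) * (unit R b - unit S b) =
      unit R P - unit S P - unit R Q + unit S Q := by
  simp only [sub_mul, Finset.sum_sub_distrib, sum_unit_mul]
  ring

/-- Shared positive or shared negative entry. -/
theorem share {P Q R S : β} (hPQ : P ≠ Q) (hRS : R ≠ S)
    (h : ∑ b, (unit P b - unit Q b) * (unit R b - unit S b) = 1) :
    (P = R ∧ Q ≠ S) ∨ (P ≠ R ∧ Q = S) := by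
  rw [sum_diff_mul] at h
  by_cases h1 : P = R
  · refine Or.inl ⟨h1, fun h2 => ?_⟩
    subst h1; subst h2
    rw [unit_self, unit_self, unit_ne hPQ, unit_ne hPQ.symm] at h
    norm_num at h
  · refine Or.inr ⟨h1, ?_⟩
    by_contra h2
    simp only [unit, if_neg h1, if_neg h2] at h
    split_ifs at h <;> norm_num at h

/-- The normal form of a coherent family of integral vectors. -/
theorem coherent (U : ι → β → ℤ) (d : β → ℤ) (hd : ∀ b, 0 < d b) (m : ℤ)
    (hg : ∀ i j, ∑ b, U i b * U j b = (if i = j then 1 else 0) + m)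
    (hdeg : ∀ i, ∑ b, d b * U i b = 0) (ht : 2 ≤ Fintype.card ι) :
    ∃ (δ c : ℤ) (y : ι → β) (w : β → ℤ), (δ = 1 ∨ δ = -1) ∧ Function.Injective y ∧
      (∀ i b, U i b = δ * unit (y i) b + w b) ∧ (∀ i, w (y i) = c) ∧
      ∑ b, w b * w b + 2 * δ * c = m ∧ (Fintype.card ι = 2 → c ≠ -δ) := by
  classical
  haveI : Nonempty ι := Fintype.card_pos_iff.mp (by omega)
  obtain ⟨i₀⟩ := ‹Nonempty ι›
  have hD : ∀ j, j ≠ i₀ → ∃ P Q, P ≠ Q ∧ ∀ b, U i₀ b - U j b = unit P b - unit Q b := by
    intro j hj
    refine norm_two hd ?_ ?_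
    · simp only [sub_mul, mul_sub, Finset.sum_sub_distrib, hg, if_pos, if_neg hj, if_neg hj.symm]
      ring
    · simp only [mul_sub, Finset.sum_sub_distrib, hdeg, sub_zero]
  obtain ⟨P, Q, hPQ⟩ : ∃ P Q : ι → β, ∀ j, j ≠ i₀ →
      P j ≠ Q j ∧ ∀ b, U i₀ b - U j b = unit (P j) b - unit (Q j) b := by
    obtain ⟨j₁, hj₁⟩ := Fintype.exists_ne_of_one_lt_card (by omega : 1 < Fintype.card ι) i₀
    obtain ⟨P₁, Q₁, -⟩ := hD j₁ hj₁
    refine ⟨fun j => if h : j ≠ i₀ then (hD j h).choose else P₁,
      fun j => if h : j ≠ i₀ then (hD j h).choose_spec.choose else Q₁, fun j hj => ?_⟩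
    simp only [dif_pos hj]
    exact (hD j hj).choose_spec.choose_spec
  have hshare : ∀ j k, j ≠ i₀ → k ≠ i₀ → j ≠ k →
      (P j = P k ∧ Q j ≠ Q k) ∨ (P j ≠ P k ∧ Q j = Q k) := by
    intro j k hj hk hjk
    refine share (hPQ j hj).1 (hPQ k hk).1 ?_
    simp only [← (hPQ j hj).2, ← (hPQ k hk).2, sub_mul, mul_sub, Finset.sum_sub_distrib, hg,
      if_pos, if_neg hj, if_neg hk.symm, if_neg hjk]
    ring
  obtain ⟨j₁, hj₁⟩ := Fintype.exists_ne_of_one_lt_card (by omega : 1 < Fintype.card ι) i₀
  obtain ⟨δ, y, w, hδ, hy, hU⟩ : ∃ (δ : ℤ) (y : ι → β) (w : β → ℤ), (δ = 1 ∨ δ = -1) ∧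
      Function.Injective y ∧ ∀ i b, U i b = δ * unit (y i) b + w b := by
    by_cases hall : ∀ j k, j ≠ i₀ → k ≠ i₀ → P j = P k
    · refine ⟨1, fun i => if i = i₀ then P j₁ else Q i, fun b => U i₀ b - unit (P j₁) b,
        Or.inl rfl, ?_, fun i b => ?_⟩
      · intro i k h
        by_cases hi : i = i₀ <;> by_cases hk : k = i₀ <;> simp only [hi, hk, if_pos, if_false] at h
        · rw [hi, hk]
        · exact absurd h (by rw [hall j₁ k hj₁ hk]; exact (hPQ k hk).1)
        · exact absurd h.symm (by rw [hall j₁ i hj₁ hi]; exact (hPQ i hi).1)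
        · by_contra hne
          rcases hshare i k hi hk hne with h' | h'
          · exact h'.2 h
          · exact h'.1 (hall i k hi hk)
      · by_cases hi : i = i₀
        · subst hi; simp
        · simp only [if_neg hi]
          have := (hPQ i hi).2 b
          rw [hall j₁ i hj₁ hi]
          linarith
    · push Not at hall
      obtain ⟨j, k, hj, hk, hne⟩ := hall
      have hjk : j ≠ k := fun e => hne (by rw [e])
      have hQ : Q j = Q k := by
        rcases hshare j k hj hk hjk with h | h
        · exact absurd h.1 hne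
        · exact h.2
      have hQall : ∀ l, l ≠ i₀ → Q l = Q j := by
        intro l hl
        by_cases hlj : l = j
        · rw [hlj]
        rcases hshare l j hl hj hlj with h | h
        · by_cases hlk : l = k
          · rw [hlk]; exact hQ.symm
          rcases hshare l k hl hk hlk with h' | h'
          · exact absurd (h.1.symm.trans h'.1) hne
          · exact absurd (h'.2.trans hQ.symm) h.2
        · exact h.2
      refine ⟨-1, fun i => if i = i₀ then Q j else P i, fun b => U i₀ b + unit (Q j) b,
        Or.inr rfl, ?_, fun i b => ?_⟩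
      · intro i l h
        by_cases hi : i = i₀ <;> by_cases hl : l = i₀ <;> simp only [hi, hl, if_pos, if_false] at h
        · rw [hi, hl]
        · exact absurd h.symm (by rw [← hQall l hl]; exact (hPQ l hl).1)
        · exact absurd h (by rw [← hQall i hi]; exact (hPQ i hi).1)
        · by_contra hne'
          rcases hshare i l hi hl hne' with h' | h'
          · exact h'.2 ((hQall i hi).trans (hQall l hl).symm)
          · exact h'.1 h
      · by_cases hi : i = i₀
        · subst hi; simp
        · simp only [if_neg hi]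
          have := (hPQ i hi).2 b
          rw [← hQall i hi]
          linarith
  have hnorm : ∀ (δ : ℤ) (y : ι → β) (w : β → ℤ), (δ = 1 ∨ δ = -1) →
      (∀ i b, U i b = δ * unit (y i) b + w b) →
      ∀ i, ∑ b, w b * w b + 2 * δ * w (y i) = m := by
    intro δ y w hδ hU i
    have h := hg i i
    have e : ∑ b, U i b * U i b = δ * δ * unit (y i) (y i) + 2 * δ * w (y i) + ∑ b, w b * w b := by
      have : ∀ b, U i b * U i b =
          δ * δ * (unit (y i) b * unit (y i) b) + 2 * δ * (unit (y i) b * w b) + w b * w b :=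
        fun b => by rw [hU]; ring
      simp only [this, Finset.sum_add_distrib, ← Finset.mul_sum, sum_unit_mul]
    rw [e, if_pos rfl, unit_self] at h
    have hδ2 : δ * δ = 1 := by rcases hδ with h' | h' <;> simp [h']
    rw [hδ2] at h
    linarith
  have hconst : ∀ i, w (y i) = w (y i₀) := fun i => by
    have h1 := hnorm δ y w hδ hU i
    have h2 := hnorm δ y w hδ hU i₀
    have : 2 * δ ≠ 0 := by rcases hδ with h | h <;> simp [h]
    exact mul_left_cancel₀ this (by linarith)
  by_cases hflip : Fintype.card ι = 2 ∧ w (y i₀) = -δ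
  · obtain ⟨h2, hc⟩ := hflip
    have hcover : ∀ i, i = i₀ ∨ i = j₁ := by
      intro i
      by_contra h
      push Not at h
      have := Finset.card_le_univ ({i, i₀, j₁} : Finset ι)
      rw [Finset.card_insert_of_notMem (by simp [h.1, h.2]), Finset.card_pair hj₁.symm, h2] at this
      omega
    set y' : ι → β := fun i => if i = i₀ then y j₁ else y i₀ with hy'
    set w' : β → ℤ := fun b => w b + δ * (unit (y i₀) b + unit (y j₁) b) with hw'
    have hne : y i₀ ≠ y j₁ := fun e => hj₁ (hy e).symm
    have hU' : ∀ i b, U i b = -δ * unit (y' i) b + w' b := by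
      intro i b
      rcases hcover i with h | h <;> subst h <;>
        simp only [hy', hw', if_pos, if_neg hj₁, hU] <;> ring
    have hw0 : w' (y' i₀) = 0 := by
      simp only [hw', hy', if_pos, unit_self, unit_ne hne.symm, hconst j₁, hc]
      ring
    have hw1 : ∀ i, w' (y' i) = 0 := by
      intro i
      rcases hcover i with h | h
      · rw [h]; exact hw0
      · rw [h]
        simp only [hw', hy', if_neg hj₁, unit_self, unit_ne hne, hc]
        ring
    refine ⟨-δ, 0, y', w', by rcases hδ with h | h <;> simp [h], ?_, hU', hw1, ?_, fun _ => ?_⟩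
    · intro i k h
      rcases hcover i with hi | hi <;> rcases hcover k with hk | hk <;>
        subst hi <;> subst hk <;> simp only [hy', if_pos, if_neg hj₁] at h <;>
        first | rfl | exact absurd h hne | exact absurd h hne.symm
    · have := hnorm (-δ) y' w' (by rcases hδ with h | h <;> simp [h]) hU' i₀
      rw [hw0] at this
      linarith
    · rcases hδ with h | h <;> simp [h]
  · exact ⟨δ, w (y i₀), y, w, hδ, hy, hU, hconst, hnorm δ y w hδ hU i₀,
      fun h2 hc => hflip ⟨h2, hc⟩⟩

end CfsgLib.Blocks.CV
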