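import Cfsg.Agent.Lib.Blocks.Orth
import Cfsg.Agent.Lib.Chars.Clifford
import Cfsg.Agent.Lib.Chars.Kernel

/-!
Normal subgroups of order prime to `p` and blocks.
-/

namespace CfsgLib.Blocks

open scoped ComplexConjugate
open Cfsg CfsgLib.Chars

universe u

variable {G : Type u} [Group G] [Fintype G] {p : ℕ} {M : Ideal AlgInt}

/-- Characters in one block have the same constituents on a normal subgroup of order prime
to `p`. -/
theorem sameBlock_res_constituent (hM : IsPModular p M) (N : Subgroup G) [N.Normal] [Fintype N]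
    (hN : ¬ p ∣ Nat.card N) {χ ψ : IrrCharacter G} (h : SameBlock M (χ : G → ℂ) (ψ : G → ℂ))
    {θ : IrrCharacter N} (hθ : classInner (fun n : N => (χ : G → ℂ) n) (θ : N → ℂ) ≠ 0) :
    classInner (fun n : N => (ψ : G → ℂ) n) (θ : N → ℂ) ≠ 0 := by
  classical
  intro hψ
  obtain ⟨e, he0, he, hval, hdeg⟩ := clifford N χ θ hθ
  have heC : (e : ℂ) ≠ 0 := Nat.cast_ne_zero.mpr he0.ne'
  let f : G → ℂ := fun g => if g ∈ N then (e : ℂ)⁻¹ * conj ((χ : G → ℂ) g) else 0
  have hcl : IsClassFunction G f := fun g k => by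
    have hiff : k * g * k⁻¹ ∈ N ↔ g ∈ N :=
      ⟨fun h' => by simpa [mul_assoc] using Subgroup.Normal.conj_mem inferInstance _ h' k⁻¹,
        fun h' => Subgroup.Normal.conj_mem inferInstance g h' k⟩
    simp only [f, hiff, IsCharacter.isClassFunction (isCharacter_irr χ) g k]
  have hl : ∀ g, MemLocalRing M (f g) := fun g => by
    simp only [f]
    split_ifs with hg
    · have e1 : (χ : G → ℂ) g = (e : ℂ) * ∑ φ ∈ orbit N θ, (φ : N → ℂ) ⟨g, hg⟩ := hval ⟨g, hg⟩
      rw [e1, map_mul, map_natCast, inv_mul_cancel_left₀ heC, map_sum]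
      refine mlr_sum hM _ fun φ _ => ?_
      rw [← IsCharacter.map_inv (isCharacter_irr φ)]
      exact mlr_of_isIntegral hM (IsCharacter.isIntegral (isCharacter_irr φ) _)
    · exact mlr_zero hM
  have key : ∀ φ : IrrCharacter G, omega (φ : G → ℂ) f =
      (e : ℂ)⁻¹ * ((Nat.card N : ℂ) * classInner (fun n : N => (φ : G → ℂ) n)
        (fun n : N => (χ : G → ℂ) n)) / (φ : G → ℂ) 1 := by
    intro φ
    rw [omega, classInner, ← mul_assoc (Nat.card N : ℂ), mul_inv_cancel₀ (natCast_card_ne_zero N),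
      one_mul, Finset.mul_sum]
    congr 1
    simp only [f, ite_mul, zero_mul]
    rw [← Finset.sum_filter]
    rw [Finset.sum_subtype (Finset.univ.filter (fun g : G => g ∈ N)) (p := fun g => g ∈ N) (fun x => by simp)
      (fun g => (e : ℂ)⁻¹ * conj ((χ : G → ℂ) g) * (φ : G → ℂ) g)]
    exact Finset.sum_congr rfl fun n _ => by ring
  have horb : ∀ φ : IrrCharacter G, ∀ θ' ∈ orbit N θ,
      classInner (fun n : N => (φ : G → ℂ) n) (θ' : N → ℂ) =
        classInner (fun n : N => (φ : G → ℂ) n) (θ : N → ℂ) := by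
    intro φ θ' hθ'
    obtain ⟨g, rfl⟩ := (mem_orbit N).mp hθ'
    exact classInner_res_conjIrr N _ (IsCharacter.isClassFunction (isCharacter_irr φ)) θ g
  have hinner : ∀ φ : IrrCharacter G,
      classInner (fun n : N => (φ : G → ℂ) n) (fun n : N => (χ : G → ℂ) n) =
        (e : ℂ) * (orbit N θ).card * classInner (fun n : N => (φ : G → ℂ) n) (θ : N → ℂ) := by
    intro φ
    simp only [classInner, hval, map_mul, map_natCast, map_sum, Finset.mul_sum]
    rw [Finset.sum_comm]
    refine (Finset.sum_congr rfl fun θ' hθ' => ?_).trans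
      (Finset.sum_const ((e : ℂ) * ((Nat.card N : ℂ)⁻¹ *
        ∑ n : N, (φ : G → ℂ) n * conj ((θ : N → ℂ) n)))) |>.trans ?_
    · rw [← show (Nat.card N : ℂ)⁻¹ * ∑ n : N, (φ : G → ℂ) n * conj ((θ' : N → ℂ) n) =
        (Nat.card N : ℂ)⁻¹ * ∑ n : N, (φ : G → ℂ) n * conj ((θ : N → ℂ) n) from horb φ θ' hθ',
        Finset.mul_sum, Finset.mul_sum]
      exact Finset.sum_congr rfl fun n _ => by ring
    · simp only [nsmul_eq_mul, Finset.mul_sum]
      exact Finset.sum_congr rfl fun n _ => by ring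
  have h1 := mli_omega_sub hM h hcl hl
  rw [key, key, hinner, hinner, hψ, mul_zero, mul_zero, mul_zero, zero_div, sub_zero, he,
    irr_apply_one, hdeg] at h1
  obtain ⟨d, hd⟩ : charDegree (θ : N → ℂ) ∣ Nat.card N := charDegree_dvd θ
  have hθ0 : (charDegree (θ : N → ℂ) : ℂ) ≠ 0 := Nat.cast_ne_zero.mpr (charDegree_pos θ).ne'
  have hc0 : ((orbit N θ).card : ℂ) ≠ 0 := Nat.cast_ne_zero.mpr (Finset.card_ne_zero.mpr
    ⟨θ, (mem_orbit N).mpr ⟨1, (conjIrr_one N θ).symm⟩⟩)
  refine hN (hd ▸ dvd_mul_of_dvd_right ((mli_natCast_iff hM d).mp ?_) _)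
  convert h1 using 1
  rw [hd]
  push_cast
  field_simp

/-- Characters with a common constituent on a normal subgroup containing the regular elements
lie in one block. -/
theorem sameBlock_of_common_constituent (hM : IsPModular p M) (N : Subgroup G) [Fintype N]
    (hN : ∀ g : G, ¬ p ∣ orderOf g ↔ g ∈ N) {χ ψ : IrrCharacter G} {θ : IrrCharacter N}
    (hχ : classInner (fun n : N => (χ : G → ℂ) n) (θ : N → ℂ) ≠ 0)
    (hψ : classInner (fun n : N => (ψ : G → ℂ) n) (θ : N → ℂ) ≠ 0) :
    SameBlock M (χ : G → ℂ) (ψ : G → ℂ) := by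
  classical
  by_contra h
  have h0 := regInner_eq_zero hM h
  rw [regInner_eq, Finset.sum_subtype (Finset.univ.filter (fun g : G => ¬ p ∣ orderOf g))
    (p := fun g => g ∈ N) (fun x => by simp [hN x]) (fun g => (χ : G → ℂ) g * conj ((ψ : G → ℂ) g)),
    mul_eq_zero] at h0
  have h1 : classInner (fun n : N => (χ : G → ℂ) n) (fun n : N => (ψ : G → ℂ) n) = 0 := by
    rw [classInner, h0.resolve_left (inv_ne_zero (natCast_card_ne_zero G)), mul_zero]
  have hψc := IsCharacter.restrict (isCharacter_irr ψ) N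
  choose a ha using fun φ : IrrCharacter N => exists_mult (IsCharacter.restrict (isCharacter_irr χ) N) φ
  choose b hb using fun φ : IrrCharacter N => exists_mult hψc φ
  have hexp : (fun n : N => (χ : G → ℂ) n) = fun n : N => ∑ φ : IrrCharacter N,
      classInner (fun n : N => (χ : G → ℂ) n) (φ : N → ℂ) * (φ : N → ℂ) n :=
    funext fun n => classFunction_expand
      (IsCharacter.isClassFunction (IsCharacter.restrict (isCharacter_irr χ) N)) n
  rw [hexp, classInner_sum] at h1
  have h2 : ((∑ φ : IrrCharacter N, a φ * b φ : ℕ) : ℂ) = 0 := by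
    rw [← h1, Nat.cast_sum]
    refine Finset.sum_congr rfl fun φ _ => ?_
    rw [ha, classInner_symm, hb, map_natCast, Nat.cast_mul]
  rw [Nat.cast_eq_zero, Finset.sum_eq_zero_iff] at h2
  rcases mul_eq_zero.mp (h2 θ (Finset.mem_univ _)) with hz | hz
  · exact hχ (by rw [ha, hz, Nat.cast_zero])
  · exact hψ (by rw [hb, hz, Nat.cast_zero])

/-- The block of an inflated character consists of inflated characters of one block. -/
theorem sameBlock_deflate (hM : IsPModular p M) (N : Subgroup G) [N.Normal]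
    (hN : ¬ p ∣ Nat.card N) (χ : IrrCharacter (G ⧸ N)) {ψ : IrrCharacter G}
    (h : SameBlock M ((χ : G ⧸ N → ℂ) ∘ QuotientGroup.mk) (ψ : G → ℂ)) :
    ∃ ψ' : IrrCharacter (G ⧸ N), (ψ : G → ℂ) = (ψ' : G ⧸ N → ℂ) ∘ QuotientGroup.mk ∧
      SameBlock M (χ : G ⧸ N → ℂ) (ψ' : G ⧸ N → ℂ) := by
  classical
  haveI : Fintype N := Fintype.ofFinite N
  haveI : Fintype (G ⧸ N) := Fintype.ofFinite _
  let χ₀ : IrrCharacter G := ⟨_, isIrrCharacter_inflate N χ⟩
  have hker : ∀ n ∈ N, (ψ : G → ℂ) n = (ψ : G → ℂ) 1 := by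
    intro n hn
    have hχtriv : classInner (fun n : N => (χ₀ : G → ℂ) n) (trivIrr N : N → ℂ) ≠ 0 := by
      have e1 : ∀ n : N, (χ₀ : G → ℂ) n = (χ : G ⧸ N → ℂ) 1 := fun n => by
        change (χ : G ⧸ N → ℂ) ((n : G) : G ⧸ N) = _
        rw [(QuotientGroup.eq_one_iff _).mpr n.2]
      simp only [classInner, e1, trivIrr, map_one, mul_one, Finset.sum_const, nsmul_eq_mul,
        Finset.card_univ, ← Nat.card_eq_fintype_card]
      rw [inv_mul_cancel_left₀ (natCast_card_ne_zero N)]
      exact irr_one_ne_zero χ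
    obtain ⟨e, -, -, hval, hdeg⟩ := clifford N ψ (trivIrr N)
      (sameBlock_res_constituent hM N hN (χ := χ₀) h hχtriv)
    have horb : ∀ φ ∈ orbit N (trivIrr N), ∀ m : N, (φ : N → ℂ) m = 1 := by
      intro φ hφ m
      obtain ⟨g, rfl⟩ := (mem_orbit N).mp hφ
      rw [conjIrr_apply]; rfl
    have e1 := hval ⟨n, hn⟩
    have e2 := hval 1
    rw [Finset.sum_congr rfl fun φ hφ => horb φ hφ _] at e1 e2
    exact e1.trans e2.symm
  obtain ⟨ψ', hψ'⟩ := exists_deflate N ψ hker
  refine ⟨ψ', hψ', fun q => ?_⟩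
  let f : G → ℂ := fun g => classInd q (g : G ⧸ N)
  have hf : IsClassFunction G f := fun g k => by
    simp only [f, QuotientGroup.mk_mul, QuotientGroup.mk_inv]
    exact classInd_isClassFunction q _ _
  have hl : ∀ g, MemLocalRing M (f g) := fun g => by
    simp only [f, classInd]
    split_ifs
    · exact mlr_one hM
    · exact mlr_zero hM
  have key : ∀ φ : IrrCharacter (G ⧸ N),
      omega ((φ : G ⧸ N → ℂ) ∘ QuotientGroup.mk) f =
        (Nat.card N : ℂ) * centralChar (φ : G ⧸ N → ℂ) q := by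
    intro φ
    rw [← omega_classInd (IsCharacter.isClassFunction (isCharacter_irr φ)), omega, omega,
      Function.comp_apply, QuotientGroup.mk_one, ← mul_div_assoc, Finset.mul_sum]
    congr 1
    simp only [f, Function.comp_apply]
    rw [← Finset.sum_fiberwise_of_maps_to (s := Finset.univ) (t := Finset.univ)
      (g := fun g : G => (g : G ⧸ N)) (fun _ _ => Finset.mem_univ _)]
    refine Finset.sum_congr rfl fun c _ => ?_
    rw [Finset.sum_congr rfl (g := fun _ => classInd q c * (φ : G ⧸ N → ℂ) c) fun g hg => by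
      rw [(Finset.mem_filter.mp hg).2], Finset.sum_const, nsmul_eq_mul]
    congr 2
    induction c using QuotientGroup.induction_on with
    | H x =>
      rw [Nat.card_eq_fintype_card, ← Finset.card_univ]
      refine (Finset.card_bij' (fun g hg => (⟨x⁻¹ * g,
          QuotientGroup.eq.mp ((Finset.mem_filter.mp hg).2).symm⟩ : N))
        (fun n _ => x * (n : G)) (fun _ _ => Finset.mem_univ _) (fun n _ => ?_)
        (fun g _ => mul_inv_cancel_left x g)
        (fun n _ => Subtype.ext (inv_mul_cancel_left x (n : G))))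
      exact Finset.mem_filter.mpr ⟨Finset.mem_univ _, QuotientGroup.eq.mpr (by simp)⟩
  have h1 := mli_omega_sub hM (χ := χ₀) h hf hl
  change MemLocalIdeal M (omega ((χ : G ⧸ N → ℂ) ∘ QuotientGroup.mk) f - omega (ψ : G → ℂ) f) at h1
  rw [hψ', key, key, ← mul_sub] at h1
  exact (mli_mul_cases hM (mlr_natCast hM _)
    (mlr_sub hM (mlr_centralChar hM χ q) (mlr_centralChar hM ψ' q)) h1).resolve_left
      fun h2 => hN ((mli_natCast_iff hM _).mp h2)

end CfsgLib.Blocks
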