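import Cfsg.Agent.Lib.Blocks.KnorrLower
import Cfsg.Agent.Lib.Blocks.NormalPPrime
import Cfsg.Agent.S0970
import Cfsg.Agent.S4672

/-!
Fong's theorem: in a `p`-constrained situation the characters over an invariant character of the
`p'`-core form a single block of full defect.
-/

set_option autoImplicit false

namespace CfsgLib.ConstrainedBlock

open scoped ComplexConjugate
open Cfsg CfsgLib.Chars CfsgLib.Blocks

universe u

variable {p : ℕ} [Fact p.Prime] {M : Ideal AlgInt}

/-- Blocks of a group of order prime to `p` are singletons. -/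
theorem blockOf_eq_singleton {H : Type u} [Group H] [Fintype H] (hM : IsPModular p M)
    (hH : ¬ p ∣ Nat.card H) (θ : IrrCharacter H) : blockOf M (θ : H → ℂ) = {θ} := by
  classical
  refine Set.eq_singleton_iff_unique_mem.mpr ⟨self_mem_blockOf hM θ, fun ψ hψ => ?_⟩
  refine mem_of_mlr_blockCoeff hM (A := {θ}) (fun g => ?_) rfl hψ
  rw [blockCoeff_eq_sum]
  refine mlr_mul hM (mlr_natCast_inv hM hH) (mlr_sum hM _ fun χ _ => ?_)
  rw [← IsCharacter.map_inv (isCharacter_irr χ)]
  exact mlr_mul hM (mlr_of_isIntegral hM (IsCharacter.isIntegral (isCharacter_irr χ) 1))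
    (mlr_of_isIntegral hM (IsCharacter.isIntegral (isCharacter_irr χ) _))

theorem blockDefect_of_not_dvd {H : Type u} [Group H] [Finite H] (hH : ¬ p ∣ Nat.card H)
    (B : Set (IrrCharacter H)) : blockDefect p B = 0 := by
  rw [blockDefect, Nat.factorization_eq_zero_of_not_dvd hH, Nat.zero_sub]

theorem classInner_equiv {H H' : Type u} [Group H] [Group H'] [Fintype H] [Fintype H'] (e : H ≃* H')
    (f g : H' → ℂ) : classInner (fun h => f (e h)) (fun h => g (e h)) = classInner f g := by
  rw [classInner, classInner, Nat.card_congr e.toEquiv]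
  congr 1
  exact Fintype.sum_equiv e.toEquiv _ _ fun h => rfl

theorem constituent_trans {H : Type u} [Group H] [Fintype H] {F : H → ℂ} (hF : IsCharacter H F)
    (K : Subgroup H) [Fintype K] {φ : IrrCharacter H} (hφ : classInner F (φ : H → ℂ) ≠ 0)
    {ρ : IrrCharacter K} (hρ : classInner (fun k : K => (φ : H → ℂ) k) (ρ : K → ℂ) ≠ 0) :
    classInner (fun k : K => F k) (ρ : K → ℂ) ≠ 0 := by
  classical
  choose m hm using fun ψ : IrrCharacter H => exists_mult hF ψ
  choose k hk using fun ψ : IrrCharacter H =>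
    exists_mult (IsCharacter.restrict (isCharacter_irr ψ) K) ρ
  have e : (fun x : K => F x) =
      fun x : K => ∑ ψ : IrrCharacter H, (m ψ : ℂ) * (fun y : K => (ψ : H → ℂ) y) x := by
    funext x
    rw [classFunction_expand (IsCharacter.isClassFunction hF) (x : H)]
    simp only [hm]
  rw [e, classInner_sum]
  simp only [hk]
  rw [← Finset.sum_congr rfl fun ψ _ => Nat.cast_mul (m ψ) (k ψ), ← Nat.cast_sum]
  refine Nat.cast_ne_zero.mpr fun h => ?_
  rcases Nat.mul_eq_zero.mp (Finset.sum_eq_zero_iff.mp h φ (Finset.mem_univ φ)) with h | h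
  · exact hφ (by rw [hm, h, Nat.cast_zero])
  · exact hρ (by rw [hk, h, Nat.cast_zero])

variable {G : Type u} [Group G] [Fintype G]

/-- Fong: one block over an invariant character, of full defect. -/
theorem single_block (hM : IsPModular p M) (K L : Subgroup G) [hKn : K.Normal] [L.Normal]
    [Fintype K] (hKL : K ≤ L) (hK : ¬ p ∣ Nat.card K)
    (hLK : ∃ k : ℕ, (K.subgroupOf L).index = p ^ k)
    (hC : ∀ P : Sylow p L,
      Subgroup.centralizer (((P : Subgroup L).map L.subtype : Subgroup G) : Set G) ≤ L)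
    (θ : IrrCharacter K) (hinv : ∀ g : G, conjIrr K θ g = θ) :
    ∃ B : Set (IrrCharacter G), IsPBlock M B ∧
      (∀ χ : IrrCharacter G, χ ∈ B ↔ classInner (fun n : K => (χ : G → ℂ) n) (θ : K → ℂ) ≠ 0) ∧
      ∀ P : Sylow p G, IsDefectGroup p M B (P : Subgroup G) := by
  classical
  have hp := hM.1
  haveI : Fintype L := Fintype.ofFinite _
  set K' : Subgroup L := K.subgroupOf L with hK'
  haveI : K'.Normal := hKn.subgroupOf L
  haveI : Fintype K' := Fintype.ofFinite _
  set e : K' ≃* K := Subgroup.subgroupOfEquivOfLe hKL with he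
  have hK'card : Nat.card K' = Nat.card K := Nat.card_congr e.toEquiv
  have hK'p : ¬ p ∣ Nat.card K' := hK'card ▸ hK
  set θ' : IrrCharacter K' := pullIrr e θ with hθ'
  set c := blockOf M (θ' : K' → ℂ) with hc
  have hcs : c = {θ'} := blockOf_eq_singleton hM hK'p θ'
  have hcB : IsPBlock M c := isPBlock_blockOf θ'
  have hstab : ∀ φ ∈ c, ∀ l : L, conjIrr K' φ l ∈ c := by
    intro φ hφ l
    rw [hcs, Set.mem_singleton_iff] at hφ ⊢
    subst hφ
    refine Subtype.ext (funext fun k => ?_)
    rw [conjIrr_apply, hθ', pullIrr_apply, pullIrr_apply]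
    have h := congrArg (fun ψ : IrrCharacter K => (ψ : K → ℂ) (e k)) (hinv (l : G))
    simp only [conjIrr_apply] at h
    refine Eq.trans (congrArg _ (Subtype.ext ?_)) h
    rw [conjN_coe]
    change (((conjN K' l k : K') : L) : G) = (l : G) * ((k : L) : G) * (l : G)⁻¹
    rw [conjN_coe]
    rfl
  obtain ⟨k, hk⟩ := hLK
  obtain ⟨b, hb, -, hbmem⟩ := Cfsg.Agent.S4672.core p M hM K' ⟨k, hk⟩ c hcB hstab
  obtain ⟨D, hD⟩ := exists_isDefectGroup hM hb
  obtain ⟨φ₀, hφ₀⟩ := exists_over K' θ'
  have hbd := (Cfsg.Agent.S0970.result p M hM K' c hcB (fun g φ hφ φ' h => by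
      have : φ' = conjIrr K' φ g := Subtype.ext (funext fun n => by rw [conjIrr_apply']; exact h n)
      exact this ▸ hstab φ hφ g)
    b hb ⟨φ₀, (hbmem φ₀).mpr ⟨θ', self_mem_blockOf hM θ', hφ₀⟩, θ', self_mem_blockOf hM θ', hφ₀⟩
    (fun B' hB' ⟨χ, hχ, h⟩ => by rw [IsPBlock.eq_of_mem hM hB' hb hχ ((hbmem χ).mpr h)])
    D hD).2.2
  have hLcard : (Nat.card L).factorization p = k := by
    rw [← K'.card_mul_index, hk, Nat.factorization_mul Nat.card_pos.ne' (pow_ne_zero _ hp.ne_zero),
      Finsupp.add_apply, Nat.factorization_eq_zero_of_not_dvd hK'p, hp.factorization_pow]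
    simp
  have hDcard : Nat.card D = p ^ (Nat.card L).factorization p := by
    rw [card_defectGroup hM hb hD, hbd, blockDefect_of_not_dvd hK'p, zero_add, hk, hLcard,
      hp.factorization_pow]
    simp
  set Q : Subgroup G := D.map L.subtype with hQ
  have hQC : Subgroup.centralizer (Q : Set G) ≤ L := by
    have := hC (Sylow.ofCard D hDcard)
    rwa [Sylow.coe_ofCard] at this
  have hQD : Q.subgroupOf L = D := Subgroup.comap_map_eq_self_of_injective L.subtype_injective D
  have hQp : IsPGroup p Q := (defectGroup_isPGroup hD).map _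
  have hregK : ∀ x ∈ L, ¬ p ∣ orderOf x → x ∈ K := by
    intro x hx hord
    have h1 : orderOf (QuotientGroup.mk' K' ⟨x, hx⟩) ∣ orderOf x := by
      have := orderOf_map_dvd (QuotientGroup.mk' K') (⟨x, hx⟩ : L)
      rwa [Subgroup.orderOf_mk] at this
    have h2 : orderOf (QuotientGroup.mk' K' ⟨x, hx⟩) ∣ p ^ k := hk ▸ orderOf_dvd_natCard _
    obtain ⟨j, -, hj⟩ := (Nat.dvd_prime_pow hp).mp h2
    rcases Nat.eq_zero_or_pos j with rfl | hj0
    · rw [pow_zero, orderOf_eq_one_iff] at hj
      exact (QuotientGroup.eq_one_iff (⟨x, hx⟩ : L)).mp hj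
    · exact absurd ((dvd_pow_self p hj0.ne').trans (hj ▸ h1)) hord
  -- the idempotent of the invariant character
  set cK := blockOf M (θ : K → ℂ) with hcK
  have hcKs : cK = {θ} := blockOf_eq_singleton hM hK θ
  have hcKB : IsPBlock M cK := isPBlock_blockOf θ
  have horb : blockOrbit K cK = cK := by
    ext φ
    rw [hcKs, Set.mem_singleton_iff]
    constructor
    · rintro ⟨g, hg⟩
      rw [Set.mem_singleton_iff] at hg
      rw [← conjIrr_inv_cancel K φ g, hg, hinv]
    · rintro rfl
      exact ⟨1, by rw [conjIrr_one, Set.mem_singleton_iff]⟩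
  set E : G → ℂ := ext0 K (blockCoeff cK) with hE
  have hEc : IsClassFunction G E := by rw [hE, ← horb]; exact ext0_blockCoeff_isClassFunction K (blockOrbit_stable K cK)
  have hEl : ∀ g, MemLocalRing M (E g) := fun g => by
    rw [hE, ext0]
    split_ifs
    · exact mlr_blockCoeff hM hcKB _
    · exact mlr_zero hM
  -- every block over θ
  have main : ∀ B : Set (IrrCharacter G), IsPBlock M B →
      (∃ χ ∈ B, classInner (fun n : K => (χ : G → ℂ) n) (θ : K → ℂ) ≠ 0) →
      ∃ t : ℂ, MemLocalRing M t ∧ ¬ MemLocalIdeal M t ∧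
        (∀ n ∈ K, blockCoeff B n = t * E n) ∧
        ∃ x ∈ Subgroup.centralizer (Q : Set G), x ∈ K ∧ ¬ MemLocalIdeal M (E x) := by
    rintro B hB ⟨χ, hχ, hχθ⟩
    obtain ⟨φ, hφ⟩ := exists_res_constituent L χ
    obtain ⟨ρ, hρ⟩ := exists_res_constituent K' φ
    have htr := constituent_trans (IsCharacter.restrict (isCharacter_irr χ) L) K' hφ hρ
    have htr' : classInner (fun n : K => (χ : G → ℂ) n) (pullIrr e.symm ρ : K → ℂ) ≠ 0 := by
      rw [← classInner_equiv e (fun n : K => (χ : G → ℂ) n) (pullIrr e.symm ρ : K → ℂ)]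
      simp only [pullIrr_apply, MulEquiv.symm_apply_apply]
      exact htr
    obtain ⟨g, hg⟩ := clifford_conjugate K χ θ (pullIrr e.symm ρ) hχθ htr'
    rw [hinv] at hg
    have hρθ : ρ = θ' := by
      rw [hθ', ← hg, pullIrr_symm_apply]
    have hcov : ∃ χ ∈ B, ∃ φ ∈ b, classInner (fun n : L => (χ : G → ℂ) n) (φ : L → ℂ) ≠ 0 :=
      ⟨χ, hχ, φ, (hbmem φ).mpr ⟨θ', self_mem_blockOf hM θ', hρθ ▸ hρ⟩, hφ⟩
    obtain ⟨x, hx, hxu⟩ := KnorrLower.exists_unit L hM hb (Q := Q) (Subgroup.map_subtype_le D)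
      (by rw [hQD]; exact hD) hB hcov
    have hxK : x ∈ K := hregK x (hQC hx) fun h =>
      hxu (by rw [blockCoeff_eq_zero_of_singular hM hB h]; exact mli_zero hM)
    set r : K → ℂ := fun n => blockCoeff B (n : G) with hr
    have hrc : IsClassFunction K r := fun n m => blockCoeff_isClassFunction B (n : G) (m : G)
    have habs : Chars.conv (blockCoeff cK) r = r := by
      funext n
      have h := congrFun (KnorrLower.orbit_absorb K hM hcKB hB
        ⟨χ, hχ, θ, self_mem_blockOf hM θ, hχθ⟩) (n : G)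
      rw [horb, conv_rest K (a := ext0 K (blockCoeff cK))
        (fun y hy => by rw [ext0, dif_neg hy])] at h
      simp only [ext0_apply] at h
      exact h
    set t := omega (θ : K → ℂ) r with ht
    have hv : ∀ φ : IrrCharacter K, omega (φ : K → ℂ) r = t * indic cK φ := by
      intro φ
      by_cases hφ' : φ ∈ cK
      · rw [indic_of_mem hφ', mul_one]
        rw [hcKs, Set.mem_singleton_iff] at hφ'
        rw [hφ']
      · rw [← habs, omega_conv φ (blockCoeff_isClassFunction cK) hrc, omega_blockCoeff,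
          indic_of_notMem hφ', zero_mul, mul_zero]
    have hrt : ∀ n : K, r n = t * blockCoeff cK n := by
      intro n
      rw [← congrFun (coeffFun_omega hrc) n, funext hv, blockCoeff_eq_coeffFun]
      simp only [coeffFun, Finset.mul_sum]
      exact Finset.sum_congr rfl fun φ _ => by ring
    have htl : MemLocalRing M t := mlr_omega hM θ hrc fun n => mlr_blockCoeff hM hB _
    have hxe : blockCoeff B x = t * E x := by
      rw [hE, ext0, dif_pos hxK]
      exact hrt ⟨x, hxK⟩
    refine ⟨t, htl, fun h => hxu (hxe ▸ mli_mul_right hM h (hEl x)), fun n hn => ?_,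
      x, hx, hxK, fun h => hxu (hxe ▸ mli_mul_left hM htl h)⟩
    rw [hE, ext0, dif_pos hn]
    exact hrt ⟨n, hn⟩
  have huniq : ∀ B B' : Set (IrrCharacter G), IsPBlock M B → IsPBlock M B' →
      (∃ χ ∈ B, classInner (fun n : K => (χ : G → ℂ) n) (θ : K → ℂ) ≠ 0) →
      (∃ χ ∈ B', classInner (fun n : K => (χ : G → ℂ) n) (θ : K → ℂ) ≠ 0) → B = B' := by
    intro B B' hB hB' h h'
    by_contra hne
    obtain ⟨t, htl, htu, hval, x, hxC, hxK, hxE⟩ := main B hB h
    obtain ⟨t', ht'l, ht'u, hval', -, -, -, -⟩ := main B' hB' h'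
    have hzero : Chars.conv (blockCoeff B) (blockCoeff B') x = 0 := by
      rw [show blockCoeff B = coeffFun (indic B) from funext (blockCoeff_eq_coeffFun B),
        show blockCoeff B' = coeffFun (indic B') from funext (blockCoeff_eq_coeffFun B'),
        ← coeffFun_mul]
      have : indic B * indic B' = 0 := funext fun χ => by
        rw [Pi.mul_apply, Pi.zero_apply]
        by_cases h1 : χ ∈ B
        · rw [indic_of_notMem fun h2 => hne (IsPBlock.eq_of_mem hM hB hB' h1 h2), mul_zero]
        · rw [indic_of_notMem h1, zero_mul]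
      rw [this]
      simp [coeffFun]
    have hEE : Chars.conv E E = E := by
      rw [hE, ← KnorrLower.ext0_conv, conv_blockCoeff_self]
    have h1 := mli_conv_sub_trunc hM hQp (f := blockCoeff B) (f' := blockCoeff B')
      (fun q _ g => blockCoeff_isClassFunction B g q)
      (fun q _ g => blockCoeff_isClassFunction B' g q)
      (mlr_blockCoeff hM hB) (mlr_blockCoeff hM hB') hxC
    have h2 := mli_conv_sub_trunc hM hQp (f := E) (f' := E) (fun q _ g => hEc g q)
      (fun q _ g => hEc g q) hEl hEl hxC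
    rw [hzero, zero_sub] at h1
    rw [hEE] at h2
    have h3 := mli_mul_left hM (mlr_mul hM htl ht'l) h2
    have h4 := mli_sum hM (Finset.univ : Finset G) (f := fun g =>
      (if g ∈ Subgroup.centralizer (Q : Set G) then blockCoeff B g * blockCoeff B' (g⁻¹ * x) else 0) -
        t * t' * if g ∈ Subgroup.centralizer (Q : Set G) then E g * E (g⁻¹ * x) else 0) fun g _ => by
      split_ifs with hg
      · by_cases hgK : g ∈ K
        · rw [hval g hgK, hval' _ (mul_mem (inv_mem hgK) hxK),
            show t * E g * (t' * E (g⁻¹ * x)) - t * t' * (E g * E (g⁻¹ * x)) = 0 by ring]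
          exact mli_zero hM
        · rw [show E g = 0 by rw [hE, ext0, dif_neg hgK], zero_mul, mul_zero, sub_zero,
            blockCoeff_eq_zero_of_singular hM hB
              (not_not.mp fun h => hgK (hregK g (hQC hg) h)), zero_mul]
          exact mli_zero hM
      · rw [mul_zero, sub_zero]
        exact mli_zero hM
    simp only [Finset.sum_sub_distrib, ← Finset.mul_sum] at h4
    have h5 := mli_add hM (mli_add hM h1 h4) (mli_neg h3)
    have h6 : MemLocalIdeal M (t * t' * E x) := by
      have := mli_neg h5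
      refine (congrArg (MemLocalIdeal M) ?_).mp this
      ring
    rcases mli_mul_cases hM (mlr_mul hM htl ht'l) (hEl x) h6 with h7 | h7
    · exact (mli_mul_cases hM htl ht'l h7).elim htu ht'u
    · exact hxE h7
  obtain ⟨χ₀, hχ₀⟩ := exists_over K θ
  set B := blockOf M (χ₀ : G → ℂ)
  have hB : IsPBlock M B := isPBlock_blockOf χ₀
  have hB₀ : χ₀ ∈ B := self_mem_blockOf hM χ₀
  have hmem : ∀ χ : IrrCharacter G,
      χ ∈ B ↔ classInner (fun n : K => (χ : G → ℂ) n) (θ : K → ℂ) ≠ 0 := fun χ =>
    ⟨fun h => sameBlock_res_constituent hM K hK (IsPBlock.sameBlock hM hB hB₀ h) hχ₀, fun h => by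
      rw [huniq B _ hB (isPBlock_blockOf χ) ⟨χ₀, hB₀, hχ₀⟩ ⟨χ, self_mem_blockOf hM χ, h⟩]
      exact self_mem_blockOf hM χ⟩
  refine ⟨B, hB, hmem, fun P => ?_⟩
  obtain ⟨D₁, hD₁⟩ := exists_isDefectGroup hM hB
  have hd := (Cfsg.Agent.S0970.result p M hM K cK hcKB (fun g φ hφ φ' h => by
      have : φ' = conjIrr K φ g := Subtype.ext (funext fun n => by rw [conjIrr_apply']; exact h n)
      rw [hcKs, Set.mem_singleton_iff] at hφ ⊢
      rw [this, hφ, hinv])
    B hB ⟨χ₀, hB₀, θ, self_mem_blockOf hM θ, hχ₀⟩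
    (fun B' hB' ⟨χ, hχ, φ, hφ, h⟩ => by
      rw [hcKs, Set.mem_singleton_iff] at hφ
      subst hφ
      rw [IsPBlock.eq_of_mem hM hB' hB hχ ((hmem χ).mpr h)])
    D₁ hD₁).2.2
  have hD₁card : Nat.card D₁ = p ^ (Nat.card G).factorization p := by
    rw [card_defectGroup hM hB hD₁, hd, blockDefect_of_not_dvd hK, zero_add]
    congr 1
    rw [← K.card_mul_index, Nat.factorization_mul Nat.card_pos.ne' Subgroup.index_ne_zero_of_finite,
      Finsupp.add_apply, Nat.factorization_eq_zero_of_not_dvd hK, zero_add]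
  obtain ⟨g, hg⟩ := MulAction.exists_smul_eq G (Sylow.ofCard D₁ hD₁card) P
  have : (P : Subgroup G) = D₁.map (MulAut.conj g).toMonoidHom := by
    rw [← hg, Sylow.coe_subgroup_smul, Sylow.coe_ofCard]
    rfl
  rw [this]
  exact isDefectGroup_map_conj hM hD₁ g

end CfsgLib.ConstrainedBlock
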