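import Cfsg.Agent.Lib.Blocks.ConstrainedBlock
import Cfsg.Agent.Lib.PSolvable

/-! The hypotheses of Fong's theorem for the upper `p`-series. -/

set_option autoImplicit false

namespace CfsgLib.ConstrainedBlock

open Cfsg

universe u

theorem pPrimePCore_facts {G : Type u} [Group G] [Finite G] (p : ℕ) [Fact p.Prime] :
    (pPrimeCore p G).Normal ∧ (pPrimePCore p G).Normal ∧ pPrimeCore p G ≤ pPrimePCore p G ∧
      ¬ p ∣ Nat.card (pPrimeCore p G) ∧
      ∃ k : ℕ, ((pPrimeCore p G).subgroupOf (pPrimePCore p G)).index = p ^ k := by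
  haveI := CfsgLib.PConstrained.pPrimeCore_normal (G := G) (p := p)
  haveI := CfsgLib.Core.pCore_characteristic (G := G ⧸ pPrimeCore p G) p
  refine ⟨inferInstance, (inferInstance : (pCore p (G ⧸ pPrimeCore p G)).Normal).comap _,
    fun x hx => ?_, fun h => ?_, ?_⟩
  · show (QuotientGroup.mk' _ x) ∈ pCore p (G ⧸ pPrimeCore p G)
    rw [(QuotientGroup.eq_one_iff x).mpr hx |> (fun e => (show QuotientGroup.mk' (pPrimeCore p G) x = 1 from e))]
    exact one_mem _
  · exact (Fact.out : p.Prime).not_dvd_one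
      (Nat.dvd_gcd h dvd_rfl |>.trans (CfsgLib.Core.card_pPrimeCore_coprime (G := G) p).dvd)
  · obtain ⟨k, hk⟩ :=
      IsPGroup.iff_card.mp (CfsgLib.Core.isPGroup_pCore (G := G ⧸ pPrimeCore p G) p)
    refine ⟨k, ?_⟩
    rw [← hk]
    set π := QuotientGroup.mk' (pPrimeCore p G)
    have h : (pPrimeCore p G).relIndex (pPrimePCore p G) =
        (⊥ : Subgroup (G ⧸ pPrimeCore p G)).relIndex (pCore p (G ⧸ pPrimeCore p G)) := by
      have h1 := Subgroup.relIndex_comap (⊥ : Subgroup (G ⧸ pPrimeCore p G)) π (pPrimePCore p G)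
      rw [MonoidHom.comap_bot, QuotientGroup.ker_mk'] at h1
      rw [h1]
      congr 1
      exact Subgroup.map_comap_eq_self_of_surjective (QuotientGroup.mk'_surjective _) _
    rw [Subgroup.relIndex_bot_left] at h
    exact h

end CfsgLib.ConstrainedBlock
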