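import Cfsg.Agent.Lib.Blocks.InertialQuotient
import Cfsg.Agent.Lib.Blocks.PCBlocks
import Mathlib.NumberTheory.Basic

/-!
The inertial quotient for a cyclic defect group.
-/

namespace CfsgLib.Blocks

set_option linter.style.haveILetI false

open scoped ComplexConjugate
open Cfsg CfsgLib.Chars

universe u

variable {G : Type u} [Group G] [Fintype G] {p : ℕ} {M : Ideal AlgInt}

/-- A block of `C(P)` inducing `B`, for an abelian `P`, gives a pair of `B`. -/
theorem isBrauerPairOf_of_induced_abelian (hM : IsPModular p M) {P : Subgroup G} (hP : IsPGroup p P)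
    (hPC : P ≤ Subgroup.centralizer (P : Set G))
    {c : Set (IrrCharacter (Subgroup.centralizer (P : Set G)))} {B : Set (IrrCharacter G)}
    (hc : IsInducedBlock M (Subgroup.centralizer (P : Set G)) c B) :
    IsBrauerPairOf p M B P c := by
  haveI : Fintype (Subgroup.centralizer (P : Set G)) := Fintype.ofFinite _
  exact (pc_induced_iff hM hP (H := Subgroup.centralizer (P : Set G)) (sup_eq_right.mpr hPC).symm hc.1 hc.1
    (fun t => (sbc_apply _ c t).symm) hc.2.1).mp hc

omit [Fintype G] in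
theorem zpow_conj_iterate {g w : G} {n : ℤ} (h : g * w * g⁻¹ = w ^ n) (i : ℕ) :
    g ^ i * w * (g ^ i)⁻¹ = w ^ (n ^ i) := by
  induction i with
  | zero => simp
  | succ i ih =>
    calc g ^ (i + 1) * w * (g ^ (i + 1))⁻¹ = g ^ i * (g * w * g⁻¹) * (g ^ i)⁻¹ := by
          rw [pow_succ]; group
      _ = (g ^ i * w * (g ^ i)⁻¹) ^ n := by rw [h, conj_zpow]
      _ = _ := by rw [ih, ← zpow_mul, ← pow_succ]

/-- A regular element fixing a nontrivial element of a cyclic `p`-group centralizes it. -/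
theorem centralizes_cyclic (hp : p.Prime) {w v : G} {e : ℕ} (hw : orderOf w = p ^ e) {n j : ℤ}
    (hv : v * w * v⁻¹ = w ^ n) (hx : w ^ j ≠ 1) (hfix : v * w ^ j * v⁻¹ = w ^ j)
    (hreg : ¬ p ∣ orderOf v) : v * w * v⁻¹ = w := by
  have h1 : w ^ (n * j) = w ^ j := by rw [zpow_mul, ← hv, conj_zpow]; exact hfix
  have h2 : ((p ^ e : ℕ) : ℤ) ∣ (n - 1) * j := by
    rw [← hw, orderOf_dvd_iff_zpow_eq_one, sub_one_mul, zpow_sub, h1, mul_inv_cancel]
  have h3 : (p : ℤ) ∣ n - 1 := by
    by_contra h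
    apply hx
    rw [← orderOf_dvd_iff_zpow_eq_one, hw]
    have hcop : IsCoprime ((p ^ e : ℕ) : ℤ) (n - 1) := by
      push_cast
      exact ((Prime.coprime_iff_not_dvd (Nat.prime_iff_prime_int.mp hp)).mpr h).pow_left
    exact hcop.dvd_of_dvd_mul_left h2
  have h4 : ((p ^ e : ℕ) : ℤ) ∣ n ^ p ^ e - 1 := by
    have h := dvd_sub_pow_of_dvd_sub (a := n) (b := 1) h3 e
    rw [one_pow] at h
    push_cast
    exact (pow_dvd_pow _ (Nat.le_succ e)).trans h
  have h5 : v ^ p ^ e * w * (v ^ p ^ e)⁻¹ = w := by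
    rw [zpow_conj_iterate hv]
    conv_rhs => rw [← zpow_one w]
    refine mul_inv_eq_one.mp ?_
    rw [← zpow_sub, ← orderOf_dvd_iff_zpow_eq_one, hw]
    exact h4
  obtain ⟨m, hm⟩ := exists_pow_eq_self_of_coprime (x := v) (n := p ^ e)
    (Nat.Coprime.pow_left e (hp.coprime_iff_not_dvd.mpr hreg))
  have hcomm : Commute (v ^ p ^ e) w := by
    have := mul_inv_eq_iff_eq_mul.mp h5
    exact this
  have := hcomm.pow_left m
  rw [hm] at this
  rw [this.eq, mul_inv_cancel_right]

theorem cyclic_inertial (hM : IsPModular p M) {B : Set (IrrCharacter G)} (hB : IsPBlock M B)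
    {P : Subgroup G} (hPD : IsDefectGroup p M B P) (hP1 : P ≠ ⊥) (hcyc : IsCyclic P)
    {c : Set (IrrCharacter (Subgroup.centralizer (P : Set G)))}
    (hc : IsInducedBlock M (Subgroup.centralizer (P : Set G)) c B) {T : Subgroup G}
    (hT : ∀ g : G, g ∈ T ↔ (g ∈ Subgroup.normalizer (P : Set G) ∧
      StabilizesBlock (Subgroup.centralizer (P : Set G)) c g))
    [hn : ((Subgroup.centralizer (P : Set G)).subgroupOf T).Normal] :
    IsCyclic (T ⧸ (Subgroup.centralizer (P : Set G)).subgroupOf T) ∧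
      (Subgroup.centralizer (P : Set G)).relIndex T ∣ p - 1 ∧
      ∀ g ∈ T, ∀ x ∈ P, x ≠ 1 → g * x * g⁻¹ = x → g ∈ Subgroup.centralizer (P : Set G) := by
  classical
  haveI : Fact p.Prime := ⟨hM.1⟩
  have hp := hM.1
  have hP := defectGroup_isPGroup hPD
  obtain ⟨w, rfl⟩ : ∃ w, Subgroup.zpowers w = P := by
    obtain ⟨⟨w, hwP⟩, hw⟩ := isCyclic_iff_exists_zpowers_eq_top.mp hcyc
    refine ⟨w, le_antisymm (Subgroup.zpowers_le.mpr hwP) fun x hx => ?_⟩
    obtain ⟨i, hi⟩ : (⟨x, hx⟩ : P) ∈ Subgroup.zpowers ⟨w, hwP⟩ := hw.ge (Subgroup.mem_top _)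
    exact ⟨i, congrArg Subtype.val hi⟩
  obtain ⟨e, he⟩ := IsPGroup.iff_orderOf.mp hP ⟨w, Subgroup.mem_zpowers w⟩
  rw [Subgroup.orderOf_mk] at he
  have he0 : e ≠ 0 := by
    rintro rfl
    rw [pow_zero, orderOf_eq_one_iff] at he
    exact hP1 (Subgroup.zpowers_eq_bot.mpr he)
  have hPC : Subgroup.zpowers w ≤ Subgroup.centralizer ((Subgroup.zpowers w : Subgroup G) : Set G) := by
    rintro _ ⟨i, rfl⟩
    rw [Subgroup.mem_centralizer_iff]
    rintro _ ⟨j, rfl⟩
    exact ((Commute.refl w).zpow_zpow j i).eq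
  have hmax := maximal_of_defectGroup hM (isBrauerPairOf_of_induced_abelian hM hP hPC hc) hPD
  have hconjw : ∀ g ∈ T, ∃ n : ℤ, g * w * g⁻¹ = w ^ n := fun g hg => by
    obtain ⟨n, hn⟩ := (Subgroup.mem_normalizer_iff.mp ((hT g).mp hg).1 w).mp (Subgroup.mem_zpowers w)
    exact ⟨n, hn.symm⟩
  have hmem : ∀ g : G, g * w * g⁻¹ = w →
      g ∈ Subgroup.centralizer ((Subgroup.zpowers w : Subgroup G) : Set G) := fun g hg => by
    rw [Subgroup.mem_centralizer_iff]
    rintro _ ⟨j, rfl⟩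
    have hcm : Commute g w := mul_inv_eq_iff_eq_mul.mp hg
    exact (hcm.zpow_right j).eq.symm
  have h3 : ∀ g ∈ T, ∀ x ∈ Subgroup.zpowers w, x ≠ 1 → g * x * g⁻¹ = x →
      g ∈ Subgroup.centralizer ((Subgroup.zpowers w : Subgroup G) : Set G) := by
    intro g hg x hx hx1 hfix
    obtain ⟨u, v, huv, -, ⟨k, hk⟩, hv⟩ := exists_pPart hp (⟨g, hg⟩ : T)
    have huC : (u : G) ∈ Subgroup.centralizer ((Subgroup.zpowers w : Subgroup G) : Set G) := by
      have hu := maximal_pElement_mem hM hmax ((hT _).mp u.2).1 ((hT _).mp u.2).2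
        ⟨k, by rw [Subgroup.orderOf_coe]; exact hk⟩
      exact (sup_le hPC le_rfl : Subgroup.zpowers w ⊔ _ ≤ _) hu
    have hg' : g = (u : G) * (v : G) := congrArg Subtype.val huv.symm
    obtain ⟨j, rfl⟩ := hx
    obtain ⟨n, hn⟩ := hconjw v v.2
    have hfix' : (v : G) * w ^ j * (v : G)⁻¹ = w ^ j := by
      have hy : ((v : G) * w ^ j * (v : G)⁻¹) ∈ Subgroup.zpowers w :=
        (Subgroup.mem_normalizer_iff.mp ((hT _).mp v.2).1 _).mp ⟨j, rfl⟩
      have h1 := Subgroup.mem_centralizer_iff.mp huC _ hy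
      calc (v : G) * w ^ j * (v : G)⁻¹
          = ((u : G) * ((v : G) * w ^ j * (v : G)⁻¹)) * (u : G)⁻¹ := by rw [← h1]; group
        _ = g * w ^ j * g⁻¹ := by rw [hg']; group
        _ = _ := hfix
    rw [hg']
    exact mul_mem huC (hmem _ (centralizes_cyclic hp he hn hx1 hfix' (by
      rwa [Subgroup.orderOf_coe])))
  -- the action on the subgroup of order `p`
  set y := w ^ (p ^ (e - 1)) with hy
  have hye : orderOf y = p := by
    rw [hy, orderOf_pow' w (pow_ne_zero _ hp.ne_zero), he,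
      Nat.gcd_eq_right (pow_dvd_pow p (Nat.sub_le e 1)), Nat.pow_div (Nat.sub_le e 1) hp.pos,
      show e - (e - 1) = 1 by omega, pow_one]
  have hyn : ∀ t : T, ∀ x ∈ Subgroup.zpowers y, (t : G) * x * (t : G)⁻¹ ∈ Subgroup.zpowers y := by
    rintro t _ ⟨i, rfl⟩
    obtain ⟨n, hn⟩ := hconjw t t.2
    refine ⟨n * i, ?_⟩
    show y ^ (n * i) = (t : G) * y ^ i * (t : G)⁻¹
    rw [← conj_zpow, hy, ← conj_pow, hn]
    simp only [← zpow_natCast, ← zpow_mul]
    congr 1
    ring
  let ρ : T →* MulAut (Subgroup.zpowers y) :=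
    { toFun := fun t =>
        { toFun := fun x => ⟨(t : G) * (x : G) * (t : G)⁻¹, hyn t x x.2⟩
          invFun := fun x => ⟨(t : G)⁻¹ * (x : G) * (t : G), by
            have := hyn t⁻¹ x x.2
            simpa using this⟩
          left_inv := fun x => Subtype.ext (by simp [mul_assoc])
          right_inv := fun x => Subtype.ext (by simp [mul_assoc])
          map_mul' := fun a b => Subtype.ext (by simp [mul_assoc]) }
      map_one' := by ext x; simp
      map_mul' := fun s t => by ext x; simp [mul_assoc] }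
  have hy1 : y ≠ 1 := fun h => hp.ne_one (by rw [← hye, h, orderOf_one])
  have hker : ρ.ker =
      (Subgroup.centralizer ((Subgroup.zpowers w : Subgroup G) : Set G)).subgroupOf T := by
    ext t
    rw [MonoidHom.mem_ker, Subgroup.mem_subgroupOf]
    constructor
    · intro h
      have h1 := congrArg (fun α : MulAut (Subgroup.zpowers y) =>
        ((α ⟨y, Subgroup.mem_zpowers y⟩ : Subgroup.zpowers y) : G)) h
      exact h3 t t.2 y (pow_mem (Subgroup.mem_zpowers w) _) hy1 h1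
    · intro h
      ext x
      show (t : G) * (x : G) * (t : G)⁻¹ = x
      rw [← Subgroup.mem_centralizer_iff.mp h (x : G)
        ((Subgroup.zpowers_le.mpr (pow_mem (Subgroup.mem_zpowers w) _)) x.2), mul_inv_cancel_right]
  have hcardY : Nat.card (Subgroup.zpowers y) = p := by rw [Nat.card_zpowers, hye]
  haveI : NeZero p := ⟨hp.ne_zero⟩
  let e₁ : MulAut (Subgroup.zpowers y) ≃* (ZMod p)ˣ :=
    (IsCyclic.mulAutMulEquiv (Subgroup.zpowers y)).trans
      (Units.mapEquiv (ZMod.ringEquivCongr hcardY).toMulEquiv)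
  haveI : IsCyclic (MulAut (Subgroup.zpowers y)) := isCyclic_of_surjective e₁.symm e₁.symm.surjective
  let e₂ : T ⧸ (Subgroup.centralizer ((Subgroup.zpowers w : Subgroup G) : Set G)).subgroupOf T ≃* ρ.range :=
    (QuotientGroup.quotientMulEquivOfEq hker.symm).trans (QuotientGroup.quotientKerEquivRange ρ)
  refine ⟨isCyclic_of_surjective e₂.symm e₂.symm.surjective, ?_, h3⟩
  rw [Subgroup.relIndex, Subgroup.index_eq_card, Nat.card_congr e₂.toEquiv]
  refine (Subgroup.card_subgroup_dvd_card _).trans (dvd_of_eq ?_)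
  rw [Nat.card_congr e₁.toEquiv, Nat.card_eq_fintype_card, ZMod.card_units_eq_totient,
    Nat.totient_prime hp]

end CfsgLib.Blocks
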