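import Cfsg.Agent.Lib.Blocks.FrobeniusThree

/-!
The involution relation for an automizer of order three.
-/

set_option linter.style.haveILetI false
set_option linter.unusedSectionVars false

namespace CfsgLib.Blocks.FS

open scoped ComplexConjugate
open Cfsg CfsgLib.Chars

universe u

variable {G : Type u} [Group G] [Fintype G] {p : ℕ} [Fact p.Prime] {P : Sylow p G}
  [hab : IsMulCommutative (P : Subgroup G)] {M : Ideal AlgInt}

open Classical in
/-- The class multiplication relation when a section has no product of two class members. -/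
theorem class_relation (hM : IsPModular p M) {x t : G} {k : ℕ} (hx : orderOf x = p ^ k)
    (hidx : ∃ j : ℕ, (pPrimeCore p (Subgroup.centralizer ({x} : Set G))).index = p ^ j)
    (hno : ∀ o ∈ pPrimeCore p (Subgroup.centralizer ({x} : Set G)), ∀ u v : G,
      IsConj t u → IsConj t v → u * v ≠ x * (o : G)) :
    ∑ χ ∈ Finset.univ.filter (· ∈ principalBlock M G),
      (χ : G → ℂ) t ^ 2 * conj ((χ : G → ℂ) x) / (χ : G → ℂ) 1 = 0 := by
  haveI : Fintype (Subgroup.centralizer ({x} : Set G)) := Fintype.ofFinite _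
  set f := classInd t
  have hf : IsClassFunction G f := classInd_isClassFunction t
  set i := (Subgroup.centralizer ({t} : Set G)).index
  have hom : ∀ χ : IrrCharacter G,
      omega (χ : G → ℂ) f = (i : ℂ) * (χ : G → ℂ) t / (χ : G → ℂ) 1 := fun χ => by
    rw [omega_classInd (IsCharacter.isClassFunction (isCharacter_irr χ)), centralChar]
  set O := Finset.univ.filter (· ∈ pPrimeCore p (Subgroup.centralizer ({x} : Set G))) with hO
  have h0 : ∑ o ∈ O, CfsgLib.Chars.conv f f (x * (o : G)) = 0 := by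
    refine Finset.sum_eq_zero fun o ho => ?_
    refine Finset.sum_eq_zero fun y _ => ?_
    by_cases hy : IsConj t y
    · rw [show f (y⁻¹ * (x * (o : G))) = 0 from
        if_neg fun hv => hno o (Finset.mem_filter.mp ho).2 y _ hy hv (mul_inv_cancel_left y _), mul_zero]
    · rw [show f y = 0 from if_neg hy, zero_mul]
  rw [Finset.sum_congr (rfl : O = O) (g := fun o : Subgroup.centralizer ({x} : Set G) => (Nat.card G : ℂ)⁻¹ *
      ∑ χ : IrrCharacter G, omega (χ : G → ℂ) (CfsgLib.Chars.conv f f) * (χ : G → ℂ) 1 *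
        conj ((χ : G → ℂ) (x * (o : G))))
      fun o _ => inversion (IsClassFunction.conv hf hf) (x * (o : G)),
    ← Finset.mul_sum, Finset.sum_comm] at h0
  have h1 := (mul_eq_zero.mp h0).resolve_left (inv_ne_zero (natCast_card_ne_zero G))
  simp only [← Finset.mul_sum, ← map_sum, hO, CS.core_sum hM hx hidx, omega_conv _ hf hf, hom,
    apply_ite conj, map_zero, map_mul, Complex.conj_natCast, mul_ite, mul_zero] at h1
  rw [← Finset.sum_filter] at h1
  rw [Finset.sum_congr rfl (g := fun χ : IrrCharacter G => ((i : ℂ) ^ 2 *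
      (Nat.card (pPrimeCore p (Subgroup.centralizer ({x} : Set G))) : ℂ)) *
        ((χ : G → ℂ) t ^ 2 * conj ((χ : G → ℂ) x) / (χ : G → ℂ) 1)) (fun χ _ => by
      have := irr_one_ne_zero χ
      field_simp), ← Finset.mul_sum] at h1
  refine (mul_eq_zero.mp h1).resolve_left (mul_ne_zero (pow_ne_zero 2 ?_) (natCast_card_ne_zero _))
  exact Nat.cast_ne_zero.mpr Subgroup.index_ne_zero_of_finite

/-- No product of two members of the class lies in the section. -/
theorem no_product (hF : Frob P) (hm : Nat.card (autGroup P) = 3) {t : G} (ht : orderOf t = 2)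
    {x : (P : Subgroup G)} (hx1 : x ≠ 1)
    (hout : ∀ w : (P : Subgroup G), IsConj t (w : G) → ∀ α ∈ autGroup P, α w ≠ x)
    {o : Subgroup.centralizer ({(x : G)} : Set G)}
    (ho : o ∈ pPrimeCore p (Subgroup.centralizer ({(x : G)} : Set G))) {u v : G}
    (hu : IsConj t u) (hv : IsConj t v) : u * v ≠ (x : G) * (o : G) := by
  intro e
  have hxne : (x : G) ≠ 1 := fun h => hx1 (Subtype.ext h)
  have hp : p.Prime := Fact.out
  have horder : ∀ {z : G}, IsConj t z → orderOf z = 2 := fun {z} hz => by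
    obtain ⟨c, rfl⟩ := isConj_iff.mp hz
    rw [← ht]
    exact orderOf_injective (MulAut.conj c).toMonoidHom (MulEquiv.injective _) t
  obtain ⟨hidx, hcard⟩ := cent_index hF x.2 hxne
  have hreg : ¬ p ∣ orderOf (o : G) := by
    rw [Subgroup.orderOf_coe]; exact (CS.mem_core_iff hp hidx o).mp ho
  have hcom : Commute (x : G) (o : G) := (Subgroup.mem_centralizer_singleton_iff.mp o.2).symm
  obtain ⟨N, hN⟩ := pPart_eq_pow hp e.symm hcom (IsPGroup.iff_orderOf.mp P.2 x |>.imp fun k hk => by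
    rw [Subgroup.orderOf_coe]; exact hk) hreg
  have hu2 : u * u = 1 := by rw [← pow_two, ← horder hu, pow_orderOf_eq_one]
  have hv2 : v * v = 1 := by rw [← pow_two, ← horder hv, pow_orderOf_eq_one]
  have hinv : u * (x : G) * u⁻¹ = (x : G)⁻¹ := by
    have h1 : u * (u * v) * u⁻¹ = (u * v)⁻¹ := by
      rw [mul_inv_rev, inv_eq_of_mul_eq_one_right hu2, inv_eq_of_mul_eq_one_right hv2, ← mul_assoc, hu2, one_mul]
    rw [hN, conj_pow.symm, h1, inv_pow]
  have hxx : (x : G)⁻¹ = x := inv_eq_of_conj hF hm (isConj_iff.mpr ⟨u, hinv⟩)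
  rw [hxx] at hinv
  have hp2 : p = 2 := by
    have hd : p ∣ orderOf (x : G) := by
      rw [Subgroup.orderOf_coe]; exact IsPGroup.dvd_orderOf P.2 hx1
    have h2 : orderOf (x : G) ∣ 2 := orderOf_dvd_of_pow_eq_one (by
      rw [pow_two]; nth_rewrite 1 [← hxx]; exact inv_mul_cancel _)
    exact (Nat.prime_dvd_prime_iff_eq hp Nat.prime_two).mp (hd.trans h2)
  subst hp2
  -- inside the centralizer
  have huC : u ∈ (Subgroup.centralizer ({(x : G)} : Set G)) := Subgroup.mem_centralizer_singleton_iff.mpr (mul_inv_eq_iff_eq_mul.mp hinv)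
  have hvC : v ∈ (Subgroup.centralizer ({(x : G)} : Set G)) := by
    have : v = u⁻¹ * ((x : G) * (o : G)) := by rw [← e, inv_mul_cancel_left]
    rw [this]
    exact mul_mem (inv_mem huC) (mul_mem (Subgroup.mem_centralizer_singleton_iff.mpr rfl) o.2)
  haveI : (pPrimeCore 2 (Subgroup.centralizer ({(x : G)} : Set G))).Normal := by
    haveI := Core.pPrimeCore_characteristic (G := (Subgroup.centralizer ({(x : G)} : Set G))) 2
    infer_instance
  have hle := le_centralizer_of_mem (P := P) x.2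
  let q : (P : Subgroup G) →* (Subgroup.centralizer ({(x : G)} : Set G)) ⧸ pPrimeCore 2 (Subgroup.centralizer ({(x : G)} : Set G)) := (QuotientGroup.mk' _).comp (Subgroup.inclusion hle)
  have hinj : Function.Injective q := by
    rw [← MonoidHom.ker_eq_bot_iff, Subgroup.eq_bot_iff_forall]
    intro w hw
    have hwO : Subgroup.inclusion hle w ∈ pPrimeCore 2 (Subgroup.centralizer ({(x : G)} : Set G)) := (QuotientGroup.eq_one_iff _).mp hw
    have h1 := (CS.mem_core_iff hp hidx _).mp hwO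
    rw [← Subgroup.orderOf_coe] at h1
    by_contra hw1
    exact h1 (by rw [show ((Subgroup.inclusion hle w : (Subgroup.centralizer ({(x : G)} : Set G))) : G) = w from rfl, Subgroup.orderOf_coe]
                 exact IsPGroup.dvd_orderOf P.2 hw1)
  have hsurj : Function.Surjective q := by
    refine (Function.Injective.bijective_of_nat_card_le hinj ?_).2
    obtain ⟨j, hj⟩ := hidx
    rw [show Nat.card ((Subgroup.centralizer ({(x : G)} : Set G)) ⧸ pPrimeCore 2 (Subgroup.centralizer ({(x : G)} : Set G))) = (pPrimeCore 2 (Subgroup.centralizer ({(x : G)} : Set G))).index from rfl, hj, ← hcard]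
    refine Nat.pow_le_pow_right (by norm_num) ?_
    exact (Nat.Prime.pow_dvd_iff_le_factorization hp Nat.card_pos.ne').mp
      (hj ▸ Subgroup.index_dvd_card _)
  have habel : ∀ a b : (Subgroup.centralizer ({(x : G)} : Set G)) ⧸ pPrimeCore 2 (Subgroup.centralizer ({(x : G)} : Set G)), a * b = b * a := fun a b => by
    obtain ⟨a, rfl⟩ := hsurj a
    obtain ⟨b, rfl⟩ := hsurj b
    rw [← map_mul, mul_comm' a b, map_mul]
  -- members of the class in the centralizer reduce to members in the subgroup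
  have hred : ∀ z : G, IsConj t z → ∀ hz : z ∈ (Subgroup.centralizer ({(x : G)} : Set G)),
      ∃ w : (P : Subgroup G), IsConj t (w : G) ∧ q w = QuotientGroup.mk' _ (⟨z, hz⟩ : (Subgroup.centralizer ({(x : G)} : Set G))) := by
    intro z hz hzC
    have hzp : IsPGroup 2 (Subgroup.zpowers (⟨z, hzC⟩ : (Subgroup.centralizer ({(x : G)} : Set G)))) :=
      IsPGroup.of_card (n := 1) (by rw [Nat.card_zpowers, ← Subgroup.orderOf_coe, pow_one]; exact horder hz)
    obtain ⟨R, hR⟩ := hzp.exists_le_sylow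
    obtain ⟨c, hc⟩ := MulAction.exists_smul_eq (Subgroup.centralizer ({(x : G)} : Set G)) R (P.subtype hle)
    have hmem : c * (⟨z, hzC⟩ : (Subgroup.centralizer ({(x : G)} : Set G))) * c⁻¹ ∈ (P.subtype hle : Subgroup (Subgroup.centralizer ({(x : G)} : Set G))) := by
      rw [← hc]
      exact Subgroup.mem_map_of_mem _ (hR (Subgroup.mem_zpowers _))
    refine ⟨⟨_, hmem⟩, hz.trans (isConj_iff.mpr ⟨(c : G), rfl⟩), ?_⟩
    change QuotientGroup.mk' _ (c * (⟨z, hzC⟩ : (Subgroup.centralizer ({(x : G)} : Set G))) * c⁻¹) = _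
    rw [map_mul, map_mul, map_inv, habel, ← mul_assoc, inv_mul_cancel, one_mul]
  obtain ⟨w, hw, hqw⟩ := hred u hu huC
  obtain ⟨w', hw', hqw'⟩ := hred v hv hvC
  have hprod : w * w' = x := by
    apply hinj
    rw [map_mul, hqw, hqw', ← map_mul]
    have : (⟨u, huC⟩ : (Subgroup.centralizer ({(x : G)} : Set G))) * ⟨v, hvC⟩ = Subgroup.inclusion hle x * o :=
      Subtype.ext e
    rw [this, map_mul, show QuotientGroup.mk' (pPrimeCore 2 (Subgroup.centralizer ({(x : G)} : Set G))) o = 1 from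
      (QuotientGroup.eq_one_iff o).mpr ho, mul_one]
    rfl
  obtain ⟨α, hα, hαw⟩ := isConj_iff_aut.mp (hw.symm.trans hw')
  obtain ⟨g, -, hall, htrip⟩ := orbit_triple hF hm w
  have hww : (w : G) ^ 2 = 1 := orderOf_dvd_iff_pow_eq_one.mp (horder hw).dvd
  have hw2 : ∀ β : MulAut (P : Subgroup G), β w * β w = 1 := fun β => by
    rw [← map_mul, ← pow_two, show w ^ 2 = 1 from Subtype.ext hww, map_one]
  rcases hall ⟨α, hα⟩ with h | h | h <;> have hval : α = _ := congrArg Subtype.val h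
  · rw [hval, Subgroup.coe_one, MulAut.one_apply] at hαw
    rw [← hαw] at hprod
    exact hx1 (hprod.symm.trans (by simpa using hw2 1))
  · refine hout w hw ((g * g : autGroup P) : MulAut (P : Subgroup G)) (g * g).2 ?_
    rw [← hprod, ← hαw, hval]
    calc ((g * g : autGroup P) : MulAut (P : Subgroup G)) w =
          ((g * g : autGroup P) : MulAut (P : Subgroup G)) w *
          (w * (g : MulAut (P : Subgroup G)) w * ((g * g : autGroup P) : MulAut (P : Subgroup G)) w) := by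
            rw [htrip, mul_one]
      _ = (((g * g : autGroup P) : MulAut (P : Subgroup G)) w *
          ((g * g : autGroup P) : MulAut (P : Subgroup G)) w) * (w * (g : MulAut (P : Subgroup G)) w) := by
            letI : CommGroup (P : Subgroup G) :=
              { (inferInstance : Group (P : Subgroup G)) with mul_comm := fun a b => mul_comm' a b }
            simp only [mul_comm, mul_left_comm]
      _ = _ := by rw [hw2, one_mul]
  · refine hout w hw (g : MulAut (P : Subgroup G)) g.2 ?_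
    rw [← hprod, ← hαw, hval]
    calc (g : MulAut (P : Subgroup G)) w = (g : MulAut (P : Subgroup G)) w *
          (w * (g : MulAut (P : Subgroup G)) w * ((g * g : autGroup P) : MulAut (P : Subgroup G)) w) := by
            rw [htrip, mul_one]
      _ = ((g : MulAut (P : Subgroup G)) w * (g : MulAut (P : Subgroup G)) w) *
          (w * ((g * g : autGroup P) : MulAut (P : Subgroup G)) w) := by
            letI : CommGroup (P : Subgroup G) :=
              { (inferInstance : Group (P : Subgroup G)) with mul_comm := fun a b => mul_comm' a b }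
            simp only [mul_comm, mul_left_comm]
      _ = _ := by rw [hw2, one_mul]

open Classical in
/-- Signs and squares from a normally generating involution. -/
theorem three_involution (D : BlockShape M P 3) (hM : IsPModular p M) (hF : Frob P)
    (hm : Nat.card (autGroup P) = 3) (hcard : 4 < Nat.card (P : Subgroup G)) {t : G}
    (ht : orderOf t = 2) (hgen : ∀ K : Subgroup G, K.Normal → t ∈ K → K = ⊤) :
    ∃ χ₁ χ₂ : IrrCharacter G, χ₁ ≠ χ₂ ∧ χ₁ ≠ trivIrr G ∧ χ₂ ≠ trivIrr G ∧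
      (∀ χ, χ ∈ D.X ↔ χ = trivIrr G ∨ χ = χ₁ ∨ χ = χ₂) ∧
      (if D.a χ₁ = -1 then 1 else 0) + (if D.a χ₂ = -1 then 1 else 0) +
        (if D.δ = 1 then (1 : ℕ) else 0) = 2 ∧
      ∀ η ∈ D.Y, IsSquare (charDegree (η : G → ℂ) *
        (charDegree (χ₁ : G → ℂ) * charDegree (χ₂ : G → ℂ))) := by
  obtain ⟨hd0, hsgn, hX3⟩ := three_shape D hM
  have hXf : D.X.toFinset.card = 3 := by
    rwa [Nat.card_coe_set_eq, Set.ncard_eq_toFinset_card'] at hX3
  have herase : (D.X.toFinset.erase (trivIrr G)).card = 2 := by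
    rw [Finset.card_erase_of_mem (Set.mem_toFinset.mpr D.triv_mem), hXf]
  obtain ⟨χ₁, χ₂, h12, hpair⟩ := Finset.card_eq_two.mp herase
  have hmem : ∀ χ, χ ∈ D.X ↔ χ = trivIrr G ∨ χ = χ₁ ∨ χ = χ₂ := by
    intro χ
    have h := Finset.ext_iff.mp hpair χ
    simp only [Finset.mem_erase, Set.mem_toFinset, Finset.mem_insert, Finset.mem_singleton] at h
    constructor
    · intro hχ
      by_cases e : χ = trivIrr G
      · exact Or.inl e
      · exact Or.inr (h.mp ⟨e, hχ⟩)
    · rintro (rfl | e)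
      · exact D.triv_mem
      · exact (h.mpr e).2
  have hn1 : χ₁ ≠ trivIrr G := fun e => by
    have := Finset.ext_iff.mp hpair χ₁
    simp [e] at this
  have hn2 : χ₂ ≠ trivIrr G := fun e => by
    have := Finset.ext_iff.mp hpair χ₂
    simp [e] at this
  refine ⟨χ₁, χ₂, h12, hn1, hn2, hmem, ?_⟩
  have hX1 : χ₁ ∈ D.X := (hmem _).mpr (Or.inr (Or.inl rfl))
  have hX2 : χ₂ ∈ D.X := (hmem _).mpr (Or.inr (Or.inr rfl))
  have hXeq : D.X.toFinset = {trivIrr G, χ₁, χ₂} := by
    ext χ; simp [hmem]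
  have hsumX : ∀ F : IrrCharacter G → ℂ,
      ∑ χ ∈ D.X.toFinset, F χ = F (trivIrr G) + (F χ₁ + F χ₂) := fun F => by
    rw [hXeq, Finset.sum_insert (by simp [hn1.symm, hn2.symm]), Finset.sum_pair h12]
  have hblock : ∀ F : IrrCharacter G → ℂ, ∑ χ ∈ Finset.univ.filter (· ∈ principalBlock M G), F χ =
      F (trivIrr G) + (F χ₁ + F χ₂) + ∑ η ∈ D.Y.toFinset, F η := fun F => by
    rw [← hsumX, ← Finset.sum_union (Set.disjoint_toFinset.mpr D.disjoint)]
    exact Finset.sum_congr (by ext χ; simp [D.union_eq]) fun _ _ => rfl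
  obtain ⟨η, hη⟩ : D.Y.Nonempty := by
    rw [Set.nonempty_iff_ne_empty]
    rintro e
    have := D.two_le
    simp [e] at this
  set a₁ := D.a χ₁
  set a₂ := D.a χ₂
  set n₁ := charDegree (χ₁ : G → ℂ)
  set n₂ := charDegree (χ₂ : G → ℂ)
  set f := charDegree (η : G → ℂ)
  have hδ2 : (D.δ : ℂ) * D.δ = 1 := by rcases D.sign with h | h <;> simp [h]
  have htriv1 : ∀ g, (trivIrr G : G → ℂ) g = 1 := fun _ => rfl
  have hrel : ∀ g, ¬ p ∣ orderOf g → (D.δ : ℂ) * (η : G → ℂ) g =
      1 + ((a₁ : ℂ) * (χ₁ : G → ℂ) g + (a₂ : ℂ) * (χ₂ : G → ℂ) g) := by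
    intro g hg
    have h := D.relation η hη g hg
    rw [finsum_mem_eq_toFinset_sum, hsumX, D.a_triv, htriv1, hd0] at h
    simp only [Int.cast_zero, mul_zero, zero_sub, Int.cast_one, one_mul] at h
    linear_combination -h
  have h1 : (D.δ : ℂ) * f = 1 + ((a₁ : ℂ) * n₁ + (a₂ : ℂ) * n₂) := by
    have := hrel 1 (not_dvd_orderOf_one hM)
    rwa [irr_apply_one, irr_apply_one, irr_apply_one] at this
  have hdegY : ∀ η' ∈ D.Y, (η' : G → ℂ) 1 = (f : ℂ) := fun η' hη' => by
    rw [D.regular_eq η' hη' η hη 1 (not_dvd_orderOf_one hM), irr_apply_one]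
  -- the section element
  obtain ⟨w₀, hw₀⟩ : ∃ w₀ : (P : Subgroup G), p = 2 → IsConj t (w₀ : G) := by
    by_cases hp2 : p = 2
    · subst hp2
      obtain ⟨R, hR⟩ := (IsPGroup.of_card (n := 1)
        (by rw [Nat.card_zpowers, ht, pow_one] : Nat.card (Subgroup.zpowers t) = 2 ^ 1)).exists_le_sylow
      obtain ⟨c, hc⟩ := MulAction.exists_smul_eq G R P
      refine ⟨⟨c * t * c⁻¹, ?_⟩, fun _ => isConj_iff.mpr ⟨c, rfl⟩⟩
      rw [← hc]
      exact Subgroup.mem_map_of_mem _ (hR (Subgroup.mem_zpowers t))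
    · exact ⟨1, fun h => absurd h hp2⟩
  obtain ⟨x, hx1, hxout⟩ := exists_outside hF hm hcard w₀
  have hxne : (x : G) ≠ 1 := fun h => hx1 (Subtype.ext h)
  obtain ⟨k, hk⟩ := IsPGroup.iff_orderOf.mp P.2 x
  rw [← Subgroup.orderOf_coe] at hk
  have hidx := (cent_index hF x.2 hxne).1
  have hxd : p ∣ orderOf (x : G) := by
    rw [Subgroup.orderOf_coe]; exact IsPGroup.dvd_orderOf P.2 hx1
  have hout : ∀ w : (P : Subgroup G), IsConj t (w : G) → ∀ α ∈ autGroup P, α w ≠ x := by
    intro w hw α hα he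
    have hd : p ∣ orderOf (w : G) := by
      rw [Subgroup.orderOf_coe]
      refine IsPGroup.dvd_orderOf P.2 fun e => hx1 ?_
      rw [← he, e, map_one]
    obtain ⟨c, hc⟩ := isConj_iff.mp hw
    have hp2 : p = 2 := by
      have : orderOf (w : G) = 2 := by
        rw [← hc, ← ht]
        exact orderOf_injective (MulAut.conj c).toMonoidHom (MulEquiv.injective _) t
      rw [this] at hd
      exact (Nat.prime_dvd_prime_iff_eq Fact.out Nat.prime_two).mp hd
    obtain ⟨β, hβ, hβw⟩ := isConj_iff_aut.mp ((hw₀ hp2).symm.trans hw)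
    exact hxout (α * β) (mul_mem hα hβ) (by rw [MulAut.mul_apply, hβw, he])
  have hclass := class_relation hM hk hidx (t := t) fun o ho u v hu hv =>
    no_product hF hm ht hx1 hout ho hu hv
  have hvX : ∀ χ ∈ D.X, (χ : G → ℂ) (x : G) = (D.a χ : ℂ) := fun χ hχ =>
    D.valueX χ hχ _ _ ⟨1, mul_one _, Commute.one_right _, ⟨k, hk⟩, not_dvd_orderOf_one hM⟩ x.2 hxne
  have hYsum : ∑ η' ∈ D.Y.toFinset, conj ((η' : G → ℂ) (x : G)) = -(D.δ : ℂ) := by
    have h := weak_orthogonality hM (isPBlock_principalBlock (M := M) (G := G))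
      (not_dvd_orderOf_one hM) hxd
    rw [hblock, hvX _ D.triv_mem, hvX _ hX1, hvX _ hX2, D.a_triv, htriv1, irr_apply_one,
      irr_apply_one, Finset.sum_congr rfl (fun η' hη' => by rw [hdegY η' (Set.mem_toFinset.mp hη')]),
      ← Finset.mul_sum] at h
    simp only [Int.cast_one, map_one, mul_one, map_intCast] at h
    have hf0 : (f : ℂ) ≠ 0 := Nat.cast_ne_zero.mpr (charDegree_pos η).ne'
    refine mul_left_cancel₀ hf0 ?_
    linear_combination h + h1
  obtain ⟨c₁, hc₁⟩ := KP.exists_int_involution (isCharacter_irr χ₁) ht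
  obtain ⟨c₂, hc₂⟩ := KP.exists_int_involution (isCharacter_irr χ₂) ht
  have hY2 : ∑ η' ∈ D.Y.toFinset, (η' : G → ℂ) t ^ 2 * conj ((η' : G → ℂ) (x : G)) =
      -(D.δ : ℂ) * ((-1 - a₁ * c₁ - a₂ * c₂ : ℤ) : ℂ) ^ 2 := by
    push_cast
    rw [← hc₁, ← hc₂]
    by_cases hp2 : p = 2
    · subst hp2
      obtain ⟨c, hc⟩ := isConj_iff.mp (hw₀ rfl)
      have hval : ∀ χ : IrrCharacter G, (χ : G → ℂ) t = (χ : G → ℂ) (w₀ : G) := fun χ => by
        rw [← hc, IsCharacter.isClassFunction (isCharacter_irr χ) t c]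
      have hw₀o : orderOf (w₀ : G) = 2 := by
        rw [← hc, ← ht]
        exact orderOf_injective (MulAut.conj c).toMonoidHom (MulEquiv.injective _) t
      have hw₀1 : (w₀ : G) ≠ 1 := fun h => by simp [h] at hw₀o
      have hpp : IsPPart 2 (w₀ : G) (w₀ : G) :=
        ⟨1, mul_one _, Commute.one_right _, ⟨1, by rw [hw₀o, pow_one]⟩, not_dvd_orderOf_one hM⟩
      have hX : ∀ χ ∈ D.X, (χ : G → ℂ) t = (D.a χ : ℂ) := fun χ hχ => by
        rw [hval, D.valueX χ hχ _ _ hpp w₀.2 hw₀1]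
      have hww : (w₀ : G) ^ 2 = 1 := orderOf_dvd_iff_pow_eq_one.mp hw₀o.dvd
      have hw₀2 : w₀ * w₀ = 1 := Subtype.ext (by rw [Subgroup.coe_mul, ← pow_two, hww]; rfl)
      have hYt : ∀ η' ∈ D.Y, (η' : G → ℂ) t ^ 2 = 3 + 2 * (D.δ : ℂ) * (η' : G → ℂ) t := by
        intro η' hη'
        obtain ⟨ψ, hψ, rfl⟩ := D.ζ_surj η' hη'
        rw [hval, D.valueY ψ hψ _ _ hpp hw₀1, hd0, Int.cast_zero, zero_add]
        rcases orbit_sum_involution hF hm hw₀2 hψ with e | e <;> rw [e] <;>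
          rcases D.sign with e' | e' <;> rw [e'] <;> norm_num
      have hcross := CS.col_cross hM (x := (w₀ : G)) (k := 1) (by rw [hw₀o, pow_one])
        (cent_index hF w₀.2 hw₀1).1 hk (fun h => by
          obtain ⟨α, hα, e⟩ := isConj_iff_aut.mp h.symm
          exact hxout α hα e)
      simp only [← hval] at hcross
      rw [hblock, hvX _ D.triv_mem, hvX _ hX1, hvX _ hX2, hX _ D.triv_mem, hX _ hX1, hX _ hX2,
        D.a_triv] at hcross
      rw [hX _ hX1, hX _ hX2, Finset.sum_congr rfl (g := fun η' : IrrCharacter G =>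
        3 * conj ((η' : G → ℂ) (x : G)) + 2 * (D.δ : ℂ) * ((η' : G → ℂ) t * conj ((η' : G → ℂ) (x : G))))
        (fun η' hη' => by rw [hYt η' (Set.mem_toFinset.mp hη')]; ring), Finset.sum_add_distrib,
        ← Finset.mul_sum, ← Finset.mul_sum, hYsum]
      have ha1 : (a₁ : ℂ) * a₁ = 1 := by rcases hsgn _ hX1 with h | h <;> simp [a₁, h]
      have ha2 : (a₂ : ℂ) * a₂ = 1 := by rcases hsgn _ hX2 with h | h <;> simp [a₂, h]
      simp only [map_intCast, map_one, Int.cast_one, mul_one] at hcross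
      rw [show (-1 - (a₁ : ℂ) * a₁ - a₂ * a₂) = -3 by rw [ha1, ha2]; norm_num]
      linear_combination (2 * (D.δ : ℂ)) * hcross - 2 * (D.δ : ℂ) * ha1 - 2 * (D.δ : ℂ) * ha2
    · have htreg : ¬ p ∣ orderOf t := fun h => by
        rw [ht] at h
        exact hp2 ((Nat.prime_dvd_prime_iff_eq Fact.out Nat.prime_two).mp h)
      rw [Finset.sum_congr rfl (g := fun η' : IrrCharacter G => (η : G → ℂ) t ^ 2 * conj ((η' : G → ℂ) (x : G)))
        (fun η' hη' => by rw [D.regular_eq η' (Set.mem_toFinset.mp hη') η hη t htreg]),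
        ← Finset.mul_sum, hYsum]
      have h := hrel t htreg
      linear_combination (-(D.δ : ℂ) * ((D.δ : ℂ) * (η : G → ℂ) t +
        (1 + (a₁ : ℂ) * (χ₁ : G → ℂ) t + (a₂ : ℂ) * (χ₂ : G → ℂ) t))) * h +
        (D.δ : ℂ) * (η : G → ℂ) t ^ 2 * hδ2
  rw [hblock, hvX _ D.triv_mem, hvX _ hX1, hvX _ hX2, D.a_triv, htriv1, htriv1, irr_apply_one,
    irr_apply_one, hc₁, hc₂, Finset.sum_congr rfl (g := fun η' : IrrCharacter G =>
      ((η' : G → ℂ) t ^ 2 * conj ((η' : G → ℂ) (x : G))) * (f : ℂ)⁻¹)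
      (fun η' hη' => by rw [hdegY η' (Set.mem_toFinset.mp hη')]; ring),
    ← Finset.sum_mul, hY2] at hclass
  simp only [map_intCast, map_one, Int.cast_one, mul_one, one_pow, div_one] at hclass
  have hn1' : (n₁ : ℂ) ≠ 0 := Nat.cast_ne_zero.mpr (charDegree_pos χ₁).ne'
  have hn2' : (n₂ : ℂ) ≠ 0 := Nat.cast_ne_zero.mpr (charDegree_pos χ₂).ne'
  have hf' : (f : ℂ) ≠ 0 := Nat.cast_ne_zero.mpr (charDegree_pos η).ne'
  have hclass' : (1 : ℂ) + ((c₁ : ℂ) ^ 2 * (a₁ : ℂ) / (n₁ : ℂ) + (c₂ : ℂ) ^ 2 * (a₂ : ℂ) / (n₂ : ℂ)) +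
      -(D.δ : ℂ) * ((-1 - a₁ * c₁ - a₂ * c₂ : ℤ) : ℂ) ^ 2 / (f : ℂ) = 0 := by
    linear_combination hclass
  field_simp at hclass'
  set y₃ : ℤ := -1 - a₁ * c₁ - a₂ * c₂ with hy₃
  have hE : (n₁ : ℤ) * n₂ * f + a₁ * c₁ ^ 2 * n₂ * f + a₂ * c₂ ^ 2 * n₁ * f - D.δ * y₃ ^ 2 * n₁ * n₂ = 0 := by
    have : (((n₁ : ℤ) * n₂ * f + a₁ * c₁ ^ 2 * n₂ * f + a₂ * c₂ ^ 2 * n₁ * f -
        D.δ * y₃ ^ 2 * n₁ * n₂ : ℤ) : ℂ) = 0 := by
      push_cast at hclass' ⊢
      linear_combination hclass'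
    exact_mod_cast this
  have h1Z : D.δ * (f : ℤ) = 1 + (a₁ * (n₁ : ℤ) + a₂ * (n₂ : ℤ)) := by exact_mod_cast h1
  have ha1 : a₁ ^ 2 = 1 := by rcases hsgn _ hX1 with h | h <;> simp [a₁, h]
  have ha2 : a₂ ^ 2 = 1 := by rcases hsgn _ hX2 with h | h <;> simp [a₂, h]
  have hd2 : D.δ ^ 2 = 1 := by rcases D.sign with h | h <;> simp [h]
  have hn1Z : (0 : ℤ) < n₁ := by exact_mod_cast charDegree_pos χ₁
  have hn2Z : (0 : ℤ) < n₂ := by exact_mod_cast charDegree_pos χ₂
  have hfZ : (0 : ℤ) < f := by exact_mod_cast charDegree_pos η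
  have hA1 : a₁ = 1 ∨ a₁ = -1 := hsgn _ hX1
  have hA2 : a₂ = 1 ∨ a₂ = -1 := hsgn _ hX2
  obtain ⟨hpos, hsq, hcount⟩ := three_arith (x₁ := a₁ * n₁) (x₂ := a₂ * n₂) (x₃ := -D.δ * f)
    (z₁ := a₁ * (c₁ - n₁)) (z₂ := a₂ * (c₂ - n₂)) (z₃ := y₃ - -D.δ * f)
    (by rcases hA1 with h | h <;> rw [h] <;> omega)
    (by rcases hA2 with h | h <;> rw [h] <;> omega)
    (by rcases D.sign with h | h <;> rw [h] <;> omega)
    (by linarith) (by rw [hy₃]; linarith)
    (by
      refine mul_ne_zero (fun h => by simp [h] at ha1) (sub_ne_zero.mpr fun h => ?_)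
      refine value_ne_degree hgen hn1 ?_
      rw [hc₁, irr_apply_one, h, Int.cast_natCast])
    (by
      have hsum : a₁ * (n₁ : ℤ) + a₂ * n₂ + -D.δ * f = -1 := by linarith
      have hsy : a₁ * c₁ + a₂ * c₂ + y₃ = -1 := by rw [hy₃]; ring
      linear_combination (-a₁ * a₂ * D.δ) * hE +
        (a₁ * (n₁ : ℤ) * (a₂ * n₂) * (-D.δ * f)) * hsum +
        (-2 * (a₁ * (n₁ : ℤ) * (a₂ * n₂) * (-D.δ * f))) * hsy +
        (-a₁ * a₂ * y₃ ^ 2 * n₁ * n₂) * hd2)
  have hprod : a₁ * (n₁ : ℤ) * (a₂ * n₂) * (-D.δ * f) = (f : ℤ) * (n₁ * n₂) := by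
    refine (pow_left_inj₀ hpos.le (by positivity) two_ne_zero).mp ?_
    linear_combination ((f : ℤ) ^ 2 * n₁ ^ 2 * n₂ ^ 2 * a₂ ^ 2 * D.δ ^ 2) * ha1 +
      ((f : ℤ) ^ 2 * n₁ ^ 2 * n₂ ^ 2 * D.δ ^ 2) * ha2 + ((f : ℤ) ^ 2 * n₁ ^ 2 * n₂ ^ 2) * hd2
  refine ⟨?_, fun η' hη' => ?_⟩
  · have e1 : a₁ * (n₁ : ℤ) < 0 ↔ a₁ = -1 := by rcases hA1 with h | h <;> simp [h] <;> omega
    have e2 : a₂ * (n₂ : ℤ) < 0 ↔ a₂ = -1 := by rcases hA2 with h | h <;> simp [h] <;> omega
    have e3 : -D.δ * (f : ℤ) < 0 ↔ D.δ = 1 := by rcases D.sign with h | h <;> simp [h] <;> omega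
    simp only [e1, e2, e3] at hcount
    exact hcount
  · have hf_eq : charDegree (η' : G → ℂ) = f := by
      have := hdegY η' hη'
      rw [irr_apply_one] at this
      exact_mod_cast this
    rw [hf_eq]
    rw [hprod] at hsq
    exact Int.isSquare_natCast_iff.mp (by push_cast; exact hsq)

end CfsgLib.Blocks.FS
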