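import Cfsg.Agent.Lib.Blocks.DihedralLattice
import Cfsg.Agent.Lib.Blocks.FrobeniusInvolution

/-!
Counting pairs of involutions with product in a section of a dihedral Sylow 2-subgroup.
-/

set_option linter.style.haveILetI false
set_option linter.unusedSectionVars false

namespace CfsgLib.Blocks.DH

open scoped ComplexConjugate
open Cfsg CfsgLib.Chars
open CfsgLib.ThompsonNPC (orderOf_conj_eq)

universe u

/-- Equal fibres over an image. -/
theorem card_image_mul {α β : Type*} [DecidableEq β] (s : Finset α) (f : α → β) (k : ℕ)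
    (h : ∀ a ∈ s, (s.filter fun b => f b = f a).card = k) : (s.image f).card * k = s.card := by
  rw [Finset.card_eq_sum_card_fiberwise (f := f) (t := s.image f) (fun a ha => Finset.mem_image_of_mem f ha),
    Finset.sum_congr rfl (g := fun _ => k) fun b hb => ?_, Finset.sum_const, smul_eq_mul]
  obtain ⟨a, ha, rfl⟩ := Finset.mem_image.mp hb
  exact h a ha

variable {G : Type u} [Group G] [Fintype G]

open Classical in
/-- The pair count over a section through the principal block. -/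
theorem pair_relation {M : Ideal AlgInt} {p : ℕ} (hM : IsPModular p M) {x t : G} {k : ℕ} (hx : orderOf x = p ^ k)
    (hidx : ∃ j : ℕ, (pPrimeCore p (Subgroup.centralizer ({x} : Set G))).index = p ^ j) :
    ∑ o ∈ Finset.univ.filter (· ∈ pPrimeCore p (Subgroup.centralizer ({x} : Set G))),
        CfsgLib.Chars.conv (classInd t) (classInd t) (x * (o : G)) =
      (Nat.card G : ℂ)⁻¹ * (((Subgroup.centralizer ({t} : Set G)).index : ℂ) ^ 2 *
        (Nat.card (pPrimeCore p (Subgroup.centralizer ({x} : Set G))) : ℂ) *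
        ∑ χ ∈ Finset.univ.filter (· ∈ principalBlock M G),
          (χ : G → ℂ) t ^ 2 * conj ((χ : G → ℂ) x) / (χ : G → ℂ) 1) := by
  set f := classInd t
  have hf : IsClassFunction G f := classInd_isClassFunction t
  set i := (Subgroup.centralizer ({t} : Set G)).index
  have hom : ∀ χ : IrrCharacter G,
      omega (χ : G → ℂ) f = (i : ℂ) * (χ : G → ℂ) t / (χ : G → ℂ) 1 := fun χ => by
    rw [omega_classInd (IsCharacter.isClassFunction (isCharacter_irr χ)), centralChar]
  set O := Finset.univ.filter (· ∈ pPrimeCore p (Subgroup.centralizer ({x} : Set G))) with hO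
  rw [Finset.sum_congr (rfl : O = O) (g := fun o : Subgroup.centralizer ({x} : Set G) => (Nat.card G : ℂ)⁻¹ *
      ∑ χ : IrrCharacter G, omega (χ : G → ℂ) (CfsgLib.Chars.conv f f) * (χ : G → ℂ) 1 *
        conj ((χ : G → ℂ) (x * (o : G))))
      fun o _ => inversion (IsClassFunction.conv hf hf) (x * (o : G)),
    ← Finset.mul_sum, Finset.sum_comm]
  congr 1
  simp only [← Finset.mul_sum, ← map_sum, hO, CS.core_sum hM hx hidx, omega_conv _ hf hf, hom,
    apply_ite conj, map_zero, map_mul, Complex.conj_natCast, mul_ite, mul_zero]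
  rw [← Finset.sum_filter, Finset.mul_sum]
  refine Finset.sum_congr rfl fun χ _ => ?_
  have := irr_one_ne_zero χ
  field_simp

open Classical in
/-- Pairs of involutions with a given product, by their first member. -/
noncomputable def pairs (z : G) : ℕ :=
  (Finset.univ.filter fun u : G => orderOf u = 2 ∧ orderOf (u⁻¹ * z) = 2).card

theorem pairs_conj (z c : G) : pairs (c * z * c⁻¹) = pairs z := by
  classical
  refine (Finset.card_equiv (MulAut.conj c).toEquiv fun u => ?_).symm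
  simp only [Finset.mem_filter, Finset.mem_univ, true_and, MulEquiv.toEquiv_eq_coe, MulEquiv.coe_toEquiv,
    MulAut.conj_apply, orderOf_conj_eq]
  rw [show (c * u * c⁻¹)⁻¹ * (c * z * c⁻¹) = c * (u⁻¹ * z) * c⁻¹ by group, orderOf_conj_eq]

variable {P : Sylow 2 G} {σ τ : G} {n : ℕ} (D : IsDih P σ τ n)

/-- The core of the centralizer of the central involution. -/
noncomputable def coreJ (σ : G) (n : ℕ) : Subgroup G :=
  (pPrimeCore 2 (Subgroup.centralizer ({cJ σ n} : Set G))).map (Subgroup.centralizer ({cJ σ n} : Set G)).subtype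

include D

theorem coreJ_le : coreJ σ n ≤ Subgroup.centralizer ({cJ σ n} : Set G) := by
  rintro _ ⟨g, -, rfl⟩; exact g.2

theorem mem_coreJ {g : G} :
    g ∈ coreJ σ n ↔ g ∈ Subgroup.centralizer ({cJ σ n} : Set G) ∧ ¬ 2 ∣ orderOf g := by
  have hidx := index_cent D (J_mem D) (J_ne_one D)
  constructor
  · rintro ⟨a, ha, rfl⟩
    exact ⟨a.2, by
      rw [Subgroup.coe_subtype, Subgroup.orderOf_coe]
      exact (CS.mem_core_iff Nat.prime_two hidx a).mp ha⟩
  · rintro ⟨hg, ho⟩
    exact ⟨⟨g, hg⟩, (CS.mem_core_iff Nat.prime_two hidx _).mpr (by rwa [Subgroup.orderOf_mk]), rfl⟩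

theorem coreJ_conj {c o : G} (hc : c ∈ Subgroup.centralizer ({cJ σ n} : Set G)) (ho : o ∈ coreJ σ n) :
    c * o * c⁻¹ ∈ coreJ σ n := by
  rw [mem_coreJ D] at ho ⊢
  exact ⟨mul_mem (mul_mem hc ho.1) (inv_mem hc), by rw [orderOf_conj_eq]; exact ho.2⟩

theorem eq_one_of_coreJ {w : G} (hw : w ∈ (P : Subgroup G)) (ho : w ∈ coreJ σ n) : w = 1 := by
  haveI : Fact (Nat.Prime 2) := ⟨Nat.prime_two⟩
  by_contra h
  refine ((mem_coreJ D).mp ho).2 ?_
  rw [← Subgroup.orderOf_mk w hw]
  exact IsPGroup.dvd_orderOf P.2 fun e => h (congrArg Subtype.val e)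

theorem uniq {w w' o o' : G} (hw : w ∈ (P : Subgroup G)) (hw' : w' ∈ (P : Subgroup G))
    (ho : o ∈ coreJ σ n) (ho' : o' ∈ coreJ σ n) (h : w * o = w' * o') : w = w' := by
  refine (inv_mul_eq_one.mp (eq_one_of_coreJ D (mul_mem (inv_mem hw) hw') ?_))
  rw [show w' = w * o * o'⁻¹ by rw [h, mul_inv_cancel_right], show w⁻¹ * (w * o * o'⁻¹) = o * o'⁻¹ by group]
  exact mul_mem ho (inv_mem ho')

theorem card_coreJ : Nat.card (coreJ σ n) * 2 ^ n =
    Nat.card (Subgroup.centralizer ({cJ σ n} : Set G)) := by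
  obtain ⟨j, hj⟩ := index_cent D (J_mem D) (J_ne_one D)
  set C := Subgroup.centralizer ({cJ σ n} : Set G)
  have hc := (pPrimeCore 2 C).card_mul_index
  rw [hj] at hc
  have hf := fact_centJ D
  rw [← hc, Nat.factorization_mul Nat.card_pos.ne' (pow_ne_zero _ two_ne_zero), Finsupp.add_apply,
    Nat.prime_two.factorization_pow, Finsupp.single_eq_same,
    Nat.factorization_eq_zero_of_not_dvd ((Nat.Prime.coprime_iff_not_dvd Nat.prime_two).mp
      (Core.card_pPrimeCore_coprime (G := C) 2).symm), zero_add] at hf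
  rw [← hc, hf, coreJ, Subgroup.card_map_of_injective C.subtype_injective]

theorem exists_decomp {u : G} (hu : u ∈ Subgroup.centralizer ({cJ σ n} : Set G)) :
    ∃ w ∈ (P : Subgroup G), ∃ o ∈ coreJ σ n, u = w * o := by
  set C := Subgroup.centralizer ({cJ σ n} : Set G)
  let f : ↥(P : Subgroup G) × ↥(coreJ σ n) → C := fun x => ⟨x.1 * x.2, mul_mem (le_centJ D x.1.2) (coreJ_le D x.2.2)⟩
  have hinj : Function.Injective f := by
    rintro ⟨w, o⟩ ⟨w', o'⟩ h
    have e : (w : G) * o = w' * o' := congrArg Subtype.val h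
    have e1 := uniq D w.2 w'.2 o.2 o'.2 e
    rw [e1] at e
    exact Prod.ext (Subtype.ext e1) (Subtype.ext (mul_left_cancel e))
  obtain ⟨⟨w, o⟩, h⟩ := (hinj.bijective_of_nat_card_le (by
    rw [Nat.card_prod, card_P D, mul_comm, card_coreJ D])).2 ⟨u, hu⟩
  exact ⟨w, w.2, o, o.2, (congrArg Subtype.val h).symm⟩

/-- An element inverting a nontrivial cyclic part centralises the centre. -/
theorem mem_cent_of_inverts {a u z : G} (ha : a ∈ Subgroup.zpowers σ) (ha1 : a ≠ 1) {t : ℕ} (hz : a = z ^ t)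
    (hu : u * z * u⁻¹ = z⁻¹) : u ∈ Subgroup.centralizer ({cJ σ n} : Set G) := by
  obtain ⟨j, -, hj⟩ := (Nat.dvd_prime_pow Nat.prime_two).mp (orderOf_dvd_of_pow_eq_one (σ_pow_two_pow D ha))
  obtain ⟨j, rfl⟩ : ∃ i, j = i + 1 := ⟨j - 1, by
    rcases j with _ | j
    · rw [pow_zero, orderOf_eq_one_iff] at hj; exact absurd hj ha1
    · rfl⟩
  have hJ : a ^ 2 ^ j = cJ σ n := by
    refine (order_two D (pow_mem ha _) ?_).resolve_left fun e => ?_
    · rw [← pow_add, ← two_mul, ← pow_succ', ← hj, pow_orderOf_eq_one]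
    · have := Nat.le_of_dvd (pow_pos two_pos j) (orderOf_dvd_of_pow_eq_one e)
      rw [hj, pow_succ] at this
      have : 0 < 2 ^ j := pow_pos two_pos j
      omega
  have h : u * cJ σ n * u⁻¹ = (cJ σ n)⁻¹ := by
    rw [← hJ, hz, ← pow_mul, ← conj_pow, hu, inv_pow]
  rw [inv_eq_of_mul_eq_one_right (show cJ σ n * cJ σ n = 1 by
    rw [← pow_two, ← J_ord D, pow_orderOf_eq_one])] at h
  exact Subgroup.mem_centralizer_singleton_iff.mpr (mul_inv_eq_iff_eq_mul.mp h)

omit D in
open Classical in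
/-- Involutions in a coset of the core. -/
noncomputable def cos (σ τ : G) (n : ℕ) (i : ZMod (2 ^ (n - 1))) : Finset G :=
  Finset.univ.filter fun u => orderOf u = 2 ∧ (τ * sp σ i)⁻¹ * u ∈ coreJ σ n

theorem refl_mem (i : ZMod (2 ^ (n - 1))) :
    τ * sp σ i ∈ (P : Subgroup G) ∧ τ * sp σ i ∉ Subgroup.zpowers σ :=
  ⟨mul_mem D.τ_mem (zpowers_le D (sp_mem D i)), fun h => D.out (by
    have := mul_mem h (inv_mem (sp_mem D i))
    rwa [mul_inv_cancel_right] at this)⟩

theorem cos_disjoint {i k : ZMod (2 ^ (n - 1))} (h : i ≠ k) : Disjoint (cos σ τ n i) (cos σ τ n k) := by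
  classical
  rw [Finset.disjoint_left]
  intro u hi hk
  simp only [cos, Finset.mem_filter] at hi hk
  refine h (sp_inj D (mul_left_cancel (a := τ) ?_))
  exact uniq D (refl_mem D i).1 (refl_mem D k).1 hi.2.2 hk.2.2 (by group)

open Classical in
/-- Pairs over a coset of the core. -/
theorem coset_count {l : ZMod (2 ^ (n - 1))} (hl : l ≠ 0)
    (hin : ∀ o ∈ coreJ σ n, ∀ u : G, orderOf u = 2 → orderOf (u⁻¹ * (sp σ l * o)) = 2 →
      u ∈ Subgroup.centralizer ({cJ σ n} : Set G)) :
    ∑ o ∈ Finset.univ.filter (· ∈ coreJ σ n), pairs (sp σ l * o) =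
      ∑ i : ZMod (2 ^ (n - 1)), (cos σ τ n i).card * (cos σ τ n (i + l)).card := by
  simp only [pairs, Finset.card_filter]
  rw [Finset.sum_comm]
  have hfib : ∀ (i : ZMod (2 ^ (n - 1))), ∀ u ∈ cos σ τ n i,
      ∑ o ∈ Finset.univ.filter (· ∈ coreJ σ n), (if orderOf u = 2 ∧ orderOf (u⁻¹ * (sp σ l * o)) = 2 then 1 else 0) =
        (cos σ τ n (i + l)).card := by
    intro i u hu
    simp only [cos, Finset.mem_filter, Finset.mem_univ, true_and] at hu
    simp only [hu.1, true_and, ← Finset.card_filter, cos]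
    obtain ⟨o₁, ho₁, rfl⟩ : ∃ o₁ ∈ coreJ σ n, u = τ * sp σ i * o₁ := ⟨_, hu.2, (mul_inv_cancel_left _ u).symm⟩
    set w := τ * sp σ i
    have hw := refl_mem D i
    have hw2 : w⁻¹ = w := inv_eq_of_mul_eq_one_right (refl D hw.1 hw.2).1
    have hC := fun {g : G} (hg : g ∈ coreJ σ n) => coreJ_le D hg
    refine Finset.card_bij (fun o _ => (w * o₁)⁻¹ * (sp σ l * o)) ?_ ?_ ?_
    · intro o ho
      simp only [Finset.mem_filter, Finset.mem_univ, true_and] at ho ⊢
      refine ⟨ho.2, ?_⟩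
      have hwl : τ * sp σ (i + l) = w * sp σ l := by rw [sp_add D, mul_assoc]
      have hwlC : w * sp σ l ∈ Subgroup.centralizer ({cJ σ n} : Set G) :=
        le_centJ D (mul_mem hw.1 (zpowers_le D (sp_mem D l)))
      rw [hwl, show (w * sp σ l)⁻¹ * ((w * o₁)⁻¹ * (sp σ l * o)) =
        ((w * sp σ l)⁻¹ * o₁⁻¹ * ((w * sp σ l)⁻¹)⁻¹) * ((sp σ l)⁻¹ * w⁻¹ * w⁻¹ * sp σ l) * o by group,
        show (sp σ l)⁻¹ * w⁻¹ * w⁻¹ * sp σ l = 1 by
          rw [mul_assoc (sp σ l)⁻¹]; nth_rewrite 2 [hw2]; rw [inv_mul_cancel, mul_one, inv_mul_cancel], mul_one]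
      exact mul_mem (coreJ_conj D (inv_mem hwlC) (inv_mem ho₁)) ho.1
    · intro a _ b _ h
      exact mul_left_cancel (mul_left_cancel h)
    · intro v hv
      simp only [Finset.mem_filter, Finset.mem_univ, true_and] at hv
      refine ⟨(sp σ l)⁻¹ * (w * o₁ * v), ?_, by group⟩
      simp only [Finset.mem_filter, Finset.mem_univ, true_and]
      refine ⟨?_, by rw [show (w * o₁)⁻¹ * (sp σ l * ((sp σ l)⁻¹ * (w * o₁ * v))) = v by group]; exact hv.1⟩
      have hwl : τ * sp σ (i + l) = w * sp σ l := by rw [sp_add D, mul_assoc]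
      obtain ⟨o₂, ho₂, rfl⟩ : ∃ o₂ ∈ coreJ σ n, v = w * sp σ l * o₂ :=
        ⟨_, hwl ▸ hv.2, (mul_inv_cancel_left _ v).symm⟩
      have hwlC : w * sp σ l ∈ Subgroup.centralizer ({cJ σ n} : Set G) :=
        le_centJ D (mul_mem hw.1 (zpowers_le D (sp_mem D l)))
      rw [show (sp σ l)⁻¹ * (w * o₁ * (w * sp σ l * o₂)) =
        ((sp σ l)⁻¹ * (w * w) * sp σ l) * ((w * sp σ l)⁻¹ * o₁ * ((w * sp σ l)⁻¹)⁻¹) * o₂ by group,
        (refl D hw.1 hw.2).1, mul_one, inv_mul_cancel, one_mul]
      exact mul_mem (coreJ_conj D (inv_mem hwlC) ho₁) ho₂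
  rw [← Finset.sum_subset (Finset.subset_univ (Finset.univ.biUnion (cos σ τ n)))]
  · rw [Finset.sum_biUnion fun i _ k _ h => cos_disjoint D h]
    refine Finset.sum_congr rfl fun i _ => ?_
    rw [Finset.sum_congr rfl fun u hu => hfib i u hu, Finset.sum_const, smul_eq_mul]
  · intro u _ hu
    refine Finset.sum_eq_zero fun o ho => if_neg fun h => hu ?_
    simp only [Finset.mem_filter, Finset.mem_univ, true_and] at ho
    have huC := hin o ho u h.1 h.2
    obtain ⟨w, hw, o₁, ho₁, rfl⟩ := exists_decomp D huC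
    by_cases hwA : w ∈ Subgroup.zpowers σ
    · exfalso
      have hu2 : w * o₁ * (w * o₁) = 1 := by rw [← pow_two, ← h.1, pow_orderOf_eq_one]
      have hwC := le_centJ D hw
      have e : w * w * ((w⁻¹ * o₁ * w⁻¹⁻¹) * o₁) = 1 * 1 := by rw [one_mul]; rw [← hu2]; group
      have hww := uniq D (mul_mem hw hw) (one_mem _) (mul_mem (coreJ_conj D (inv_mem hwC) ho₁) ho₁) (one_mem _) e
      rcases order_two D hwA hww with rfl | rfl
      · refine ((mem_coreJ D).mp ho₁).2 ?_
        have := h.1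
        rw [one_mul] at this
        rw [this]
      · have hcom : Commute (cJ σ n) o₁ := (Subgroup.mem_centralizer_singleton_iff.mp (coreJ_le D ho₁)).symm
        have ho1 : o₁ = 1 := by
          have hJ2 : cJ σ n * cJ σ n = 1 := by rw [← pow_two, ← J_ord D, pow_orderOf_eq_one]
          have h2 : o₁ * o₁ = 1 := by
            have := hu2
            rw [show cJ σ n * o₁ * (cJ σ n * o₁) = cJ σ n * (o₁ * cJ σ n) * o₁ by group, ← hcom.eq,
              ← mul_assoc, hJ2, one_mul] at this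
            exact this
          rcases (Nat.dvd_prime Nat.prime_two).mp (orderOf_dvd_of_pow_eq_one (by rw [pow_two, h2] : o₁ ^ 2 = 1)) with q | q
          · exact orderOf_eq_one_iff.mp q
          · exact absurd (dvd_of_eq q.symm) ((mem_coreJ D).mp ho₁).2
        subst ho1
        have hv := h.2
        rw [mul_one, ← mul_assoc] at hv
        obtain hq := pow_orderOf_eq_one ((cJ σ n)⁻¹ * sp σ l * o)
        rw [hv, pow_two] at hq
        have hmem : (cJ σ n)⁻¹ * sp σ l ∈ Subgroup.zpowers σ := mul_mem (inv_mem (J_mem D)) (sp_mem D l)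
        have hbC := le_centJ D (zpowers_le D hmem)
        set b := (cJ σ n)⁻¹ * sp σ l
        have e : b * b * ((b⁻¹ * o * b⁻¹⁻¹) * o) = 1 * 1 := by rw [one_mul]; rw [← hq]; group
        have hbb := uniq D (mul_mem (zpowers_le D hmem) (zpowers_le D hmem)) (one_mem _)
          (mul_mem (coreJ_conj D (inv_mem hbC) ho) ho) (one_mem _) e
        rcases order_two D hmem hbb with q | q
        · rw [q, one_mul] at hv
          exact ((mem_coreJ D).mp ho).2 (dvd_of_eq hv.symm)
        · have hJ2 : (cJ σ n)⁻¹ = cJ σ n := inv_eq_of_mul_eq_one_right (by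
            rw [← pow_two, ← J_ord D, pow_orderOf_eq_one])
          exact sp_ne_one D hl (mul_left_cancel (a := cJ σ n) (by rw [mul_one]; nth_rewrite 1 [← hJ2]; exact q))
    · obtain ⟨i, hi⟩ := sp_surj D ((D.cases' w hw).resolve_left hwA)
      refine Finset.mem_biUnion.mpr ⟨i, Finset.mem_univ _, Finset.mem_filter.mpr ⟨Finset.mem_univ _, h.1, ?_⟩⟩
      have e : τ * sp σ i = w := by
        rw [hi, ← mul_assoc]; nth_rewrite 1 [← τ_inv D]; rw [inv_mul_cancel, one_mul]
      rw [e, inv_mul_cancel_left]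
      exact ho₁

open Classical in
/-- Sections in the centralizer reduce to cosets of the core. -/
theorem section_count {l : ZMod (2 ^ (n - 1))} (hl : l ≠ 0) :
    Nat.card (coreJ σ n) * (∑ o ∈ Finset.univ.filter (· ∈ pPrimeCore 2 (Subgroup.centralizer ({sp σ l} : Set G))),
        pairs (sp σ l * (o : G))) =
      Nat.card (pPrimeCore 2 (Subgroup.centralizer ({sp σ l} : Set G))) *
        ∑ i : ZMod (2 ^ (n - 1)), (cos σ τ n i).card * (cos σ τ n (i + l)).card := by
  have hp : (2 : ℕ).Prime := Nat.prime_two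
  set x := sp σ l with hxdef
  have hx1 : x ≠ 1 := sp_ne_one D hl
  have hidx := index_cent D (sp_mem D l) hx1
  have hxC : x ∈ Subgroup.centralizer ({cJ σ n} : Set G) := le_centJ D (zpowers_le D (sp_mem D l))
  obtain ⟨k, hk⟩ := orderOf_sp D l
  have hcore : ∀ o : Subgroup.centralizer ({x} : Set G),
      o ∈ pPrimeCore 2 (Subgroup.centralizer ({x} : Set G)) ↔ (o : G) ∈ coreJ σ n := by
    intro o
    rw [CS.mem_core_iff hp hidx, mem_coreJ D, ← Subgroup.orderOf_coe]
    exact ⟨fun h => ⟨cent_le_centJ D (sp_mem D l) hx1 o.2, h⟩, fun h => h.2⟩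
  set O := Finset.univ.filter (· ∈ coreJ σ n) with hO
  set Ox := O.filter (fun o => Commute x o) with hOx
  have hOxsum : ∀ F : G → ℕ, ∑ o ∈ Finset.univ.filter (· ∈ pPrimeCore 2 (Subgroup.centralizer ({x} : Set G))),
      F (o : G) = ∑ o ∈ Ox, F o := by
    intro F
    refine Finset.sum_bij (fun o _ => (o : G)) ?_ ?_ ?_ ?_
    · intro o ho
      exact Finset.mem_filter.mpr ⟨Finset.mem_filter.mpr ⟨Finset.mem_univ _, (hcore o).mp (Finset.mem_filter.mp ho).2⟩,
        (Subgroup.mem_centralizer_singleton_iff.mp o.2).symm⟩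
    · exact fun a _ b _ h => Subtype.ext h
    · intro o ho
      simp only [hOx, hO, Finset.mem_filter, Finset.mem_univ, true_and] at ho
      exact ⟨⟨o, Subgroup.mem_centralizer_singleton_iff.mpr ho.2.eq.symm⟩,
        Finset.mem_filter.mpr ⟨Finset.mem_univ _, (hcore _).mpr ho.1⟩, rfl⟩
    · exact fun _ _ => rfl
  have hOxcard : Nat.card (pPrimeCore 2 (Subgroup.centralizer ({x} : Set G))) = Ox.card := by
    rw [Nat.card_eq_fintype_card, Fintype.card_subtype, Finset.card_eq_sum_ones,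
      hOxsum (fun _ => 1), ← Finset.card_eq_sum_ones]
  have hOcard : Nat.card (coreJ σ n) = O.card := by
    rw [Nat.card_eq_fintype_card, Fintype.card_subtype]
  have hcom : ∀ o ∈ Ox, IsPPart 2 (x * o) x := fun o ho => by
    simp only [hOx, hO, Finset.mem_filter, Finset.mem_univ, true_and] at ho
    exact ⟨o, rfl, ho.2, ⟨k, hk⟩, ((mem_coreJ D).mp ho.1).2⟩
  let g : G × G → G := fun co => x⁻¹ * (co.1 * (x * co.2) * co.1⁻¹)
  have hg : ∀ co ∈ O ×ˢ Ox, g co ∈ O := by
    rintro ⟨c, o⟩ h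
    simp only [hOx, hO, Finset.mem_product, Finset.mem_filter, Finset.mem_univ, true_and] at h ⊢
    rw [show g (c, o) = (x⁻¹ * c * x⁻¹⁻¹) * o * c⁻¹ by simp only [g]; group]
    exact mul_mem (mul_mem (coreJ_conj D (inv_mem hxC) h.1) h.2.1) (inv_mem h.1)
  have hfib : ∀ co ∈ O ×ˢ Ox, ((O ×ˢ Ox).filter fun b => g b = g co).card = Ox.card := by
    rintro ⟨c, o⟩ h
    rw [Finset.mem_product] at h
    symm
    refine Finset.card_bij (fun d _ => (c * d, d⁻¹ * o * d)) ?_ ?_ ?_
    · intro d hd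
      simp only [hOx, hO, Finset.mem_product, Finset.mem_filter, Finset.mem_univ, true_and] at h hd ⊢
      refine ⟨⟨mul_mem h.1 hd.1, mul_mem (mul_mem (inv_mem hd.1) h.2.1) hd.1,
        (hd.2.inv_right.mul_right h.2.2).mul_right hd.2⟩, ?_⟩
      change x⁻¹ * (c * d * (x * (d⁻¹ * o * d)) * (c * d)⁻¹) = x⁻¹ * (c * (x * o) * c⁻¹)
      congr 1
      rw [show c * d * (x * (d⁻¹ * o * d)) * (c * d)⁻¹ = c * (d * x * d⁻¹ * o) * c⁻¹ by group,
        show d * x * d⁻¹ = x by rw [← hd.2.eq, mul_inv_cancel_right]]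
    · intro a _ b _ e
      exact mul_left_cancel (congrArg Prod.fst e)
    · rintro ⟨c', o'⟩ hb
      rw [Finset.mem_filter, Finset.mem_product] at hb
      have he : c' * (x * o') * c'⁻¹ = c * (x * o) * c⁻¹ := mul_left_cancel hb.2
      have h1 := IsPPart.conj (hcom o h.2) c
      have h2 := IsPPart.conj (hcom o' hb.1.2) c'
      rw [he] at h2
      have hcx : c' * x * c'⁻¹ = c * x * c⁻¹ := isPPart_unique hp h2 h1
      have hd : Commute x (c⁻¹ * c') := by
        show x * (c⁻¹ * c') = c⁻¹ * c' * x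
        calc x * (c⁻¹ * c') = c⁻¹ * (c * x * c⁻¹) * c' := by group
          _ = c⁻¹ * c' * x := by rw [← hcx]; group
      refine ⟨c⁻¹ * c', ?_, ?_⟩
      · simp only [hOx, hO, Finset.mem_filter, Finset.mem_univ, true_and] at h hb ⊢
        exact ⟨mul_mem (inv_mem h.1) hb.1.1, hd⟩
      · refine Prod.ext (mul_inv_cancel_left c c') ?_
        refine mul_left_cancel (a := x) ?_
        rw [show x * o' = c'⁻¹ * (c' * (x * o') * c'⁻¹) * c' by group, he,
          show c'⁻¹ * (c * (x * o) * c⁻¹) * c' = ((c⁻¹ * c')⁻¹ * x * (c⁻¹ * c')) * ((c⁻¹ * c')⁻¹ * o * (c⁻¹ * c')) by group,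
          show (c⁻¹ * c')⁻¹ * x * (c⁻¹ * c') = x by rw [mul_assoc, hd.eq, inv_mul_cancel_left]]
  have hpair : ∀ co ∈ O ×ˢ Ox, pairs (x * g co) = pairs (x * co.2) := by
    rintro ⟨c, o⟩ -
    simp only [g]
    rw [mul_inv_cancel_left, pairs_conj]
  have himg : (O ×ˢ Ox).image g = O := by
    refine Finset.eq_of_subset_of_card_le (Finset.image_subset_iff.mpr hg) ?_
    have h := card_image_mul _ g _ hfib
    rw [Finset.card_product] at h
    have hpos : 0 < Ox.card := by
      rw [← hOxcard]; exact Nat.card_pos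
    exact (Nat.eq_of_mul_eq_mul_right hpos h).ge
  have hin : ∀ o ∈ coreJ σ n, ∀ u : G, orderOf u = 2 → orderOf (u⁻¹ * (x * o)) = 2 →
      u ∈ Subgroup.centralizer ({cJ σ n} : Set G) := by
    intro o ho u hu2 hv2
    obtain ⟨⟨c, o'⟩, hco, hgo⟩ : ∃ co ∈ O ×ˢ Ox, g co = o :=
      Finset.mem_image.mp (himg.symm ▸ Finset.mem_filter.mpr ⟨Finset.mem_univ _, ho⟩)
    rw [Finset.mem_product] at hco
    have hxo : x * o = c * (x * o') * c⁻¹ := by rw [← hgo]; simp only [g]; group
    have hcC : c ∈ Subgroup.centralizer ({cJ σ n} : Set G) := coreJ_le D (Finset.mem_filter.mp hco.1).2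
    obtain ⟨o'', e1, e2, e3, e4⟩ := hcom o' hco.2
    obtain ⟨t, ht⟩ := pPart_eq_pow hp e1 e2 e3 e4
    have hu' : orderOf (c⁻¹ * u * c) = 2 := by
      rw [show c⁻¹ * u * c = c⁻¹ * u * c⁻¹⁻¹ by rw [inv_inv], orderOf_conj_eq, hu2]
    have hi : u⁻¹ = u := inv_eq_of_mul_eq_one_right (by rw [← pow_two, ← hu2, pow_orderOf_eq_one])
    have hvv : u⁻¹ * (x * o) * (u⁻¹ * (x * o)) = 1 := by rw [← pow_two, ← hv2, pow_orderOf_eq_one]
    have hinv : (c⁻¹ * u * c) * (x * o') * (c⁻¹ * u * c)⁻¹ = (x * o')⁻¹ := by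
      rw [hxo, hi] at hvv
      refine eq_inv_of_mul_eq_one_left ?_
      rw [show c⁻¹ * u * c * (x * o') * (c⁻¹ * u * c)⁻¹ * (x * o') =
        c⁻¹ * (u * (c * (x * o') * c⁻¹) * u⁻¹ * (c * (x * o') * c⁻¹)) * c by group, hi,
        show u * (c * (x * o') * c⁻¹) * u * (c * (x * o') * c⁻¹) =
          u * (c * (x * o') * c⁻¹) * (u * (c * (x * o') * c⁻¹)) by group, hvv]
      group
    have := mem_cent_of_inverts D (sp_mem D l) hx1 ht hinv
    have := mul_mem (mul_mem hcC this) (inv_mem hcC)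
    rwa [show c * (c⁻¹ * u * c) * c⁻¹ = u by group] at this
  rw [hOcard, hOxcard, hOxsum (fun o => pairs (x * o)), ← coset_count D hl hin, ← hO]
  calc O.card * ∑ o ∈ Ox, pairs (x * o) = ∑ co ∈ O ×ˢ Ox, pairs (x * co.2) := by
        rw [Finset.sum_product]; simp only [Finset.sum_const, smul_eq_mul]
    _ = ∑ co ∈ O ×ˢ Ox, pairs (x * g co) := Finset.sum_congr rfl fun co hco => (hpair co hco).symm
    _ = ∑ o ∈ O, ∑ co ∈ (O ×ˢ Ox).filter (fun b => g b = o), pairs (x * g co) :=
        (Finset.sum_fiberwise_of_maps_to hg _).symm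
    _ = ∑ o ∈ O, Ox.card * pairs (x * o) := by
        refine Finset.sum_congr rfl fun o ho => ?_
        obtain ⟨co, hco, rfl⟩ := Finset.mem_image.mp (himg.symm ▸ ho)
        rw [Finset.sum_congr rfl (g := fun _ => pairs (x * g co)) fun b hb => by rw [(Finset.mem_filter.mp hb).2],
          Finset.sum_const, smul_eq_mul, hfib co hco]
    _ = _ := by rw [Finset.mul_sum]

/-- Conjugation in the Sylow subgroup moves a reflection by squares. -/
theorem conj_refl {w : G} (hw : w ∈ (P : Subgroup G)) :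
    ∃ a ∈ Subgroup.zpowers σ, w * τ * w⁻¹ = a * a * τ := by
  have key : ∀ a ∈ Subgroup.zpowers σ, a * τ * a⁻¹ = a * a * τ := by
    intro a ha
    have h := conj_τ D (inv_mem ha)
    rw [inv_inv] at h
    calc a * τ * a⁻¹ = a * (τ * a⁻¹ * τ⁻¹) * τ := by group
      _ = a * a * τ := by rw [h]
  rcases D.cases' w hw with h | h
  · exact ⟨w, h, key w h⟩
  · refine ⟨(τ * w)⁻¹, inv_mem h, ?_⟩
    have hk := key _ h
    set b := τ * w
    have hw' : w = τ⁻¹ * b := by simp [b]
    calc w * τ * w⁻¹ = τ⁻¹ * (b * τ * b⁻¹) * τ := by rw [hw']; group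
      _ = (τ * (b * b) * τ⁻¹) * τ := by
          rw [hk]; nth_rewrite 1 [τ_inv D]
          rw [τ_inv D]; group
      _ = b⁻¹ * b⁻¹ * τ := by rw [conj_τ D (mul_mem h h)]; group

/-- Reflection involutions in the centralizer split into two classes. -/
theorem total_cos :
    ((∑ i : ZMod (2 ^ (n - 1)), (cos σ τ n i).card : ℕ) : ℚ) =
      (Nat.card (Subgroup.centralizer ({cJ σ n} : Set G)) : ℚ) *
        (1 / (Nat.card (Subgroup.centralizer ({cJ σ n, τ} : Set G)) : ℚ) +
          1 / (Nat.card (Subgroup.centralizer ({cJ σ n, σ * τ} : Set G)) : ℚ)) := by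
  classical
  haveI : Fact (Nat.Prime 2) := ⟨Nat.prime_two⟩
  have hn := D.hn
  set C := Subgroup.centralizer ({cJ σ n} : Set G) with hC
  set CF := Finset.univ.filter (· ∈ C)
  let cls : G → Finset G := fun r => CF.image fun c => c * r * c⁻¹
  have hσC : σ ∈ C := le_centJ D D.σ_mem
  have hστ : σ * τ ∈ (P : Subgroup G) := mul_mem D.σ_mem D.τ_mem
  have hστo : orderOf (σ * τ) = 2 := by
    refine orderOf_eq_prime ?_ ?_
    · rw [pow_two]
      refine (refl D hστ fun h => D.out ?_).1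
      have := mul_mem (inv_mem (Subgroup.mem_zpowers σ)) h
      rwa [inv_mul_cancel_left] at this
    · intro h
      exact D.out (by rw [eq_inv_of_mul_eq_one_right h]; exact inv_mem (Subgroup.mem_zpowers σ))
  have hcard : ∀ r : G, ((cls r).card : ℚ) =
      (Nat.card C : ℚ) * (1 / (Nat.card (Subgroup.centralizer ({cJ σ n, r} : Set G)) : ℚ)) := by
    intro r
    have hCF : CF.card = Nat.card C := by
      rw [Nat.card_eq_fintype_card, Fintype.card_subtype]
    have h := card_image_mul CF (fun c => c * r * c⁻¹)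
      (Nat.card (Subgroup.centralizer ({cJ σ n, r} : Set G))) fun c hc => by
        rw [Nat.card_eq_fintype_card, Fintype.card_subtype]
        symm
        refine Finset.card_bij (fun d _ => c * d) ?_ ?_ ?_
        · intro d hd
          simp only [Finset.mem_filter, Finset.mem_univ, true_and, Subgroup.mem_centralizer_iff, Set.mem_insert_iff,
            Set.mem_singleton_iff, forall_eq_or_imp, forall_eq] at hd
          simp only [CF, Finset.mem_filter, Finset.mem_univ, true_and] at hc ⊢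
          refine ⟨mul_mem hc (Subgroup.mem_centralizer_singleton_iff.mpr hd.1.symm), ?_⟩
          rw [show c * d * r * (c * d)⁻¹ = c * (d * r * d⁻¹) * c⁻¹ by group, ← hd.2, mul_inv_cancel_right]
        · exact fun a _ b _ e => mul_left_cancel e
        · intro d hd
          simp only [CF, Finset.mem_filter, Finset.mem_univ, true_and] at hc hd
          refine ⟨c⁻¹ * d, ?_, mul_inv_cancel_left c d⟩
          simp only [Finset.mem_filter, Finset.mem_univ, true_and, Subgroup.mem_centralizer_iff, Set.mem_insert_iff,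
            Set.mem_singleton_iff, forall_eq_or_imp, forall_eq]
          refine ⟨(Subgroup.mem_centralizer_singleton_iff.mp (mul_mem (inv_mem hc) hd.1)).symm, ?_⟩
          calc r * (c⁻¹ * d) = c⁻¹ * (c * r * c⁻¹) * d := by group
            _ = c⁻¹ * d * r := by rw [← hd.2]; group
    rw [hCF] at h
    have hq : ((cls r).card : ℚ) * (Nat.card (Subgroup.centralizer ({cJ σ n, r} : Set G)) : ℚ) = (Nat.card C : ℚ) := by
      exact_mod_cast h
    rw [← hq]
    have : (Nat.card (Subgroup.centralizer ({cJ σ n, r} : Set G)) : ℚ) ≠ 0 := Nat.cast_ne_zero.mpr Nat.card_pos.ne'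
    field_simp
  have hsq : ∀ a ∈ Subgroup.zpowers σ, a * a ≠ σ := by
    intro a ha e
    refine J_ne_one D ?_
    rw [cJ, ← e, ← pow_two, ← pow_mul, ← two_mul_half_aux hn, σ_pow_two_pow D ha]
  have hdis : Disjoint (cls τ) (cls (σ * τ)) := by
    rw [Finset.disjoint_left]
    intro u h1 h2
    obtain ⟨c₁, hc₁, rfl⟩ := Finset.mem_image.mp h1
    obtain ⟨c₂, hc₂, e⟩ := Finset.mem_image.mp h2
    simp only [CF, Finset.mem_filter, Finset.mem_univ, true_and] at hc₁ hc₂
    obtain ⟨w, hw, o, ho, he⟩ := exists_decomp D (mul_mem (inv_mem hc₂) hc₁)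
    have hr : (w * o) * τ * (w * o)⁻¹ = σ * τ := by
      rw [← he, show c₂⁻¹ * c₁ * τ * (c₂⁻¹ * c₁)⁻¹ = c₂⁻¹ * (c₁ * τ * c₁⁻¹) * c₂ by group, ← e]; group
    obtain ⟨a, ha, hwa⟩ := conj_refl D hw
    have := uniq D (mul_mem (mul_mem hw D.τ_mem) (inv_mem hw)) hστ
      (coreJ_conj D (le_centJ D hw) (mul_mem (coreJ_conj D (inv_mem (le_centJ D D.τ_mem)) ho) (inv_mem ho)))
      (one_mem _) (by rw [mul_one, ← hr]; group)
    rw [hwa] at this
    exact hsq a ha (mul_right_cancel this)
  have huni : Finset.univ.biUnion (cos σ τ n) = cls τ ∪ cls (σ * τ) := by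
    ext u
    simp only [Finset.mem_biUnion, Finset.mem_univ, true_and, Finset.mem_union]
    constructor
    · rintro ⟨i, hi⟩
      simp only [cos, Finset.mem_filter, Finset.mem_univ, true_and] at hi
      have hwi := refl_mem D i
      have huC : u ∈ C := by
        have := mul_mem (le_centJ D hwi.1) (coreJ_le D hi.2)
        rwa [mul_inv_cancel_left] at this
      obtain ⟨R, hR⟩ := (IsPGroup.of_card (n := 1) (by rw [Nat.card_zpowers, Subgroup.orderOf_mk, hi.1, pow_one] :
        Nat.card (Subgroup.zpowers (⟨u, huC⟩ : C)) = 2 ^ 1)).exists_le_sylow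
      obtain ⟨c, hc⟩ := MulAction.exists_smul_eq C R (P.subtype (le_centJ D))
      have hv : (c : G) * u * (c : G)⁻¹ ∈ (P : Subgroup G) := by
        have h : c * ⟨u, huC⟩ * c⁻¹ ∈ (P.subtype (le_centJ D) : Subgroup C) := by
          rw [← hc]; exact Subgroup.mem_map_of_mem _ (hR (Subgroup.mem_zpowers _))
        exact h
      by_cases hvA : (c : G) * u * (c : G)⁻¹ ∈ Subgroup.zpowers σ
      · exfalso
        rcases order_two D hvA (by rw [← pow_two, ← hi.1, ← orderOf_conj_eq (c : G) u, pow_orderOf_eq_one]) with q | q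
        · rw [conj_eq_one_iff] at q; rw [q, orderOf_one] at hi; omega
        · have hu' : u = cJ σ n := by
            rw [show u = (c : G)⁻¹ * ((c : G) * u * (c : G)⁻¹) * c by group, q, mul_assoc,
              ← Subgroup.mem_centralizer_singleton_iff.mp c.2, inv_mul_cancel_left]
          exact hwi.2 (uniq D hwi.1 (zpowers_le D (J_mem D)) hi.2 (one_mem _)
            (by rw [mul_inv_cancel_left, mul_one, hu']) ▸ J_mem D)
      obtain ⟨m, hm⟩ := Subgroup.mem_zpowers_iff.mp ((D.cases' _ hv).resolve_left hvA)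
      set v := (c : G) * u * (c : G)⁻¹ with hvdef
      have hve : v = τ * σ ^ m := by rw [hm, ← mul_assoc]; nth_rewrite 1 [← τ_inv D]; rw [inv_mul_cancel, one_mul]
      have hsh : ∀ (j : ℤ) (r : G), (∀ e : G, e = σ ^ j * r * (σ ^ j)⁻¹ → e = v) → u ∈ cls r := by
        intro j r he
        refine Finset.mem_image.mpr ⟨(c : G)⁻¹ * σ ^ j,
          Finset.mem_filter.mpr ⟨Finset.mem_univ _, mul_mem (inv_mem c.2) (zpow_mem hσC j)⟩, ?_⟩
        have := he _ rfl
        calc (c : G)⁻¹ * σ ^ j * r * ((c : G)⁻¹ * σ ^ j)⁻¹ = (c : G)⁻¹ * (σ ^ j * r * (σ ^ j)⁻¹) * c := by group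
          _ = u := by rw [this, hvdef]; group
      have hflip : ∀ j : ℤ, τ * σ ^ j = σ ^ (-j) * τ := fun j => by
        have := conj_τ D (zpow_mem (Subgroup.mem_zpowers σ) j)
        rw [zpow_neg, ← this, inv_mul_cancel_right]
      rcases Int.even_or_odd m with ⟨j, hj⟩ | ⟨j, hj⟩
      · refine Or.inl (hsh (-j) τ fun e he => ?_)
        rw [he, hve, hj, ← zpow_neg, mul_assoc, hflip, ← mul_assoc, ← zpow_add, neg_neg, hflip]
        congr 2; omega
      · refine Or.inr (hsh (-j - 1) (σ * τ) fun e he => ?_)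
        rw [he, hve, hj, ← zpow_neg, mul_assoc, mul_assoc σ, hflip, ← mul_assoc σ, ← mul_assoc,
          ← zpow_one_add, ← zpow_add, hflip]
        congr 2; omega
    · intro h
      have key : ∀ r : G, r ∈ (P : Subgroup G) → r ∉ Subgroup.zpowers σ → orderOf r = 2 → u ∈ cls r →
          ∃ i, u ∈ cos σ τ n i := by
        intro r hrP hr' hr2 hu
        obtain ⟨c, hc, rfl⟩ := Finset.mem_image.mp hu
        simp only [CF, Finset.mem_filter, Finset.mem_univ, true_and] at hc
        obtain ⟨w, hw, o, ho, rfl⟩ := exists_decomp D hc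
        have hwr : w * r * w⁻¹ ∈ (P : Subgroup G) := mul_mem (mul_mem hw hrP) (inv_mem hw)
        have hwr' : w * r * w⁻¹ ∉ Subgroup.zpowers σ := by
          intro h
          rcases order_two D h (by rw [← pow_two, ← hr2, ← orderOf_conj_eq w r, pow_orderOf_eq_one]) with q | q
          · rw [conj_eq_one_iff] at q; rw [q, orderOf_one] at hr2; omega
          · refine hr' ?_
            rw [show r = w⁻¹ * (w * r * w⁻¹) * w by group, q, mul_assoc, ← (J_comm D hw).eq, inv_mul_cancel_left]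
            exact J_mem D
        obtain ⟨i, hi⟩ := sp_surj D ((D.cases' _ hwr).resolve_left hwr')
        refine ⟨i, Finset.mem_filter.mpr ⟨Finset.mem_univ _, by rw [orderOf_conj_eq]; exact hr2, ?_⟩⟩
        have e : τ * sp σ i = w * r * w⁻¹ := by
          rw [hi, ← mul_assoc]; nth_rewrite 1 [← τ_inv D]; rw [inv_mul_cancel, one_mul]
        rw [e, show (w * r * w⁻¹)⁻¹ * (w * o * r * (w * o)⁻¹) = w * ((r⁻¹ * o * r⁻¹⁻¹) * o⁻¹) * w⁻¹ by group]
        exact coreJ_conj D (le_centJ D hw) (mul_mem (coreJ_conj D (inv_mem (le_centJ D hrP)) ho) (inv_mem ho))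
      rcases h with h | h
      · exact key τ D.τ_mem D.out D.τ_ord h
      · exact key _ hστ (fun q => D.out (by
          have := mul_mem (inv_mem (Subgroup.mem_zpowers σ)) q
          rwa [inv_mul_cancel_left] at this)) hστo h
  rw [← Finset.card_biUnion fun i _ k _ h => cos_disjoint D h, huni, Finset.card_union_of_disjoint hdis,
    Nat.cast_add, hcard, hcard, mul_add]
where
  two_mul_half_aux {n : ℕ} (hn : 3 ≤ n) : 2 ^ (n - 1) = 2 * 2 ^ (n - 2) := by
    rw [← pow_succ']; congr 1; omega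

end CfsgLib.Blocks.DH
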