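import Cfsg.Agent.Lib.Blocks.DihedralPrincipal
import Mathlib.GroupTheory.SpecificGroups.Dihedral

/-!
Values and relations in the principal 2-block with dihedral Sylow subgroup.
-/

set_option linter.style.haveILetI false
set_option linter.unusedSectionVars false

namespace CfsgLib.Blocks.DH

open scoped ComplexConjugate
open Cfsg CfsgLib.Chars

universe u

variable {G : Type u} [Group G] [Fintype G] {P : Sylow 2 G} {σ τ : G} {n : ℕ}

/-- An isomorphism with a dihedral group gives the structure on a generator. -/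
theorem isDih_of_iso {σ : G} (hn : 3 ≤ n) (hσ : σ ∈ (P : Subgroup G)) (hσo : orderOf σ = 2 ^ (n - 1))
    (e : (P : Subgroup G) ≃* DihedralGroup (2 ^ (n - 1))) : ∃ τ, IsDih P σ τ n := by
  have h4 : 2 ^ 2 ≤ 2 ^ (n - 1) := Nat.pow_le_pow_right two_pos (by omega)
  haveI : NeZero (2 ^ (n - 1)) := ⟨pow_ne_zero _ two_ne_zero⟩
  have ho : orderOf (e ⟨σ, hσ⟩) = 2 ^ (n - 1) := by
    rw [MulEquiv.orderOf_eq, Subgroup.orderOf_mk, hσo]
  obtain ⟨k, hk⟩ : ∃ k, e ⟨σ, hσ⟩ = DihedralGroup.r k := by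
    cases hx : e ⟨σ, hσ⟩ with
    | r k => exact ⟨k, rfl⟩
    | sr k => rw [hx, DihedralGroup.orderOf_sr] at ho; omega
  have hgen : ∀ j : ZMod (2 ^ (n - 1)), (e.symm (DihedralGroup.r j) : G) ∈ Subgroup.zpowers σ := by
    intro j
    have heq : Subgroup.zpowers (DihedralGroup.r k) = Subgroup.zpowers (DihedralGroup.r (1 : ZMod (2 ^ (n - 1)))) := by
      refine Subgroup.eq_of_le_of_card_ge (Subgroup.zpowers_le.mpr ⟨(k.val : ℤ), ?_⟩) ?_
      · change DihedralGroup.r 1 ^ (k.val : ℤ) = DihedralGroup.r k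
        rw [zpow_natCast, DihedralGroup.r_one_pow, ZMod.natCast_zmod_val]
      · rw [Nat.card_zpowers, Nat.card_zpowers, DihedralGroup.orderOf_r_one, ← hk, ho]
    have hmem : DihedralGroup.r j ∈ Subgroup.zpowers (DihedralGroup.r k) := by
      rw [heq]
      exact ⟨(j.val : ℤ), by
        change DihedralGroup.r 1 ^ (j.val : ℤ) = DihedralGroup.r j
        rw [zpow_natCast, DihedralGroup.r_one_pow, ZMod.natCast_zmod_val]⟩
    obtain ⟨i, hi⟩ := hmem
    refine ⟨i, ?_⟩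
    have : (⟨σ, hσ⟩ : (P : Subgroup G)) ^ i = e.symm (DihedralGroup.r j) := by
      rw [← hi, map_zpow, ← hk, MulEquiv.symm_apply_apply]
    exact (Subgroup.coe_zpow _ _ i).symm.trans (congrArg Subtype.val this)
  refine ⟨(e.symm (DihedralGroup.sr 0) : G), hn, hσ, SetLike.coe_mem _, hσo, ?_, ?_, ?_, ?_⟩
  · rw [Subgroup.orderOf_coe, MulEquiv.orderOf_eq, DihedralGroup.orderOf_sr]
  · have h : DihedralGroup.sr 0 * e ⟨σ, hσ⟩ * (DihedralGroup.sr 0)⁻¹ = (e ⟨σ, hσ⟩)⁻¹ := by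
      rw [hk]; simp
    have h' := congrArg e.symm h
    simp only [map_mul, map_inv, MulEquiv.symm_apply_apply] at h'
    exact congrArg Subtype.val h'
  · rintro ⟨i, hi⟩
    have h' : (⟨σ, hσ⟩ : (P : Subgroup G)) ^ i = e.symm (DihedralGroup.sr 0) :=
      Subtype.ext ((Subgroup.coe_zpow _ _ i).trans hi)
    have := congrArg e h'
    rw [map_zpow, hk, MulEquiv.apply_symm_apply, DihedralGroup.r_zpow] at this
    cases this
  · intro g hg
    cases hx : e ⟨g, hg⟩ with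
    | r j =>
      left
      have := hgen j
      rwa [← hx, MulEquiv.symm_apply_apply] at this
    | sr j =>
      right
      have h' : e.symm (DihedralGroup.sr 0) * ⟨g, hg⟩ = e.symm (DihedralGroup.r j) := by
        apply e.injective
        simp [hx]
      have := hgen j
      rwa [← h'] at this

variable {D : IsDih P σ τ n} {ζ : ℂ} {hζ : IsPrimitiveRoot ζ (2 ^ (n - 1))} {M : Ideal AlgInt}

open Classical in
theorem Shape.sum_block (S : Shape D hζ M) {α : Type*} [AddCommMonoid α] (F : IrrCharacter G → α) :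
    ∑ χ ∈ Finset.univ.filter (· ∈ principalBlock M G), F χ =
      F (trivIrr G) + (F S.χ₁ + (F S.χ₂ + (F S.χ₃ + ∑ i, F (S.η i)))) := by
  have he := S.η_ne
  have e : Finset.univ.filter (· ∈ principalBlock M G) =
      insert (trivIrr G) (insert S.χ₁ (insert S.χ₂ (insert S.χ₃ (Finset.univ.image S.η)))) := by
    ext χ
    simp only [Finset.mem_filter, Finset.mem_univ, true_and, S.block, Finset.mem_insert, Finset.mem_image]
    simp only [eq_comm (b := χ)]
  rw [e, Finset.sum_insert, Finset.sum_insert, Finset.sum_insert, Finset.sum_insert,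
    Finset.sum_image S.η_inj.injOn]
  · simpa using fun i => (he i).2.2.1
  · simpa [S.ne₂₃] using fun i => (he i).2.1
  · simpa [S.ne₁₂, S.ne₁₃] using fun i => (he i).1
  · simpa [S.ne₁.symm, S.ne₂.symm, S.ne₃.symm] using fun i => (he i).2.2.2

theorem Shape.card_block (S : Shape D hζ M) : Nat.card (principalBlock M G) = 3 + 2 ^ (n - 2) := by
  classical
  rw [Nat.card_coe_set_eq, Set.ncard_eq_toFinset_card', Finset.card_eq_sum_ones,
    show (principalBlock M G).toFinset = Finset.univ.filter (· ∈ principalBlock M G) by ext χ; simp,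
    S.sum_block, Finset.sum_const, Finset.card_univ, Fintype.card_fin, smul_eq_mul, mul_one]
  have : 0 < 2 ^ (n - 2) := pow_pos two_pos _
  omega

theorem ev_hs (D : IsDih P σ τ n) (hζ : IsPrimitiveRoot ζ (2 ^ (n - 1))) (l : ℕ) :
    ev ζ (hs n * (l : ZMod (2 ^ (n - 1)))) = (-1) ^ l := by
  have hn := D.hn
  rw [hs, ← Nat.cast_mul, ev_natCast hζ, pow_mul]
  congr 1
  have h1 : ζ ^ 2 ^ (n - 2) * ζ ^ 2 ^ (n - 2) = 1 := by
    rw [← pow_add, ← two_mul, ← two_mul_half D, hζ.pow_eq_one]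
  refine (mul_self_eq_one_iff.mp h1).resolve_left fun h => ?_
  have := Nat.le_of_dvd (pow_pos two_pos _) ((hζ.pow_eq_one_iff_dvd _).mp h)
  rw [two_mul_half D] at this
  have : 0 < 2 ^ (n - 2) := pow_pos two_pos _
  omega

theorem lt_ne_zero (D : IsDih P σ τ n) {l : ℕ} (h0 : 0 < l) (hl : l < 2 ^ (n - 1)) :
    (l : ZMod (2 ^ (n - 1))) ≠ 0 := by
  rw [← Nat.cast_zero]
  exact natCast_ne D hl (pow_pos two_pos _) h0.ne'

theorem Shape.value₁ (S : Shape D hζ M) {l : ℕ} (h0 : 0 < l) (hl : l < 2 ^ (n - 1)) :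
    (S.χ₁ : G → ℂ) (σ ^ l) = (S.δ₁ : ℂ) := by
  have hl0 := lt_ne_zero D h0 hl
  rw [← sp_natCast D, value D hζ S.χ₁ hl0,
    Finset.sum_congr rfl (g := fun j => -(S.δ₁ : ℂ) * ev ζ (j * (l : ZMod (2 ^ (n - 1)))) -
      if j = 0 then -(S.δ₁ : ℂ) else 0) fun j _ => ?_, Finset.sum_sub_distrib, ← Finset.mul_sum,
    sum_ev' hζ, if_neg hl0, mul_zero, Finset.sum_ite_eq', if_pos (Finset.mem_univ _), zero_sub, neg_neg]
  by_cases hj : j = 0
  · subst hj; simp [U_zero]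
  · rw [if_neg hj, sub_zero, S.U₁ j hj, Int.cast_neg]

theorem value_sign (D : IsDih P σ τ n) (hζ : IsPrimitiveRoot ζ (2 ^ (n - 1))) {x : IrrCharacter G}
    (hx : ∀ i, U D hζ x (jj n i) = 0) {l : ℕ} (h0 : 0 < l) (hl : l < 2 ^ (n - 1)) :
    (x : G → ℂ) (σ ^ l) = (U D hζ x (hs n) : ℂ) * (-1) ^ l := by
  rw [← sp_natCast D, value D hζ x (lt_ne_zero D h0 hl), Finset.sum_eq_single (hs n)]
  · rw [ev_hs D hζ]
  · intro j _ hj'
    by_cases hj : j = 0
    · rw [hj, U_zero, Int.cast_zero, zero_mul]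
    · rcases (cover D hj).resolve_left hj' with ⟨i, rfl | rfl⟩
      · rw [hx i, Int.cast_zero, zero_mul]
      · rw [U_neg, hx i, Int.cast_zero, zero_mul]
  · simp

theorem Shape.valueη (S : Shape D hζ M) (i : Fin (2 ^ (n - 2) - 1)) {l : ℕ} (h0 : 0 < l)
    (hl : l < 2 ^ (n - 1)) : (S.η i : G → ℂ) (σ ^ l) =
      (S.δ₁ : ℂ) * (ζ ^ (((i : ℕ) + 1) * l) + (ζ ^ (((i : ℕ) + 1) * l))⁻¹) := by
  rw [← sp_natCast D, value D hζ (S.η i) (lt_ne_zero D h0 hl),
    Finset.sum_eq_add (jj n i) (-jj n i) (jj_ne_neg D i i), U_neg, S.Uη i i, if_pos rfl, neg_mul,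
    ev_neg hζ, show ev ζ (jj n i * (l : ZMod (2 ^ (n - 1)))) = ζ ^ (((i : ℕ) + 1) * l) by
      rw [jj, ← Nat.cast_mul, ev_natCast hζ]]
  · ring
  · rintro j - ⟨hj1, hj2⟩
    by_cases hj : j = 0
    · rw [hj, U_zero, Int.cast_zero, zero_mul]
    · rcases cover D hj with rfl | ⟨k, rfl | rfl⟩
      · rw [S.Usη i, Int.cast_zero, zero_mul]
      · rw [S.Uη i k, if_neg (fun e => hj1 (by rw [e])), Int.cast_zero, zero_mul]
      · rw [U_neg, S.Uη i k, if_neg (fun e => hj2 (by rw [e])), Int.cast_zero, zero_mul]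
  · simp
  · simp

open Classical in
theorem Shape.regular (S : Shape D hζ M) (hM : IsPModular 2 M) {g : G} (hg : ¬ 2 ∣ orderOf g)
    (i : Fin (2 ^ (n - 2) - 1)) :
    1 + (S.δ₁ : ℂ) * (S.χ₁ : G → ℂ) g = -(S.δ₂ : ℂ) * (S.χ₂ : G → ℂ) g - (S.δ₃ : ℂ) * (S.χ₃ : G → ℂ) g ∧
      1 + (S.δ₁ : ℂ) * (S.χ₁ : G → ℂ) g = (S.δ₁ : ℂ) * (S.η i : G → ℂ) g := by
  have ht : ∀ j, j ≠ 0 → U D hζ (trivIrr G) j = -1 := fun j hj => U_triv D hζ hj
  have h1 := orth D hζ hM hg (jj n i)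
  have h2 := orth D hζ hM hg (hs n)
  rw [S.sum_block, ht _ (jj_ne D i).1, S.U₁ _ (jj_ne D i).1, S.U₂ i, S.U₃ i,
    Finset.sum_eq_single i (fun k _ hk => by rw [S.Uη k i, if_neg (Ne.symm hk), Int.cast_zero, mul_zero])
      (by simp), S.Uη i i, if_pos rfl] at h1
  rw [S.sum_block, ht _ (hs_ne D), S.U₁ _ (hs_ne D), S.Us₂, S.Us₃,
    Finset.sum_eq_zero (fun k _ => by rw [S.Usη k, Int.cast_zero, mul_zero])] at h2
  have e : (trivIrr G : G → ℂ) g = 1 := rfl
  rw [e] at h1 h2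
  push_cast at h1 h2
  constructor
  · linear_combination -h2
  · linear_combination -h1

end CfsgLib.Blocks.DH
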