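import Cfsg.Agent.Lib.Blocks.DihedralCount
import Cfsg.Agent.Lib.Blocks.DihedralValues

/-!
The order formula for a dihedral Sylow 2-subgroup with one class of involutions.
-/

set_option linter.style.haveILetI false
set_option linter.unusedSectionVars false

namespace CfsgLib.Blocks.DH

open scoped ComplexConjugate
open Cfsg CfsgLib.Chars
open CfsgLib.ThompsonNPC (orderOf_conj_eq)

universe u

variable {G : Type u} [Group G] [Fintype G] {P : Sylow 2 G} {σ τ : G} {n : ℕ}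

/-- The structure from generators. -/
theorem isDih_of_gen (hn : 3 ≤ n) (hσ : σ ∈ (P : Subgroup G)) (hτ : τ ∈ (P : Subgroup G))
    (hσo : orderOf σ = 2 ^ (n - 1)) (hτo : orderOf τ = 2) (hrel : τ * σ * τ⁻¹ = σ⁻¹)
    (hgen : Subgroup.closure ({σ, τ} : Set G) = (P : Subgroup G)) : IsDih P σ τ n := by
  have hout : τ ∉ Subgroup.zpowers σ := by
    intro h
    obtain ⟨i, rfl⟩ := Subgroup.mem_zpowers_iff.mp h
    rw [(((Commute.refl σ).zpow_left i)).eq, mul_inv_cancel_right] at hrel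
    have h2 : orderOf σ ∣ 2 := orderOf_dvd_of_pow_eq_one (by
      rw [pow_two]; nth_rewrite 1 [hrel]; exact inv_mul_cancel σ)
    rw [hσo] at h2
    have := Nat.le_of_dvd two_pos h2
    have : 2 ^ 2 ≤ 2 ^ (n - 1) := Nat.pow_le_pow_right two_pos (by omega)
    omega
  have hττ : τ * τ = 1 := by rw [← pow_two, ← hτo, pow_orderOf_eq_one]
  have hconj : ∀ a ∈ Subgroup.zpowers σ, τ * a * τ⁻¹ = a⁻¹ := by
    intro a ha
    obtain ⟨k, rfl⟩ := Subgroup.mem_zpowers_iff.mp ha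
    rw [← conj_zpow, hrel, inv_zpow]
  have hflip : ∀ a ∈ Subgroup.zpowers σ, a * τ = τ * a⁻¹ := fun a ha => by
    have := hconj _ (inv_mem ha)
    rw [inv_inv] at this
    rw [mul_inv_eq_iff_eq_mul.mp this]
  refine ⟨hn, hσ, hτ, hσo, hτo, hrel, hout, fun g hg => ?_⟩
  rw [← hgen] at hg
  induction hg using Subgroup.closure_induction with
  | mem x hx =>
    rcases hx with rfl | rfl
    · exact Or.inl (Subgroup.mem_zpowers _)
    · exact Or.inr (hττ ▸ one_mem _)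
  | one => exact Or.inl (one_mem _)
  | mul x y _ _ hx hy =>
    rcases hx with hx | hx <;> rcases hy with hy | hy
    · exact Or.inl (mul_mem hx hy)
    · refine Or.inr ?_
      rw [show τ * (x * y) = (τ * x * τ⁻¹) * (τ * y) by group, hconj x hx]
      exact mul_mem (inv_mem hx) hy
    · refine Or.inr ?_
      rw [← mul_assoc]; exact mul_mem hx hy
    · refine Or.inl ?_
      rw [show x * y = τ⁻¹ * ((τ * x) * τ⁻¹) * (τ * y) * (τ⁻¹ * τ⁻¹)⁻¹ * (τ * τ)⁻¹ from ?_]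
      · rw [inv_eq_of_mul_eq_one_right hττ, hflip _ hx, ← mul_assoc τ τ, hττ, one_mul, inv_one, mul_one, mul_one]
        exact mul_mem (inv_mem hx) hy
      · rw [inv_eq_of_mul_eq_one_right hττ, hττ, inv_one, mul_one, mul_one, ← mul_assoc τ (τ * x) τ,
          ← mul_assoc τ τ x, hττ, one_mul, mul_assoc x τ, ← mul_assoc τ τ y, hττ, one_mul]
  | inv x _ hx =>
    rcases hx with hx | hx
    · exact Or.inl (inv_mem hx)
    · refine Or.inr ?_
      have e1 : x = τ * (τ * x) := by rw [← mul_assoc, hττ, one_mul]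
      rw [e1, mul_inv_rev, inv_eq_of_mul_eq_one_right hττ, hflip _ (inv_mem hx), inv_inv, ← mul_assoc, hττ,
        one_mul]
      exact hx

variable (D : IsDih P σ τ n)
include D

/-- One class of involutions when both reflection classes fuse to the centre. -/
theorem one_class (h1 : IsConj (cJ σ n) τ) (h2 : IsConj (cJ σ n) (σ * τ)) {z : G} (hz : orderOf z = 2) :
    IsConj (cJ σ n) z := by
  haveI : Fact (Nat.Prime 2) := ⟨Nat.prime_two⟩
  obtain ⟨R, hR⟩ := (IsPGroup.of_card (n := 1) (by rw [Nat.card_zpowers, hz, pow_one] :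
    Nat.card (Subgroup.zpowers z) = 2 ^ 1)).exists_le_sylow
  obtain ⟨c, hc⟩ := MulAction.exists_smul_eq G R P
  have hv : c * z * c⁻¹ ∈ (P : Subgroup G) := by
    rw [← hc]; exact Subgroup.mem_map_of_mem _ (hR (Subgroup.mem_zpowers z))
  refine IsConj.trans ?_ (isConj_iff.mpr ⟨c, rfl⟩ : IsConj z (c * z * c⁻¹)).symm
  by_cases hvA : c * z * c⁻¹ ∈ Subgroup.zpowers σ
  · rcases order_two D hvA (by rw [← pow_two, ← hz, ← orderOf_conj_eq c z, pow_orderOf_eq_one]) with q | q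
    · rw [conj_eq_one_iff] at q; rw [q, orderOf_one] at hz; omega
    · rw [q]
  · obtain ⟨m, hm⟩ := Subgroup.mem_zpowers_iff.mp ((D.cases' _ hv).resolve_left hvA)
    set v := c * z * c⁻¹
    have hve : v = τ * σ ^ m := by
      rw [hm, ← mul_assoc]; nth_rewrite 1 [← τ_inv D]; rw [inv_mul_cancel, one_mul]
    have hflip : ∀ j : ℤ, τ * σ ^ j = σ ^ (-j) * τ := fun j => by
      have := conj_τ D (zpow_mem (Subgroup.mem_zpowers σ) j)
      rw [zpow_neg, ← this, inv_mul_cancel_right]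
    rcases Int.even_or_odd m with ⟨j, hj⟩ | ⟨j, hj⟩
    · refine h1.trans (isConj_iff.mpr ⟨σ ^ (-j), ?_⟩)
      rw [hve, hj, ← zpow_neg, mul_assoc, hflip, ← mul_assoc, ← zpow_add, neg_neg, hflip]
      congr 2; omega
    · refine h2.trans (isConj_iff.mpr ⟨σ ^ (-j - 1), ?_⟩)
      rw [hve, hj, ← zpow_neg, mul_assoc, mul_assoc σ, hflip, ← mul_assoc σ, ← mul_assoc, ← zpow_one_add,
        ← zpow_add, hflip]
      congr 2; omega

theorem card_cos_add_two (i : ZMod (2 ^ (n - 1))) :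
    (cos σ τ n (i + 2)).card = (cos σ τ n i).card := by
  classical
  refine (Finset.card_equiv (MulAut.conj σ⁻¹).toEquiv fun u => ?_).symm
  simp only [cos, Finset.mem_filter, Finset.mem_univ, true_and, MulEquiv.toEquiv_eq_coe, MulEquiv.coe_toEquiv,
    MulAut.conj_apply, orderOf_conj_eq]
  have hσC : σ ∈ Subgroup.centralizer ({cJ σ n} : Set G) := le_centJ D D.σ_mem
  have e1 : sp σ (2 : ZMod (2 ^ (n - 1))) = σ * σ := by
    rw [show (2 : ZMod (2 ^ (n - 1))) = ((2 : ℕ) : ZMod _) by norm_num, sp_natCast D, pow_two]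
  have hflip : σ⁻¹ * τ = τ * σ := by
    have := D.rel
    rw [← this, inv_mul_cancel_right]
  have hcomm : σ * (σ * sp σ i) = σ * sp σ i * σ := by
    have : Commute σ (sp σ i) := (Commute.refl σ).pow_right _
    rw [mul_assoc, ← this.eq]
  have e : τ * sp σ (i + 2) = σ⁻¹ * (τ * sp σ i) * σ := by
    rw [add_comm, sp_add D, e1, ← mul_assoc σ⁻¹, hflip]
    simp only [mul_assoc]
    rw [show σ * (sp σ i * σ) = σ * sp σ i * σ by rw [mul_assoc], ← hcomm]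
  rw [e, inv_inv, show (σ⁻¹ * (τ * sp σ i) * σ)⁻¹ * (σ⁻¹ * u * σ) = σ⁻¹ * ((τ * sp σ i)⁻¹ * u) * σ⁻¹⁻¹ by group]
  constructor
  · exact fun h => ⟨h.1, coreJ_conj D (inv_mem hσC) h.2⟩
  · intro h
    refine ⟨h.1, ?_⟩
    have := coreJ_conj D hσC h.2
    rwa [show σ * (σ⁻¹ * ((τ * sp σ i)⁻¹ * u) * σ⁻¹⁻¹) * σ⁻¹ = (τ * sp σ i)⁻¹ * u by group] at this

variable {ζ : ℂ} (hζ : IsPrimitiveRoot ζ (2 ^ (n - 1))) {M : Ideal AlgInt}
include hζ

/-- A character constant on the cyclic part has constant vector. -/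
theorem U_of_const {χ : IrrCharacter G} {δ : ℤ}
    (h : ∀ l : ZMod (2 ^ (n - 1)), l ≠ 0 → (χ : G → ℂ) (sp σ l) = (δ : ℂ))
    {j : ZMod (2 ^ (n - 1))} (hj : j ≠ 0) : U D hζ χ j = -δ := by
  have hz : ((U D hζ χ j : ℤ) : ℂ) = ((-δ : ℤ) : ℂ) := by
    rw [U_cast, Finset.sum_congr rfl (g := fun l => (δ : ℂ) * (ev ζ (-(j * l)) - 1)) fun l _ => ?_,
      ← Finset.mul_sum]
    · simp only [← neg_mul, Finset.sum_sub_distrib, sum_ev hζ, neg_eq_zero, if_neg hj, Finset.sum_const,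
        Finset.card_univ, ZMod.card, nsmul_eq_mul, mul_one, Int.cast_neg, zero_sub]
      field_simp
    · by_cases hl : l = 0
      · subst hl; simp
      · rw [h l hl]
  exact_mod_cast hz

open Classical in
/-- The order formula. -/
theorem order_formula (hM : IsPModular 2 M) (h1 : IsConj (cJ σ n) τ) (h2 : IsConj (cJ σ n) (σ * τ))
    {χ : IrrCharacter G} (hχ : χ ∈ principalBlock M G) (hne : χ ≠ trivIrr G) {δ : ℤ}
    (hδ : δ = 1 ∨ δ = -1) (hval : ∀ l : ℕ, 0 < l → l < 2 ^ (n - 1) → (χ : G → ℂ) (σ ^ l) = δ) :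
    (charDegree (χ : G → ℂ) : ℤ) ≠ δ ∧
      (Nat.card G : ℚ) * ((charDegree (χ : G → ℂ) : ℚ) - δ) ^ 2 =
        2 * (charDegree (χ : G → ℂ) : ℚ) * ((charDegree (χ : G → ℂ) : ℚ) + δ) *
          (Nat.card (Subgroup.centralizer ({cJ σ n} : Set G)) : ℚ) ^ 3 *
          (1 / (Nat.card (Subgroup.centralizer ({cJ σ n, τ} : Set G)) : ℚ) +
            1 / (Nat.card (Subgroup.centralizer ({cJ σ n, σ * τ} : Set G)) : ℚ)) ^ 2 := by
  obtain ⟨S⟩ := nonempty_shape D hζ hM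
  have hpos : 0 < 2 ^ (n - 2) - 1 := by
    have := D.hn
    have : 2 ^ 1 ≤ 2 ^ (n - 2) := Nat.pow_le_pow_right two_pos (by omega)
    omega
  set i₀ : Fin (2 ^ (n - 2) - 1) := ⟨0, hpos⟩
  set j := jj n i₀ with hjdef
  have hj0 : j ≠ 0 := (jj_ne D i₀).1
  have hconst : ∀ l : ZMod (2 ^ (n - 1)), l ≠ 0 → (χ : G → ℂ) (sp σ l) = (δ : ℂ) := fun l hl =>
    hval l.val (Nat.pos_of_ne_zero fun e => hl ((ZMod.val_eq_zero l).mp e)) (ZMod.val_lt l)
  obtain ⟨hχ1, hδ1⟩ : χ = S.χ₁ ∧ δ = S.δ₁ := by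
    have hUj := U_of_const D hζ hconst hj0
    have hUs := U_of_const D hζ hconst (hs_ne D)
    have hd : -δ ≠ 0 := by rcases hδ with e | e <;> simp [e]
    rcases (S.block χ).mp hχ with e | e | e | e | ⟨i, e⟩
    · exact absurd e hne
    · refine ⟨e, ?_⟩
      rw [e, S.U₁ j hj0] at hUj
      omega
    · exact absurd (e ▸ hUj : U D hζ S.χ₂ j = -δ) (by rw [hjdef, S.U₂ i₀]; exact hd.symm)
    · exact absurd (e ▸ hUj : U D hζ S.χ₃ j = -δ) (by rw [hjdef, S.U₃ i₀]; exact hd.symm)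
    · exact absurd (e ▸ hUs : U D hζ (S.η i) (hs n) = -δ) (by rw [S.Usη i]; exact hd.symm)
  subst hχ1 hδ1
  -- degrees
  set d : ℚ := (S.δ₁ : ℚ) * (charDegree (S.χ₁ : G → ℂ) : ℚ)
  set f := charDegree (S.η i₀ : G → ℂ)
  have hrel := (S.regular hM (g := 1) (not_dvd_orderOf_one hM) i₀).2
  rw [irr_apply_one, irr_apply_one] at hrel
  set N : ℂ := ((2 ^ (n - 1) : ℕ) : ℂ) with hN
  set c := Nat.card (Subgroup.centralizer ({cJ σ n} : Set G))
  set k := (Subgroup.centralizer ({cJ σ n} : Set G)).index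
  set T : ℕ := ∑ i : ZMod (2 ^ (n - 1)), (cos σ τ n i).card with hT
  have hconj : ∀ z : G, IsConj (cJ σ n) z ↔ orderOf z = 2 := fun z =>
    ⟨fun h => by obtain ⟨e, rfl⟩ := isConj_iff.mp h; rw [orderOf_conj_eq, J_ord D], one_class D h1 h2⟩
  have hconv : ∀ z : G, CfsgLib.Chars.conv (classInd (cJ σ n)) (classInd (cJ σ n)) z = (pairs z : ℂ) := by
    intro z
    simp only [CfsgLib.Chars.conv, classInd, hconj, pairs, ite_mul, one_mul, zero_mul, ← ite_and,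
      Finset.sum_boole]
  set m : ZMod (2 ^ (n - 1)) → ℂ := fun i => ((cos σ τ n i).card : ℂ) with hm
  set X : ZMod (2 ^ (n - 1)) → ℂ := fun l => ∑ χ ∈ Finset.univ.filter (· ∈ principalBlock M G),
      (χ : G → ℂ) (cJ σ n) ^ 2 * conj ((χ : G → ℂ) (sp σ l)) / (χ : G → ℂ) 1 with hX
  have hG0 : (Nat.card G : ℂ) ≠ 0 := natCast_card_ne_zero G
  have hloc : ∀ l, l ≠ 0 → ∑ i, m i * m (i + l) =
      (Nat.card (coreJ σ n) : ℂ) * (Nat.card G : ℂ)⁻¹ * (k : ℂ) ^ 2 * X l := by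
    intro l hl
    obtain ⟨e, he⟩ := orderOf_sp D l
    have hsc := congrArg (Nat.cast : ℕ → ℂ) (section_count D hl)
    push_cast at hsc
    have hrhs := pair_relation (t := cJ σ n) hM he (index_cent D (sp_mem D l) (sp_ne_one D hl))
    simp only [hconv] at hrhs
    rw [hrhs] at hsc
    simp only [hm, hX]
    have hO0 : (Nat.card (pPrimeCore 2 (Subgroup.centralizer ({sp σ l} : Set G))) : ℂ) ≠ 0 :=
      Nat.cast_ne_zero.mpr Nat.card_pos.ne'
    refine mul_left_cancel₀ hO0 ?_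
    linear_combination -hsc
  have hshift : ∀ i, ∑ l, ev ζ (j * l) * m (i + l) = 0 := by
    intro i
    have e : ev ζ (j + j) * ∑ l, ev ζ (j * l) * m (i + l) = ∑ l, ev ζ (j * l) * m (i + l) := by
      rw [Finset.mul_sum]
      refine Fintype.sum_equiv (Equiv.addLeft 2) _ _ fun l => ?_
      rw [Equiv.coe_addLeft, show j * (2 + l) = (j + j) + j * l by ring, ev_add hζ (j + j) (j * l),
        show i + (2 + l) = i + l + 2 by ring, show m (i + l + 2) = m (i + l) by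
          simp only [hm, card_cos_add_two D]]
      ring
    by_contra h0
    refine jj_ne_neg D i₀ i₀ (eq_neg_iff_add_eq_zero.mpr (ev_eq_one hζ ?_))
    exact mul_eq_right₀ h0 |>.mp e
  have hsumT : ∀ i, ∑ l, m (i + l) = (T : ℂ) := fun i => by
    rw [Fintype.sum_equiv (Equiv.addLeft i) (fun l => m (i + l)) m (fun l => rfl), hT]
    simp [hm]
  have hleft : ∑ l, (ev ζ (j * l) - 1) * ∑ i, m i * m (i + l) = -((T : ℂ) ^ 2) := by
    simp only [Finset.mul_sum]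
    rw [Finset.sum_comm]
    calc ∑ i, ∑ l, (ev ζ (j * l) - 1) * (m i * m (i + l))
        = ∑ i, m i * ((∑ l, ev ζ (j * l) * m (i + l)) - ∑ l, m (i + l)) := by
          refine Finset.sum_congr rfl fun i _ => ?_
          rw [← Finset.sum_sub_distrib, Finset.mul_sum]
          exact Finset.sum_congr rfl fun l _ => by ring
      _ = -((T : ℂ) ^ 2) := by
          simp only [hshift, hsumT, zero_sub, mul_neg, Finset.sum_neg_distrib, ← Finset.sum_mul]
          simp [hm, hT, pow_two]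
  have hright : ∑ l, (ev ζ (j * l) - 1) * X l = N * ∑ χ ∈ Finset.univ.filter (· ∈ principalBlock M G),
      (χ : G → ℂ) (cJ σ n) ^ 2 * (U D hζ χ j : ℂ) / (χ : G → ℂ) 1 := by
    simp only [hX, Finset.mul_sum]
    rw [Finset.sum_comm]
    refine Finset.sum_congr rfl fun χ _ => ?_
    have hN0 : N ≠ 0 := Nat.cast_ne_zero.mpr (pow_ne_zero _ two_ne_zero)
    rw [U_cast' D hζ χ j, ← hN, Finset.mul_sum, Finset.mul_sum, Finset.sum_div, Finset.mul_sum]
    refine Finset.sum_congr rfl fun l _ => ?_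
    field_simp
  have hmain : -((T : ℂ) ^ 2) = (Nat.card (coreJ σ n) : ℂ) * (Nat.card G : ℂ)⁻¹ * (k : ℂ) ^ 2 *
      (N * ∑ χ ∈ Finset.univ.filter (· ∈ principalBlock M G),
        (χ : G → ℂ) (cJ σ n) ^ 2 * (U D hζ χ j : ℂ) / (χ : G → ℂ) 1) := by
    rw [← hright, ← hleft, Finset.mul_sum]
    refine Finset.sum_congr rfl fun l _ => ?_
    by_cases hl : l = 0
    · subst hl; simp
    · rw [hloc l hl]; ring
  have hJ : cJ σ n = σ ^ 2 ^ (n - 2) := rfl
  have hlt : 2 ^ (n - 2) < 2 ^ (n - 1) := Nat.pow_lt_pow_right one_lt_two (by have := D.hn; omega)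
  have hη2 : (S.η i₀ : G → ℂ) (cJ σ n) ^ 2 = 4 := by
    rw [hJ, S.valueη i₀ (pow_pos two_pos _) hlt]
    have e : ζ ^ (((i₀ : ℕ) + 1) * 2 ^ (n - 2)) = -1 := by
      rw [show ((i₀ : ℕ) + 1) * 2 ^ (n - 2) = 2 ^ (n - 2) * 1 by simp [i₀], ← ev_natCast hζ, Nat.cast_mul,
        ← hs, ev_hs D hζ 1, pow_one]
    rw [e]
    rcases S.sign₁ with q | q <;> rw [q] <;> norm_num
  have hcast : ((S.δ₁ : ℂ)) ^ 2 = 1 := by rcases S.sign₁ with q | q <;> simp [q]
  rw [S.sum_block, U_triv D hζ hj0, S.U₁ j hj0, hjdef, S.U₂ i₀, S.U₃ i₀,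
    Finset.sum_eq_single i₀ (fun q _ hq => by rw [S.Uη q i₀, if_neg (Ne.symm hq)]; simp) (by simp),
    S.Uη i₀ i₀, if_pos rfl, hη2, show (trivIrr G : G → ℂ) 1 = 1 from rfl,
      (show (S.χ₁ : G → ℂ) (cJ σ n) ^ 2 = 1 by rw [hJ, S.value₁ (pow_pos two_pos _) hlt, hcast]),
    irr_apply_one, irr_apply_one, show (trivIrr G : G → ℂ) (cJ σ n) = 1 from rfl] at hmain
  rw [show (S.η i₀ : G → ℂ) 1 = (f : ℂ) from irr_apply_one _] at hmain
  push_cast at hmain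
  simp only [mul_zero, zero_div, zero_add, one_pow, one_mul, div_one] at hmain
  set a := charDegree (S.χ₁ : G → ℂ)
  have ha : 0 < a := charDegree_pos _
  have hf : 0 < f := charDegree_pos _
  have hδ2 : (S.δ₁ : ℚ) ^ 2 = 1 := by rcases S.sign₁ with q | q <;> simp [q]
  have hrelQ : 1 + (S.δ₁ : ℚ) * a = (S.δ₁ : ℚ) * f := by
    have : ((1 + S.δ₁ * (a : ℤ) : ℤ) : ℂ) = ((S.δ₁ * (f : ℤ) : ℤ) : ℂ) := by push_cast; exact hrel
    exact_mod_cast (Int.cast_inj.mp this)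
  have hcC : c = Nat.card (coreJ σ n) * 2 ^ n := (card_coreJ D).symm
  have hkc : k * c = Nat.card G := (Subgroup.centralizer ({cJ σ n} : Set G)).index_mul_card
  have hE : -((T : ℚ) ^ 2) = (Nat.card (coreJ σ n) : ℚ) * (Nat.card G : ℚ)⁻¹ * (k : ℚ) ^ 2 *
      (((2 ^ (n - 1) : ℕ) : ℚ) * (-1 + (-(S.δ₁ : ℚ) / a + 4 * (S.δ₁ : ℚ) / f))) := by
    have : ((-((T : ℚ) ^ 2) : ℚ) : ℂ) = (((Nat.card (coreJ σ n) : ℚ) * (Nat.card G : ℚ)⁻¹ * (k : ℚ) ^ 2 *
      (((2 ^ (n - 1) : ℕ) : ℚ) * (-1 + (-(S.δ₁ : ℚ) / a + 4 * (S.δ₁ : ℚ) / f))) : ℚ) : ℂ) := by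
      rw [hN] at hmain
      push_cast at hmain ⊢
      exact hmain
    exact_mod_cast this
  have ha' : (a : ℚ) ≠ 0 := by positivity
  have hf' : (f : ℚ) ≠ 0 := by positivity
  have hGQ : (Nat.card G : ℚ) ≠ 0 := Nat.cast_ne_zero.mpr Nat.card_pos.ne'
  have hfs : (f : ℚ) = (a : ℚ) + S.δ₁ := by linear_combination (-(S.δ₁ : ℚ)) * hrelQ + ((a : ℚ) - f) * hδ2
  have hEQ : (-1 + (-(S.δ₁ : ℚ) / a + 4 * (S.δ₁ : ℚ) / f)) * ((a : ℚ) * f) = -((a : ℚ) - S.δ₁) ^ 2 := by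
    field_simp
    linear_combination (-((a : ℚ) + S.δ₁)) * hfs
  have hkey : (Nat.card G : ℚ) * ((a : ℚ) - S.δ₁) ^ 2 =
      2 * (a : ℚ) * ((a : ℚ) + S.δ₁) * (c : ℚ) * (T : ℚ) ^ 2 := by
    have hcQ : (c : ℚ) = (Nat.card (coreJ σ n) : ℚ) * (2 * ((2 ^ (n - 1) : ℕ) : ℚ)) := by
      rw [hcC]; push_cast; rw [← pow_succ', show n - 1 + 1 = n by have := D.hn; omega]
    have hkQ : (k : ℚ) * c = (Nat.card G : ℚ) := by exact_mod_cast hkc
    have h3 : -((T : ℚ) ^ 2) * ((Nat.card G : ℚ) * ((a : ℚ) * f)) =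
        (Nat.card (coreJ σ n) : ℚ) * (k : ℚ) ^ 2 * ((2 ^ (n - 1) : ℕ) : ℚ) * (-((a : ℚ) - S.δ₁) ^ 2) := by
      rw [hE, ← hEQ]; field_simp
    refine mul_left_cancel₀ (mul_ne_zero hGQ hGQ) ?_
    rw [← hfs]
    linear_combination (2 * (c : ℚ) * (Nat.card G : ℚ)) * h3 +
      ((Nat.card G : ℚ) * c * (k : ℚ) ^ 2 * ((a : ℚ) - S.δ₁) ^ 2) * hcQ -
      ((Nat.card G : ℚ) * ((a : ℚ) - S.δ₁) ^ 2 * ((k : ℚ) * c + (Nat.card G : ℚ))) * hkQ
  have htot := total_cos D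
  rw [← hT] at htot
  refine ⟨fun e => ?_, ?_⟩
  · have he : (a : ℚ) - S.δ₁ = 0 := by
      rw [sub_eq_zero]; exact_mod_cast e
    rw [he] at hkey
    have hcos : 0 < T := by
      refine lt_of_lt_of_le ?_ (Finset.single_le_sum (f := fun i => (cos σ τ n i).card) (fun i _ => Nat.zero_le _)
        (Finset.mem_univ 0))
      refine Finset.card_pos.mpr ⟨τ, Finset.mem_filter.mpr ⟨Finset.mem_univ _, D.τ_ord, ?_⟩⟩
      rw [show sp σ (0 : ZMod (2 ^ (n - 1))) = 1 by simp [sp], mul_one, inv_mul_cancel]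
      exact one_mem _
    have hs1 : (a : ℚ) + S.δ₁ ≠ 0 := by
      intro h; have : (f : ℚ) = 0 := by linear_combination (-(S.δ₁ : ℚ)) * hrelQ + ((a : ℚ) - f) * hδ2 + h
      exact hf' this
    have hc0 : (c : ℚ) ≠ 0 := Nat.cast_ne_zero.mpr Nat.card_pos.ne'
    have hT0 : (T : ℚ) ≠ 0 := Nat.cast_ne_zero.mpr hcos.ne'
    have : 2 * (a : ℚ) * ((a : ℚ) + S.δ₁) * (c : ℚ) * (T : ℚ) ^ 2 = 0 := by linear_combination -hkey
    simp [ha', hs1, hc0, hT0] at this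
  · rw [hkey, htot]
    ring

end CfsgLib.Blocks.DH
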