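import Cfsg.Agent.Lib.Blocks.DihedralSection
import Cfsg.Agent.Lib.Chars.Induced
import Cfsg.Agent.Lib.Chars.Linear
import Mathlib.Data.ZMod.Basic
import Mathlib.RingTheory.RootsOfUnity.PrimitiveRoots

/-!
The lattice of principal characters on the cyclic part of a dihedral Sylow 2-subgroup.
-/

set_option linter.style.haveILetI false
set_option linter.unusedSectionVars false

namespace CfsgLib.Blocks.DH

open scoped ComplexConjugate
open Cfsg CfsgLib.Chars

universe u

section Roots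

variable {N : ℕ} [NeZero N] {ζ : ℂ} (hζ : IsPrimitiveRoot ζ N)

/-- The additive character. -/
def ev (ζ : ℂ) {N : ℕ} (j : ZMod N) : ℂ := ζ ^ j.val

@[simp] theorem ev_zero : ev ζ (0 : ZMod N) = 1 := by simp [ev]

include hζ

theorem pow_mod' (a : ℕ) : ζ ^ (a % N) = ζ ^ a := by
  conv_rhs => rw [← Nat.mod_add_div a N, pow_add, pow_mul, hζ.pow_eq_one, one_pow, mul_one]

theorem ev_natCast (a : ℕ) : ev ζ (a : ZMod N) = ζ ^ a := by
  rw [ev, ZMod.val_natCast, pow_mod' hζ]

theorem ev_add (j k : ZMod N) : ev ζ (j + k) = ev ζ j * ev ζ k := by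
  rw [ev, ev, ev, ← pow_add, ZMod.val_add, pow_mod' hζ]

theorem ev_neg (j : ZMod N) : ev ζ (-j) = (ev ζ j)⁻¹ := by
  refine eq_inv_of_mul_eq_one_left ?_
  rw [← ev_add hζ, neg_add_cancel, ev_zero]

theorem conj_ev (j : ZMod N) : conj (ev ζ j) = ev ζ (-j) := by
  rw [ev_neg hζ, ev, map_pow, ← inv_pow]
  congr 1
  have h : ‖ζ‖ = 1 := norm_eq_one_of_pow_eq_one (NeZero.ne N) hζ.pow_eq_one
  rw [Complex.inv_def, Complex.normSq_eq_norm_sq, h]
  simp

theorem ev_eq_one {j : ZMod N} (h : ev ζ j = 1) : j = 0 := by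
  have := (hζ.pow_eq_one_iff_dvd _).mp h
  exact (ZMod.val_eq_zero j).mp (Nat.eq_zero_of_dvd_of_lt this (ZMod.val_lt j))

theorem sum_ev (j : ZMod N) : ∑ l : ZMod N, ev ζ (j * l) = if j = 0 then (N : ℂ) else 0 := by
  split_ifs with h
  · subst h; simp
  · have e : ev ζ j * ∑ l : ZMod N, ev ζ (j * l) = ∑ l : ZMod N, ev ζ (j * l) := by
      rw [Finset.mul_sum]
      refine Fintype.sum_equiv (Equiv.addLeft 1) _ _ fun l => ?_
      rw [← ev_add hζ, Equiv.coe_addLeft, mul_add, mul_one]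
    by_contra hne
    exact h (ev_eq_one hζ (by simpa using mul_eq_right₀ hne |>.mp e))

theorem sum_ev' (l : ZMod N) : ∑ j : ZMod N, ev ζ (j * l) = if l = 0 then (N : ℂ) else 0 := by
  simp only [fun j : ZMod N => mul_comm j l]
  exact sum_ev hζ l

end Roots

variable {G : Type u} [Group G]

/-- Powers of the generator indexed by residues. -/
def sp (σ : G) {N : ℕ} (l : ZMod N) : G := σ ^ l.val

section Lattice

variable [Fintype G] {P : Sylow 2 G} {σ τ : G} {n : ℕ} (D : IsDih P σ τ n)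
include D

theorem sp_natCast (a : ℕ) : sp σ (a : ZMod (2 ^ (n - 1))) = σ ^ a := by
  rw [sp, ZMod.val_natCast, ← D.σ_ord, pow_mod_orderOf]

theorem sp_add (l m : ZMod (2 ^ (n - 1))) : sp σ (l + m) = sp σ l * sp σ m := by
  rw [sp, sp, sp, ← pow_add, ZMod.val_add, ← pow_eq_pow_mod _ (pow_ord D)]

theorem sp_mem (l : ZMod (2 ^ (n - 1))) : sp σ l ∈ Subgroup.zpowers σ :=
  pow_mem (Subgroup.mem_zpowers σ) _

theorem sp_neg (l : ZMod (2 ^ (n - 1))) : sp σ (-l) = (sp σ l)⁻¹ := by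
  refine eq_inv_of_mul_eq_one_left ?_
  rw [← sp_add D, neg_add_cancel]
  simp [sp]

theorem sp_inj {l m : ZMod (2 ^ (n - 1))} (h : sp σ l = sp σ m) : l = m := by
  have hl := (ZMod.val_lt l).trans_eq D.σ_ord.symm
  have hm := (ZMod.val_lt m).trans_eq D.σ_ord.symm
  exact ZMod.val_injective _ (pow_injOn_Iio_orderOf hl hm h)

theorem sp_ne_one {l : ZMod (2 ^ (n - 1))} (h : l ≠ 0) : sp σ l ≠ 1 := fun e =>
  h (sp_inj D (by rw [e]; simp [sp]))

theorem sp_surj {a : G} (ha : a ∈ Subgroup.zpowers σ) :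
    ∃ l : ZMod (2 ^ (n - 1)), sp σ l = a := by
  obtain ⟨i, rfl⟩ := (Submonoid.mem_powers_iff _ _).mp (mem_powers_iff_mem_zpowers.mpr ha)
  exact ⟨i, sp_natCast D i⟩

theorem orderOf_sp (l : ZMod (2 ^ (n - 1))) : ∃ k, orderOf (sp σ l) = 2 ^ k := by
  obtain ⟨k, -, hk⟩ := (Nat.dvd_prime_pow Nat.prime_two).mp
    (orderOf_dvd_of_pow_eq_one (σ_pow_two_pow D (sp_mem D l)))
  exact ⟨k, hk⟩

theorem two_dvd_sp {l : ZMod (2 ^ (n - 1))} (h : l ≠ 0) : 2 ∣ orderOf (sp σ l) := by
  obtain ⟨k, hk⟩ := orderOf_sp D l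
  rw [hk]
  refine dvd_pow_self 2 fun e => sp_ne_one D h ?_
  rw [e, pow_zero, orderOf_eq_one_iff] at hk
  exact hk

theorem sp_real (χ : IrrCharacter G) (l : ZMod (2 ^ (n - 1))) :
    (χ : G → ℂ) (sp σ (-l)) = (χ : G → ℂ) (sp σ l) := by
  rw [sp_neg D, ← conj_τ D (sp_mem D l), IsCharacter.isClassFunction (isCharacter_irr χ) (sp σ l) τ]

variable {ζ : ℂ} (hζ : IsPrimitiveRoot ζ (2 ^ (n - 1)))
include hζ

theorem exists_mult (χ : IrrCharacter G) (j : ZMod (2 ^ (n - 1))) :
    ∃ m : ℕ, ((2 ^ (n - 1) : ℕ) : ℂ)⁻¹ *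
      ∑ l : ZMod (2 ^ (n - 1)), (χ : G → ℂ) (sp σ l) * ev ζ (-(j * l)) = (m : ℂ) := by
  let f : Multiplicative (ZMod (2 ^ (n - 1))) →* G :=
    { toFun := fun l => sp σ (Multiplicative.toAdd l)
      map_one' := by simp [sp]
      map_mul' := fun a b => sp_add D _ _ }
  let ψ : Multiplicative (ZMod (2 ^ (n - 1))) →* ℂˣ :=
    MonoidHom.toHomUnits
      { toFun := fun l => ev ζ (j * Multiplicative.toAdd l)
        map_one' := by simp
        map_mul' := fun a b => by rw [toAdd_mul, mul_add, ev_add hζ] }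
  obtain ⟨m, hm⟩ := exists_mult_character (IsCharacter.comp (isCharacter_irr χ) f) (isCharacter_hom ψ)
  refine ⟨m, ?_⟩
  rw [← hm, classInner, Nat.card_eq_fintype_card, Fintype.card_multiplicative, ZMod.card]
  congr 1
  refine Fintype.sum_equiv Multiplicative.ofAdd _ _ fun l => ?_
  change _ = (χ : G → ℂ) (sp σ l) * conj (ev ζ (j * l))
  rw [conj_ev hζ]

/-- The vector of a character. -/
noncomputable def U (χ : IrrCharacter G) (j : ZMod (2 ^ (n - 1))) : ℤ :=
  ((exists_mult D hζ χ j).choose : ℤ) - ((exists_mult D hζ χ 0).choose : ℤ)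

theorem U_cast (χ : IrrCharacter G) (j : ZMod (2 ^ (n - 1))) :
    (U D hζ χ j : ℂ) = ((2 ^ (n - 1) : ℕ) : ℂ)⁻¹ *
      ∑ l : ZMod (2 ^ (n - 1)), (χ : G → ℂ) (sp σ l) * (ev ζ (-(j * l)) - 1) := by
  rw [U, Int.cast_sub, Int.cast_natCast, Int.cast_natCast, ← (exists_mult D hζ χ j).choose_spec,
    ← (exists_mult D hζ χ 0).choose_spec]
  simp only [zero_mul, neg_zero, ev_zero, mul_sub, mul_one, Finset.sum_sub_distrib]

theorem U_cast' (χ : IrrCharacter G) (j : ZMod (2 ^ (n - 1))) :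
    (U D hζ χ j : ℂ) = ((2 ^ (n - 1) : ℕ) : ℂ)⁻¹ *
      ∑ l : ZMod (2 ^ (n - 1)), conj ((χ : G → ℂ) (sp σ l)) * (ev ζ (j * l) - 1) := by
  have h := congrArg conj (U_cast D hζ χ j)
  rw [map_intCast] at h
  rw [h]
  simp only [map_mul, map_inv₀, Complex.conj_natCast, map_sum, map_sub, map_one, conj_ev hζ, neg_neg]

theorem U_zero (χ : IrrCharacter G) : U D hζ χ 0 = 0 := sub_self _

theorem U_neg (χ : IrrCharacter G) (j : ZMod (2 ^ (n - 1))) : U D hζ χ (-j) = U D hζ χ j := by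
  have h : ((U D hζ χ (-j) : ℤ) : ℂ) = ((U D hζ χ j : ℤ) : ℂ) := by
    rw [U_cast, U_cast]
    congr 1
    refine Fintype.sum_equiv (Equiv.neg _) _ _ fun l => ?_
    rw [Equiv.neg_apply, sp_real D, show -(-j * l) = -(j * -l) by ring]
  exact_mod_cast h

theorem U_triv {j : ZMod (2 ^ (n - 1))} (hj : j ≠ 0) : U D hζ (trivIrr G) j = -1 := by
  have h := U_cast' D hζ (trivIrr G) j
  simp only [trivIrr, map_one, one_mul, Finset.sum_sub_distrib, sum_ev hζ, if_neg hj, zero_sub,
    Finset.sum_const, Finset.card_univ, ZMod.card, nsmul_eq_mul, mul_one, mul_neg] at h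
  rw [inv_mul_cancel₀ (Nat.cast_ne_zero.mpr (pow_ne_zero _ two_ne_zero))] at h
  exact_mod_cast h

theorem value (χ : IrrCharacter G) {l : ZMod (2 ^ (n - 1))} (hl : l ≠ 0) :
    (χ : G → ℂ) (sp σ l) = ∑ j : ZMod (2 ^ (n - 1)), (U D hζ χ j : ℂ) * ev ζ (j * l) := by
  simp only [U_cast, mul_assoc, Finset.sum_mul, ← Finset.mul_sum]
  rw [Finset.sum_comm]
  simp only [← Finset.mul_sum]
  have h : ∀ m : ZMod (2 ^ (n - 1)), ∑ j : ZMod (2 ^ (n - 1)),
      (ev ζ (-(j * m)) - 1) * ev ζ (j * l) = if l = m then ((2 ^ (n - 1) : ℕ) : ℂ) else 0 := by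
    intro m
    simp only [sub_mul, one_mul, Finset.sum_sub_distrib, ← ev_add hζ, sum_ev' hζ, if_neg hl, sub_zero]
    rw [Finset.sum_congr rfl (g := fun j => ev ζ (j * (l - m))) fun j _ => by ring_nf, sum_ev' hζ]
    exact if_congr sub_eq_zero rfl rfl
  simp only [h, mul_ite, mul_zero, Finset.sum_ite_eq, Finset.mem_univ, if_true]
  have hN : ((2 ^ (n - 1) : ℕ) : ℂ) ≠ 0 := Nat.cast_ne_zero.mpr (pow_ne_zero _ two_ne_zero)
  field_simp

variable {M : Ideal AlgInt} (hM : IsPModular 2 M)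
include hM

open Classical in
theorem column {l m : ZMod (2 ^ (n - 1))} (hl : l ≠ 0) (hm : m ≠ 0) :
    ∑ χ ∈ Finset.univ.filter (· ∈ principalBlock M G), (χ : G → ℂ) (sp σ l) * conj ((χ : G → ℂ) (sp σ m)) =
      (if m = l then ((2 ^ (n - 1) : ℕ) : ℂ) else 0) + (if m = -l then ((2 ^ (n - 1) : ℕ) : ℂ) else 0) := by
  have hn := D.hn
  obtain ⟨k, hk⟩ := orderOf_sp D l
  have hidx := index_cent D (sp_mem D l) (sp_ne_one D hl)
  by_cases hc : m = l ∨ m = -l
  · have hv : ∀ χ : IrrCharacter G, (χ : G → ℂ) (sp σ m) = (χ : G → ℂ) (sp σ l) := fun χ => by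
      rcases hc with h | h <;> rw [h]
      exact sp_real D χ l
    simp only [hv]
    rw [CS.col_sq hM hk hidx]
    by_cases h2 : sp σ l * sp σ l = 1
    · have hJ : sp σ l = cJ σ n := (order_two D (sp_mem D l) h2).resolve_left (sp_ne_one D hl)
      have hneg : -l = l := sp_inj D (by rw [sp_neg D, inv_eq_of_mul_eq_one_right h2])
      rw [hneg] at hc
      have hml : m = l := hc.elim id id
      rw [hJ, fact_centJ D, if_pos hml, if_pos (hml.trans hneg.symm), ← Nat.cast_add, ← two_mul, ← pow_succ',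
        show n - 1 + 1 = n by omega]
    · have hneg : -l ≠ l := fun e => h2 (by
        have := sp_neg D l; rw [e] at this; nth_rewrite 1 [this]; exact inv_mul_cancel _)
      rw [fact_cent D (sp_mem D l) h2]
      rcases hc with h | h
      · rw [if_pos h, if_neg (h ▸ hneg.symm), add_zero]
      · rw [if_neg (h ▸ hneg), if_pos h, zero_add]
  · push Not at hc
    obtain ⟨k', hk'⟩ := orderOf_sp D m
    rw [if_neg hc.1, if_neg hc.2, add_zero, CS.col_cross hM hk hidx hk']
    intro h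
    rcases fusion D (sp_mem D l) (sp_mem D m) h.symm with e | e
    · exact hc.1 (sp_inj D e)
    · exact hc.2 (sp_inj D (e.trans (sp_neg D l).symm))

open Classical in
theorem gram {j k : ZMod (2 ^ (n - 1))} (hj : j ≠ 0) (hk : k ≠ 0) :
    ∑ χ ∈ Finset.univ.filter (· ∈ principalBlock M G), U D hζ χ j * U D hζ χ k =
      2 + (if k = j then 1 else 0) + (if k = -j then 1 else 0) := by
  set N : ℂ := ((2 ^ (n - 1) : ℕ) : ℂ) with hNdef
  have hN : N ≠ 0 := Nat.cast_ne_zero.mpr (pow_ne_zero _ two_ne_zero)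
  have key : ∑ χ ∈ Finset.univ.filter (· ∈ principalBlock M G), (U D hζ χ j : ℂ) * (U D hζ χ k : ℂ) =
      N⁻¹ * ∑ l : ZMod (2 ^ (n - 1)), ((ev ζ (-(j * l)) - 1) * (ev ζ (k * l) - 1) +
        (ev ζ (-(j * l)) - 1) * (ev ζ (-(k * l)) - 1)) := by
    calc _ = N⁻¹ * N⁻¹ * ∑ l : ZMod (2 ^ (n - 1)), ∑ m : ZMod (2 ^ (n - 1)),
          (ev ζ (-(j * l)) - 1) * (ev ζ (k * m) - 1) *
            ∑ χ ∈ Finset.univ.filter (· ∈ principalBlock M G),
              (χ : G → ℂ) (sp σ l) * conj ((χ : G → ℂ) (sp σ m)) := by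
            rw [Finset.sum_congr rfl fun χ _ => by rw [U_cast D hζ χ j, U_cast' D hζ χ k]]
            simp only [← hNdef, Finset.mul_sum, Finset.sum_mul]
            rw [Finset.sum_comm]
            rw [Finset.sum_congr rfl fun l _ => Finset.sum_comm]
            rw [Finset.sum_comm]
            exact Finset.sum_congr rfl fun l _ => Finset.sum_congr rfl fun m _ =>
              Finset.sum_congr rfl fun χ _ => by ring
      _ = N⁻¹ * N⁻¹ * ∑ l : ZMod (2 ^ (n - 1)), ∑ m : ZMod (2 ^ (n - 1)),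
          (ev ζ (-(j * l)) - 1) * (ev ζ (k * m) - 1) *
            ((if m = l then N else 0) + (if m = -l then N else 0)) := by
            congr 1
            refine Finset.sum_congr rfl fun l _ => Finset.sum_congr rfl fun m _ => ?_
            by_cases hl : l = 0
            · subst hl; simp
            by_cases hm : m = 0
            · subst hm; simp
            rw [column D hζ hM hl hm]
      _ = _ := by
            simp only [Finset.mul_sum, mul_add, mul_ite, mul_zero, Finset.sum_add_distrib,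
              Finset.sum_ite_eq', Finset.mem_univ, if_true, mul_neg]
            rw [← Finset.sum_add_distrib, ← Finset.sum_add_distrib]
            refine Finset.sum_congr rfl fun l _ => ?_
            field_simp
  have hs : ∀ i : ZMod (2 ^ (n - 1)), ∑ l : ZMod (2 ^ (n - 1)), ev ζ (i * l) = if i = 0 then N else 0 :=
    fun i => sum_ev hζ i
  have hz : ((∑ χ ∈ Finset.univ.filter (· ∈ principalBlock M G), U D hζ χ j * U D hζ χ k : ℤ) : ℂ) =
      ((2 + (if k = j then 1 else 0) + (if k = -j then 1 else 0) : ℤ) : ℂ) := by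
    push_cast
    rw [key]
    simp only [sub_mul, mul_sub, one_mul, mul_one, ← neg_mul, ← ev_add hζ, ← add_mul,
      Finset.sum_add_distrib, Finset.sum_sub_distrib, hs, neg_eq_zero, if_neg hj, if_neg hk,
      Finset.sum_const, Finset.card_univ, ZMod.card, nsmul_eq_mul, ← hNdef]
    have e1 : (if -j + k = 0 then N else 0) = (if k = j then (1 : ℂ) else 0) * N := by
      rw [ite_mul, one_mul, zero_mul]
      exact if_congr (by rw [neg_add_eq_zero, eq_comm]) rfl rfl
    have e2 : (if -j + -k = 0 then N else 0) = (if k = -j then (1 : ℂ) else 0) * N := by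
      rw [ite_mul, one_mul, zero_mul]
      refine if_congr ⟨fun h => ?_, fun h => by rw [h]; simp⟩ rfl rfl
      linear_combination -h
    rw [e1, e2]
    field_simp
    ring
  exact_mod_cast hz

open Classical in
/-- The vectors are orthogonal to regular columns. -/
theorem orth {g : G} (hg : ¬ 2 ∣ orderOf g) (j : ZMod (2 ^ (n - 1))) :
    ∑ χ ∈ Finset.univ.filter (· ∈ principalBlock M G), (χ : G → ℂ) g * (U D hζ χ j : ℂ) = 0 := by
  simp only [U_cast', Finset.mul_sum]
  rw [Finset.sum_comm]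
  refine Finset.sum_eq_zero fun l _ => ?_
  by_cases hl : l = 0
  · subst hl; simp
  have h := weak_orthogonality hM (isPBlock_principalBlock (M := M) (G := G)) hg (two_dvd_sp D hl)
  calc _ = ((2 ^ (n - 1) : ℕ) : ℂ)⁻¹ * (ev ζ (j * l) - 1) *
        ∑ χ ∈ Finset.univ.filter (· ∈ principalBlock M G),
          (χ : G → ℂ) g * conj ((χ : G → ℂ) (sp σ l)) := by
        rw [Finset.mul_sum]
        exact Finset.sum_congr rfl fun χ _ => by ring
    _ = 0 := by rw [h, mul_zero]

open Classical in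
/-- The vectors are orthogonal to columns at reflections outside the class of the centre. -/
theorem orth_refl {z : G} (hz : orderOf z = 2) (hne : ¬ IsConj z (cJ σ n)) (j : ZMod (2 ^ (n - 1))) :
    ∑ χ ∈ Finset.univ.filter (· ∈ principalBlock M G), (χ : G → ℂ) z * (U D hζ χ j : ℂ) = 0 := by
  simp only [U_cast', Finset.mul_sum]
  rw [Finset.sum_comm]
  refine Finset.sum_eq_zero fun l _ => ?_
  by_cases hl : l = 0
  · subst hl; simp
  obtain ⟨k, hk⟩ := orderOf_sp D l
  have h := CS.col_cross hM (x := z) (k := 1) (by rw [hz, pow_one]) (index_cent_refl D hz hne) hk ?_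
  · calc _ = ((2 ^ (n - 1) : ℕ) : ℂ)⁻¹ * (ev ζ (j * l) - 1) *
          ∑ χ ∈ Finset.univ.filter (· ∈ principalBlock M G),
            (χ : G → ℂ) z * conj ((χ : G → ℂ) (sp σ l)) := by
          rw [Finset.mul_sum]
          exact Finset.sum_congr rfl fun χ _ => by ring
      _ = 0 := by rw [h, mul_zero]
  · intro hc
    obtain ⟨c, hc'⟩ := isConj_iff.mp hc
    have h2 : sp σ l * sp σ l = 1 := by
      have hz2 : z * z = 1 := by rw [← pow_two, ← hz, pow_orderOf_eq_one]
      rw [← hc', show c * sp σ l * c⁻¹ * (c * sp σ l * c⁻¹) = c * (sp σ l * sp σ l) * c⁻¹ by group] at hz2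
      exact conj_eq_one_iff.mp hz2
    exact hne (((order_two D (sp_mem D l) h2).resolve_left (sp_ne_one D hl)) ▸ hc.symm)

end Lattice

end CfsgLib.Blocks.DH
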