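import Cfsg.Agent.Lib.Blocks.FrobeniusDual
import Cfsg.Agent.Lib.Blocks.CoherentVectors

/-!
The principal block for an abelian Sylow subgroup with a fixed-point-free normalizer action.
-/

set_option linter.style.haveILetI false
set_option linter.unusedSectionVars false

namespace CfsgLib.Blocks.FS

open scoped ComplexConjugate
open Cfsg CfsgLib.Chars

universe u

variable {G : Type u} [Group G] [Fintype G] {p : ℕ} [Fact p.Prime] {P : Sylow p G}
  [hab : IsMulCommutative (P : Subgroup G)] [Fintype (P : Subgroup G)]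

/-- The multiplicity of a linear character in a restriction. -/
noncomputable def mult (χ : IrrCharacter G) (ψ : (P : Subgroup G) →* ℂˣ) : ℕ :=
  (exists_mult_character (IsCharacter.restrict (isCharacter_irr χ) (P : Subgroup G))
    (isCharacter_hom ψ)).choose

/-- The vector of a character. -/
noncomputable def vec (χ : IrrCharacter G) (ψ : (P : Subgroup G) →* ℂˣ) : ℤ :=
  (mult χ ψ : ℤ) - mult χ (1 : (P : Subgroup G) →* ℂˣ)

theorem mult_cast (χ : IrrCharacter G) (ψ : (P : Subgroup G) →* ℂˣ) :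
    (mult χ ψ : ℂ) = (Nat.card (P : Subgroup G) : ℂ)⁻¹ *
      ∑ w : (P : Subgroup G), (χ : G → ℂ) (w : G) * conj ((ψ w : ℂˣ) : ℂ) :=
  ((exists_mult_character (IsCharacter.restrict (isCharacter_irr χ) (P : Subgroup G))
    (isCharacter_hom ψ)).choose_spec).symm

theorem vec_cast (χ : IrrCharacter G) (ψ : (P : Subgroup G) →* ℂˣ) :
    (vec χ ψ : ℂ) = (Nat.card (P : Subgroup G) : ℂ)⁻¹ *
      ∑ w : (P : Subgroup G), (χ : G → ℂ) (w : G) * (conj ((ψ w : ℂˣ) : ℂ) - 1) := by
  simp only [vec, Int.cast_sub, Int.cast_natCast, mult_cast, mul_sub, Finset.sum_sub_distrib,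
    MonoidHom.one_apply, Units.val_one, map_one, mul_one]

theorem vec_cast' (χ : IrrCharacter G) (ψ : (P : Subgroup G) →* ℂˣ) :
    (vec χ ψ : ℂ) = (Nat.card (P : Subgroup G) : ℂ)⁻¹ *
      ∑ w : (P : Subgroup G), conj ((χ : G → ℂ) (w : G)) * (((ψ w : ℂˣ) : ℂ) - 1) := by
  have h := congrArg conj (vec_cast χ ψ)
  rw [map_intCast] at h
  rw [h]
  simp only [map_mul, map_inv₀, Complex.conj_natCast, map_sum, map_sub, Complex.conj_conj, map_one]

theorem vec_triv {ψ : (P : Subgroup G) →* ℂˣ} (hψ : ψ ≠ 1) : vec (trivIrr G) ψ = -1 := by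
  classical
  have h := vec_cast' (trivIrr G) ψ
  simp only [trivIrr, map_one, one_mul, Finset.sum_sub_distrib, hom_sum, if_neg hψ, Finset.sum_const,
    Finset.card_univ, nsmul_eq_mul, mul_one, zero_sub, mul_neg, ← Nat.card_eq_fintype_card] at h
  rw [inv_mul_cancel₀ (natCast_card_ne_zero _)] at h
  exact_mod_cast h

/-- Values off the identity from the vector. -/
theorem value_eq [Fintype ((P : Subgroup G) →* ℂˣ)] (χ : IrrCharacter G) {y : (P : Subgroup G)}
    (hy : y ≠ 1) : (χ : G → ℂ) (y : G) =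
      ∑ ψ : (P : Subgroup G) →* ℂˣ, (vec χ ψ : ℂ) * ((ψ y : ℂˣ) : ℂ) := by
  classical
  simp only [vec_cast, mul_assoc, Finset.sum_mul, ← Finset.mul_sum]
  rw [Finset.sum_comm]
  simp only [mul_assoc, ← Finset.mul_sum]
  have h : ∀ w : (P : Subgroup G), ∑ ψ : (P : Subgroup G) →* ℂˣ,
      (conj ((ψ w : ℂˣ) : ℂ) - 1) * ((ψ y : ℂˣ) : ℂ) =
      if w = y then (Nat.card (P : Subgroup G) : ℂ) else 0 := by
    intro w
    simp only [sub_mul, one_mul, Finset.sum_sub_distrib, dual_sum, if_neg hy, sub_zero]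
    rw [Finset.sum_congr rfl (g := fun ψ : (P : Subgroup G) →* ℂˣ => ((ψ (w⁻¹ * y) : ℂˣ) : ℂ))
      fun ψ _ => ?_, dual_sum]
    · exact if_congr (by rw [inv_mul_eq_one]) rfl rfl
    · rw [← IsCharacter.map_inv (isCharacter_hom ψ) w, map_mul, Units.val_mul]
  simp only [h, mul_ite, mul_zero, Finset.sum_ite_eq', Finset.mem_univ, if_true]
  field_simp [natCast_card_ne_zero (P : Subgroup G)]

theorem vec_invariant {ψ φ : (P : Subgroup G) →* ℂˣ} (h : φ ∈ orbSet P ψ) (χ : IrrCharacter G) :
    vec χ φ = vec χ ψ := by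
  obtain ⟨α, hα, e⟩ := mem_orbSet.mp h
  obtain ⟨n, -, hn⟩ := mem_autGroup.mp hα
  have hz : ((vec χ φ : ℤ) : ℂ) = ((vec χ ψ : ℤ) : ℂ) := by
    rw [vec_cast, vec_cast]
    congr 1
    refine (Fintype.sum_equiv α.toEquiv _ _ fun w => ?_).symm
    rw [← e]
    simp only [MulEquiv.toEquiv_eq_coe, MulEquiv.coe_toEquiv, MonoidHom.coe_comp,
      MulEquiv.coe_toMonoidHom, Function.comp_apply]
    rw [hn w, IsCharacter.isClassFunction (isCharacter_irr χ) (w : G) n]
  exact_mod_cast hz

variable {M : Ideal AlgInt} (hM : IsPModular p M) (hF : Frob P)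
include hM hF

/-- The value on a section is the value at the `p`-part. -/
theorem value_section {χ : IrrCharacter G} (hχ : χ ∈ principalBlock M G) {z y : G}
    (hz : IsPPart p z y) (hy : y ∈ (P : Subgroup G)) (hy1 : y ≠ 1) :
    (χ : G → ℂ) z = (χ : G → ℂ) y := by
  obtain ⟨u, rfl, hyu, ⟨k, hk⟩, hu⟩ := hz
  exact CS.value_const hM hk (cent_index hF hy hy1).1 hχ hyu.symm hu

open Classical in
/-- The block columns at nontrivial elements of the Sylow subgroup. -/
theorem col {v w : (P : Subgroup G)} (hv : v ≠ 1) (hw : w ≠ 1) :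
    ∑ χ ∈ Finset.univ.filter (· ∈ principalBlock M G), (χ : G → ℂ) (v : G) * conj ((χ : G → ℂ) (w : G)) =
      ∑ α : autGroup P, if (α : MulAut (P : Subgroup G)) v = w then (Nat.card (P : Subgroup G) : ℂ) else 0 := by
  have hv1 : (v : G) ≠ 1 := fun h => hv (Subtype.ext h)
  obtain ⟨hidx, hcard⟩ := cent_index hF v.2 hv1
  obtain ⟨k, hk⟩ := IsPGroup.iff_orderOf.mp P.2 v
  obtain ⟨k', hk'⟩ := IsPGroup.iff_orderOf.mp P.2 w
  rw [← Subgroup.orderOf_coe] at hk hk'
  by_cases h : IsConj (v : G) (w : G)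
  · obtain ⟨α, hα, he⟩ := isConj_iff_aut.mp h
    rw [Finset.sum_eq_single (⟨α, hα⟩ : autGroup P), if_pos he]
    · rw [← hcard]
      rw [← CS.col_sq hM hk hidx]
      refine Finset.sum_congr rfl fun χ _ => ?_
      obtain ⟨g, hg⟩ := isConj_iff.mp h
      rw [← hg, IsCharacter.isClassFunction (isCharacter_irr χ) (v : G) g]
    · intro β _ hne
      rw [if_neg]
      intro he'
      refine hv (free hF (mul_mem (inv_mem hα) β.2 : α⁻¹ * (β : MulAut (P : Subgroup G)) ∈ autGroup P)
        (fun e => hne (Subtype.ext (inv_mul_eq_one.mp e).symm)) ?_)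
      rw [MulAut.mul_apply, he', ← he]
      simp
    · simp
  · rw [CS.col_cross hM hk hidx hk' (fun h' => h h'.symm)]
    symm
    exact Finset.sum_eq_zero fun α _ => if_neg fun e => h (isConj_iff_aut.mpr ⟨α, α.2, e⟩)

open Classical in
/-- The inner products of the vectors. -/
theorem gram {ψ φ : (P : Subgroup G) →* ℂˣ} (hψ : ψ ≠ 1) (hφ : φ ≠ 1) :
    ∑ χ ∈ Finset.univ.filter (· ∈ principalBlock M G), vec χ ψ * vec χ φ =
      (if φ ∈ orbSet P ψ then 1 else 0) + (Nat.card (autGroup P) : ℤ) := by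
  set n : ℂ := (Nat.card (P : Subgroup G) : ℂ) with hn
  have hn0 : n ≠ 0 := natCast_card_ne_zero _
  have key : ∑ χ ∈ Finset.univ.filter (· ∈ principalBlock M G), (vec χ ψ : ℂ) * (vec χ φ : ℂ) =
      n⁻¹ * ∑ α : autGroup P, ∑ v : (P : Subgroup G),
        (conj ((ψ v : ℂˣ) : ℂ) - 1) * (((φ ((α : MulAut (P : Subgroup G)) v) : ℂˣ) : ℂ) - 1) := by
    calc _ = n⁻¹ * n⁻¹ * ∑ v : (P : Subgroup G), ∑ w : (P : Subgroup G),
          (conj ((ψ v : ℂˣ) : ℂ) - 1) * (((φ w : ℂˣ) : ℂ) - 1) *
            ∑ χ ∈ Finset.univ.filter (· ∈ principalBlock M G),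
              (χ : G → ℂ) (v : G) * conj ((χ : G → ℂ) (w : G)) := by
            rw [Finset.sum_congr rfl fun χ _ => by rw [vec_cast χ ψ, vec_cast' χ φ]]
            simp only [← hn, Finset.mul_sum, Finset.sum_mul]
            rw [Finset.sum_comm]
            rw [Finset.sum_congr rfl fun v _ => Finset.sum_comm]
            rw [Finset.sum_comm]
            exact Finset.sum_congr rfl fun v _ => Finset.sum_congr rfl fun w _ =>
              Finset.sum_congr rfl fun χ _ => by ring
      _ = n⁻¹ * n⁻¹ * ∑ v : (P : Subgroup G), ∑ w : (P : Subgroup G),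
          (conj ((ψ v : ℂˣ) : ℂ) - 1) * (((φ w : ℂˣ) : ℂ) - 1) *
            ∑ α : autGroup P, if (α : MulAut (P : Subgroup G)) v = w then n else 0 := by
            congr 1
            refine Finset.sum_congr rfl fun v _ => Finset.sum_congr rfl fun w _ => ?_
            by_cases hv : v = 1
            · subst hv; simp
            by_cases hw : w = 1
            · subst hw; simp
            rw [col hM hF hv hw]
      _ = _ := by
            simp only [Finset.mul_sum, mul_ite, mul_zero]
            rw [Finset.sum_congr rfl fun v _ => Finset.sum_comm, Finset.sum_comm]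
            refine Finset.sum_congr rfl fun α _ => Finset.sum_congr rfl fun v _ => ?_
            rw [Finset.sum_ite_eq]
            simp only [Finset.mem_univ, if_true]
            field_simp
  have hcomp : ∀ α : autGroup P, ∑ v : (P : Subgroup G),
      (conj ((ψ v : ℂˣ) : ℂ) - 1) * (((φ ((α : MulAut (P : Subgroup G)) v) : ℂˣ) : ℂ) - 1) =
      n * ((if φ.comp (α : MulAut (P : Subgroup G)).toMonoidHom = ψ then 1 else 0) + 1) := by
    intro α
    have h1 : ∑ v : (P : Subgroup G), conj ((ψ v : ℂˣ) : ℂ) = 0 := by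
      rw [← map_sum, hom_sum, if_neg hψ, map_zero]
    have h2 : ∑ v : (P : Subgroup G), ((φ ((α : MulAut (P : Subgroup G)) v) : ℂˣ) : ℂ) = 0 := by
      have := hom_sum φ
      rw [if_neg hφ] at this
      rw [← this]
      exact Fintype.sum_equiv (α : MulAut (P : Subgroup G)).toEquiv _ _ fun v => rfl
    have h3 : ∑ v : (P : Subgroup G),
        conj ((ψ v : ℂˣ) : ℂ) * ((φ ((α : MulAut (P : Subgroup G)) v) : ℂˣ) : ℂ) =
        if φ.comp (α : MulAut (P : Subgroup G)).toMonoidHom = ψ then n else 0 := by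
      have e := hom_sum (ψ⁻¹ * φ.comp (α : MulAut (P : Subgroup G)).toMonoidHom)
      rw [show (if ψ⁻¹ * φ.comp (α : MulAut (P : Subgroup G)).toMonoidHom = 1 then n else 0) =
        if φ.comp (α : MulAut (P : Subgroup G)).toMonoidHom = ψ then n else 0 from
          if_congr ⟨fun q => MonoidHom.ext fun x => (inv_mul_eq_one.mp (DFunLike.congr_fun q x)).symm,
            fun q => MonoidHom.ext fun x => inv_mul_eq_one.mpr (DFunLike.congr_fun q x).symm⟩ rfl rfl] at e
      rw [← e]
      refine Finset.sum_congr rfl fun v _ => ?_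
      rw [← IsCharacter.map_inv (isCharacter_hom ψ) v, MonoidHom.mul_apply, MonoidHom.inv_apply,
        Units.val_mul, map_inv]
      rfl
    simp only [sub_mul, mul_sub, one_mul, mul_one, Finset.sum_sub_distrib, h1, h2, h3,
      Finset.sum_const, Finset.card_univ, nsmul_eq_mul, ← Nat.card_eq_fintype_card, ← hn]
    split_ifs <;> ring
  have hcount : ∑ α : autGroup P,
      (if φ.comp (α : MulAut (P : Subgroup G)).toMonoidHom = ψ then (1 : ℂ) else 0) =
      if φ ∈ orbSet P ψ then 1 else 0 := by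
    by_cases h : φ ∈ orbSet P ψ
    · obtain ⟨α, hα, e⟩ := mem_orbSet.mp h
      rw [if_pos h, Finset.sum_eq_single (⟨α, hα⟩ : autGroup P), if_pos e]
      · intro β _ hne
        rw [if_neg]
        intro e'
        refine hφ (free_dual hF (mul_mem hα (inv_mem β.2) : α * (β : MulAut (P : Subgroup G))⁻¹ ∈ autGroup P)
          (fun q => hne (Subtype.ext (mul_inv_eq_one.mp q).symm)) ?_)
        refine MonoidHom.ext fun w => ?_
        have h''' := DFunLike.congr_fun (e.trans e'.symm) ((β : MulAut (P : Subgroup G))⁻¹ w)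
        simpa using h'''
      · simp
    · rw [if_neg h]
      exact Finset.sum_eq_zero fun α _ => if_neg fun e => h (mem_orbSet.mpr ⟨α, α.2, e⟩)
  have hz : ((∑ χ ∈ Finset.univ.filter (· ∈ principalBlock M G), vec χ ψ * vec χ φ : ℤ) : ℂ) =
      (((if φ ∈ orbSet P ψ then 1 else 0) + (Nat.card (autGroup P) : ℤ) : ℤ) : ℂ) := by
    push_cast
    rw [key, Finset.sum_congr rfl fun α _ => hcomp α, ← Finset.mul_sum, inv_mul_cancel_left₀ hn0,
      Finset.sum_add_distrib, hcount, Finset.sum_const, Finset.card_univ, ← Nat.card_eq_fintype_card,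
      nsmul_eq_mul, mul_one]
  exact_mod_cast hz

open Classical in
/-- The vectors are orthogonal to the columns of regular elements. -/
theorem vec_orth {g : G} (hg : ¬ p ∣ orderOf g) (ψ : (P : Subgroup G) →* ℂˣ) :
    ∑ χ ∈ Finset.univ.filter (· ∈ principalBlock M G), (χ : G → ℂ) g * (vec χ ψ : ℂ) = 0 := by
  simp only [vec_cast', Finset.mul_sum]
  rw [Finset.sum_comm]
  refine Finset.sum_eq_zero fun w _ => ?_
  by_cases hw : w = 1
  · subst hw; simp
  have hd : p ∣ orderOf (w : G) := by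
    rw [Subgroup.orderOf_coe]; exact IsPGroup.dvd_orderOf P.2 hw
  have h := weak_orthogonality hM (isPBlock_principalBlock (M := M) (G := G)) hg hd
  calc _ = (Nat.card (P : Subgroup G) : ℂ)⁻¹ * (((ψ w : ℂˣ) : ℂ) - 1) *
        ∑ χ ∈ Finset.univ.filter (· ∈ principalBlock M G),
          (χ : G → ℂ) g * conj ((χ : G → ℂ) (w : G)) := by
        rw [Finset.mul_sum]
        exact Finset.sum_congr rfl fun χ _ => by ring
    _ = 0 := by rw [h, mul_zero]

omit hF in
/-- A principal character has a nonzero vector. -/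
theorem exists_vec_ne [Fintype ((P : Subgroup G) →* ℂˣ)] (hF : Frob P) (hP1 : Nat.card (P : Subgroup G) ≠ 1)
    {χ : IrrCharacter G} (hχ : χ ∈ principalBlock M G) :
    ∃ ψ : (P : Subgroup G) →* ℂˣ, vec χ ψ ≠ 0 := by
  by_contra hno
  push Not at hno
  have hv : ∀ g : G, p ∣ orderOf g → (χ : G → ℂ) g = 0 := by
    intro g hg
    obtain ⟨x, hx⟩ := exists_isPPart (Fact.out : p.Prime) g
    obtain ⟨u, hxu, hcu, ⟨k, hk⟩, hu⟩ := id hx
    have hx1 : x ≠ 1 := by
      rintro rfl
      rw [one_mul] at hxu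
      exact hu (hxu ▸ hg)
    have hpg : IsPGroup p (Subgroup.zpowers x) :=
      IsPGroup.of_card (n := k) (by rw [Nat.card_zpowers, hk])
    obtain ⟨Q, hQ⟩ := hpg.exists_le_sylow
    obtain ⟨c, hc⟩ := MulAction.exists_smul_eq G Q P
    have hxP : c * x * c⁻¹ ∈ (P : Subgroup G) := by
      rw [← hc]
      exact Subgroup.mem_map_of_mem _ (hQ (Subgroup.mem_zpowers x))
    have hne : c * x * c⁻¹ ≠ 1 := fun h => hx1 (conj_eq_one_iff.mp h)
    have hz : IsPPart p (c * g * c⁻¹) (c * x * c⁻¹) := IsPPart.conj hx c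
    rw [← IsCharacter.isClassFunction (isCharacter_irr χ) g c,
      value_section hM hF hχ hz hxP hne,
      show c * x * c⁻¹ = ((⟨_, hxP⟩ : (P : Subgroup G)) : G) from rfl,
      value_eq χ (fun h => hne (congrArg Subtype.val h))]
    exact Finset.sum_eq_zero fun ψ _ => by rw [hno ψ, Int.cast_zero, zero_mul]
  have h2 : principalBlock M G = {χ} := by
    rw [IsPBlock.eq_blockOf hM isPBlock_principalBlock hχ,
      blockOf_eq_singleton hM (ppow_dvd_of_vanish hM (isCharacter_irr χ) hv)]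
  have h3 : trivIrr G ∈ principalBlock M G := self_mem_blockOf hM (trivIrr G)
  rw [h2, Set.mem_singleton_iff] at h3
  obtain ⟨y, hy⟩ : ∃ y : (P : Subgroup G), y ≠ 1 := by
    haveI : Nontrivial (P : Subgroup G) := by
      rw [← Finite.one_lt_card_iff_nontrivial]
      have := Nat.card_pos (α := (P : Subgroup G))
      omega
    exact exists_ne 1
  have := hv (y : G) (by rw [Subgroup.orderOf_coe]; exact IsPGroup.dvd_orderOf P.2 hy)
  rw [← h3] at this
  simp [trivIrr] at this

end CfsgLib.Blocks.FS
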