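import Cfsg.Agent.Lib.Blocks.PrincipalOrth
import Cfsg.Agent.Lib.Blocks.PrincipalSection
import Cfsg.Agent.Lib.KleinSylow
import Cfsg.Agent.Lib.FocalTransfer
import Cfsg.Agent.Lib.Involution

/-!
The principal 2-block of a group with a Klein four Sylow 2-subgroup and one class of involutions.
-/

set_option linter.style.haveILetI false
set_option linter.unusedSectionVars false

namespace CfsgLib.Blocks.KP

open scoped ComplexConjugate
open Cfsg CfsgLib.Chars CfsgLib.Involution

universe u

/-- The value at an involution is an integer of the parity of the degree. -/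
theorem exists_int_involution {G : Type u} [Group G] [Finite G] {χ : G → ℂ}
    (hχ : IsCharacter G χ) {t : G} (ht : orderOf t = 2) :
    ∃ a : ℤ, χ t = (a : ℂ) := by
  obtain ⟨l, hl, h⟩ := exists_list_eigen hχ t
  have h1 := h 1
  rw [pow_one] at h1
  rw [h1]
  clear h h1
  induction l with
  | nil => exact ⟨0, by simp⟩
  | cons μ r ih =>
    obtain ⟨a, ha⟩ := ih fun ν hν => hl ν (by simp [hν])
    have hμ := hl μ (by simp)
    rw [ht] at hμ
    rcases sq_eq_one_iff.mp hμ with rfl | rfl
    · exact ⟨1 + a, by push_cast; rw [List.map_cons, List.sum_cons, pow_one, ha]⟩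
    · exact ⟨-1 + a, by push_cast; rw [List.map_cons, List.sum_cons, pow_one, ha]⟩

variable {G : Type u} [Group G] [Finite G] (P : Sylow 2 G)

theorem factorization_two (hP : IsKleinFour (P : Subgroup G)) :
    (Nat.card G).factorization 2 = 2 := by
  haveI : Fact (Nat.Prime 2) := ⟨Nat.prime_two⟩
  haveI := hP
  have h := P.card_eq_multiplicity
  rw [hP.card_four] at h
  exact (Nat.pow_right_injective le_rfl (h.trans rfl : 2 ^ 2 = 2 ^ _)).symm

/-- Elements of even order split into an involution and a commuting element of odd order. -/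
theorem decomp (hP : IsKleinFour (P : Subgroup G)) {g : G} (hg : 2 ∣ orderOf g) :
    ∃ x y : G, g = x * y ∧ orderOf x = 2 ∧ Commute y x ∧ Odd (orderOf y) := by
  haveI : Fact (Nat.Prime 2) := ⟨Nat.prime_two⟩
  obtain ⟨e, m, hm, hord⟩ := Nat.exists_eq_two_pow_mul_odd (orderOf_pos g).ne'
  have hox : orderOf (g ^ m) = 2 ^ e := by
    rw [orderOf_pow_of_dvd hm.pos.ne' (hord ▸ dvd_mul_left _ _), hord, Nat.mul_div_cancel _ hm.pos]
  have h2 : IsPGroup 2 (Subgroup.zpowers (g ^ m)) :=
    IsPGroup.of_card (n := e) (by rw [Nat.card_zpowers, hox])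
  obtain ⟨Q, hQ⟩ := h2.exists_le_sylow
  obtain ⟨c, hc⟩ := MulAction.exists_smul_eq G Q P
  have hcP : c * g ^ m * c⁻¹ ∈ (P : Subgroup G) := by
    rw [← hc]
    exact Subgroup.mem_map_of_mem _ (hQ (Subgroup.mem_zpowers _))
  haveI := hP
  have hsq : (c * g ^ m * c⁻¹) * (c * g ^ m * c⁻¹) = 1 :=
    congrArg Subtype.val (IsKleinFour.mul_self (⟨_, hcP⟩ : (P : Subgroup G)))
  have hsq' : (g ^ m) ^ 2 = 1 := by
    have : c * (g ^ m) ^ 2 * c⁻¹ = 1 := by rw [← hsq]; group
    simpa using this
  have he : e = 1 := by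
    rcases (Nat.dvd_prime Nat.prime_two).mp (hox ▸ orderOf_dvd_of_pow_eq_one hsq') with h | h
    · have : e = 0 := by simpa using h
      subst this
      rw [pow_zero, one_mul] at hord
      exact absurd (hord ▸ hg) hm.not_two_dvd_nat
    · exact Nat.pow_right_injective le_rfl (h.trans (pow_one 2).symm)
  subst he
  rw [pow_one] at hord hox
  refine ⟨g ^ m, g ^ (m + 1), ?_, hox, (Commute.refl g).pow_pow _ _, ?_⟩
  · rw [← pow_add, show m + (m + 1) = 2 * m + 1 by ring, pow_succ, ← hord, pow_orderOf_eq_one,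
      one_mul]
  · obtain ⟨j, hj⟩ := hm
    have : (g ^ (m + 1)) ^ m = 1 := by
      rw [← pow_mul, show (m + 1) * m = 2 * m * (j + 1) by rw [hj]; ring, pow_mul, ← hord,
        pow_orderOf_eq_one, one_pow]
    exact (show Odd m from ⟨j, hj⟩).of_dvd_nat (orderOf_dvd_of_pow_eq_one this)

/-- Centralisers of involutions have a normal 2-complement. -/
theorem centralizer_complement (hP : IsKleinFour (P : Subgroup G))
    (hone : ∀ s t : G, orderOf s = 2 → orderOf t = 2 → IsConj s t) {t : G} (ht : orderOf t = 2) :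
    (∃ j : ℕ, (pPrimeCore 2 (Subgroup.centralizer ({t} : Set G))).index = 2 ^ j) ∧
      ∀ y : Subgroup.centralizer ({t} : Set G), Odd (orderOf y) →
        y ∈ pPrimeCore 2 (Subgroup.centralizer ({t} : Set G)) := by
  classical
  haveI : Fact (Nat.Prime 2) := ⟨Nat.prime_two⟩
  haveI := hP
  -- a Sylow subgroup through `t`
  obtain ⟨u, hu, hu1⟩ : ∃ u : G, u ∈ (P : Subgroup G) ∧ u ≠ 1 := by
    haveI : Nontrivial (P : Subgroup G) := by
      rw [← Finite.one_lt_card_iff_nontrivial, hP.card_four]; norm_num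
    obtain ⟨u, hu⟩ := exists_ne (1 : (P : Subgroup G))
    exact ⟨u, u.2, fun h => hu (Subtype.ext h)⟩
  have hu2 : orderOf u = 2 :=
    orderOf_eq_two (congrArg Subtype.val (IsKleinFour.mul_self (⟨u, hu⟩ : (P : Subgroup G)))) hu1
  obtain ⟨c, hc⟩ := isConj_iff.mp (hone u t hu2 ht)
  set Q : Sylow 2 G := c • P with hQdef
  have hQeq : (Q : Subgroup G) = (P : Subgroup G).map (MulAut.conj c).toMonoidHom := rfl
  have htQ : t ∈ (Q : Subgroup G) := by
    rw [hQeq]
    exact ⟨u, hu, hc⟩
  have hQcard : Nat.card (Q : Subgroup G) = 4 := by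
    rw [Q.card_eq_multiplicity, factorization_two P hP]; norm_num
  have hQexp : ∀ x ∈ (Q : Subgroup G), x * x = 1 := by
    rw [hQeq]
    rintro x ⟨w, hw, rfl⟩
    rw [← map_mul, show w * w = 1 from
      congrArg Subtype.val (IsKleinFour.mul_self (⟨w, hw⟩ : (P : Subgroup G))), map_one]
  have hle : (Q : Subgroup G) ≤ Subgroup.centralizer ({t} : Set G) := by
    intro x hx
    rw [Subgroup.mem_centralizer_singleton_iff]
    have h1 := hQexp _ (mul_mem hx htQ)
    calc x * t = (x * t)⁻¹ := eq_inv_of_mul_eq_one_left h1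
      _ = t * x := by
        rw [mul_inv_rev, inv_eq_of_mul_eq_one_right (hQexp x hx), inv_eq ht]
  set R : Sylow 2 (Subgroup.centralizer ({t} : Set G)) := Q.subtype hle with hRdef
  have hReq : (R : Subgroup (Subgroup.centralizer ({t} : Set G))) =
      (Q : Subgroup G).subgroupOf (Subgroup.centralizer ({t} : Set G)) := rfl
  have hRcard : Nat.card (R : Subgroup (Subgroup.centralizer ({t} : Set G))) = 4 := by
    rw [hReq, Nat.card_congr (Subgroup.subgroupOfEquivOfLe hle).toEquiv, hQcard]
  have hR : IsKleinFour (R : Subgroup (Subgroup.centralizer ({t} : Set G))) := by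
    refine ⟨hRcard, ?_⟩
    haveI : Nontrivial (R : Subgroup (Subgroup.centralizer ({t} : Set G))) := by
      rw [← Finite.one_lt_card_iff_nontrivial, hRcard]; norm_num
    refine (Monoid.exponent_eq_prime_iff Nat.prime_two).mpr ?_
    intro z hz
    exact orderOf_eq_two (Subtype.ext (Subtype.ext (hQexp _ z.2))) hz
  have hnorm : Subgroup.normalizer
      ((R : Subgroup (Subgroup.centralizer ({t} : Set G))) : Set (Subgroup.centralizer ({t} : Set G))) ≤
      Subgroup.centralizer ((R : Subgroup (Subgroup.centralizer ({t} : Set G))) : Set _) := by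
    rcases KleinSylow.dichotomy R hR with h | h
    · exact h.1
    exfalso
    obtain ⟨w, hw, hw1, hwt⟩ : ∃ w ∈ (Q : Subgroup G), w ≠ 1 ∧ w ≠ t := by
      by_contra hno
      push Not at hno
      have hsub : ((Q : Subgroup G) : Set G) ⊆ {1, t} := fun x hx => by
        by_cases hx1 : x = 1
        · exact Or.inl hx1
        · exact Or.inr (hno x hx hx1)
      have h4 := (Set.ncard_le_ncard hsub (Set.toFinite _)).trans (Set.ncard_insert_le _ _)
      rw [Set.ncard_singleton, ← Nat.card_coe_set_eq] at h4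
      exact absurd (hQcard ▸ h4 : (4 : ℕ) ≤ 1 + 1) (by norm_num)
    have hw2 : orderOf w = 2 := orderOf_eq_two (hQexp w hw) hw1
    obtain ⟨d, hd⟩ := isConj_iff.mp (h ⟨t, hle htQ⟩ ⟨w, hle hw⟩
      (by rw [← Subgroup.orderOf_coe]; exact ht) (by rw [← Subgroup.orderOf_coe]; exact hw2))
    apply hwt
    have hd' : (d : G) * t * (d : G)⁻¹ = w := congrArg Subtype.val hd
    rw [← hd', Subgroup.mem_centralizer_singleton_iff.mp d.2, mul_inv_cancel_right]
  obtain ⟨R', N, hN, hNc⟩ := FocalTransfer.npc_of_normalizer_le R hnorm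
  have hNcop : (Nat.card N).Coprime 2 := by
    have h1 := hNc.card_mul_card
    have h2 : (Nat.card (Subgroup.centralizer ({t} : Set G))).factorization 2 =
        (Nat.card N).factorization 2 + (Nat.card (Subgroup.centralizer ({t} : Set G))).factorization 2 := by
      conv_lhs => rw [← h1, Nat.factorization_mul Nat.card_pos.ne' Nat.card_pos.ne', Finsupp.add_apply,
        R'.card_eq_multiplicity, Nat.prime_two.factorization_pow, Finsupp.single_eq_same]
    refine Nat.Coprime.symm ((Nat.Prime.coprime_iff_not_dvd Nat.prime_two).mpr fun h => ?_)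
    have := Nat.prime_two.factorization_pos_of_dvd Nat.card_pos.ne' h
    omega
  have hle' : N ≤ pPrimeCore 2 (Subgroup.centralizer ({t} : Set G)) := Core.le_pPrimeCore hN hNcop
  have hidx : (pPrimeCore 2 (Subgroup.centralizer ({t} : Set G))).index ∣
      2 ^ (Nat.card (Subgroup.centralizer ({t} : Set G))).factorization 2 := by
    refine (Subgroup.index_dvd_of_le hle').trans ?_
    rw [hNc.symm.index_eq_card, R'.card_eq_multiplicity]
  obtain ⟨j, -, hj⟩ := (Nat.dvd_prime_pow Nat.prime_two).mp hidx
  refine ⟨⟨j, hj⟩, fun y hy => hle' ?_⟩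
  haveI := hN
  have h1 : orderOf (QuotientGroup.mk' N y) ∣
      2 ^ (Nat.card (Subgroup.centralizer ({t} : Set G))).factorization 2 := by
    refine (orderOf_dvd_natCard _).trans (dvd_of_eq ?_)
    rw [← Subgroup.index_eq_card, hNc.symm.index_eq_card, R'.card_eq_multiplicity]
  have h2 : orderOf (QuotientGroup.mk' N y) ∣ orderOf y := orderOf_map_dvd _ y
  exact (QuotientGroup.eq_one_iff y).mp (orderOf_eq_one_iff.mp
    (Nat.eq_one_of_dvd_coprimes (Nat.Coprime.pow_left _ (Nat.coprime_two_left.mpr hy)) h1 h2))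

variable {M : Ideal AlgInt} (hM : IsPModular 2 M) (hP : IsKleinFour (P : Subgroup G))
  (hone : ∀ s t : G, orderOf s = 2 → orderOf t = 2 → IsConj s t)
include hM hP hone

/-- A principal character is constant on an involution times the odd part of its centraliser. -/
theorem value_const [Fintype G] {χ : IrrCharacter G} (hχ : χ ∈ principalBlock M G) {t : G}
    (ht : orderOf t = 2) {y : G} (hy : Commute y t) (hyo : Odd (orderOf y)) :
    (χ : G → ℂ) (t * y) = (χ : G → ℂ) t := by
  haveI : (pPrimeCore 2 (Subgroup.centralizer ({t} : Set G))).Normal := by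
    haveI := Core.pPrimeCore_characteristic (G := Subgroup.centralizer ({t} : Set G)) 2
    infer_instance
  exact principal_const_on_core hM (k := 1) (by rw [ht, pow_one])
    (pPrimeCore 2 (Subgroup.centralizer ({t} : Set G))) (Core.card_pPrimeCore_coprime 2)
    (v := ⟨y, Subgroup.mem_centralizer_singleton_iff.mpr hy.eq⟩)
    ((centralizer_complement P hP hone ht).2 _ (by rwa [← Subgroup.orderOf_coe])) hχ

/-- The squares at an involution add up to four. -/
theorem sum_sq [Fintype G] [DecidablePred (· ∈ principalBlock M G)] {t : G} (ht : orderOf t = 2) :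
    ∑ χ ∈ Finset.univ.filter (· ∈ principalBlock M G),
      (χ : G → ℂ) t * conj ((χ : G → ℂ) t) = 4 := by
  classical
  haveI : Fact (Nat.Prime 2) := ⟨Nat.prime_two⟩
  haveI : Fintype (Subgroup.centralizer ({t} : Set G)) := Fintype.ofFinite _
  have hC : ∀ g : G, g ∈ Subgroup.centralizer ({t} : Set G) ↔ Commute g t := fun g =>
    Subgroup.mem_centralizer_singleton_iff
  have h1 := principal_sec_sq (C := Subgroup.centralizer ({t} : Set G)) hM
    (k := 1) (by rw [ht, pow_one] : orderOf t = 2 ^ 1) hC
    (y := (1 : Subgroup.centralizer ({t} : Set G))) (not_dvd_orderOf_one hM)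
  rw [principal_sum_sq_of_complement hM (centralizer_complement P hP hone ht).1
    (not_dvd_orderOf_one hM)] at h1
  simp only [OneMemClass.coe_one, mul_one] at h1
  rw [h1]
  have hf : (Nat.card (Subgroup.centralizer ({t} : Set G))).factorization 2 = 2 := by
    refine le_antisymm ?_ ?_
    · exact ((Nat.factorization_le_iff_dvd (Nat.card_pos (α := Subgroup.centralizer ({t} : Set G))).ne'
        (Nat.card_pos (α := G)).ne').mpr (Subgroup.card_subgroup_dvd_card _) 2).trans
        (factorization_two P hP).le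
    · obtain ⟨Q, htQ, -⟩ := exists_sylow_mem_pair ht ht (Commute.refl t)
      obtain ⟨c, hc⟩ := MulAction.exists_smul_eq G P Q
      have hQcard : Nat.card (Q : Subgroup G) = 2 ^ 2 := by
        rw [Q.card_eq_multiplicity, factorization_two P hP]
      haveI : IsMulCommutative (Q : Subgroup G) :=
        ⟨⟨(IsPGroup.commGroupOfCardEqPrimeSq hQcard).mul_comm⟩⟩
      have hle : (Q : Subgroup G) ≤ Subgroup.centralizer ({t} : Set G) := fun x hx =>
        Subgroup.mem_centralizer_singleton_iff.mpr
          (congrArg Subtype.val (mul_comm' (⟨x, hx⟩ : (Q : Subgroup G)) ⟨t, htQ⟩))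
      exact (Nat.prime_two.pow_dvd_iff_le_factorization Nat.card_pos.ne').mp
        (hQcard ▸ Subgroup.card_dvd_of_le hle)
  rw [hf]
  norm_num

/-- No principal character vanishes at an involution. -/
theorem apply_ne_zero [Fintype G] {χ : IrrCharacter G} (hχ : χ ∈ principalBlock M G) {t : G}
    (ht : orderOf t = 2) : (χ : G → ℂ) t ≠ 0 := by
  intro h0
  have hv : ∀ g : G, 2 ∣ orderOf g → (χ : G → ℂ) g = 0 := by
    intro g hg
    obtain ⟨x, y, rfl, hx, hyx, hy⟩ := decomp P hP hg
    rw [value_const P hM hP hone hχ hx hyx hy]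
    obtain ⟨c, hc⟩ := isConj_iff.mp (hone t x ht hx)
    rw [← hc, IsCharacter.isClassFunction (isCharacter_irr χ) t c, h0]
  have h1 := blockOf_eq_singleton hM (ppow_dvd_of_vanish hM (isCharacter_irr χ) hv)
  have h2 : principalBlock M G = {χ} := by
    rw [IsPBlock.eq_blockOf hM isPBlock_principalBlock hχ, h1]
  have h3 : trivIrr G ∈ principalBlock M G := self_mem_blockOf hM (trivIrr G)
  rw [h2, Set.mem_singleton_iff] at h3
  rw [← h3] at h0
  simp [trivIrr] at h0

/-- Congruence of degree and value at an involution modulo four. -/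
theorem four_dvd [Fintype G] (χ : IrrCharacter G) {t : G} (ht : orderOf t = 2) {a : ℤ}
    (ha : (χ : G → ℂ) t = (a : ℂ)) : (4 : ℤ) ∣ (charDegree (χ : G → ℂ) : ℤ) - a := by
  classical
  haveI : Fintype (P : Subgroup G) := Fintype.ofFinite _
  obtain ⟨n, hn⟩ := exists_mult_character (IsCharacter.restrict (isCharacter_irr χ) (P : Subgroup G))
    (show IsCharacter (P : Subgroup G) (fun _ : (P : Subgroup G) => (1 : ℂ)) from
      IsIrrCharacter.isCharacter (isIrrCharacter_one (P : Subgroup G)))
  rw [classInner, hP.card_four, ← Finset.add_sum_erase _ _ (Finset.mem_univ (1 : (P : Subgroup G)))]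
    at hn
  rw [Finset.sum_congr rfl (g := fun _ => (a : ℂ)) fun z hz => ?_] at hn
  · rw [Finset.sum_const, Finset.card_erase_of_mem (Finset.mem_univ _), Finset.card_univ,
      ← Nat.card_eq_fintype_card, hP.card_four] at hn
    have h4 : (charDegree (χ : G → ℂ) : ℂ) + 3 * (a : ℂ) = 4 * (n : ℂ) := by
      rw [← hn]
      simp [irr_apply_one]
    have h5 : (charDegree (χ : G → ℂ) : ℤ) + 3 * a = 4 * (n : ℤ) := by exact_mod_cast h4
    omega
  · simp only [map_one, mul_one]
    haveI := hP
    have hz2 : orderOf (z : G) = 2 := orderOf_eq_two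
      (congrArg Subtype.val (IsKleinFour.mul_self z))
      (fun h => (Finset.ne_of_mem_erase hz) (Subtype.ext h))
    obtain ⟨c, hc⟩ := isConj_iff.mp (hone t (z : G) ht hz2)
    rw [← hc, IsCharacter.isClassFunction (isCharacter_irr χ) t c, ha]

/-- The principal block has exactly four characters, all with values `±1` at involutions. -/
theorem structure_at [Fintype G] [DecidablePred (· ∈ principalBlock M G)] {t : G}
    (ht : orderOf t = 2) :
    (Finset.univ.filter (· ∈ principalBlock M G)).card = 4 ∧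
      ∀ χ ∈ principalBlock M G, (χ : G → ℂ) t = 1 ∨ (χ : G → ℂ) t = -1 := by
  classical
  set S := Finset.univ.filter (· ∈ principalBlock M G) with hS
  have hex : ∀ χ : IrrCharacter G, ∃ a : ℤ, (χ : G → ℂ) t = (a : ℂ) :=
    fun χ => exists_int_involution (isCharacter_irr χ) ht
  choose a ha using hex
  have hsq : ∑ χ ∈ S, a χ * a χ = 4 := by
    have h := sum_sq P hM hP hone ht
    simp only [ha, map_intCast, ← Int.cast_mul, ← Int.cast_sum] at h
    exact_mod_cast h
  have hpos : ∀ χ ∈ S, 1 ≤ a χ * a χ := fun χ hχ => by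
    have : a χ ≠ 0 := fun h => apply_ne_zero P hM hP hone (Finset.mem_filter.mp hχ).2 ht
      (by rw [ha, h, Int.cast_zero])
    nlinarith [mul_self_pos.mpr this]
  have h1S : trivIrr G ∈ S := Finset.mem_filter.mpr ⟨Finset.mem_univ _, self_mem_blockOf hM (trivIrr G)⟩
  have ha1 : a (trivIrr G) = 1 := by
    have h := ha (trivIrr G)
    simp only [trivIrr] at h ⊢
    exact_mod_cast h.symm
  have hone' : ∀ χ ∈ S, a χ = 1 ∨ a χ = -1 := fun χ hχ => by
    have h4 : a χ * a χ ≤ 3 := by
      by_cases h : χ = trivIrr G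
      · rw [h, ha1]; norm_num
      · have := Finset.sum_le_sum_of_subset_of_nonneg (f := fun χ => a χ * a χ)
          (show ({χ, trivIrr G} : Finset (IrrCharacter G)) ⊆ S by
            simp [Finset.insert_subset_iff, hχ, h1S]) (fun i _ _ => mul_self_nonneg _)
        rw [Finset.sum_pair h, hsq, ha1] at this
        linarith
    have h2 : -1 ≤ a χ := by nlinarith
    have h3 : a χ ≤ 1 := by nlinarith
    have := hpos χ hχ
    rcases (show a χ = -1 ∨ a χ = 0 ∨ a χ = 1 by omega) with h | h | h
    · exact Or.inr h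
    · rw [h] at this; norm_num at this
    · exact Or.inl h
  refine ⟨?_, fun χ hχ => ?_⟩
  · have : ∑ χ ∈ S, a χ * a χ = (S.card : ℤ) := by
      rw [Finset.card_eq_sum_ones, Nat.cast_sum]
      refine Finset.sum_congr rfl fun χ hχ => ?_
      rcases hone' χ hχ with h | h <;> simp [h]
    omega
  · rcases hone' χ (Finset.mem_filter.mpr ⟨Finset.mem_univ _, hχ⟩) with h | h
    · left; rw [ha, h, Int.cast_one]
    · right; rw [ha, h]; norm_num

/-- Columns of a regular element and an involution are orthogonal. -/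
theorem orth [Fintype G] [DecidablePred (· ∈ principalBlock M G)] {t : G} (ht : orderOf t = 2)
    {y : G} (hy : ¬ 2 ∣ orderOf y) :
    ∑ χ ∈ Finset.univ.filter (· ∈ principalBlock M G), (χ : G → ℂ) y * (χ : G → ℂ) t = 0 := by
  have h := weak_orthogonality hM (isPBlock_principalBlock (M := M) (G := G)) hy
    (show 2 ∣ orderOf t by rw [ht])
  refine (Finset.sum_congr rfl fun χ _ => ?_).trans h
  rw [← IsCharacter.map_inv (isCharacter_irr χ), inv_eq ht]

/-- A quarter of the group is singular. -/
theorem blockRank_eq [Fintype G] : blockRank 2 (principalBlock M G) = 3 := by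
  classical
  obtain ⟨t, ht⟩ : ∃ t : G, orderOf t = 2 := by
    haveI : Fact (Nat.Prime 2) := ⟨Nat.prime_two⟩
    refine exists_prime_orderOf_dvd_card' 2 ?_
    exact Nat.dvd_of_factorization_pos (by rw [factorization_two P hP]; norm_num)
  set B := principalBlock M G
  set S := Finset.univ.filter (· ∈ B) with hS
  set sing := Finset.univ.filter (fun g : G => 2 ∣ orderOf g) with hsing
  set s : ℂ := (Nat.card G : ℂ)⁻¹ * (sing.card : ℂ) with hs
  have hn0 : (Nat.card G : ℂ) ≠ 0 := natCast_card_ne_zero G
  obtain ⟨hcard, hpm⟩ := structure_at P hM hP hone ht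
  have hval : ∀ χ ∈ S, ∀ g ∈ sing, (χ : G → ℂ) g = (χ : G → ℂ) t := by
    intro χ hχ g hg
    obtain ⟨x, y, rfl, hx, hyx, hy⟩ := decomp P hP (Finset.mem_filter.mp hg).2
    rw [value_const P hM hP hone (Finset.mem_filter.mp hχ).2 hx hyx hy]
    obtain ⟨c, hc⟩ := isConj_iff.mp (hone t x ht hx)
    rw [← hc, IsCharacter.isClassFunction (isCharacter_irr χ) t c]
  have hreal : ∀ χ ∈ S, conj ((χ : G → ℂ) t) = (χ : G → ℂ) t ∧
      (χ : G → ℂ) t * (χ : G → ℂ) t = 1 := fun χ hχ => by
    rcases hpm χ (Finset.mem_filter.mp hχ).2 with h | h <;> simp [h]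
  -- the regular part of the trivial character
  set f : G → ℂ := pRegularPart 2 (trivIrr G : G → ℂ) with hf
  have hfc : IsClassFunction G f :=
    pRegularPart_isClassFunction (IsCharacter.isClassFunction (isCharacter_irr _))
  have hreg : ∀ g : G, conj (f g) = f g ∧ f g * f g = f g := fun g => by
    by_cases hg : 2 ∣ orderOf g
    · simp [hf, pRegularPart_of_singular hg]
    · simp [hf, pRegularPart_of_regular hg, trivIrr]
  have hcoef : ∀ χ ∈ S, classInner f (χ : G → ℂ) =
      (if χ = trivIrr G then 1 else 0) - s * (χ : G → ℂ) t := by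
    intro χ hχ
    have h1 := classInner_irr (trivIrr G) χ
    rw [classInner, ← Finset.sum_filter_add_sum_filter_not Finset.univ (fun g : G => 2 ∣ orderOf g),
      ← hsing, Finset.sum_congr rfl (g := fun _ => (χ : G → ℂ) t)
        (fun g hg => by rw [hval χ hχ g hg, (hreal χ hχ).1]; simp [trivIrr]),
      Finset.sum_const, nsmul_eq_mul] at h1
    have h2 : classInner f (χ : G → ℂ) = (Nat.card G : ℂ)⁻¹ *
        ∑ g ∈ Finset.univ.filter (fun g : G => ¬ 2 ∣ orderOf g),
          (trivIrr G : G → ℂ) g * conj ((χ : G → ℂ) g) := by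
      rw [hf, ← regInner_eq]
      rfl
    rw [h2, hs]
    rw [show (if χ = trivIrr G then (1 : ℂ) else 0) = if trivIrr G = χ then 1 else 0 from
      if_congr eq_comm rfl rfl, ← h1]
    ring
  have h1S : trivIrr G ∈ S :=
    Finset.mem_filter.mpr ⟨Finset.mem_univ _, self_mem_blockOf hM (trivIrr G)⟩
  have hff : classInner f f = 1 - s := by
    have e : classInner f f = classInner f (trivIrr G : G → ℂ) := by
      simp only [classInner]
      congr 1
      exact Finset.sum_congr rfl fun g _ => by
        rw [(hreg g).1, (hreg g).2]; simp [trivIrr]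
    rw [e, hcoef _ h1S, if_pos rfl]
    simp [trivIrr]
  have hpar : classInner f f = ∑ χ ∈ S, classInner f (χ : G → ℂ) * conj (classInner f (χ : G → ℂ)) := by
    have e := classInner_sum Finset.univ (fun χ : IrrCharacter G => classInner f (χ : G → ℂ))
      (fun χ : IrrCharacter G => (χ : G → ℂ)) f
    rw [show (fun g => ∑ χ : IrrCharacter G, classInner f (χ : G → ℂ) * (χ : G → ℂ) g) = f from
      funext fun g => (classFunction_expand hfc g).symm] at e
    rw [e, hS, Finset.sum_filter]
    refine Finset.sum_congr rfl fun χ _ => ?_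
    rw [classInner_symm (χ : G → ℂ) f]
    split_ifs with hχ
    · rfl
    · have h0 : classInner f (χ : G → ℂ) = 0 := regInner_eq_zero hM fun hsb => hχ
        (IsPBlock.mem_of_sameBlock hM isPBlock_principalBlock (self_mem_blockOf hM (trivIrr G)) hsb)
      rw [h0, zero_mul]
  have hsreal : conj s = s := by rw [hs]; simp
  have hs4 : 4 * (s * s) = s := by
    have h := hpar
    rw [hff, Finset.sum_congr rfl (g := fun χ => (if χ = trivIrr G then 1 - 2 * s else 0) + s * s)
      (fun χ hχ => ?_), Finset.sum_add_distrib, Finset.sum_ite_eq', if_pos h1S, Finset.sum_const,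
      hcard, nsmul_eq_mul] at h
    · push_cast at h
      linear_combination -h
    · rw [hcoef χ hχ]
      have hr := hreal χ hχ
      by_cases he : χ = trivIrr G
      · subst he
        simp only [if_pos, trivIrr]
        simp only [map_sub, map_one, map_mul, hsreal, mul_one]
        ring
      · simp only [if_neg he, zero_sub, map_neg, map_mul, hsreal, hr.1, zero_add]
        linear_combination (s * s) * hr.2
  have hs0 : s ≠ 0 := by
    rw [hs]
    refine mul_ne_zero (inv_ne_zero hn0) (Nat.cast_ne_zero.mpr (Finset.card_ne_zero.mpr ⟨t, ?_⟩))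
    exact Finset.mem_filter.mpr ⟨Finset.mem_univ _, by rw [ht]⟩
  have hs14 : 4 * s = 1 := mul_right_cancel₀ hs0 (by rw [one_mul, mul_assoc]; exact hs4)
  -- the trace
  have htot : ∑ g : G, ∑ χ ∈ S, (χ : G → ℂ) g * conj ((χ : G → ℂ) g) = 4 * (Nat.card G : ℂ) := by
    rw [Finset.sum_comm, Finset.sum_congr rfl (g := fun _ => (Nat.card G : ℂ)) fun χ _ => ?_,
      Finset.sum_const, hcard, nsmul_eq_mul]
    · norm_num
    · rw [sum_mul_conj_irr, if_pos rfl]
  have h := sum_regular_sq hM (isPBlock_principalBlock (M := M) (G := G))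
  rw [← Finset.sum_filter_add_sum_filter_not Finset.univ (fun g : G => 2 ∣ orderOf g), ← hsing,
    Finset.sum_congr rfl (g := fun _ => (4 : ℂ)) fun g hg => ?_, Finset.sum_const, nsmul_eq_mul,
    h] at htot
  · have hk : (blockRank 2 B : ℂ) = 3 := by
      refine mul_left_cancel₀ hn0 ?_
      have hsc : (sing.card : ℂ) * 4 = (Nat.card G : ℂ) := by
        calc (sing.card : ℂ) * 4 = (Nat.card G : ℂ) * (4 * s) := by rw [hs]; field_simp
          _ = _ := by rw [hs14, mul_one]
      linear_combination htot - hsc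
    exact_mod_cast hk
  · rw [Finset.sum_congr rfl fun χ hχ => by rw [hval χ hχ g hg]]
    exact sum_sq P hM hP hone ht

end CfsgLib.Blocks.KP
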