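import Cfsg.Agent.Lib.Blocks.DihedralLattice
import Cfsg.Agent.Lib.Blocks.FrobeniusLattice
import Cfsg.Agent.Lib.Blocks.KleinPrincipal

/-!
The principal 2-block with dihedral Sylow subgroup.
-/

set_option linter.style.haveILetI false
set_option linter.unusedSectionVars false

namespace CfsgLib.Blocks.DH

open scoped ComplexConjugate
open Cfsg CfsgLib.Chars

universe u

/-- The value at an involution has the parity of the degree. -/
theorem exists_parity {G : Type u} [Group G] [Finite G] {χ : G → ℂ}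
    (hχ : IsCharacter G χ) {t : G} (ht : orderOf t = 2) :
    ∃ k : ℤ, χ 1 - χ t = 2 * (k : ℂ) := by
  obtain ⟨l, hl, h⟩ := exists_list_eigen hχ t
  have h0 := h 0
  have h1 := h 1
  rw [pow_zero] at h0
  rw [pow_one] at h1
  rw [h0, h1]
  clear h h0 h1
  induction l with
  | nil => exact ⟨0, by simp⟩
  | cons μ r ih =>
    obtain ⟨a, ha⟩ := ih fun ν hν => hl ν (by simp [hν])
    have hμ := hl μ (by simp)
    rw [ht] at hμ
    rcases sq_eq_one_iff.mp hμ with rfl | rfl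
    · refine ⟨a, ?_⟩
      rw [← ha]; simp
    · refine ⟨1 + a, ?_⟩
      push_cast; rw [mul_add, ← ha]; simp; ring

/-- Squares summing to at most three are units. -/
theorem unit_entries {ι : Type*} [DecidableEq ι] {s : Finset ι} {f : ι → ℤ} {k : ℕ}
    (h : ∑ b ∈ s, f b * f b = (k : ℤ)) (hk : k ≤ 3) :
    (∀ b ∈ s, f b = 0 ∨ f b = 1 ∨ f b = -1) ∧ (s.filter (fun b => f b ≠ 0)).card = k := by
  have h01 : ∀ b ∈ s, f b = 0 ∨ f b = 1 ∨ f b = -1 := fun b hb => by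
    have hle : f b * f b ≤ 3 := by
      have := Finset.single_le_sum (f := fun b => f b * f b) (fun i _ => mul_self_nonneg _) hb
      rw [h] at this
      have : (k : ℤ) ≤ 3 := by exact_mod_cast hk
      linarith
    have h1 : -1 ≤ f b := by nlinarith
    have h2 : f b ≤ 1 := by nlinarith
    omega
  refine ⟨h01, ?_⟩
  have e : ∀ b ∈ s, f b * f b = if f b ≠ 0 then (1 : ℤ) else 0 := fun b hb => by
    rcases h01 b hb with e | e | e <;> simp [e]
  rw [Finset.sum_congr rfl e, ← Finset.sum_filter, Finset.sum_const, nsmul_eq_mul, mul_one] at h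
  exact_mod_cast h

/-- Two small unit vectors with product one share exactly one entry, with the same sign. -/
theorem share_one {ι : Type*} [DecidableEq ι] {s : Finset ι} {f g : ι → ℤ} {k : ℕ}
    (hf : ∑ b ∈ s, f b * f b = 2) (hg : ∑ b ∈ s, g b * g b = (k : ℤ)) (hk : k ≤ 3)
    (h : ∑ b ∈ s, f b * g b = 1) :
    ∃ a ∈ s, f a ≠ 0 ∧ g a = f a ∧ ∀ b ∈ s, b ≠ a → f b = 0 ∨ g b = 0 := by
  obtain ⟨hf1, hf2⟩ := unit_entries (k := 2) (by exact_mod_cast hf) (by norm_num)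
  obtain ⟨hg1, -⟩ := unit_entries hg hk
  obtain ⟨a, b, hab, hS⟩ := Finset.card_eq_two.mp hf2
  have ha := Finset.mem_filter.mp (hS.symm ▸ Finset.mem_insert_self a {b} : a ∈ _)
  have hb := Finset.mem_filter.mp (hS.symm ▸ Finset.mem_insert_of_mem (Finset.mem_singleton_self b) : b ∈ _)
  have hout : ∀ c ∈ s, c ≠ a → c ≠ b → f c = 0 := fun c hc h1 h2 => by
    by_contra h0
    have : c ∈ s.filter (fun x => f x ≠ 0) := Finset.mem_filter.mpr ⟨hc, h0⟩
    simp [hS, h1, h2] at this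
  have hsum : f a * g a + f b * g b = 1 := by
    rw [← h, ← Finset.sum_pair hab (f := fun x => f x * g x)]
    refine Finset.sum_subset (fun x hx => ?_) fun x hx hx' => ?_
    · rcases Finset.mem_insert.mp hx with e | e
      · exact e ▸ ha.1
      · exact Finset.mem_singleton.mp e ▸ hb.1
    · simp only [Finset.mem_insert, Finset.mem_singleton, not_or] at hx'
      rw [hout x hx hx'.1 hx'.2, zero_mul]
  rcases (hg1 b hb.1) with e | e
  · refine ⟨a, ha.1, ha.2, ?_, fun c hc hca => ?_⟩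
    · rw [e, mul_zero, add_zero] at hsum
      rcases hf1 a ha.1 with q | q | q <;> rw [q] at hsum ⊢ <;> omega
    · by_cases hcb : c = b
      · exact Or.inr (hcb ▸ e)
      · exact Or.inl (hout c hc hca hcb)
  · have hp : f a * g a = 0 ∨ f a * g a = 1 ∨ f a * g a = -1 := by
      rcases hf1 a ha.1 with q | q | q <;> rw [q] <;> rcases hg1 a ha.1 with r | r | r <;> simp [r]
    have hq : f b * g b = 1 ∨ f b * g b = -1 := by
      rcases hf1 b hb.1 with q | q | q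
      · exact absurd q hb.2
      all_goals rcases e with r | r <;> simp [q, r]
    have hga : f a * g a = 0 := by omega
    have hgb : f b * g b = 1 := by omega
    refine ⟨b, hb.1, hb.2, ?_, fun c hc hcb => ?_⟩
    · rcases Int.eq_one_or_neg_one_of_mul_eq_one hgb with q | q <;> rw [q] at hgb ⊢ <;> omega
    · by_cases hca : c = a
      · exact Or.inr (hca ▸ (mul_eq_zero.mp hga).resolve_left ha.2)
      · exact Or.inl (hout c hc hca hcb)

variable {G : Type u} [Group G] [Fintype G] {P : Sylow 2 G} {σ τ : G} {n : ℕ}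

/-- The index of an exceptional character. -/
def jj (n : ℕ) (i : Fin (2 ^ (n - 2) - 1)) : ZMod (2 ^ (n - 1)) := (((i : ℕ) + 1 : ℕ) : ZMod _)

/-- The index of the sign. -/
def hs (n : ℕ) : ZMod (2 ^ (n - 1)) := ((2 ^ (n - 2) : ℕ) : ZMod _)

section Index

variable (D : IsDih P σ τ n)
include D

theorem two_mul_half : 2 ^ (n - 1) = 2 * 2 ^ (n - 2) := by
  have := D.hn
  rw [← pow_succ']; congr 1; omega

theorem natCast_ne {a b : ℕ} (ha : a < 2 ^ (n - 1)) (hb : b < 2 ^ (n - 1)) (h : a ≠ b) :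
    (a : ZMod (2 ^ (n - 1))) ≠ (b : ZMod _) := fun e => h (by
  have := congrArg ZMod.val e
  rwa [ZMod.val_natCast_of_lt ha, ZMod.val_natCast_of_lt hb] at this)

theorem jj_ne (i : Fin (2 ^ (n - 2) - 1)) : jj n i ≠ 0 ∧ jj n i ≠ hs n ∧ jj n i ≠ -hs n := by
  have hi := i.2
  have e := two_mul_half D
  have h1 : jj n i ≠ hs n := natCast_ne D (by omega) (by omega) (by omega)
  refine ⟨?_, h1, ?_⟩
  · rw [jj, ← Nat.cast_zero]; exact natCast_ne D (by omega) (by omega) (by omega)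
  · rw [show -hs n = hs n from ?_]; · exact h1
    rw [neg_eq_iff_add_eq_zero, hs, ← Nat.cast_add, show 2 ^ (n - 2) + 2 ^ (n - 2) = 2 ^ (n - 1) by omega,
      ZMod.natCast_self]

theorem hs_ne : hs n ≠ 0 := by
  have e := two_mul_half D
  have : 0 < 2 ^ (n - 2) := pow_pos two_pos _
  rw [hs, ← Nat.cast_zero]; exact natCast_ne D (by omega) (by omega) (by omega)

theorem neg_hs : -hs n = hs n := by
  have e := two_mul_half D
  rw [neg_eq_iff_add_eq_zero, hs, ← Nat.cast_add, show 2 ^ (n - 2) + 2 ^ (n - 2) = 2 ^ (n - 1) by omega,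
    ZMod.natCast_self]

theorem jj_inj {i k : Fin (2 ^ (n - 2) - 1)} (h : jj n i = jj n k) : i = k := by
  have hi := i.2
  have hk := k.2
  have e := two_mul_half D
  by_contra hne
  exact natCast_ne D (by omega) (by omega) (fun q => hne (Fin.ext (by omega))) h

theorem jj_ne_neg (i k : Fin (2 ^ (n - 2) - 1)) : jj n i ≠ -jj n k := by
  have hi := i.2
  have hk := k.2
  have e := two_mul_half D
  intro h
  rw [eq_neg_iff_add_eq_zero, jj, jj, ← Nat.cast_add, ← Nat.cast_zero] at h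
  exact natCast_ne D (by omega) (by omega) (by omega) h

theorem cover {j : ZMod (2 ^ (n - 1))} (hj : j ≠ 0) :
    j = hs n ∨ ∃ i, j = jj n i ∨ j = -jj n i := by
  have e := two_mul_half D
  have hlt := ZMod.val_lt j
  have h0 : j.val ≠ 0 := fun q => hj ((ZMod.val_eq_zero j).mp q)
  rcases lt_trichotomy j.val (2 ^ (n - 2)) with h | h | h
  · refine Or.inr ⟨⟨j.val - 1, by omega⟩, Or.inl ?_⟩
    rw [jj, show ((⟨j.val - 1, _⟩ : Fin (2 ^ (n - 2) - 1)) : ℕ) + 1 = j.val by simp; omega,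
      ZMod.natCast_zmod_val]
  · exact Or.inl (by rw [hs, ← h, ZMod.natCast_zmod_val])
  · refine Or.inr ⟨⟨2 ^ (n - 1) - j.val - 1, by omega⟩, Or.inr ?_⟩
    rw [jj, eq_neg_iff_add_eq_zero]
    nth_rewrite 1 [← ZMod.natCast_zmod_val j]
    rw [← Nat.cast_add, show j.val + (((⟨2 ^ (n - 1) - j.val - 1, _⟩ : Fin (2 ^ (n - 2) - 1)) : ℕ) + 1) =
      2 ^ (n - 1) by simp; omega, ZMod.natCast_self]

theorem sp_hs : sp σ (hs n) = cJ σ n := sp_natCast D _

end Index

/-- The members of the principal block. -/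
structure Shape (D : IsDih P σ τ n) {ζ : ℂ} (hζ : IsPrimitiveRoot ζ (2 ^ (n - 1))) (M : Ideal AlgInt) where
  χ₁ : IrrCharacter G
  χ₂ : IrrCharacter G
  χ₃ : IrrCharacter G
  η : Fin (2 ^ (n - 2) - 1) → IrrCharacter G
  δ₁ : ℤ
  δ₂ : ℤ
  δ₃ : ℤ
  sign₁ : δ₁ = 1 ∨ δ₁ = -1
  sign₂ : δ₂ = 1 ∨ δ₂ = -1
  sign₃ : δ₃ = 1 ∨ δ₃ = -1
  η_inj : Function.Injective η
  ne₁ : χ₁ ≠ trivIrr G
  ne₂ : χ₂ ≠ trivIrr G
  ne₃ : χ₃ ≠ trivIrr G
  ne₁₂ : χ₁ ≠ χ₂
  ne₁₃ : χ₁ ≠ χ₃
  ne₂₃ : χ₂ ≠ χ₃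
  η_ne : ∀ i, η i ≠ χ₁ ∧ η i ≠ χ₂ ∧ η i ≠ χ₃ ∧ η i ≠ trivIrr G
  block : ∀ χ, χ ∈ principalBlock M G ↔
    χ = trivIrr G ∨ χ = χ₁ ∨ χ = χ₂ ∨ χ = χ₃ ∨ ∃ i, χ = η i
  U₁ : ∀ j, j ≠ 0 → U D hζ χ₁ j = -δ₁
  U₂ : ∀ i, U D hζ χ₂ (jj n i) = 0
  U₃ : ∀ i, U D hζ χ₃ (jj n i) = 0
  Uη : ∀ i k, U D hζ (η i) (jj n k) = if k = i then δ₁ else 0
  Us₂ : U D hζ χ₂ (hs n) = -δ₂
  Us₃ : U D hζ χ₃ (hs n) = -δ₃
  Usη : ∀ i, U D hζ (η i) (hs n) = 0

open Classical in
/-- The vectors of the principal block. -/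
theorem exists_vectors (D : IsDih P σ τ n) {ζ : ℂ} (hζ : IsPrimitiveRoot ζ (2 ^ (n - 1))) {M : Ideal AlgInt}
    (hM : IsPModular 2 M) : ∃ (A c₂ c₃ : IrrCharacter G) (b : Fin (2 ^ (n - 2) - 1) → IrrCharacter G),
      Function.Injective b ∧
      (A ∈ principalBlock M G ∧ c₂ ∈ principalBlock M G ∧ c₃ ∈ principalBlock M G ∧
        ∀ i, b i ∈ principalBlock M G) ∧
      (A ≠ trivIrr G ∧ c₂ ≠ trivIrr G ∧ c₃ ≠ trivIrr G ∧ A ≠ c₂ ∧ A ≠ c₃ ∧ c₂ ≠ c₃ ∧
        ∀ i, b i ≠ A ∧ b i ≠ c₂ ∧ b i ≠ c₃ ∧ b i ≠ trivIrr G) ∧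
      ((U D hζ A (hs n) = 1 ∨ U D hζ A (hs n) = -1) ∧ (U D hζ c₂ (hs n) = 1 ∨ U D hζ c₂ (hs n) = -1) ∧
        (U D hζ c₃ (hs n) = 1 ∨ U D hζ c₃ (hs n) = -1)) ∧
      (∀ j, j ≠ 0 → U D hζ A j = U D hζ A (hs n)) ∧
      (∀ i, U D hζ c₂ (jj n i) = 0 ∧ U D hζ c₃ (jj n i) = 0 ∧ U D hζ (b i) (hs n) = 0 ∧
        ∀ k, U D hζ (b i) (jj n k) = if k = i then -U D hζ A (hs n) else 0) ∧
      (∀ χ, χ ∈ principalBlock M G → χ ≠ trivIrr G → χ ≠ A → χ ≠ c₂ → χ ≠ c₃ → (∀ i, χ ≠ b i) →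
        ∀ j, U D hζ χ j = 0) := by
  have hn := D.hn
  let ι := Fin (2 ^ (n - 2) - 1)
  set S := Finset.univ.filter (· ∈ principalBlock M G) with hS
  set T := trivIrr G with hT
  have hTS : T ∈ S := Finset.mem_filter.mpr ⟨Finset.mem_univ _, self_mem_blockOf hM (trivIrr G)⟩
  set R := S.erase T with hR
  let V : ι → IrrCharacter G → ℤ := fun i χ => U D hζ χ (jj n i)
  let W : IrrCharacter G → ℤ := fun χ => U D hζ χ (hs n)
  have hsplit : ∀ F : IrrCharacter G → ℤ, ∑ χ ∈ S, F χ = F T + ∑ χ ∈ R, F χ := fun F =>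
    (Finset.add_sum_erase S F hTS).symm
  have hVT : ∀ i, V i T = -1 := fun i => U_triv D hζ (jj_ne D i).1
  have hWT : W T = -1 := U_triv D hζ (hs_ne D)
  have hVV : ∀ i k, ∑ χ ∈ R, V i χ * V k χ = if k = i then 2 else 1 := by
    intro i k
    have h := gram D hζ hM (jj_ne D i).1 (jj_ne D k).1
    rw [hsplit] at h
    rw [show U D hζ T (jj n i) = -1 from hVT i, show U D hζ T (jj n k) = -1 from hVT k,
      if_neg (jj_ne_neg D k i)] at h
    by_cases e : k = i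
    · subst e; rw [if_pos rfl] at h ⊢; linarith
    · rw [if_neg (fun q => e (jj_inj D q))] at h; rw [if_neg e]; linarith
  have hWW : ∑ χ ∈ R, W χ * W χ = ((3 : ℕ) : ℤ) := by
    have h := gram D hζ hM (hs_ne D) (hs_ne D)
    rw [hsplit, show U D hζ T (hs n) = -1 from hWT, if_pos rfl, if_pos (neg_hs D).symm] at h
    push_cast; linarith
  have hVW : ∀ i, ∑ χ ∈ R, V i χ * W χ = 1 := by
    intro i
    have h := gram D hζ hM (jj_ne D i).1 (hs_ne D)
    rw [hsplit, show U D hζ T (jj n i) = -1 from hVT i, show U D hζ T (hs n) = -1 from hWT,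
      if_neg (fun q => (jj_ne D i).2.1 q.symm),
      if_neg (fun q => (jj_ne D i).2.2 (by rw [q, neg_neg]))] at h
    linarith
  have hVi : ∀ i, ∑ χ ∈ R, V i χ * V i χ = 2 := fun i => by rw [hVV, if_pos rfl]
  have hn1 : ¬ (2 ∣ orderOf (1 : G)) := not_dvd_orderOf_one hM
  have hdeg : ∀ F : IrrCharacter G → ℤ, (∃ j, ∀ χ, F χ = U D hζ χ j) →
      F T + ∑ χ ∈ R, (charDegree (χ : G → ℂ) : ℤ) * F χ = 0 := by
    rintro F ⟨j, hj⟩
    have h := orth D hζ hM hn1 j
    rw [← hS] at h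
    simp only [irr_apply_one, ← hj] at h
    have h' : ∑ χ ∈ S, (charDegree (χ : G → ℂ) : ℤ) * F χ = 0 := by exact_mod_cast h
    rw [hsplit] at h'
    rw [show (charDegree (T : G → ℂ) : ℤ) = 1 by simp [hT, trivIrr, charDegree], one_mul] at h'
    exact h'
  have ha : ∀ i, ∃ a ∈ R, V i a ≠ 0 ∧ W a = V i a ∧ ∀ b ∈ R, b ≠ a → V i b = 0 ∨ W b = 0 := fun i =>
    share_one (hVi i) hWW le_rfl (hVW i)
  choose a haR ha0 haW haO using ha
  have hb : ∀ i, ∃ b ∈ R, b ≠ a i ∧ V i b ≠ 0 ∧ W b = 0 ∧ ∀ χ ∈ R, χ ≠ a i → χ ≠ b → V i χ = 0 := by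
    intro i
    obtain ⟨-, h2⟩ := unit_entries (k := 2) (by exact_mod_cast hVi i) (by norm_num)
    have hm : a i ∈ R.filter (fun χ => V i χ ≠ 0) := Finset.mem_filter.mpr ⟨haR i, ha0 i⟩
    obtain ⟨b, hb⟩ := Finset.card_eq_one.mp (show ((R.filter (fun χ => V i χ ≠ 0)).erase (a i)).card = 1 by
      rw [Finset.card_erase_of_mem hm, h2])
    have hbm : b ∈ (R.filter (fun χ => V i χ ≠ 0)).erase (a i) := hb ▸ Finset.mem_singleton_self b
    simp only [Finset.mem_erase, Finset.mem_filter] at hbm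
    refine ⟨b, hbm.2.1, hbm.1, hbm.2.2, (haO i b hbm.2.1 hbm.1).resolve_left hbm.2.2, fun χ hχ h1 h2' => ?_⟩
    by_contra h0
    exact h2' (Finset.mem_singleton.mp (hb ▸ Finset.mem_erase.mpr ⟨h1, Finset.mem_filter.mpr ⟨hχ, h0⟩⟩))
  choose b hbR hba hb0 hbW hbO using hb
  have hva : ∀ i k, V i (a k) ≠ 0 → a k = a i := by
    intro i k h
    by_contra hne
    have h2 : a k = b i := by
      by_contra hne'
      exact h (hbO i (a k) (haR k) hne hne')
    exact ha0 k (by rw [← haW k, h2, hbW i])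
  have hvb : ∀ i k, V i (b k) ≠ 0 → b k = b i := by
    intro i k h
    by_contra hne
    have h2 : b k = a i := by
      by_contra hne'
      exact h (hbO i (b k) (hbR k) hne' hne)
    exact ha0 i (by rw [← haW i, ← h2, hbW k])
  -- two vectors share exactly one of their two entries
  have hpair : ∀ i k, i ≠ k → (a i = a k ∧ b i ≠ b k) ∨ (a i ≠ a k ∧ b i = b k ∧ V k (b k) = V i (b i)) := by
    intro i k hik
    obtain ⟨x, hx, hx0, hxk, hxo⟩ := share_one (hVi i) (k := 2) (by exact_mod_cast hVi k) (by norm_num)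
      (by rw [hVV, if_neg hik.symm])
    have hk0 : V k x ≠ 0 := hxk.symm ▸ hx0
    by_cases hxa : x = a i
    · left
      have e : a i = a k := hva k i (hxa ▸ hk0)
      refine ⟨e, fun eb => ?_⟩
      rcases hxo (b i) (hbR i) (by rw [hxa]; exact hba i) with h | h
      · exact hb0 i h
      · exact hb0 k (eb ▸ h)
    · right
      have hxb : x = b i := by
        by_contra hne
        exact hx0 (hbO i x hx hxa hne)
      have e : b i = b k := hvb k i (hxb ▸ hk0)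
      refine ⟨fun ea => ?_, e, by rw [← e, ← hxb, hxk]⟩
      rcases hxo (a i) (haR i) (by rw [hxb]; exact (hba i).symm) with h | h
      · exact ha0 i h
      · exact ha0 k (ea ▸ h)
  have hdV : ∀ i, V i (a i) * (charDegree (a i : G → ℂ) : ℤ) + V i (b i) * (charDegree (b i : G → ℂ) : ℤ) = 1 := by
    intro i
    have h := hdeg (V i) ⟨_, fun _ => rfl⟩
    rw [hVT, Finset.sum_eq_add (a i) (b i) (hba i).symm
      (fun χ hχ hne => by rw [hbO i χ hχ hne.1 hne.2, mul_zero])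
      (fun h => absurd (haR i) h) (fun h => absurd (hbR i) h)] at h
    linarith
  obtain ⟨-, hW3⟩ := unit_entries hWW le_rfl
  have hWsum : ∑ χ ∈ R.filter (fun χ => W χ ≠ 0), (charDegree (χ : G → ℂ) : ℤ) * W χ = 1 := by
    have h := hdeg W ⟨_, fun _ => rfl⟩
    rw [hWT] at h
    rw [Finset.sum_filter_of_ne (p := fun χ => W χ ≠ 0) (fun χ _ hne h0 => hne (by rw [h0, mul_zero]))]
    linarith
  have hpos : 0 < 2 ^ (n - 2) - 1 := by
    have : 2 ^ 1 ≤ 2 ^ (n - 2) := Nat.pow_le_pow_right two_pos (by omega)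
    omega
  let i₀ : ι := ⟨0, hpos⟩
  have hall : ∀ i, a i = a i₀ := by
    by_contra hno
    push Not at hno
    obtain ⟨k, hk⟩ := hno
    have hk0 : k ≠ i₀ := fun e => hk (by rw [e])
    have hbk : b k = b i₀ ∧ V i₀ (b i₀) = V k (b k) := by
      rcases hpair k i₀ hk0 with h | h
      · exact absurd h.1 hk
      · exact ⟨h.2.1, h.2.2⟩
    have hball : ∀ l, b l = b i₀ ∧ V l (b l) = V i₀ (b i₀) := by
      intro l
      by_cases hl : l = i₀
      · subst hl; exact ⟨rfl, rfl⟩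
      rcases hpair l i₀ hl with h | h
      · have hlk : l ≠ k := fun e => hk (e ▸ h.1)
        rcases hpair l k hlk with h' | h'
        · exact absurd (h'.1.symm.trans h.1) hk
        · exact absurd (h'.2.1.trans hbk.1) h.2
      · exact ⟨h.2.1, h.2.2.symm⟩
    have hainj : Function.Injective a := by
      intro l l' e
      by_contra hne
      rcases hpair l l' hne with h | h
      · exact h.2 ((hball l).1.trans (hball l').1.symm)
      · exact h.1 e
    have himg : Finset.univ.image a ⊆ R.filter (fun χ => W χ ≠ 0) := by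
      intro x hx
      obtain ⟨l, -, rfl⟩ := Finset.mem_image.mp hx
      exact Finset.mem_filter.mpr ⟨haR l, by rw [haW]; exact ha0 l⟩
    have hcard := Finset.card_le_card himg
    rw [Finset.card_image_of_injective _ hainj, Finset.card_univ, Fintype.card_fin, hW3] at hcard
    have hne2 : 2 ^ (n - 2) - 1 ≠ 2 := by
      intro h
      have : 2 ∣ 2 ^ (n - 2) := dvd_pow_self 2 (by omega)
      omega
    have h1 : 2 ^ (n - 2) - 1 ≠ 1 := by
      intro h
      have := k.2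
      exact hk0 (Fin.ext (by show (k : ℕ) = 0; omega))
    have heq : Finset.univ.image a = R.filter (fun χ => W χ ≠ 0) :=
      Finset.eq_of_subset_of_card_le himg (by
        rw [hW3, Finset.card_image_of_injective _ hainj, Finset.card_univ, Fintype.card_fin]; omega)
    rw [← heq, Finset.sum_image hainj.injOn, Finset.sum_congr rfl
      (g := fun _ => V i₀ (a i₀) * (charDegree (a i₀ : G → ℂ) : ℤ)) (fun l _ => by
        have h1 := hdV l
        have h2 := hdV i₀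
        rw [(hball l).2, (hball l).1] at h1
        rw [haW l, mul_comm]
        linarith), Finset.sum_const, Finset.card_univ, Fintype.card_fin, nsmul_eq_mul,
      show 2 ^ (n - 2) - 1 = 3 by omega] at hWsum
    push_cast at hWsum
    omega
  have hbinj : Function.Injective b := by
    intro l l' e
    by_contra hne
    rcases hpair l l' hne with h | h
    · exact h.2 e
    · exact h.1 ((hall l).trans (hall l').symm)
  set A := a i₀ with hA
  have hAm : A ∈ R.filter (fun χ => W χ ≠ 0) := Finset.mem_filter.mpr ⟨haR _, by rw [haW]; exact ha0 _⟩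
  obtain ⟨c₂, c₃, hc23, hc⟩ := Finset.card_eq_two.mp
    (show ((R.filter (fun χ => W χ ≠ 0)).erase A).card = 2 by rw [Finset.card_erase_of_mem hAm, hW3])
  have hc2 : c₂ ∈ (R.filter (fun χ => W χ ≠ 0)).erase A := hc ▸ Finset.mem_insert_self _ _
  have hc3 : c₃ ∈ (R.filter (fun χ => W χ ≠ 0)).erase A :=
    hc ▸ Finset.mem_insert_of_mem (Finset.mem_singleton_self _)
  simp only [Finset.mem_erase, Finset.mem_filter] at hc2 hc3
  obtain ⟨hW1, -⟩ := unit_entries hWW le_rfl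
  have hu : ∀ x ∈ R, W x ≠ 0 → -W x = 1 ∨ -W x = -1 := fun x hx h0 => by
    rcases hW1 x hx with e | e | e
    · exact absurd e h0
    · exact Or.inr (by rw [e])
    · exact Or.inl (by rw [e]; rfl)
  have hVA : ∀ i, V i A = W A := fun i => by
    have h := (haW i).symm
    rw [hall i] at h
    exact h
  have hneA : ∀ i, b i ≠ A := fun i => hall i ▸ hba i
  have hVout : ∀ i χ, χ ∈ R → χ ≠ A → χ ≠ b i → V i χ = 0 := fun i χ h1 h2 h3 =>
    hbO i χ h1 (hall i ▸ h2) h3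
  have hVb : ∀ i, V i (b i) = -W A := by
    intro i
    obtain ⟨h1, -⟩ := unit_entries (k := 2) (by exact_mod_cast hVi i) (by norm_num)
    have h := hdV i
    rw [hall i, hVA] at h
    have hA' := hu A (haR _) (Finset.mem_filter.mp hAm).2
    have p1 : (0 : ℤ) < charDegree (A : G → ℂ) := by exact_mod_cast charDegree_pos A
    have p2 : (0 : ℤ) < charDegree (b i : G → ℂ) := by exact_mod_cast charDegree_pos (b i)
    rcases h1 _ (hbR i) with e | e | e
    · exact absurd e (hb0 i)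
    all_goals
      rw [e] at h ⊢
      rcases hA' with q | q
      · rw [show W A = -1 by omega] at h ⊢ <;> first | rfl | (exfalso; linarith)
      · rw [show W A = 1 by omega] at h ⊢ <;> first | rfl | (exfalso; linarith)
  have hc2b : ∀ i, c₂ ≠ b i := fun i e => hc2.2.2 (e ▸ hbW i)
  have hc3b : ∀ i, c₃ ≠ b i := fun i e => hc3.2.2 (e ▸ hbW i)
  have hRS : ∀ {x}, x ∈ R → x ≠ T ∧ x ∈ principalBlock M G := fun {x} hx =>
    ⟨(Finset.mem_erase.mp hx).1, (Finset.mem_filter.mp (Finset.mem_erase.mp hx).2).2⟩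
  -- the other characters vanish on the cyclic part
  have hzero : ∀ χ ∈ R, χ ≠ A → χ ≠ c₂ → χ ≠ c₃ → (∀ i, χ ≠ b i) → ∀ j, U D hζ χ j = 0 := by
    intro χ hχ h1 h2 h3 h4 j
    by_cases hj : j = 0
    · rw [hj, U_zero]
    rcases cover D hj with rfl | ⟨i, rfl | rfl⟩
    · by_contra h0
      have : χ ∈ (R.filter (fun χ => W χ ≠ 0)).erase A :=
        Finset.mem_erase.mpr ⟨h1, Finset.mem_filter.mpr ⟨hχ, h0⟩⟩
      simp [hc, h2, h3] at this
    · exact hVout i χ hχ h1 (h4 i)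
    · rw [U_neg]; exact hVout i χ hχ h1 (h4 i)
  have hu' : ∀ x ∈ R, W x ≠ 0 → W x = 1 ∨ W x = -1 := fun x hx h0 => by
    rcases hu x hx h0 with e | e <;> omega
  refine ⟨A, c₂, c₃, b, hbinj, ⟨(hRS (haR _)).2, (hRS hc2.2.1).2, (hRS hc3.2.1).2, fun i => (hRS (hbR i)).2⟩,
    ⟨(hRS (haR _)).1, (hRS hc2.2.1).1, (hRS hc3.2.1).1, hc2.1.symm, hc3.1.symm, hc23,
      fun i => ⟨hneA i, (hc2b i).symm, (hc3b i).symm, (hRS (hbR i)).1⟩⟩,
    ⟨hu' A (haR _) (Finset.mem_filter.mp hAm).2, hu' c₂ hc2.2.1 hc2.2.2, hu' c₃ hc3.2.1 hc3.2.2⟩,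
    ?_, fun i => ⟨hVout i c₂ hc2.2.1 hc2.1 (hc2b i), hVout i c₃ hc3.2.1 hc3.1 (hc3b i), hbW i, ?_⟩,
    fun χ hχ h0 => hzero χ (Finset.mem_erase.mpr ⟨h0, Finset.mem_filter.mpr ⟨Finset.mem_univ _, hχ⟩⟩)⟩
  · intro j hj
    rcases cover D hj with rfl | ⟨i, rfl | rfl⟩
    · rfl
    · exact hVA i
    · rw [U_neg]; exact hVA i
  · intro k
    by_cases h : k = i
    · subst h; rw [if_pos rfl]; exact hVb k
    · rw [if_neg h]
      exact hVout k (b i) (hbR i) (hneA i) fun e => h (hbinj e).symm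

variable {ζ : ℂ}

/-- A value of absolute one at the central involution gives odd values at all involutions. -/
theorem value_ne_zero {x : IrrCharacter G} (D : IsDih P σ τ n) {z : G} (hz : orderOf z = 2)
    (hJ : (x : G → ℂ) (cJ σ n) = 1 ∨ (x : G → ℂ) (cJ σ n) = -1) : (x : G → ℂ) z ≠ 0 := by
  intro h0
  obtain ⟨k₁, hk₁⟩ := exists_parity (isCharacter_irr x) hz
  obtain ⟨k₂, hk₂⟩ := exists_parity (isCharacter_irr x) (J_ord D)
  rw [h0, sub_zero] at hk₁
  rw [hk₁] at hk₂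
  rcases hJ with e | e <;> rw [e] at hk₂
  · have : 2 * k₁ - 1 = 2 * k₂ := by exact_mod_cast hk₂
    omega
  · have : 2 * k₁ - -1 = 2 * k₂ := by exact_mod_cast hk₂
    omega

open Classical in
/-- Four odd characters exhaust a column of square sum four. -/
theorem refl_zero (D : IsDih P σ τ n) {M : Ideal AlgInt} (hM : IsPModular 2 M) {χ₁ χ₂ χ₃ χ : IrrCharacter G}
    (hmem : χ₁ ∈ principalBlock M G ∧ χ₂ ∈ principalBlock M G ∧ χ₃ ∈ principalBlock M G)
    (hχ : χ ∈ principalBlock M G)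
    (hne : χ₁ ≠ trivIrr G ∧ χ₂ ≠ trivIrr G ∧ χ₃ ≠ trivIrr G ∧ χ₁ ≠ χ₂ ∧ χ₁ ≠ χ₃ ∧ χ₂ ≠ χ₃)
    (hne' : χ ≠ trivIrr G ∧ χ ≠ χ₁ ∧ χ ≠ χ₂ ∧ χ ≠ χ₃)
    (hJ₁ : (χ₁ : G → ℂ) (cJ σ n) = 1 ∨ (χ₁ : G → ℂ) (cJ σ n) = -1)
    (hJ₂ : (χ₂ : G → ℂ) (cJ σ n) = 1 ∨ (χ₂ : G → ℂ) (cJ σ n) = -1)
    (hJ₃ : (χ₃ : G → ℂ) (cJ σ n) = 1 ∨ (χ₃ : G → ℂ) (cJ σ n) = -1)
    {z : G} (hzP : z ∈ (P : Subgroup G)) (hz : orderOf z = 2) (hnc : ¬ IsConj z (cJ σ n)) :
    (χ : G → ℂ) z = 0 := by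
  have hsq := CS.col_sq hM (x := z) (k := 1) (by rw [hz, pow_one]) (index_cent_refl D hz hnc)
  rw [fact_cent_refl D hzP hz hnc] at hsq
  choose v hv using fun ψ : IrrCharacter G => KP.exists_int_involution (isCharacter_irr ψ) hz
  simp only [hv, map_intCast] at hsq
  have hsq' : ∑ ψ ∈ Finset.univ.filter (· ∈ principalBlock M G), v ψ * v ψ = 4 := by
    have : ((∑ ψ ∈ Finset.univ.filter (· ∈ principalBlock M G), v ψ * v ψ : ℤ) : ℂ) = ((4 : ℤ) : ℂ) := by
      push_cast; rw [hsq]; norm_num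
    exact_mod_cast this
  have hnz : ∀ x : IrrCharacter G, (x : G → ℂ) z ≠ 0 → 0 < v x * v x := fun x hx =>
    mul_self_pos.mpr fun e => hx (by rw [hv x, e, Int.cast_zero])
  have h1 := hnz χ₁ (value_ne_zero D hz hJ₁)
  have h2 := hnz χ₂ (value_ne_zero D hz hJ₂)
  have h3 := hnz χ₃ (value_ne_zero D hz hJ₃)
  by_contra h0
  have h4 := hnz χ h0
  have hvT : v (trivIrr G) = 1 := by
    have := hv (trivIrr G)
    simp only [trivIrr] at this
    exact_mod_cast this.symm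
  have hsub : ({trivIrr G, χ₁, χ₂, χ₃, χ} : Finset (IrrCharacter G)) ⊆
      Finset.univ.filter (· ∈ principalBlock M G) := by
    intro x hx
    simp only [Finset.mem_insert, Finset.mem_singleton] at hx
    refine Finset.mem_filter.mpr ⟨Finset.mem_univ _, ?_⟩
    rcases hx with rfl | rfl | rfl | rfl | rfl
    exacts [self_mem_blockOf hM (trivIrr G), hmem.1, hmem.2.1, hmem.2.2, hχ]
  obtain ⟨n1, n2, n3, n12, n13, n23⟩ := hne
  obtain ⟨m0, m1, m2, m3⟩ := hne'
  have hle := Finset.sum_le_sum_of_subset_of_nonneg hsub (f := fun x => v x * v x) (fun x _ _ => mul_self_nonneg _)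
  rw [hsq', Finset.sum_insert (by simp [n1.symm, n2.symm, n3.symm, m0.symm]),
    Finset.sum_insert (by simp [n12, n13, m1.symm]),
    Finset.sum_insert (by simp [n23, m2.symm]), Finset.sum_pair m3.symm, hvT] at hle
  linarith

/-- A principal character vanishing on the cyclic part and on the reflections is impossible. -/
theorem not_vanish (D : IsDih P σ τ n) {M : Ideal AlgInt} (hM : IsPModular 2 M) {χ : IrrCharacter G}
    (hχ : χ ∈ principalBlock M G) (hne : χ ≠ trivIrr G)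
    (hA0 : ∀ a ∈ Subgroup.zpowers σ, a ≠ 1 → (χ : G → ℂ) a = 0)
    (hrefl : ∀ z : G, z ∈ (P : Subgroup G) → orderOf z = 2 → ¬ IsConj z (cJ σ n) → (χ : G → ℂ) z = 0) :
    False := by
  have hv : ∀ g : G, 2 ∣ orderOf g → (χ : G → ℂ) g = 0 := by
    intro g hg
    haveI : Fact (Nat.Prime 2) := ⟨Nat.prime_two⟩
    obtain ⟨x, hx⟩ := exists_isPPart Nat.prime_two g
    obtain ⟨u, hxu, hcu, ⟨k, hk⟩, hu'⟩ := id hx
    have hx1 : x ≠ 1 := by
      rintro rfl
      rw [one_mul] at hxu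
      exact hu' (hxu ▸ hg)
    obtain ⟨Q, hQ⟩ := (IsPGroup.of_card (n := k)
      (by rw [Nat.card_zpowers, hk] : Nat.card (Subgroup.zpowers x) = 2 ^ k)).exists_le_sylow
    obtain ⟨c, hcQ⟩ := MulAction.exists_smul_eq G Q P
    have hyP : c * x * c⁻¹ ∈ (P : Subgroup G) := by
      rw [← hcQ]; exact Subgroup.mem_map_of_mem _ (hQ (Subgroup.mem_zpowers x))
    have hy1 : c * x * c⁻¹ ≠ 1 := fun h => hx1 (conj_eq_one_iff.mp h)
    obtain ⟨d, hd, hidx, hd0⟩ : ∃ d : G, IsConj (c * x * c⁻¹) d ∧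
        (∃ j : ℕ, (pPrimeCore 2 (Subgroup.centralizer ({d} : Set G))).index = 2 ^ j) ∧
        (χ : G → ℂ) d = 0 := by
      by_cases hyA : c * x * c⁻¹ ∈ Subgroup.zpowers σ
      · exact ⟨_, IsConj.refl _, index_cent D hyA hy1, hA0 _ hyA hy1⟩
      · have hy2 : orderOf (c * x * c⁻¹) = 2 :=
          orderOf_eq_prime (by rw [pow_two]; exact (refl D hyP hyA).1) hy1
        by_cases hJ : IsConj (c * x * c⁻¹) (cJ σ n)
        · exact ⟨_, hJ, index_cent D (J_mem D) (J_ne_one D), hA0 _ (J_mem D) (J_ne_one D)⟩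
        · exact ⟨_, IsConj.refl _, index_cent_refl D hy2 hJ, hrefl _ hyP hy2 hJ⟩
    obtain ⟨e, he⟩ := isConj_iff.mp hd
    have hz : IsPPart 2 (e * c * g * (e * c)⁻¹) d := by
      have := IsPPart.conj hx (e * c)
      rwa [show e * c * x * (e * c)⁻¹ = d by rw [← he]; group] at this
    obtain ⟨u', hu1, hu2, ⟨k', hk'⟩, hu3⟩ := id hz
    rw [← IsCharacter.isClassFunction (isCharacter_irr χ) g (e * c), ← hu1,
      CS.value_const hM hk' hidx hχ hu2.symm hu3, hd0]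
  have h2 : principalBlock M G = {χ} := by
    rw [IsPBlock.eq_blockOf hM isPBlock_principalBlock hχ,
      blockOf_eq_singleton hM (ppow_dvd_of_vanish hM (isCharacter_irr χ) hv)]
  have h3 : trivIrr G ∈ principalBlock M G := self_mem_blockOf hM (trivIrr G)
  rw [h2, Set.mem_singleton_iff] at h3
  exact hne h3.symm

open Classical in
theorem nonempty_shape (D : IsDih P σ τ n) (hζ : IsPrimitiveRoot ζ (2 ^ (n - 1))) {M : Ideal AlgInt}
    (hM : IsPModular 2 M) : Nonempty (Shape D hζ M) := by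
  obtain ⟨A, c₂, c₃, b, hbinj, ⟨mA, m2, m3, mb⟩, ⟨n1, n2, n3, n12, n13, n23, nb⟩, ⟨sA, s2, s3⟩, hUA, hUj,
    hzero⟩ := exists_vectors D hζ hM
  have hn := D.hn
  have hJ0 : hs n ≠ 0 := hs_ne D
  have hhs : ev ζ (hs n * hs n) = 1 := by
    rw [hs, ← Nat.cast_mul, ev_natCast hζ, show 2 ^ (n - 2) * 2 ^ (n - 2) = 2 ^ (n - 1) * 2 ^ (n - 3) by
      rw [← pow_add, ← pow_add]; congr 1; omega, pow_mul, hζ.pow_eq_one, one_pow]
  have hJA : (A : G → ℂ) (cJ σ n) = -(U D hζ A (hs n) : ℂ) := by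
    rw [← sp_hs D, value D hζ A hJ0,
      Finset.sum_congr rfl (g := fun j => (U D hζ A (hs n) : ℂ) * ev ζ (j * hs n) -
        if j = 0 then (U D hζ A (hs n) : ℂ) else 0) fun j _ => ?_, Finset.sum_sub_distrib, ← Finset.mul_sum,
      sum_ev' hζ, if_neg hJ0, mul_zero, Finset.sum_ite_eq', if_pos (Finset.mem_univ _), zero_sub]
    by_cases hj : j = 0
    · subst hj; simp [U_zero]
    · rw [if_neg hj, sub_zero, hUA j hj]
  have hJc : ∀ x : IrrCharacter G, (∀ i, U D hζ x (jj n i) = 0) →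
      (x : G → ℂ) (cJ σ n) = (U D hζ x (hs n) : ℂ) := by
    intro x hx
    rw [← sp_hs D, value D hζ x hJ0, Finset.sum_eq_single (hs n)]
    · rw [hhs, mul_one]
    · intro j _ hj'
      by_cases hj : j = 0
      · rw [hj, U_zero, Int.cast_zero, zero_mul]
      · rcases (cover D hj).resolve_left hj' with ⟨i, rfl | rfl⟩
        · rw [hx i, Int.cast_zero, zero_mul]
        · rw [U_neg, hx i, Int.cast_zero, zero_mul]
    · simp
  have hblock : ∀ χ, χ ∈ principalBlock M G ↔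
      χ = trivIrr G ∨ χ = A ∨ χ = c₂ ∨ χ = c₃ ∨ ∃ i, χ = b i := by
    intro χ
    constructor
    · intro hχ
      by_contra hno
      simp only [not_or, not_exists] at hno
      obtain ⟨g0, g1, g2, g3, g4⟩ := hno
      have hU0 := hzero χ hχ g0 g1 g2 g3 g4
      refine not_vanish D hM hχ g0 (fun a ha ha1 => ?_) fun z hzP hz hnc =>
        refl_zero D hM ⟨mA, m2, m3⟩ hχ ⟨n1, n2, n3, n12, n13, n23⟩ ⟨g0, g1, g2, g3⟩ ?_ ?_ ?_ hzP hz hnc
      · obtain ⟨l, rfl⟩ := sp_surj D ha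
        rw [value D hζ χ (fun e => ha1 (by rw [e]; simp [sp]))]
        exact Finset.sum_eq_zero fun j _ => by rw [hU0, Int.cast_zero, zero_mul]
      · rw [hJA]; rcases sA with e | e <;> simp [e]
      · rw [hJc c₂ fun i => (hUj i).1]; rcases s2 with e | e <;> simp [e]
      · rw [hJc c₃ fun i => (hUj i).2.1]; rcases s3 with e | e <;> simp [e]
    · rintro (rfl | rfl | rfl | rfl | ⟨i, rfl⟩)
      exacts [self_mem_blockOf hM (trivIrr G), mA, m2, m3, mb i]
  exact ⟨{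
    χ₁ := A, χ₂ := c₂, χ₃ := c₃, η := b
    δ₁ := -U D hζ A (hs n), δ₂ := -U D hζ c₂ (hs n), δ₃ := -U D hζ c₃ (hs n)
    sign₁ := by rcases sA with e | e <;> simp [e]
    sign₂ := by rcases s2 with e | e <;> simp [e]
    sign₃ := by rcases s3 with e | e <;> simp [e]
    η_inj := hbinj
    ne₁ := n1, ne₂ := n2, ne₃ := n3, ne₁₂ := n12, ne₁₃ := n13, ne₂₃ := n23
    η_ne := nb
    block := hblock
    U₁ := fun j hj => by rw [neg_neg]; exact hUA j hj
    U₂ := fun i => (hUj i).1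
    U₃ := fun i => (hUj i).2.1
    Uη := fun i k => (hUj i).2.2.2 k
    Us₂ := (neg_neg _).symm
    Us₃ := (neg_neg _).symm
    Usη := fun i => (hUj i).2.2.1 }⟩

end CfsgLib.Blocks.DH
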