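import Cfsg.Agent.Lib.FrobeniusCrit
import Cfsg.Agent.Lib.Fusion.Dihedral
import Cfsg.Agent.Lib.Blocks.CentComplement

/-!
Sections of a dihedral Sylow 2-subgroup: centralizers and fusion on the cyclic part.
-/

set_option linter.style.haveILetI false
set_option linter.unusedSectionVars false

namespace CfsgLib.Blocks.DH

open Subgroup
open CfsgLib.ThompsonNPC (PCOn hasNPC_iff exists_mul_parts pcOn_top_subgroup orderOf_conj_eq)

universe u

variable {G : Type u} [Group G] [Finite G]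

/-- A normal complement makes the index of the core a power of two. -/
theorem index_of_pcOn {H : Type u} [Group H] [Finite H] (h : PCOn 2 (⊤ : Subgroup H)) :
    ∃ j : ℕ, (Cfsg.pPrimeCore 2 H).index = 2 ^ j := by
  haveI : Fact (Nat.Prime 2) := ⟨Nat.prime_two⟩
  obtain ⟨R, N, hN, hc⟩ := hasNPC_iff.mpr h
  obtain ⟨n, hn⟩ := IsPGroup.iff_card.mp R.2
  have hcop : (Nat.card N).Coprime 2 := by
    rw [← show (R : Subgroup H).index = Nat.card N from hc.index_eq_card]
    exact (Nat.prime_two.coprime_iff_not_dvd.mpr R.not_dvd_index).symm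
  obtain ⟨j, -, hj⟩ := (Nat.dvd_prime_pow Nat.prime_two).mp
    ((Subgroup.index_dvd_of_le (Core.le_pPrimeCore hN hcop)).trans
      (dvd_of_eq (hc.symm.index_eq_card.trans hn)))
  exact ⟨j, hj⟩

/-- An element of odd order is a power of its square-powers. -/
theorem commute_of_pow_two_pow {h a : G} (hh : Odd (orderOf h)) {r : ℕ}
    (hc : Commute (h ^ 2 ^ r) a) : Commute h a := by
  obtain ⟨m, hm⟩ := exists_pow_eq_self_of_coprime
    (Nat.Coprime.pow_left r (Nat.coprime_two_left.mpr hh) : Nat.Coprime (2 ^ r) (orderOf h))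
  rw [← hm]
  exact hc.pow_left m

/-- An element of odd order normalising a cyclic two-group centralises it. -/
theorem cyc_fix {h a : G} (hh : Odd (orderOf h)) {r : ℕ} (ha : a ^ 2 ^ r = 1)
    (hm : h * a * h⁻¹ ∈ Subgroup.zpowers a) : Commute h a := by
  obtain ⟨k, hk⟩ := Subgroup.mem_zpowers_iff.mp hm
  rcases r with _ | r
  · simp only [pow_zero, pow_one] at ha
    rw [ha]; exact Commute.one_right h
  have hit : ∀ m : ℕ, h ^ m * a * (h ^ m)⁻¹ = a ^ (k ^ m) := by
    intro m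
    induction m with
    | zero => simp
    | succ m ih =>
      calc h ^ (m + 1) * a * (h ^ (m + 1))⁻¹ = h * (h ^ m * a * (h ^ m)⁻¹) * h⁻¹ := by
            rw [pow_succ']; group
        _ = a ^ (k ^ (m + 1)) := by rw [ih, ← conj_zpow, ← hk, ← zpow_mul, pow_succ']
  rcases Int.even_or_odd k with ⟨t, ht⟩ | hodd
  · obtain ⟨j, -, hj⟩ := (Nat.dvd_prime_pow Nat.prime_two).mp (orderOf_dvd_of_pow_eq_one ha)
    rcases j with _ | j
    · rw [pow_zero, orderOf_eq_one_iff] at hj
      rw [hj]; exact Commute.one_right h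
    exfalso
    have h1 : (a ^ k) ^ 2 ^ j = 1 := by
      rw [ht, ← two_mul, ← zpow_natCast, ← zpow_mul,
        show (2 * t) * ((2 ^ j : ℕ) : ℤ) = ((orderOf a : ℕ) : ℤ) * t by rw [hj]; push_cast; ring,
        zpow_mul, zpow_natCast, pow_orderOf_eq_one, one_zpow]
    have h2 := Nat.le_of_dvd (pow_pos two_pos j) (orderOf_dvd_of_pow_eq_one h1)
    rw [hk, orderOf_conj_eq, hj, pow_succ] at h2
    have : 0 < 2 ^ j := pow_pos two_pos j
    omega
  · refine commute_of_pow_two_pow hh (r := r) ?_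
    have h1 : a ^ (k ^ 2 ^ r) = a := by
      obtain ⟨c, hc⟩ := CfsgLib.Fusion.odd_pow_two_pow_modEq k hodd r
      rw [show k ^ 2 ^ r = ((2 ^ (r + 1) : ℕ) : ℤ) * c + 1 by push_cast; linarith, zpow_add, zpow_mul,
        zpow_natCast, ha, one_zpow, one_mul, zpow_one]
    have h2 := hit (2 ^ r)
    rw [h1] at h2
    exact mul_inv_eq_iff_eq_mul.mp h2

/-- An element of odd order translating by a fixed two-element fixes. -/
theorem translate_fix {g q a : G} (hg : Odd (orderOf g)) (hga : Commute g a) {r : ℕ} (ha : a ^ 2 ^ r = 1)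
    (h : g * q * g⁻¹ = q * a) : Commute g q := by
  have hit : ∀ m : ℕ, g ^ m * q * (g ^ m)⁻¹ = q * a ^ m := by
    intro m
    induction m with
    | zero => simp
    | succ m ih =>
      calc g ^ (m + 1) * q * (g ^ (m + 1))⁻¹ = g * (g ^ m * q * (g ^ m)⁻¹) * g⁻¹ := by
            rw [pow_succ']; group
        _ = (g * q * g⁻¹) * (g * a ^ m * g⁻¹) := by rw [ih]; group
        _ = q * a ^ (m + 1) := by
            rw [h, (hga.pow_right m).eq, mul_inv_cancel_right, mul_assoc, ← pow_succ']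
  have h1 := hit (orderOf g)
  simp only [pow_orderOf_eq_one, one_mul, inv_one, mul_one] at h1
  have h2 : a ^ orderOf g = 1 := mul_left_cancel (h1.symm.trans (mul_one q).symm)
  have h3 : orderOf a ∣ 1 := by
    have hc : Nat.Coprime (2 ^ r) (orderOf g) := Nat.Coprime.pow_left r (Nat.coprime_two_left.mpr hg)
    rw [← hc.gcd_eq_one]
    exact Nat.dvd_gcd (orderOf_dvd_of_pow_eq_one ha) (orderOf_dvd_of_pow_eq_one h2)
  rw [Nat.dvd_one, orderOf_eq_one_iff] at h3
  rw [h3, mul_one] at h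
  exact mul_inv_eq_iff_eq_mul.mp h

/-- A dihedral structure on a Sylow 2-subgroup. -/
structure IsDih (P : Sylow 2 G) (σ τ : G) (n : ℕ) : Prop where
  hn : 3 ≤ n
  σ_mem : σ ∈ (P : Subgroup G)
  τ_mem : τ ∈ (P : Subgroup G)
  σ_ord : orderOf σ = 2 ^ (n - 1)
  τ_ord : orderOf τ = 2
  rel : τ * σ * τ⁻¹ = σ⁻¹
  out : τ ∉ Subgroup.zpowers σ
  cases' : ∀ g ∈ (P : Subgroup G), g ∈ Subgroup.zpowers σ ∨ τ * g ∈ Subgroup.zpowers σ

/-- The central involution. -/
def cJ (σ : G) (n : ℕ) : G := σ ^ 2 ^ (n - 2)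

variable {P : Sylow 2 G} {σ τ : G} {n : ℕ} (D : IsDih P σ τ n)
include D

theorem pow_ord : σ ^ 2 ^ (n - 1) = 1 := by rw [← D.σ_ord, pow_orderOf_eq_one]

theorem J_mem : cJ σ n ∈ Subgroup.zpowers σ := pow_mem (Subgroup.mem_zpowers σ) _

theorem zpowers_le : Subgroup.zpowers σ ≤ (P : Subgroup G) := Subgroup.zpowers_le.mpr D.σ_mem

theorem τ_inv : τ⁻¹ = τ := inv_eq_of_mul_eq_one_right (by rw [← pow_two, ← D.τ_ord, pow_orderOf_eq_one])

theorem J_ord : orderOf (cJ σ n) = 2 := by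
  have hn := D.hn
  rw [cJ, orderOf_pow' σ (pow_ne_zero _ two_ne_zero), D.σ_ord,
    Nat.gcd_eq_right (pow_dvd_pow 2 (by omega : n - 2 ≤ n - 1)), Nat.pow_div (by omega) two_pos,
    show n - 1 - (n - 2) = 1 by omega, pow_one]

theorem J_ne_one : cJ σ n ≠ 1 := fun h => by
  have := J_ord D; rw [h, orderOf_one] at this; omega

theorem conj_τ {a : G} (ha : a ∈ Subgroup.zpowers σ) : τ * a * τ⁻¹ = a⁻¹ := by
  obtain ⟨k, rfl⟩ := Subgroup.mem_zpowers_iff.mp ha
  rw [← conj_zpow, D.rel, inv_zpow]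

/-- Elements outside the cyclic part are inverting involutions. -/
theorem refl {g : G} (hg : g ∈ (P : Subgroup G)) (hg' : g ∉ Subgroup.zpowers σ) :
    g * g = 1 ∧ ∀ a ∈ Subgroup.zpowers σ, g * a * g⁻¹ = a⁻¹ := by
  rcases D.cases' g hg with h | h
  · exact absurd h hg'
  set b := τ * g with hb
  have hgb : g = τ * b := by
    rw [hb, ← mul_assoc]; nth_rewrite 1 [← τ_inv D]; rw [inv_mul_cancel, one_mul]
  refine ⟨?_, fun a ha => ?_⟩
  · calc g * g = (τ * b * τ⁻¹) * (τ * τ) * b := by rw [hgb]; group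
      _ = 1 := by
        rw [conj_τ D h, show τ * τ = 1 by nth_rewrite 1 [← τ_inv D]; exact inv_mul_cancel τ, mul_one,
          inv_mul_cancel]
  · have hcomm : b * a * b⁻¹ = a := by
      obtain ⟨i, hi⟩ := Subgroup.mem_zpowers_iff.mp h
      obtain ⟨j, hj⟩ := Subgroup.mem_zpowers_iff.mp ha
      rw [← hi, ← hj]; group
    calc g * a * g⁻¹ = τ * (b * a * b⁻¹) * τ⁻¹ := by rw [hgb]; group
      _ = a⁻¹ := by rw [hcomm, conj_τ D ha]

theorem mul_mem_of_out {g h : G} (hg : g ∈ (P : Subgroup G)) (hg' : g ∉ Subgroup.zpowers σ)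
    (hh : h ∈ (P : Subgroup G)) (hh' : h ∉ Subgroup.zpowers σ) : g * h ∈ Subgroup.zpowers σ := by
  rcases D.cases' g hg with a | a
  · exact absurd a hg'
  rcases D.cases' h hh with b | b
  · exact absurd b hh'
  have := mul_mem (inv_mem a) b
  have e : (τ * g)⁻¹ * (τ * h) = g * h := by
    rw [mul_inv_rev, mul_assoc, inv_mul_cancel_left, inv_eq_of_mul_eq_one_right (refl D hg hg').1]
  rwa [e] at this

theorem order_two {a : G} (ha : a ∈ Subgroup.zpowers σ) (h2 : a * a = 1) : a = 1 ∨ a = cJ σ n := by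
  have hn := D.hn
  obtain ⟨k, hk⟩ := Subgroup.mem_zpowers_iff.mp ha
  have h1 : (orderOf σ : ℤ) ∣ 2 * k := by
    rw [orderOf_dvd_iff_zpow_eq_one, mul_comm, zpow_mul, hk, zpow_ofNat, pow_two, h2]
  have e : 2 ^ (n - 1) = 2 * 2 ^ (n - 2) := by rw [← pow_succ']; congr 1; omega
  rw [D.σ_ord, e] at h1
  push_cast at h1
  obtain ⟨t, ht⟩ := Int.dvd_of_mul_dvd_mul_left two_ne_zero h1
  rcases Int.even_or_odd t with ⟨s, hs⟩ | ⟨s, hs⟩
  · left
    rw [← hk, ht, hs, show (2 : ℤ) ^ (n - 2) * (s + s) = ((2 ^ (n - 1) : ℕ) : ℤ) * s by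
      rw [e]; push_cast; ring, zpow_mul, zpow_natCast, pow_ord D, one_zpow]
  · right
    rw [← hk, ht, hs, show (2 : ℤ) ^ (n - 2) * (2 * s + 1) = ((2 ^ (n - 1) : ℕ) : ℤ) * s + ((2 ^ (n - 2) : ℕ) : ℤ) by
      rw [e]; push_cast; ring, zpow_add, zpow_mul, zpow_natCast, pow_ord D, one_zpow, one_mul, zpow_natCast]
    rfl

theorem mem_of_sq_ne_one {g : G} (hg : g ∈ (P : Subgroup G)) (h : g * g ≠ 1) :
    g ∈ Subgroup.zpowers σ := by
  by_contra hg'
  exact h (refl D hg hg').1

/-- A central element of the Sylow subgroup. -/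
theorem center_eq {z : G} (hz : z ∈ (P : Subgroup G)) (hσ : Commute z σ) (hτ : Commute z τ) :
    z = 1 ∨ z = cJ σ n := by
  have hn := D.hn
  by_cases hzA : z ∈ Subgroup.zpowers σ
  · refine order_two D hzA ?_
    have := conj_τ D hzA
    rw [← hτ.eq, mul_inv_cancel_right] at this
    nth_rewrite 1 [this]
    exact inv_mul_cancel z
  · exfalso
    have h := (refl D hz hzA).2 σ (Subgroup.mem_zpowers σ)
    rw [hσ.eq, mul_inv_cancel_right] at h
    have h2 : orderOf σ ∣ 2 := orderOf_dvd_of_pow_eq_one (by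
      rw [pow_two]; nth_rewrite 1 [h]; exact inv_mul_cancel σ)
    rw [D.σ_ord] at h2
    have := Nat.le_of_dvd two_pos h2
    have : 2 ^ 2 ≤ 2 ^ (n - 1) := Nat.pow_le_pow_right two_pos (by omega)
    omega

theorem J_comm {g : G} (hg : g ∈ (P : Subgroup G)) : Commute g (cJ σ n) := by
  by_cases h : g ∈ Subgroup.zpowers σ
  · obtain ⟨k, rfl⟩ := Subgroup.mem_zpowers_iff.mp h
    exact ((Commute.refl σ).zpow_left k).pow_right _
  · have := (refl D hg h).2 _ (J_mem D)
    rw [inv_eq_of_mul_eq_one_right (show cJ σ n * cJ σ n = 1 by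
      rw [← pow_two, ← J_ord D, pow_orderOf_eq_one])] at this
    exact mul_inv_eq_iff_eq_mul.mp this

theorem le_centJ : (P : Subgroup G) ≤ Subgroup.centralizer ({cJ σ n} : Set G) :=
  fun _ hg => Subgroup.mem_centralizer_singleton_iff.mpr (J_comm D hg).eq

theorem σ_pow_two_pow {a : G} (ha : a ∈ Subgroup.zpowers σ) : a ^ 2 ^ (n - 1) = 1 := by
  obtain ⟨k, rfl⟩ := Subgroup.mem_zpowers_iff.mp ha
  rw [← zpow_natCast, ← zpow_mul, mul_comm, zpow_mul, zpow_natCast, pow_ord D, one_zpow]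

/-- Odd elements of the centralizer of the central involution act trivially on subgroups. -/
theorem odd_acts {Q : Subgroup G} (hQ : Q ≤ (P : Subgroup G)) (hJ : cJ σ n ∈ Q) {g : G}
    (hg : Odd (orderOf g)) (hgJ : Commute g (cJ σ n)) (hn' : ∀ x ∈ Q, g * x * g⁻¹ ∈ Q) :
    ∀ x ∈ Q, Commute g x := by
  obtain ⟨⟨a, ha⟩, hgen⟩ := (Subgroup.isCyclic_of_le (inf_le_right : Q ⊓ Subgroup.zpowers σ ≤ _)).exists_generator
  have hga : Commute g a := by
    by_cases h2 : a * a = 1
    · rcases order_two D ha.2 h2 with h | h <;> rw [h]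
      · exact Commute.one_right g
      · exact hgJ
    · have hmem : g * a * g⁻¹ ∈ Q ⊓ Subgroup.zpowers σ := by
        refine ⟨hn' a ha.1, mem_of_sq_ne_one D (hQ (hn' a ha.1)) fun e => h2 ?_⟩
        rw [show g * a * g⁻¹ * (g * a * g⁻¹) = g * (a * a) * g⁻¹ by group] at e
        exact conj_eq_one_iff.mp e
      refine cyc_fix hg (σ_pow_two_pow D ha.2) ?_
      obtain ⟨i, hi⟩ := Subgroup.mem_zpowers_iff.mp (hgen ⟨_, hmem⟩)
      exact ⟨i, congrArg Subtype.val hi⟩
  have hin : ∀ x ∈ Q, x ∈ Subgroup.zpowers σ → Commute g x := by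
    intro x hx hxA
    obtain ⟨i, hi⟩ := Subgroup.mem_zpowers_iff.mp (hgen ⟨x, hx, hxA⟩)
    rw [show x = a ^ i from (congrArg Subtype.val hi).symm]
    exact hga.zpow_right i
  intro x hx
  by_cases hxA : x ∈ Subgroup.zpowers σ
  · exact hin x hx hxA
  by_cases hyA : g * x * g⁻¹ ∈ Subgroup.zpowers σ
  · have h := hin _ (hn' x hx) hyA
    have e : g * (g * x * g⁻¹) = g * x * g⁻¹ * g := h.eq
    rw [inv_mul_cancel_right] at e
    exact mul_inv_eq_iff_eq_mul.mp (mul_left_cancel e)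
  · have hy := hn' x hx
    refine translate_fix hg (hin _ (mul_mem (inv_mem hx) hy) ?_)
      (σ_pow_two_pow D (a := x⁻¹ * (g * x * g⁻¹)) ?_) (mul_inv_cancel_left x _).symm <;>
      (rw [inv_eq_of_mul_eq_one_right (refl D (hQ hx) hxA).1];
       exact mul_mem_of_out D (hQ hx) hxA (hQ hy) hyA)

theorem pcOn_centJ : PCOn 2 (⊤ : Subgroup (Subgroup.centralizer ({cJ σ n} : Set G))) := by
  haveI : Fact (Nat.Prime 2) := ⟨Nat.prime_two⟩
  set C := Subgroup.centralizer ({cJ σ n} : Set G) with hC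
  refine FrobeniusCrit.pcOn_top _ C le_rfl fun X hX g hg hgc => ?_
  have hJC : cJ σ n ∈ C := Subgroup.mem_centralizer_singleton_iff.mpr rfl
  let J' : C := ⟨cJ σ n, hJC⟩
  have hcen : ∀ c : C, c * J' = J' * c := fun c =>
    Subtype.ext (Subgroup.mem_centralizer_singleton_iff.mp c.2)
  haveI : (Subgroup.zpowers J').Normal := ⟨fun x hx c => by
    obtain ⟨k, rfl⟩ := Subgroup.mem_zpowers_iff.mp hx
    rw [← conj_zpow, hcen c, mul_inv_cancel_right]
    exact zpow_mem (Subgroup.mem_zpowers J') k⟩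
  have hJp : IsPGroup 2 (Subgroup.zpowers J') :=
    IsPGroup.of_card (n := 1) (by rw [Nat.card_zpowers, ← Subgroup.orderOf_coe, pow_one]; exact J_ord D)
  obtain ⟨R, hR⟩ := (hX.to_sup_of_normal_right hJp).exists_le_sylow
  obtain ⟨c, hc⟩ := MulAction.exists_smul_eq C R (P.subtype (le_centJ D))
  have hmove : ∀ x ∈ X ⊔ Subgroup.zpowers J', ((c * x * c⁻¹ : C) : G) ∈ (P : Subgroup G) := by
    intro x hx
    have h : c * x * c⁻¹ ∈ (P.subtype (le_centJ D) : Subgroup C) := by
      rw [← hc]; exact Subgroup.mem_map_of_mem _ (hR hx)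
    exact h
  let Q : Subgroup G := (X ⊔ Subgroup.zpowers J').map (C.subtype.comp (MulAut.conj c).toMonoidHom)
  have hQ : Q ≤ (P : Subgroup G) := by
    rintro _ ⟨x, hx, rfl⟩; exact hmove x hx
  have hJQ : cJ σ n ∈ Q := by
    refine ⟨J', Subgroup.mem_sup_right (Subgroup.mem_zpowers J'), ?_⟩
    change ((c * J' * c⁻¹ : C) : G) = cJ σ n
    rw [hcen c, mul_inv_cancel_right]
  have hgJ : Commute ((c * g * c⁻¹ : C) : G) (cJ σ n) :=
    Subgroup.mem_centralizer_singleton_iff.mp (c * g * c⁻¹).2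
  have hgodd : Odd (orderOf ((c * g * c⁻¹ : C) : G)) := by
    rw [Subgroup.orderOf_coe, orderOf_conj_eq]
    exact Nat.coprime_two_right.mp hgc
  have hgN : g ∈ Subgroup.normalizer ((X ⊔ Subgroup.zpowers J' : Subgroup C) : Set C) :=
    Subgroup.normalizer_inf_normalizer_le_normalizer_sup X _
      ⟨hg, by rw [Subgroup.normalizer_eq_top]; trivial⟩
  have h := odd_acts D hQ hJQ hgodd hgJ (by
    rintro _ ⟨x, hx, rfl⟩
    refine ⟨g * x * g⁻¹, (Subgroup.mem_normalizer_iff.mp hgN x).mp hx, ?_⟩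
    change ((c * (g * x * g⁻¹) * c⁻¹ : C) : G) = _
    simp only [MonoidHom.comp_apply, MulEquiv.coe_toMonoidHom, MulAut.conj_apply, Subgroup.coe_subtype,
      Subgroup.coe_mul, Subgroup.coe_inv]
    group)
  rw [Subgroup.mem_centralizer_iff]
  intro x hx
  have hx' := h _ ⟨x, Subgroup.mem_sup_left hx, rfl⟩
  have e : (c * g * c⁻¹) * (c * x * c⁻¹) = (c * x * c⁻¹) * (c * g * c⁻¹) := Subtype.ext hx'.eq
  calc x * g = c⁻¹ * ((c * x * c⁻¹) * (c * g * c⁻¹)) * c := by group
    _ = g * x := by rw [← e]; group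

theorem cent_le_centJ {v : G} (hv : v ∈ Subgroup.zpowers σ) (hv1 : v ≠ 1) :
    Subgroup.centralizer ({v} : Set G) ≤ Subgroup.centralizer ({cJ σ n} : Set G) := by
  intro g hg
  rw [Subgroup.mem_centralizer_singleton_iff] at hg ⊢
  obtain ⟨j, -, hj⟩ := (Nat.dvd_prime_pow Nat.prime_two).mp (orderOf_dvd_of_pow_eq_one (σ_pow_two_pow D hv))
  obtain ⟨j, rfl⟩ : ∃ i, j = i + 1 := ⟨j - 1, by
    rcases j with _ | j
    · rw [pow_zero, orderOf_eq_one_iff] at hj; exact absurd hj hv1
    · rfl⟩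
  have hJ : v ^ 2 ^ j = cJ σ n := by
    refine (order_two D (pow_mem hv _) ?_).resolve_left fun e => ?_
    · rw [← pow_add, ← two_mul, ← pow_succ', ← hj, pow_orderOf_eq_one]
    · have := Nat.le_of_dvd (pow_pos two_pos j) (orderOf_dvd_of_pow_eq_one e)
      rw [hj, pow_succ] at this
      have : 0 < 2 ^ j := pow_pos two_pos j
      omega
  rw [← hJ]
  exact ((show Commute g v from hg).pow_right _).eq

theorem index_cent {v : G} (hv : v ∈ Subgroup.zpowers σ) (hv1 : v ≠ 1) :
    ∃ j : ℕ, (Cfsg.pPrimeCore 2 (Subgroup.centralizer ({v} : Set G))).index = 2 ^ j := by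
  haveI : Fact (Nat.Prime 2) := ⟨Nat.prime_two⟩
  exact index_of_pcOn (pcOn_top_subgroup.mpr
    ((pcOn_top_subgroup.mp (pcOn_centJ D)).mono (cent_le_centJ D hv hv1)))

theorem card_P : Nat.card (P : Subgroup G) = 2 ^ n := by
  have hn := D.hn
  have hA : Nat.card (Subgroup.zpowers σ) = 2 ^ (n - 1) := by rw [Nat.card_zpowers, D.σ_ord]
  rw [show 2 ^ n = 2 ^ (n - 1) + 2 ^ (n - 1) by rw [← two_mul, ← pow_succ']; congr 1; omega, ← hA,
    ← Nat.card_sum]
  refine (Nat.card_congr (Equiv.ofBijective (Sum.elim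
    (fun a : Subgroup.zpowers σ => (⟨a, zpowers_le D a.2⟩ : (P : Subgroup G)))
    (fun a : Subgroup.zpowers σ => ⟨τ * a, mul_mem D.τ_mem (zpowers_le D a.2)⟩)) ⟨?_, ?_⟩)).symm
  · rintro (a | a) (b | b) h <;> have e := congrArg Subtype.val h <;> simp only [Sum.elim_inl, Sum.elim_inr] at e
    · exact congrArg _ (Subtype.ext e)
    · exact absurd (show τ ∈ Subgroup.zpowers σ by
        rw [show τ = (a : G) * (b : G)⁻¹ by rw [e, mul_inv_cancel_right]]
        exact mul_mem a.2 (inv_mem b.2)) D.out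
    · exact absurd (show τ ∈ Subgroup.zpowers σ by
        rw [show τ = (b : G) * (a : G)⁻¹ by rw [← e, mul_inv_cancel_right]]
        exact mul_mem b.2 (inv_mem a.2)) D.out
    · exact congrArg _ (Subtype.ext (mul_left_cancel e))
  · rintro ⟨g, hg⟩
    rcases D.cases' g hg with h | h
    · exact ⟨Sum.inl ⟨g, h⟩, rfl⟩
    · refine ⟨Sum.inr ⟨τ * g, h⟩, Subtype.ext ?_⟩
      change τ * (τ * g) = g
      nth_rewrite 1 [← τ_inv D]
      rw [inv_mul_cancel_left]

theorem fact_centJ :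
    (Nat.card (Subgroup.centralizer ({cJ σ n} : Set G))).factorization 2 = n := by
  haveI : Fact (Nat.Prime 2) := ⟨Nat.prime_two⟩
  have h := (P.subtype (le_centJ D)).card_eq_multiplicity
  have e : Nat.card (P.subtype (le_centJ D) : Subgroup (Subgroup.centralizer ({cJ σ n} : Set G))) =
      Nat.card (P : Subgroup G) := Nat.card_congr (Subgroup.subgroupOfEquivOfLe (le_centJ D)).toEquiv
  rw [e, card_P D] at h
  exact (Nat.pow_right_injective le_rfl h).symm

theorem fact_cent {v : G} (hv : v ∈ Subgroup.zpowers σ) (hv2 : v * v ≠ 1) :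
    (Nat.card (Subgroup.centralizer ({v} : Set G))).factorization 2 = n - 1 := by
  haveI : Fact (Nat.Prime 2) := ⟨Nat.prime_two⟩
  have hn := D.hn
  set C := Subgroup.centralizer ({v} : Set G)
  have hσC : σ ∈ C := by
    obtain ⟨k, rfl⟩ := Subgroup.mem_zpowers_iff.mp hv
    exact Subgroup.mem_centralizer_singleton_iff.mpr ((Commute.refl σ).zpow_right k).eq
  have h1 : 2 ^ (n - 1) ∣ Nat.card C := by
    rw [← D.σ_ord, ← Subgroup.orderOf_mk σ hσC]; exact orderOf_dvd_natCard _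
  have hlo := (Nat.Prime.pow_dvd_iff_le_factorization Nat.prime_two Nat.card_pos.ne').mp h1
  by_contra hne
  have hhi : n ≤ (Nat.card C).factorization 2 := by omega
  obtain ⟨R⟩ := (inferInstance : Nonempty (Sylow 2 C))
  have hRc : Nat.card P ≤ Nat.card ((R : Subgroup C).map C.subtype) := by
    rw [card_P D, Subgroup.card_map_of_injective C.subtype_injective, R.card_eq_multiplicity]
    exact Nat.pow_le_pow_right two_pos hhi
  obtain ⟨S, hS⟩ := (R.2.map C.subtype).exists_le_sylow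
  have hSeq : (R : Subgroup C).map C.subtype = (S : Subgroup G) := by
    refine Subgroup.eq_of_le_of_card_ge hS ?_
    rw [S.card_eq_multiplicity, ← P.card_eq_multiplicity]
    exact hRc
  obtain ⟨c, hc⟩ := MulAction.exists_smul_eq G P S
  have hcen : ∀ x ∈ (P : Subgroup G), Commute (c⁻¹ * v * c) x := by
    intro x hx
    have hx' : c * x * c⁻¹ ∈ C := by
      have : c * x * c⁻¹ ∈ (S : Subgroup G) := by rw [← hc]; exact Subgroup.mem_map_of_mem _ hx
      rw [← hSeq] at this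
      obtain ⟨y, -, hy⟩ := this
      rw [← hy]; exact y.2
    have e := Subgroup.mem_centralizer_singleton_iff.mp hx'
    calc c⁻¹ * v * c * x = c⁻¹ * (v * (c * x * c⁻¹)) * c := by group
      _ = x * (c⁻¹ * v * c) := by rw [← e]; group
  have hvP : c⁻¹ * v * c ∈ (P : Subgroup G) := by
    have hpg : IsPGroup 2 (Subgroup.zpowers (c⁻¹ * v * c)) := by
      rw [show c⁻¹ * v * c = c⁻¹ * v * c⁻¹⁻¹ by rw [inv_inv]]
      obtain ⟨j, -, hj⟩ := (Nat.dvd_prime_pow Nat.prime_two).mp (orderOf_dvd_of_pow_eq_one (σ_pow_two_pow D hv))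
      exact IsPGroup.of_card (n := j) (by rw [Nat.card_zpowers, orderOf_conj_eq, hj])
    haveI : Fact (Nat.Prime 2) := ⟨Nat.prime_two⟩
    have hsup := hpg.to_sup_of_normal_right' P.2 (by
      rw [Subgroup.zpowers_le, Subgroup.mem_normalizer_iff]
      intro x
      constructor
      · intro hx; rw [(hcen x hx).eq, mul_inv_cancel_right]; exact hx
      · intro hx
        have e := (hcen _ hx).eq
        have e' : c⁻¹ * v * c * x * (c⁻¹ * v * c)⁻¹ = x := by
          have := mul_inv_eq_iff_eq_mul.mpr e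
          exact mul_left_cancel (a := c⁻¹ * v * c) (mul_right_cancel (b := (c⁻¹ * v * c)⁻¹) (by
            simpa [mul_assoc] using this))
        rwa [e'] at hx)
    exact (P.3 hsup le_sup_right).le (Subgroup.mem_sup_left (Subgroup.mem_zpowers _))
  rcases center_eq D hvP (hcen σ D.σ_mem) (hcen τ D.τ_mem) with h | h <;> apply hv2
  · rw [show v = c * (c⁻¹ * v * c) * c⁻¹ by group, h]; group
  · rw [show v * v = c * ((c⁻¹ * v * c) * (c⁻¹ * v * c)) * c⁻¹ by group, h,
      show cJ σ n * cJ σ n = 1 by rw [← pow_two, ← J_ord D, pow_orderOf_eq_one]]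
    group

/-- Fusion on the cyclic part. -/
theorem fusion {v w : G} (hv : v ∈ Subgroup.zpowers σ) (hw : w ∈ Subgroup.zpowers σ) (h : IsConj v w) :
    w = v ∨ w = v⁻¹ := by
  haveI : Fact (Nat.Prime 2) := ⟨Nat.prime_two⟩
  obtain ⟨g, hg⟩ := isConj_iff.mp h
  by_cases hv2 : v * v = 1
  · have hw2 : w * w = 1 := by
      rw [← hg, show g * v * g⁻¹ * (g * v * g⁻¹) = g * (v * v) * g⁻¹ by group, hv2]; group
    left
    rcases order_two D hv hv2 with h1 | h1 <;> rcases order_two D hw hw2 with h2 | h2 <;> rw [h1, h2]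
    · exfalso; rw [h1, h2, mul_one, mul_inv_cancel] at hg; exact J_ne_one D hg.symm
    · exfalso; rw [h1, h2] at hg; exact J_ne_one D (conj_eq_one_iff.mp hg)
  have hw2 : w * w ≠ 1 := fun e => hv2 (by
    rw [← hg, show g * v * g⁻¹ * (g * v * g⁻¹) = g * (v * v) * g⁻¹ by group] at e
    exact conj_eq_one_iff.mp e)
  set C := Subgroup.centralizer ({w} : Set G) with hC
  set A := Subgroup.zpowers σ with hA
  have hAC : ∀ {u : G}, u ∈ A → ∀ {a : G}, a ∈ A → a * u = u * a := by
    intro u hu a ha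
    obtain ⟨i, rfl⟩ := Subgroup.mem_zpowers_iff.mp hu
    obtain ⟨j, rfl⟩ := Subgroup.mem_zpowers_iff.mp ha
    exact (((Commute.refl σ).zpow_left j).zpow_right i).eq
  have hle : A ≤ C := fun a ha => Subgroup.mem_centralizer_singleton_iff.mpr (hAC hw ha)
  have hle' : A.map (MulAut.conj g).toMonoidHom ≤ C := by
    rintro _ ⟨a, ha, rfl⟩
    refine Subgroup.mem_centralizer_singleton_iff.mpr ?_
    change g * a * g⁻¹ * w = w * (g * a * g⁻¹)
    rw [← hg]
    calc g * a * g⁻¹ * (g * v * g⁻¹) = g * (a * v) * g⁻¹ := by group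
      _ = _ := by rw [hAC hv ha]; group
  have hcardA : Nat.card A = 2 ^ (Nat.card C).factorization 2 := by
    rw [fact_cent D hw hw2, Nat.card_zpowers, D.σ_ord]
  let S₁ : Sylow 2 C := Sylow.ofCard (A.subgroupOf C)
    ((Nat.card_congr (Subgroup.subgroupOfEquivOfLe hle).toEquiv).trans hcardA)
  let S₂ : Sylow 2 C := Sylow.ofCard ((A.map (MulAut.conj g).toMonoidHom).subgroupOf C)
    ((Nat.card_congr (Subgroup.subgroupOfEquivOfLe hle').toEquiv).trans
      ((Subgroup.card_map_of_injective (MulAut.conj g).injective).trans hcardA))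
  obtain ⟨c, hc⟩ := MulAction.exists_smul_eq C S₂ S₁
  set k := (c : G) * g with hk
  have hnorm : ∀ a ∈ A, k * a * k⁻¹ ∈ A := by
    intro a ha
    have hm : g * a * g⁻¹ ∈ C := hle' ⟨a, ha, rfl⟩
    have h1 : (⟨g * a * g⁻¹, hm⟩ : C) ∈ (S₂ : Subgroup C) := ⟨a, ha, rfl⟩
    have h2 : c * (⟨g * a * g⁻¹, hm⟩ : C) * c⁻¹ ∈ (S₁ : Subgroup C) := by
      rw [← hc]; exact Subgroup.mem_map_of_mem _ h1
    have h3 : (c : G) * (g * a * g⁻¹) * (c : G)⁻¹ ∈ A := h2
    rwa [show k * a * k⁻¹ = (c : G) * (g * a * g⁻¹) * (c : G)⁻¹ by rw [hk]; group]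
  have hkv : k * v * k⁻¹ = w := by
    rw [show k * v * k⁻¹ = (c : G) * (g * v * g⁻¹) * (c : G)⁻¹ by rw [hk]; group, hg,
      Subgroup.mem_centralizer_singleton_iff.mp c.2, mul_inv_cancel_right]
  have hkN : k ∈ Subgroup.normalizer (A : Set G) := by
    rw [Subgroup.mem_normalizer_iff]
    intro a
    refine ⟨hnorm a, fun ha => ?_⟩
    obtain ⟨m, hm⟩ := (Submonoid.mem_powers_iff _ _).mp (mem_powers_iff_mem_zpowers.mpr
      (show k⁻¹ ∈ Subgroup.zpowers k from inv_mem (Subgroup.mem_zpowers k)))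
    have hit : ∀ m : ℕ, ∀ b ∈ A, k ^ m * b * (k ^ m)⁻¹ ∈ A := by
      intro m
      induction m with
      | zero => simp
      | succ m ih =>
        intro b hb
        rw [show k ^ (m + 1) * b * (k ^ (m + 1))⁻¹ = k * (k ^ m * b * (k ^ m)⁻¹) * k⁻¹ by rw [pow_succ']; group]
        exact hnorm _ (ih b hb)
    have := hit m _ ha
    rwa [hm, show k⁻¹ * (k * a * k⁻¹) * k⁻¹⁻¹ = a by group] at this
  obtain ⟨x, y, hx, hy, hxy, ⟨r, hr⟩, hyc⟩ := exists_mul_parts 2 k
  have hxN : x ∈ Subgroup.normalizer (A : Set G) := Subgroup.zpowers_le.mpr hkN hx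
  have hyN : y ∈ Subgroup.normalizer (A : Set G) := Subgroup.zpowers_le.mpr hkN hy
  have hyσ : Commute y σ := cyc_fix (Nat.coprime_two_right.mp hyc) (pow_ord D)
    ((Subgroup.mem_normalizer_iff.mp hyN σ).mp (Subgroup.mem_zpowers σ))
  have hyv : y * v * y⁻¹ = v := by
    obtain ⟨i, rfl⟩ := Subgroup.mem_zpowers_iff.mp hv
    rw [(hyσ.zpow_right i).eq, mul_inv_cancel_right]
  have hxv : x * v * x⁻¹ = w := by
    rw [← hkv, ← hxy, show x * y * v * (x * y)⁻¹ = x * (y * v * y⁻¹) * x⁻¹ by group, hyv]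
  have hAp : IsPGroup 2 A := P.2.to_le (zpowers_le D)
  obtain ⟨j, -, hj⟩ := (Nat.dvd_prime_pow Nat.prime_two).mp (orderOf_dvd_of_pow_eq_one hr)
  have hxp : IsPGroup 2 (Subgroup.zpowers x) :=
    IsPGroup.of_card (n := j) (by rw [Nat.card_zpowers, hj])
  obtain ⟨S, hS⟩ := (hxp.to_sup_of_normal_right' hAp (Subgroup.zpowers_le.mpr hxN)).exists_le_sylow
  obtain ⟨d, hd⟩ := MulAction.exists_smul_eq G S P
  have hmove : ∀ z ∈ Subgroup.zpowers x ⊔ A, d * z * d⁻¹ ∈ (P : Subgroup G) := fun z hz => by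
    rw [← hd]; exact Subgroup.mem_map_of_mem _ (hS hz)
  have hx' := hmove x (Subgroup.mem_sup_left (Subgroup.mem_zpowers x))
  have hv' : d * v * d⁻¹ ∈ Subgroup.zpowers σ := by
    refine mem_of_sq_ne_one D (hmove v (Subgroup.mem_sup_right hv)) fun e => hv2 ?_
    rw [show d * v * d⁻¹ * (d * v * d⁻¹) = d * (v * v) * d⁻¹ by group] at e
    exact conj_eq_one_iff.mp e
  by_cases hxA : d * x * d⁻¹ ∈ Subgroup.zpowers σ
  · left
    have e : Commute (d * x * d⁻¹) (d * v * d⁻¹) := hAC hv' hxA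
    rw [← hxv]
    calc x * v * x⁻¹ = d⁻¹ * ((d * x * d⁻¹) * (d * v * d⁻¹) * (d * x * d⁻¹)⁻¹) * d := by group
      _ = v := by rw [e.eq]; group
  · right
    rw [← hxv]
    calc x * v * x⁻¹ = d⁻¹ * ((d * x * d⁻¹) * (d * v * d⁻¹) * (d * x * d⁻¹)⁻¹) * d := by group
      _ = v⁻¹ := by rw [(refl D hx' hxA).2 _ hv']; group

/-- Conjugates into the Sylow subgroup of an involution not fused to the centre are reflections. -/
theorem refl_of_not_conj {z c : G} (hz : orderOf z = 2) (hne : ¬ IsConj z (cJ σ n))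
    (hc : c * z * c⁻¹ ∈ (P : Subgroup G)) : c * z * c⁻¹ ∉ Subgroup.zpowers σ := by
  intro h
  have h2 : c * z * c⁻¹ * (c * z * c⁻¹) = 1 := by
    rw [← pow_two, ← hz, ← orderOf_conj_eq c z, pow_orderOf_eq_one]
  rcases order_two D h h2 with e | e
  · rw [conj_eq_one_iff] at e; rw [e, orderOf_one] at hz; omega
  · exact hne (isConj_iff.mpr ⟨c, e⟩)

/-- The centralizer of a reflection in the Sylow subgroup. -/
theorem cent_refl {g x : G} (hg : g ∈ (P : Subgroup G)) (hg' : g ∉ Subgroup.zpowers σ)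
    (hx : x ∈ (P : Subgroup G)) (hc : Commute g x) :
    x = 1 ∨ x = cJ σ n ∨ x = g ∨ x = g * cJ σ n := by
  by_cases h : x ∈ Subgroup.zpowers σ
  · have := (refl D hg hg').2 x h
    rw [hc.eq, mul_inv_cancel_right] at this
    rcases order_two D h (by nth_rewrite 1 [this]; exact inv_mul_cancel x) with e | e
    · exact Or.inl e
    · exact Or.inr (Or.inl e)
  · have hm := mul_mem_of_out D hg hg' hx h
    have hx' : x = g * (g * x) := by rw [← mul_assoc, (refl D hg hg').1, one_mul]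
    have h2 : g * x * (g * x) = 1 := by
      rw [← mul_assoc, mul_assoc g x g, ← hc.eq, ← mul_assoc, (refl D hg hg').1, one_mul, (refl D hx h).1]
    rcases order_two D hm h2 with e | e
    · rw [e, mul_one] at hx'; exact Or.inr (Or.inr (Or.inl hx'))
    · rw [e] at hx'; exact Or.inr (Or.inr (Or.inr hx'))

theorem pcOn_cent_refl {z : G} (hz : orderOf z = 2) (hne : ¬ IsConj z (cJ σ n)) :
    PCOn 2 (⊤ : Subgroup (Subgroup.centralizer ({z} : Set G))) := by
  haveI : Fact (Nat.Prime 2) := ⟨Nat.prime_two⟩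
  set C := Subgroup.centralizer ({z} : Set G) with hC
  refine FrobeniusCrit.pcOn_top _ C le_rfl fun X hX g hg hgc => ?_
  let z' : C := ⟨z, Subgroup.mem_centralizer_singleton_iff.mpr rfl⟩
  have hcen : ∀ c : C, c * z' = z' * c := fun c =>
    Subtype.ext (Subgroup.mem_centralizer_singleton_iff.mp c.2)
  haveI : (Subgroup.zpowers z').Normal := ⟨fun x hx c => by
    obtain ⟨k, rfl⟩ := Subgroup.mem_zpowers_iff.mp hx
    rw [← conj_zpow, hcen c, mul_inv_cancel_right]
    exact zpow_mem (Subgroup.mem_zpowers z') k⟩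
  have hzp : IsPGroup 2 (Subgroup.zpowers z') :=
    IsPGroup.of_card (n := 1) (by rw [Nat.card_zpowers, ← Subgroup.orderOf_coe, pow_one]; exact hz)
  obtain ⟨S, hS⟩ := ((hX.to_sup_of_normal_right hzp).map C.subtype).exists_le_sylow
  obtain ⟨d, hd⟩ := MulAction.exists_smul_eq G S P
  have hmove : ∀ x ∈ X ⊔ Subgroup.zpowers z', d * (x : G) * d⁻¹ ∈ (P : Subgroup G) := fun x hx => by
    rw [← hd]; exact Subgroup.mem_map_of_mem _ (hS ⟨x, hx, rfl⟩)
  have hzP : d * z * d⁻¹ ∈ (P : Subgroup G) := hmove z' (Subgroup.mem_sup_right (Subgroup.mem_zpowers z'))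
  have hout := refl_of_not_conj D hz hne hzP
  rw [Subgroup.mem_centralizer_iff]
  intro x hx
  have hgodd : Odd (orderOf (g : G)) := by rw [Subgroup.orderOf_coe]; exact Nat.coprime_two_right.mp hgc
  set y := g * x * g⁻¹ with hy
  have hyX : y ∈ X := (Subgroup.mem_normalizer_iff.mp hg x).mp hx
  have key : ∀ w ∈ X, (w : G) = 1 ∨ (w : G) = z ∨ d * (w : G) * d⁻¹ = cJ σ n ∨
      d * (w : G) * d⁻¹ = d * z * d⁻¹ * cJ σ n := by
    intro w hw
    have hwz : Commute z (w : G) := (Subgroup.mem_centralizer_singleton_iff.mp w.2).symm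
    rcases cent_refl D hzP hout (hmove w (Subgroup.mem_sup_left hw)) (hwz.conj d) with e | e | e | e
    · exact Or.inl (conj_eq_one_iff.mp e)
    · exact Or.inr (Or.inr (Or.inl e))
    · exact Or.inr (Or.inl (by simpa using e))
    · exact Or.inr (Or.inr (Or.inr e))
  have hgz : Commute (g : G) z := Subgroup.mem_centralizer_singleton_iff.mp g.2
  rcases key x hx with e | e | ex
  · rw [show x = 1 from Subtype.ext e, one_mul, mul_one]
  · exact (Subtype.ext (show (x : G) * (g : G) = (g : G) * (x : G) by rw [e]; exact hgz.eq.symm))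
  have hgg : (g : G) * (x : G) * (g : G)⁻¹ = (y : G) := by rw [hy]; rfl
  have hfix : (y : G) = (x : G) ∨ (y : G) = z * (x : G) := by
    rcases key y hyX with e | e | ey
    · exfalso
      rw [← hgg, conj_eq_one_iff] at e
      rcases ex with ex | ex <;> rw [e, mul_one, mul_inv_cancel] at ex
      · exact J_ne_one D ex.symm
      · rw [eq_comm, mul_eq_one_iff_eq_inv] at ex
        rw [ex] at hout
        exact hout (inv_mem (J_mem D))
    · exfalso
      rw [← hgg, ← hgz.mul_inv_cancel] at e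
      have := mul_left_cancel (mul_right_cancel e)
      rw [this] at ex
      rcases ex with ex | ex
      · exact hne (isConj_iff.mpr ⟨d, ex⟩)
      · exact J_ne_one D (mul_eq_left.mp ex.symm)
    · have hz2 : z * z = 1 := by rw [← pow_two, ← hz, pow_orderOf_eq_one]
      rcases ex with ex | ex <;> rcases ey with ey | ey
      · left; exact mul_left_cancel (mul_right_cancel (ey.trans ex.symm))
      · right
        refine mul_left_cancel (a := d) (mul_right_cancel (b := d⁻¹) ?_)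
        rw [ey, ← ex]; group
      · right
        refine mul_left_cancel (a := d) (mul_right_cancel (b := d⁻¹) ?_)
        rw [ey, show d * (z * (x : G)) * d⁻¹ = d * z * d⁻¹ * (d * (x : G) * d⁻¹) by group, ex,
          ← mul_assoc (d * z * d⁻¹), show d * z * d⁻¹ * (d * z * d⁻¹) = d * (z * z) * d⁻¹ by group, hz2]
        group
      · left; exact mul_left_cancel (mul_right_cancel (ey.trans ex.symm))
  apply Subtype.ext
  change (x : G) * (g : G) = (g : G) * (x : G)
  rcases hfix with e | e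
  · nth_rewrite 1 [← e]; rw [← hgg, inv_mul_cancel_right]
  · refine (commute_of_pow_two_pow hgodd (r := 1) ?_).eq.symm
    rw [pow_one, pow_two]
    refine mul_inv_eq_iff_eq_mul.mp ?_
    rw [show (g : G) * g * x * ((g : G) * g)⁻¹ = g * ((g : G) * x * (g : G)⁻¹) * (g : G)⁻¹ by group, hgg, e,
      show (g : G) * (z * x) * (g : G)⁻¹ = ((g : G) * z * (g : G)⁻¹) * ((g : G) * x * (g : G)⁻¹) by group,
      hgz.mul_inv_cancel, hgg, e, ← mul_assoc, show z * z = 1 by rw [← pow_two, ← hz, pow_orderOf_eq_one],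
      one_mul]

theorem index_cent_refl {z : G} (hz : orderOf z = 2) (hne : ¬ IsConj z (cJ σ n)) :
    ∃ j : ℕ, (Cfsg.pPrimeCore 2 (Subgroup.centralizer ({z} : Set G))).index = 2 ^ j :=
  index_of_pcOn (pcOn_cent_refl D hz hne)

theorem fact_cent_refl {z : G} (hzP : z ∈ (P : Subgroup G)) (hz : orderOf z = 2)
    (hne : ¬ IsConj z (cJ σ n)) :
    (Nat.card (Subgroup.centralizer ({z} : Set G))).factorization 2 = 2 := by
  haveI : Fact (Nat.Prime 2) := ⟨Nat.prime_two⟩
  classical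
  have hout : z ∉ Subgroup.zpowers σ := by
    simpa using refl_of_not_conj D hz hne (c := 1) (by simpa using hzP)
  set C := Subgroup.centralizer ({z} : Set G) with hC
  obtain ⟨R⟩ := (inferInstance : Nonempty (Sylow 2 C))
  have hhi : (Nat.card C).factorization 2 ≤ 2 := by
    let z' : C := ⟨z, Subgroup.mem_centralizer_singleton_iff.mpr rfl⟩
    have hcen : ∀ c : C, c * z' = z' * c := fun c =>
      Subtype.ext (Subgroup.mem_centralizer_singleton_iff.mp c.2)
    haveI : (Subgroup.zpowers z').Normal := ⟨fun x hx c => by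
      obtain ⟨k, rfl⟩ := Subgroup.mem_zpowers_iff.mp hx
      rw [← conj_zpow, hcen c, mul_inv_cancel_right]
      exact zpow_mem (Subgroup.mem_zpowers z') k⟩
    have hzp : IsPGroup 2 (Subgroup.zpowers z') :=
      IsPGroup.of_card (n := 1) (by rw [Nat.card_zpowers, ← Subgroup.orderOf_coe, pow_one]; exact hz)
    have hle : Subgroup.zpowers z' ≤ (R : Subgroup C) :=
      le_sup_left.trans (R.3 (hzp.to_sup_of_normal_left R.2) le_sup_right).le
    obtain ⟨S, hS⟩ := (R.2.map C.subtype).exists_le_sylow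
    obtain ⟨d, hd⟩ := MulAction.exists_smul_eq G S P
    have hmove : ∀ x ∈ (R : Subgroup C), d * (x : G) * d⁻¹ ∈ (P : Subgroup G) := fun x hx => by
      rw [← hd]; exact Subgroup.mem_map_of_mem _ (hS ⟨x, hx, rfl⟩)
    have hzP' : d * z * d⁻¹ ∈ (P : Subgroup G) := hmove z' (hle (Subgroup.mem_zpowers z'))
    have hbound : Nat.card (R : Subgroup C) ≤
        ({1, cJ σ n, d * z * d⁻¹, d * z * d⁻¹ * cJ σ n} : Finset G).card := by
      rw [← Fintype.card_coe, ← Nat.card_eq_fintype_card]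
      refine Nat.card_le_card_of_injective (fun x => ⟨d * ((x : C) : G) * d⁻¹, ?_⟩) fun a b e => ?_
      · have hc : Commute z ((x : C) : G) := (Subgroup.mem_centralizer_singleton_iff.mp (x : C).2).symm
        simp only [Finset.mem_insert, Finset.mem_singleton]
        exact cent_refl D hzP' (refl_of_not_conj D hz hne hzP') (hmove x x.2) (hc.conj d)
      · exact Subtype.ext (Subtype.ext (mul_left_cancel (mul_right_cancel (congrArg Subtype.val e))))
    have h4 := hbound.trans (Finset.card_le_four ..)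
    rw [R.card_eq_multiplicity] at h4
    exact (Nat.pow_le_pow_iff_right (by norm_num : 1 < 2)).mp (h4.trans_eq (by norm_num))
  have hlo : 4 ∣ Nat.card C := by
    set V := (P : Subgroup G) ⊓ C
    obtain ⟨m, hm⟩ := IsPGroup.iff_card.mp (P.2.to_le (inf_le_left : V ≤ _))
    have h3 : 3 ≤ Nat.card V := by
      have hJC : cJ σ n ∈ C := Subgroup.mem_centralizer_singleton_iff.mpr (J_comm D hzP).eq.symm
      have := Nat.card_le_card_of_injective (α := Fin 3)
        ![(1 : V), ⟨cJ σ n, zpowers_le D (J_mem D), hJC⟩,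
          ⟨z, hzP, Subgroup.mem_centralizer_singleton_iff.mpr rfl⟩] ?_
      · simpa using this
      have h1 : (1 : G) ≠ cJ σ n := (J_ne_one D).symm
      have h2 : (1 : G) ≠ z := fun e => by rw [← e, orderOf_one] at hz; omega
      have h3 : cJ σ n ≠ z := fun e => hout (e ▸ J_mem D)
      intro a b e
      have e' := congrArg Subtype.val e
      fin_cases a <;> fin_cases b <;>
        simp [h1, h2, h3, h1.symm, h2.symm, h3.symm] at e' ⊢
    rw [hm] at h3
    have : 2 ≤ m := by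
      by_contra h
      interval_cases m <;> norm_num at h3
    exact (pow_dvd_pow 2 this : 2 ^ 2 ∣ 2 ^ m).trans (hm ▸ Subgroup.card_dvd_of_le inf_le_right)
  have := (Nat.Prime.pow_dvd_iff_le_factorization Nat.prime_two (k := 2) Nat.card_pos.ne').mp (by simpa using hlo)
  omega

end CfsgLib.Blocks.DH
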