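import Cfsg.Agent.Lib.Blocks.Cover
import Cfsg.Agent.Lib.Blocks.DefectClass
import Cfsg.Agent.Lib.Blocks.BrauerFeit
import Cfsg.Agent.Lib.Chars.Misc

/-!
The Fong–Reynolds correspondence: induction from the stabilizer of a block of a normal subgroup.
-/

set_option linter.style.haveILetI false

namespace CfsgLib.Blocks.FR

open scoped ComplexConjugate
open Cfsg CfsgLib.Chars CfsgLib.Blocks

universe u

variable {G : Type u} [Group G] [Fintype G] {p : ℕ} {M : Ideal AlgInt}
variable (N : Subgroup G) [hN : N.Normal] [Fintype N] {b : Set (IrrCharacter N)}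
variable {T : Subgroup G} [Fintype T]

/-- `T` is the stabilizer of `b`. -/
def IsStab (b : Set (IrrCharacter N)) (T : Subgroup G) : Prop :=
  ∀ g : G, g ∈ T ↔ ∀ θ ∈ b, conjIrr N θ g ∈ b

omit [Fintype G] [Fintype N] [Fintype T] in
theorem isStab_of_hT (hT : ∀ g : G, g ∈ T ↔ ∀ θ ∈ b, ∀ θ' : IrrCharacter N,
      (∀ n : N, (θ' : N → ℂ) n = (θ : N → ℂ) ⟨g * n * g⁻¹, hN.conj_mem n n.2 g⟩) → θ' ∈ b) :
    IsStab N b T := fun g => by
  rw [hT]
  constructor
  · exact fun h θ hθ => h θ hθ (conjIrr N θ g) fun n => conjIrr_apply' N θ g n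
  · intro h θ hθ θ' e
    rw [show θ' = conjIrr N θ g from
      Subtype.ext (funext fun n => (e n).trans (conjIrr_apply' N θ g n).symm)]
    exact h θ hθ

omit [Fintype G] [Fintype T] in
theorem not_conj_mem (hM : IsPModular p M) (hb : IsPBlock M b) (hst : IsStab N b T) {x : G}
    (hx : x ∉ T) {θ : IrrCharacter N} (hθ : θ ∈ b) : conjIrr N θ x⁻¹ ∉ b := by
  intro h
  refine hx (inv_mem_iff.mp ((hst x⁻¹).mpr fun φ hφ => ?_))
  exact IsPBlock.mem_of_sameBlock hM hb h
    (sameBlock_conjIrr N (IsPBlock.sameBlock hM hb hθ hφ) x⁻¹)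

variable {N}

/-- The idempotent of `b`, seen on `T`. -/
noncomputable def eT (T : Subgroup G) [Fintype T] (N : Subgroup G) [N.Normal] [Fintype N]
    (b : Set (IrrCharacter N)) : T → ℂ := fun t => ext0 N (blockCoeff b) (t : G)

/-- `ψ` lies over the block `b`. -/
def Cov (hNT : N ≤ T) (b : Set (IrrCharacter N)) (ψ : IrrCharacter T) : Prop :=
  ∃ θ ∈ b, classInner (fun n : N => (ψ : T → ℂ) ⟨(n : G), hNT n.2⟩) (θ : N → ℂ) ≠ 0

theorem eT_class (hst : IsStab N b T) : IsClassFunction T (eT T N b) := by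
  classical
  intro x g
  simp only [eT, Subgroup.coe_mul, InvMemClass.coe_inv]
  by_cases hx : (x : G) ∈ N
  · have hx' : (g : G) * x * (g : G)⁻¹ ∈ N := hN.conj_mem _ hx g
    rw [ext0, ext0, dif_pos hx, dif_pos hx', blockCoeff_eq_sum, blockCoeff_eq_sum]
    congr 1
    refine Finset.sum_bij' (fun θ _ => conjIrr N θ g) (fun θ _ => conjIrr N θ (g : G)⁻¹) ?_ ?_ ?_ ?_ ?_
    · exact fun θ hθ => Finset.mem_filter.mpr
        ⟨Finset.mem_univ _, (hst g).mp g.2 θ (Finset.mem_filter.mp hθ).2⟩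
    · exact fun θ hθ => Finset.mem_filter.mpr
        ⟨Finset.mem_univ _, (hst _).mp (inv_mem g.2) θ (Finset.mem_filter.mp hθ).2⟩
    · exact fun θ _ => conjIrr_inv_cancel N θ g
    · exact fun θ _ => conjIrr_inv_cancel' N θ g
    · intro θ _
      rw [irr_apply_one, irr_apply_one, charDegree_conjIrr, conjIrr_apply']
  · have hx' : (g : G) * x * (g : G)⁻¹ ∉ N := fun h => hx (by
      simpa [mul_assoc] using hN.conj_mem _ h (g : G)⁻¹)
    rw [ext0, ext0, dif_neg hx, dif_neg hx']

omit [Fintype G] in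
theorem mlr_eT (hM : IsPModular p M) (hb : IsPBlock M b) (t : T) :
    MemLocalRing M (eT T N b t) := by
  rw [eT, ext0]
  split_ifs
  · exact mlr_blockCoeff hM hb _
  · exact mlr_zero hM

omit [Fintype G] in
theorem sum_eT (hNT : N ≤ T) (F : T → ℂ) :
    ∑ t : T, eT T N b t * F t = ∑ n : N, blockCoeff b n * F ⟨(n : G), hNT n.2⟩ := by
  classical
  rw [← Finset.sum_subset (Finset.subset_univ (Finset.univ.filter (fun t : T => (t : G) ∈ N)))
    (fun t _ ht => by rw [eT, ext0, dif_neg (by simpa using ht), zero_mul])]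
  refine Finset.sum_bij' (fun t ht => (⟨(t : G), (Finset.mem_filter.mp ht).2⟩ : N))
    (fun n _ => (⟨(n : G), hNT n.2⟩ : T)) (fun _ _ => Finset.mem_univ _)
    (fun n _ => Finset.mem_filter.mpr ⟨Finset.mem_univ _, n.2⟩) (fun _ _ => rfl) (fun _ _ => rfl)
    fun t ht => ?_
  rw [eT, ext0, dif_pos (Finset.mem_filter.mp ht).2]

omit [Fintype G] in
theorem conv_eT (hNT : N ≤ T) : Chars.conv (eT T N b) (eT T N b) = eT T N b := by
  classical
  funext t
  simp only [Chars.conv]
  rw [sum_eT hNT fun w : T => eT T N b (w⁻¹ * t)]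
  simp only [eT, Subgroup.coe_mul, InvMemClass.coe_inv]
  by_cases ht : (t : G) ∈ N
  · have e : ∀ n : N, ext0 N (blockCoeff b) ((n : G)⁻¹ * (t : G)) =
        blockCoeff b (n⁻¹ * ⟨(t : G), ht⟩) := fun n => by
      rw [ext0, dif_pos (mul_mem (inv_mem n.2) ht)]
      rfl
    simp only [e]
    rw [ext0, dif_pos ht]
    exact congrFun (conv_blockCoeff_self b) ⟨(t : G), ht⟩
  · rw [ext0, dif_neg ht]
    refine Finset.sum_eq_zero fun n _ => ?_
    rw [ext0, dif_neg, mul_zero]
    intro h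
    exact ht (by simpa using mul_mem n.2 h)

theorem omega_eT_cases (hst : IsStab N b T) (hNT : N ≤ T) (ψ : IrrCharacter T) :
    omega (ψ : T → ℂ) (eT T N b) = 0 ∨ omega (ψ : T → ℂ) (eT T N b) = 1 := by
  have h := omega_conv ψ (eT_class hst) (eT_class hst)
  rw [conv_eT hNT] at h
  exact (mul_eq_zero.mp (show omega (ψ : T → ℂ) (eT T N b) *
      (omega (ψ : T → ℂ) (eT T N b) - 1) = 0 by rw [mul_sub, mul_one, ← h, sub_self])).imp id
    sub_eq_zero.mp

open Classical in
theorem omega_eT (hst : IsStab N b T) (hNT : N ≤ T) (ψ : IrrCharacter T) :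
    omega (ψ : T → ℂ) (eT T N b) = if Cov hNT b ψ then 1 else 0 := by
  choose m hm using fun θ : IrrCharacter N =>
    exists_mult (IsCharacter.comp (isCharacter_irr ψ) (Subgroup.inclusion hNT)) θ
  have hval : ∀ n : N, (ψ : T → ℂ) ⟨(n : G), hNT n.2⟩ =
      ∑ θ : IrrCharacter N, (m θ : ℂ) * (θ : N → ℂ) n := fun n => by
    have := classFunction_expand (IsCharacter.isClassFunction
      (IsCharacter.comp (isCharacter_irr ψ) (Subgroup.inclusion hNT))) n
    simp only [hm] at this
    exact this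
  have hsum : ∑ t : T, eT T N b t * (ψ : T → ℂ) t =
      ((∑ θ ∈ Finset.univ.filter (· ∈ b), m θ * charDegree (θ : N → ℂ) : ℕ) : ℂ) := by
    rw [sum_eT hNT]
    simp only [hval, Finset.mul_sum]
    rw [Finset.sum_comm, Finset.sum_filter, Nat.cast_sum]
    refine Finset.sum_congr rfl fun θ _ => ?_
    have h := omega_blockCoeff b θ
    rw [omega, div_eq_iff (irr_one_ne_zero θ)] at h
    rw [Finset.sum_congr rfl fun n _ => mul_left_comm (blockCoeff b n) (m θ : ℂ) ((θ : N → ℂ) n),
      ← Finset.mul_sum, h]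
    by_cases hθ : θ ∈ b
    · rw [if_pos hθ, indic_of_mem hθ, one_mul, irr_apply_one, Nat.cast_mul]
    · rw [if_neg hθ, indic_of_notMem hθ, zero_mul, mul_zero, Nat.cast_zero]
  have h0 : omega (ψ : T → ℂ) (eT T N b) = 0 ↔ ¬ Cov hNT b ψ := by
    rw [omega, div_eq_zero_iff, or_iff_left (irr_one_ne_zero ψ), hsum, Nat.cast_eq_zero,
      Finset.sum_eq_zero_iff]
    constructor
    · rintro h ⟨θ, hθ, hne⟩
      rcases Nat.mul_eq_zero.mp (h θ (Finset.mem_filter.mpr ⟨Finset.mem_univ _, hθ⟩)) with h | h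
      · exact hne ((hm θ).trans (by rw [h, Nat.cast_zero]))
      · exact (charDegree_pos θ).ne' h
    · intro h θ hθ
      by_contra hne
      refine h ⟨θ, (Finset.mem_filter.mp hθ).2, ?_⟩
      exact (hm θ).trans_ne (Nat.cast_ne_zero.mpr fun e => hne (by rw [e, zero_mul]))
  split_ifs with hc
  · exact (omega_eT_cases hst hNT ψ).resolve_left fun h => h0.mp h hc
  · exact h0.mpr hc

theorem cov_of_sameBlock (hM : IsPModular p M) (hb : IsPBlock M b) (hst : IsStab N b T)
    (hNT : N ≤ T) {ψ ψ' : IrrCharacter T} (h : SameBlock M (ψ : T → ℂ) (ψ' : T → ℂ))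
    (hc : Cov hNT b ψ) : Cov hNT b ψ' := by
  classical
  by_contra hn
  have := mli_omega_sub hM h (eT_class hst) (mlr_eT hM hb)
  rw [omega_eT hst hNT, omega_eT hst hNT, if_pos hc, if_neg hn, sub_zero] at this
  exact not_mli_one hM this

/-- Projection of a character of `T` over `b`. -/
theorem proj_self (hst : IsStab N b T) (hNT : N ≤ T) {ψ : IrrCharacter T} (hc : Cov hNT b ψ)
    (t : T) : ∑ n : N, blockCoeff b n * (ψ : T → ℂ) (⟨(n : G), hNT n.2⟩ * t) = (ψ : T → ℂ) t := by
  classical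
  rw [← sum_eT hNT fun y : T => (ψ : T → ℂ) (y * t), sum_classFunction_mul ψ (eT_class hst),
    omega_eT hst hNT, if_pos hc, one_mul]

/-- Another conjugate of `b` annihilates characters over `b`. -/
theorem proj_conj (hM : IsPModular p M) (hb : IsPBlock M b) (hst : IsStab N b T) (hNT : N ≤ T)
    {ψ : IrrCharacter T} (hc : Cov hNT b ψ) {x : G} (hx : x ∉ T) (t : T) :
    ∑ n : N, blockCoeff b (conjN N x n) * (ψ : T → ℂ) (⟨(n : G), hNT n.2⟩ * t) = 0 := by
  classical
  set e' : N → ℂ := fun n => blockCoeff b (conjN N x n)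
  have he' : IsClassFunction N e' := fun n k => by
    simp only [e', map_mul, map_inv]
    exact blockCoeff_isClassFunction b _ _
  have hzero : Chars.conv e' (blockCoeff b) = fun _ => 0 := by
    rw [← coeffFun_omega (IsClassFunction.conv he' (blockCoeff_isClassFunction b))]
    funext n
    simp only [coeffFun]
    refine mul_eq_zero_of_right _ (Finset.sum_eq_zero fun θ _ => ?_)
    rw [omega_conv θ he' (blockCoeff_isClassFunction b), omega_blockCoeff]
    by_cases hθ : θ ∈ b
    · have hv : omega (θ : N → ℂ) e' = 0 := by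
        have h1 := omega_blockCoeff b (conjIrr N θ x⁻¹)
        rw [indic_of_notMem (not_conj_mem N hM hb hst hx hθ)] at h1
        rw [← h1]
        simp only [omega]
        congr 1
        · refine Fintype.sum_equiv (conjN N x).toEquiv _ _ fun n => ?_
          simp only [MulEquiv.toEquiv_eq_coe, MulEquiv.coe_toEquiv, conjIrr_apply, conjN_mul,
            inv_mul_cancel, conjN_one, e']
        · rw [conjIrr_apply, map_one]
      rw [hv]; simp
    · rw [indic_of_notMem hθ]; simp
  calc ∑ n : N, e' n * (ψ : T → ℂ) (⟨(n : G), hNT n.2⟩ * t)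
      = ∑ n : N, e' n * ∑ m : N, blockCoeff b m *
          (ψ : T → ℂ) (⟨(m : G), hNT m.2⟩ * (⟨(n : G), hNT n.2⟩ * t)) :=
        Finset.sum_congr rfl fun n _ => by rw [proj_self hst hNT hc]
    _ = ∑ k : N, Chars.conv e' (blockCoeff b) k * (ψ : T → ℂ) (⟨(k : G), hNT k.2⟩ * t) := by
        simp only [Chars.conv, Finset.sum_mul, Finset.mul_sum]
        rw [Finset.sum_comm (f := fun k n => e' n * blockCoeff b (n⁻¹ * k) *
          (ψ : T → ℂ) (⟨(k : G), hNT k.2⟩ * t))]
        refine Finset.sum_congr rfl fun n _ => ?_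
        refine Fintype.sum_equiv (Equiv.mulRight n) _ _ fun m => ?_
        simp only [Equiv.coe_mulRight]
        have hcl := blockCoeff_isClassFunction b m n⁻¹
        rw [inv_inv] at hcl
        have e1 : (ψ : T → ℂ) (⟨((m * n : N) : G), hNT (m * n).2⟩ * t) =
            (ψ : T → ℂ) (⟨(m : G), hNT m.2⟩ * (⟨(n : G), hNT n.2⟩ * t)) :=
          congrArg _ (Subtype.ext (mul_assoc (m : G) n t))
        rw [e1, ← mul_assoc n⁻¹ m n, hcl]
        ring
    _ = 0 := by simp [hzero]

theorem extendByZero_of_notMem {H : Subgroup G} (θ : H → ℂ) {g : G} (hg : g ∉ H) :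
    extendByZero H θ g = 0 :=
  Function.extend_apply' _ _ _ fun ⟨a, ha⟩ => hg (ha ▸ a.2)

/-- The `b`-part of an induced character restricted to `T`. -/
theorem proj_indFun (hM : IsPModular p M) (hb : IsPBlock M b) (hst : IsStab N b T) (hNT : N ≤ T)
    {ψ : IrrCharacter T} (hc : Cov hNT b ψ) (t : T) :
    ∑ n : N, blockCoeff b n * indFun T (ψ : T → ℂ) ((n : G) * (t : G)) = (ψ : T → ℂ) t := by
  classical
  simp only [indFun, Finset.mul_sum]
  rw [Finset.sum_comm]
  have hx : ∀ x : G, ∑ n : N, blockCoeff b n * ((Nat.card T : ℂ)⁻¹ *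
      extendByZero T (ψ : T → ℂ) (x⁻¹ * ((n : G) * (t : G)) * x)) =
      if x ∈ T then (Nat.card T : ℂ)⁻¹ * (ψ : T → ℂ) t else 0 := by
    intro x
    have step : ∑ n : N, blockCoeff b n * ((Nat.card T : ℂ)⁻¹ *
        extendByZero T (ψ : T → ℂ) (x⁻¹ * ((n : G) * (t : G)) * x)) =
        (Nat.card T : ℂ)⁻¹ * ∑ n : N, blockCoeff b (conjN N x n) *
          extendByZero T (ψ : T → ℂ) ((n : G) * (x⁻¹ * (t : G) * x)) := by
      rw [Finset.mul_sum]
      refine (Fintype.sum_equiv (conjN N x).toEquiv _ _ fun n => ?_).symm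
      simp only [MulEquiv.toEquiv_eq_coe, MulEquiv.coe_toEquiv, conjN_coe]
      rw [show x⁻¹ * (x * (n : G) * x⁻¹ * (t : G)) * x = (n : G) * (x⁻¹ * (t : G) * x) by group]
      ring
    rw [step]
    split_ifs with hxT
    · congr 1
      have ht' : x⁻¹ * (t : G) * x ∈ T := mul_mem (mul_mem (inv_mem hxT) t.2) hxT
      have e1 : ∀ n : N, blockCoeff b (conjN N x n) = blockCoeff b n := fun n => by
        have h := eT_class hst (⟨(n : G), hNT n.2⟩ : T) ⟨x, hxT⟩
        simp only [eT, Subgroup.coe_mul, InvMemClass.coe_inv] at h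
        rw [← conjN_coe N x n, ext0_apply, ext0_apply] at h
        exact h
      simp only [e1]
      have e2 : ∀ n : N, extendByZero T (ψ : T → ℂ) ((n : G) * (x⁻¹ * (t : G) * x)) =
          (ψ : T → ℂ) (⟨(n : G), hNT n.2⟩ * ⟨_, ht'⟩) := fun n =>
        extendByZero_coe T (ψ : T → ℂ) (⟨(n : G), hNT n.2⟩ * ⟨_, ht'⟩)
      simp only [e2]
      rw [proj_self hst hNT hc]
      have := IsCharacter.isClassFunction (isCharacter_irr ψ) t (⟨x, hxT⟩ : T)⁻¹
      rw [inv_inv] at this
      exact this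
    · refine mul_eq_zero_of_right _ ?_
      by_cases ht' : x⁻¹ * (t : G) * x ∈ T
      · have e2 : ∀ n : N, extendByZero T (ψ : T → ℂ) ((n : G) * (x⁻¹ * (t : G) * x)) =
            (ψ : T → ℂ) (⟨(n : G), hNT n.2⟩ * ⟨_, ht'⟩) := fun n =>
          extendByZero_coe T (ψ : T → ℂ) (⟨(n : G), hNT n.2⟩ * ⟨_, ht'⟩)
        simp only [e2]
        exact proj_conj hM hb hst hNT hc hxT _
      · refine Finset.sum_eq_zero fun n _ => ?_
        rw [extendByZero_of_notMem, mul_zero]
        exact fun h => ht' (by simpa using mul_mem (inv_mem (hNT n.2)) h)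
  simp only [hx]
  rw [Finset.sum_ite, Finset.sum_const_zero, add_zero, Finset.sum_const, nsmul_eq_mul]
  have hcard : (Finset.univ.filter fun x : G => x ∈ T).card = Nat.card T := by
    rw [Nat.card_eq_fintype_card, Fintype.card_subtype]
  rw [hcard, ← mul_assoc, mul_inv_cancel₀ (natCast_card_ne_zero T), one_mul]

/-- Multiplicities in the restriction of an induced character. -/
theorem classInner_res_indFun (hM : IsPModular p M) (hb : IsPBlock M b) (hst : IsStab N b T)
    (hNT : N ≤ T) {ψ : IrrCharacter T} (hc : Cov hNT b ψ) {φ : IrrCharacter T}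
    (hφ : Cov hNT b φ) [DecidableEq (IrrCharacter T)] :
    classInner (fun t : T => indFun T (ψ : T → ℂ) (t : G)) (φ : T → ℂ) =
      if φ = ψ then 1 else 0 := by
  classical
  set F : T → ℂ := fun t => indFun T (ψ : T → ℂ) (t : G)
  have hF : IsClassFunction T F := fun t s => indFun_isClassFunction T _ _ _
  have h1 : (ψ : T → ℂ) = fun t => ∑ χ : IrrCharacter T,
      (classInner F (χ : T → ℂ) * omega (χ : T → ℂ) (eT T N b)) * (χ : T → ℂ) t := by
    funext t
    rw [← proj_indFun hM hb hst hNT hc t]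
    have e : ∀ n : N, indFun T (ψ : T → ℂ) ((n : G) * (t : G)) =
        F (⟨(n : G), hNT n.2⟩ * t) := fun n => rfl
    simp only [e]
    rw [← sum_eT hNT fun y : T => F (y * t)]
    simp only [classFunction_expand hF, Finset.mul_sum]
    rw [Finset.sum_comm]
    refine Finset.sum_congr rfl fun χ _ => ?_
    rw [mul_assoc, ← sum_classFunction_mul χ (eT_class hst) t, Finset.mul_sum]
    exact Finset.sum_congr rfl fun y _ => by ring
  have h2 : classInner (ψ : T → ℂ) (φ : T → ℂ) =
      classInner F (φ : T → ℂ) * omega (φ : T → ℂ) (eT T N b) := by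
    conv_lhs => rw [h1]
    rw [classInner_sum]
    simp [classInner_irr]
  rw [omega_eT hst hNT, if_pos hφ, mul_one, classInner_irr] at h2
  rw [← h2]
  exact if_congr eq_comm rfl rfl

theorem isIrr_indFun (hM : IsPModular p M) (hb : IsPBlock M b) (hst : IsStab N b T)
    (hNT : N ≤ T) {ψ : IrrCharacter T} (hc : Cov hNT b ψ) :
    IsIrrCharacter G (indFun T (ψ : T → ℂ)) := by
  classical
  have hind := IsCharacter.indFun T (isCharacter_irr ψ)
  refine isIrrCharacter_of_norm_one hind ?_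
  rw [frobenius T (ψ : T → ℂ) (IsCharacter.isClassFunction hind),
    classInner_character_comm (isCharacter_irr ψ) (IsCharacter.restrict hind T),
    classInner_res_indFun hM hb hst hNT hc hc, if_pos rfl]

/-- The induced irreducible character. -/
noncomputable def indIrr (hM : IsPModular p M) (hb : IsPBlock M b) (hst : IsStab N b T)
    (hNT : N ≤ T) {ψ : IrrCharacter T} (hc : Cov hNT b ψ) : IrrCharacter G :=
  ⟨indFun T (ψ : T → ℂ), isIrr_indFun hM hb hst hNT hc⟩

theorem indFun_injective (hM : IsPModular p M) (hb : IsPBlock M b) (hst : IsStab N b T)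
    (hNT : N ≤ T) {ψ ψ' : IrrCharacter T} (hc : Cov hNT b ψ) (hc' : Cov hNT b ψ')
    (e : indFun T (ψ : T → ℂ) = indFun T (ψ' : T → ℂ)) : ψ = ψ' := by
  refine Subtype.ext (funext fun t => ?_)
  rw [← proj_indFun hM hb hst hNT hc t, e, proj_indFun hM hb hst hNT hc' t]

theorem exists_eq_indFun (hM : IsPModular p M) (hb : IsPBlock M b) (hst : IsStab N b T)
    (hNT : N ≤ T) {χ : IrrCharacter G} {θ : IrrCharacter N} (hθ : θ ∈ b)
    (hχ : classInner (fun n : N => (χ : G → ℂ) n) (θ : N → ℂ) ≠ 0) :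
    ∃ (ψ : IrrCharacter T) (hc : Cov hNT b ψ), χ = indIrr hM hb hst hNT hc := by
  classical
  have hres : IsCharacter T (fun t : T => (χ : G → ℂ) t) :=
    IsCharacter.restrict (isCharacter_irr χ) T
  obtain ⟨ψ, h1, h2⟩ : ∃ ψ : IrrCharacter T, classInner (fun t : T => (χ : G → ℂ) t) (ψ : T → ℂ) ≠ 0 ∧
      classInner (fun n : N => (ψ : T → ℂ) ⟨(n : G), hNT n.2⟩) (θ : N → ℂ) ≠ 0 := by
    by_contra hne
    push Not at hne
    apply hχ
    rw [show (fun n : N => (χ : G → ℂ) n) = fun n : N => ∑ φ : IrrCharacter T,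
      classInner (fun t : T => (χ : G → ℂ) t) (φ : T → ℂ) * (φ : T → ℂ) ⟨(n : G), hNT n.2⟩ from
      funext fun n => classFunction_expand (IsCharacter.isClassFunction hres) ⟨(n : G), hNT n.2⟩,
      classInner_sum]
    refine Finset.sum_eq_zero fun φ _ => ?_
    by_cases h : classInner (fun t : T => (χ : G → ℂ) t) (φ : T → ℂ) = 0
    · rw [h, zero_mul]
    · rw [hne φ h, mul_zero]
  refine ⟨ψ, ⟨θ, hθ, h2⟩, ?_⟩
  by_contra hne
  apply h1
  have h3 := classInner_irr (indIrr hM hb hst hNT ⟨θ, hθ, h2⟩) χ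
  rw [if_neg (Ne.symm hne)] at h3
  change classInner (indFun T (ψ : T → ℂ)) _ = 0 at h3
  rw [frobenius T (ψ : T → ℂ) (IsCharacter.isClassFunction (isCharacter_irr χ))] at h3
  rw [classInner_character_comm hres (isCharacter_irr ψ)]
  exact h3

theorem indIrr_over (hM : IsPModular p M) (hb : IsPBlock M b) (hst : IsStab N b T)
    (hNT : N ≤ T) {ψ : IrrCharacter T} (hc : Cov hNT b ψ) :
    ∃ θ ∈ b, classInner (fun n : N => (indIrr hM hb hst hNT hc : G → ℂ) n) (θ : N → ℂ) ≠ 0 := by
  classical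
  by_contra hne
  push Not at hne
  have h := proj_indFun hM hb hst hNT hc 1
  simp only [OneMemClass.coe_one, mul_one] at h
  have hz : ∑ n : N, blockCoeff b n * indFun T (ψ : T → ℂ) (n : G) = 0 := by
    have hF : IsClassFunction N (fun n : N => (indIrr hM hb hst hNT hc : G → ℂ) n) :=
      IsCharacter.isClassFunction (IsCharacter.restrict (isCharacter_irr _) N)
    change ∑ n : N, blockCoeff b n * (indIrr hM hb hst hNT hc : G → ℂ) n = 0
    rw [Finset.sum_congr rfl fun n _ => congrArg (blockCoeff b n * ·) (classFunction_expand hF n)]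
    simp only [Finset.mul_sum]
    rw [Finset.sum_comm]
    refine Finset.sum_eq_zero fun θ _ => ?_
    by_cases hθ : θ ∈ b
    · simp [hne θ hθ]
    · have h2 := omega_blockCoeff b θ
      rw [omega, indic_of_notMem hθ, div_eq_zero_iff, or_iff_left (irr_one_ne_zero θ)] at h2
      rw [Finset.sum_congr rfl fun n _ => mul_left_comm (blockCoeff b n) _ ((θ : N → ℂ) n),
        ← Finset.mul_sum, h2, mul_zero]
  rw [hz] at h
  exact irr_one_ne_zero ψ h.symm

theorem indFun_bilin (ψ : T → ℂ) {f : G → ℂ} (hf : IsClassFunction G f) :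
    ∑ g : G, indFun T ψ g * f g = (T.index : ℂ) * ∑ t : T, ψ t * f (t : G) := by
  have h := frobenius T ψ (f := fun g => conj (f g))
    (fun g k => by simp only [hf g k])
  simp only [classInner, Complex.conj_conj] at h
  have hG : (Nat.card G : ℂ) = (T.index : ℂ) * (Nat.card T : ℂ) := by
    rw [← Nat.cast_mul, T.index_mul_card]
  rw [inv_mul_eq_iff_eq_mul₀ (natCast_card_ne_zero G), hG, mul_assoc, ← mul_assoc (Nat.card T : ℂ),
    mul_inv_cancel₀ (natCast_card_ne_zero T), one_mul] at h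
  exact h

theorem centralChar_indIrr (hM : IsPModular p M) (hb : IsPBlock M b) (hst : IsStab N b T)
    (hNT : N ≤ T) {ψ : IrrCharacter T} (hc : Cov hNT b ψ) (g : G) :
    centralChar (indIrr hM hb hst hNT hc : G → ℂ) g = inducedCentralChar T (ψ : T → ℂ) g := by
  rw [inducedCentralChar_eq, ← omega_classInd (IsCharacter.isClassFunction
    (isCharacter_irr (indIrr hM hb hst hNT hc))), omega, omega]
  change (∑ h : G, classInd g h * indFun T (ψ : T → ℂ) h) / indFun T (ψ : T → ℂ) 1 = _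
  rw [indFun_one, Finset.sum_congr rfl fun h _ => mul_comm (classInd g h) _,
    indFun_bilin _ (classInd_isClassFunction g), mul_div_mul_left _ _
      (Nat.cast_ne_zero.mpr T.index_ne_zero_of_finite)]
  congr 1
  exact Finset.sum_congr rfl fun h _ => mul_comm _ _

theorem mlr_indFun (hM : IsPModular p M) {F : T → ℂ} (hF : IsClassFunction T F)
    (hl : ∀ t, MemLocalRing M (F t)) (g : G) : MemLocalRing M (indFun T F g) := by
  classical
  haveI : Fintype (G ⧸ T) := Fintype.ofFinite _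
  have hinv : ∀ (y : G) (t : T), extendByZero T F ((y * t)⁻¹ * g * (y * t)) =
      extendByZero T F (y⁻¹ * g * y) := fun y t => by
    by_cases h : y⁻¹ * g * y ∈ T
    · have e1 := extendByZero_coe T F ⟨_, h⟩
      have e2 := extendByZero_coe T F (t⁻¹ * ⟨_, h⟩ * t)
      have e3 := hF ⟨_, h⟩ t⁻¹
      rw [inv_inv] at e3
      simp only [Subgroup.coe_mul, InvMemClass.coe_inv] at e2 e1
      rw [e1, show (y * (t : G))⁻¹ * g * (y * t) = (t : G)⁻¹ * (y⁻¹ * g * y) * t by group, e2, e3]
    · rw [extendByZero_of_notMem F h, extendByZero_of_notMem F]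
      intro h'
      apply h
      have := mul_mem (mul_mem t.2 h') (inv_mem t.2)
      rwa [show (t : G) * ((y * t)⁻¹ * g * (y * t)) * (t : G)⁻¹ = y⁻¹ * g * y by group] at this
  have e : indFun T F g = ∑ q : G ⧸ T, extendByZero T F (q.out⁻¹ * g * q.out) := by
    simp only [indFun]
    rw [Finset.mul_sum, ← Fintype.sum_fiberwise (fun x : G => (x : G ⧸ T))]
    refine Finset.sum_congr rfl fun q _ => ?_
    have e' : ∀ z : {x : G // (x : G ⧸ T) = q}, (Nat.card T : ℂ)⁻¹ *
        extendByZero T F ((z : G)⁻¹ * g * z) =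
        (Nat.card T : ℂ)⁻¹ * extendByZero T F (q.out⁻¹ * g * q.out) := by
      rintro ⟨z, hz⟩
      obtain ⟨t, ht⟩ := QuotientGroup.mk_out_eq_mul T z
      rw [hz] at ht
      rw [ht, hinv]
    rw [Finset.sum_congr rfl fun z _ => e' z, Finset.sum_const, nsmul_eq_mul, Finset.card_univ,
      ← Nat.card_eq_fintype_card, ← mul_assoc]
    have : Nat.card {x : G // (x : G ⧸ T) = q} = Nat.card T := by
      refine Nat.card_congr ⟨fun z => ⟨q.out⁻¹ * z, QuotientGroup.eq.mp
        ((QuotientGroup.out_eq' q).trans z.2.symm)⟩, fun t => ⟨q.out * t, ?_⟩, fun z => ?_, fun t => ?_⟩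
      · rw [QuotientGroup.mk_mul_of_mem _ t.2, QuotientGroup.out_eq']
      · exact Subtype.ext (mul_inv_cancel_left _ _)
      · exact Subtype.ext (inv_mul_cancel_left _ _)
    rw [this, mul_inv_cancel₀ (natCast_card_ne_zero T), one_mul]
  rw [e]
  refine mlr_sum hM _ fun q _ => ?_
  by_cases h : q.out⁻¹ * g * q.out ∈ T
  · rw [show extendByZero T F (q.out⁻¹ * g * q.out) = F ⟨_, h⟩ from extendByZero_coe T F ⟨_, h⟩]
    exact hl _
  · rw [extendByZero_of_notMem F h]
    exact mlr_zero hM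

theorem omega_indFun_conv (hM : IsPModular p M) (hb : IsPBlock M b) (hst : IsStab N b T)
    (hNT : N ≤ T) {ψ : IrrCharacter T} (hc : Cov hNT b ψ) {z : T → ℂ} (hz : IsClassFunction T z) :
    omega (indIrr hM hb hst hNT hc : G → ℂ) (indFun T (Chars.conv z (eT T N b))) =
      omega (ψ : T → ℂ) z := by
  classical
  set F : T → ℂ := fun t => indFun T (ψ : T → ℂ) (t : G)
  have hF : IsClassFunction T F := fun t s => indFun_isClassFunction T _ _ _
  rw [omega]
  change (∑ g : G, indFun T (Chars.conv z (eT T N b)) g * indFun T (ψ : T → ℂ) g) /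
    indFun T (ψ : T → ℂ) 1 = _
  rw [indFun_bilin _ (indFun_isClassFunction T _), indFun_one,
    mul_div_mul_left _ _ (Nat.cast_ne_zero.mpr T.index_ne_zero_of_finite), omega]
  congr 1
  change ∑ t : T, Chars.conv z (eT T N b) t * F t = _
  have key : ∀ φ : IrrCharacter T, ∑ t : T, Chars.conv z (eT T N b) t * (φ : T → ℂ) t =
      omega (φ : T → ℂ) z * omega (φ : T → ℂ) (eT T N b) * (φ : T → ℂ) 1 := fun φ => by
    rw [← omega_conv φ hz (eT_class hst), omega, div_mul_cancel₀ _ (irr_one_ne_zero φ)]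
  simp only [classFunction_expand hF, Finset.mul_sum]
  rw [Finset.sum_comm, Finset.sum_eq_single ψ]
  · rw [Finset.sum_congr rfl fun t _ => mul_left_comm (Chars.conv z (eT T N b) t) _ _,
      ← Finset.mul_sum, key, classInner_res_indFun hM hb hst hNT hc hc, if_pos rfl,
      omega_eT hst hNT, if_pos hc, mul_one, one_mul, omega, div_mul_cancel₀ _ (irr_one_ne_zero ψ)]
  · intro φ _ hne
    rw [Finset.sum_congr rfl fun t _ => mul_left_comm (Chars.conv z (eT T N b) t) _ _,
      ← Finset.mul_sum, key, omega_eT hst hNT]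
    by_cases hφ : Cov hNT b φ
    · rw [classInner_res_indFun hM hb hst hNT hc hφ, if_neg hne, zero_mul]
    · rw [if_neg hφ]; simp
  · simp

theorem sameBlock_indIrr_iff (hM : IsPModular p M) (hb : IsPBlock M b) (hst : IsStab N b T)
    (hNT : N ≤ T) {ψ ψ' : IrrCharacter T} (hc : Cov hNT b ψ) (hc' : Cov hNT b ψ') :
    SameBlock M (indIrr hM hb hst hNT hc : G → ℂ) (indIrr hM hb hst hNT hc' : G → ℂ) ↔
      SameBlock M (ψ : T → ℂ) (ψ' : T → ℂ) := by
  classical
  constructor
  · intro h t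
    have hl : ∀ s, MemLocalRing M (Chars.conv (classInd t) (eT T N b) s) :=
      mlr_conv hM (fun s => mlr_classInd hM t s) (mlr_eT hM hb)
    have := mli_omega_sub hM h (indFun_isClassFunction T _)
      (mlr_indFun hM (IsClassFunction.conv (classInd_isClassFunction t) (eT_class hst)) hl)
    rwa [omega_indFun_conv hM hb hst hNT hc (classInd_isClassFunction t),
      omega_indFun_conv hM hb hst hNT hc' (classInd_isClassFunction t),
      omega_classInd (IsCharacter.isClassFunction (isCharacter_irr ψ)),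
      omega_classInd (IsCharacter.isClassFunction (isCharacter_irr ψ'))] at this
  · intro h g
    rw [centralChar_indIrr, centralChar_indIrr, inducedCentralChar_eq, inducedCentralChar_eq]
    exact mli_omega_sub hM h (fun a q => classInd_isClassFunction g (a : G) (q : G))
      fun a => mlr_classInd hM g _

theorem isInducedBlock_iff (hM : IsPModular p M) (hb : IsPBlock M b) (hst : IsStab N b T)
    (hNT : N ≤ T) {B' : Set (IrrCharacter T)} (hB' : IsPBlock M B') {ψ : IrrCharacter T}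
    (hψ : ψ ∈ B') (hc : Cov hNT b ψ) {B : Set (IrrCharacter G)} :
    IsInducedBlock M T B' B ↔ B = blockOf M (indIrr hM hb hst hNT hc : G → ℂ) := by
  constructor
  · rintro ⟨-, hB, h⟩
    refine (IsPBlock.eq_blockOf hM hB ?_)
    obtain ⟨χ, hχ⟩ := IsPBlock.nonempty hM hB
    refine IsPBlock.mem_of_sameBlock hM hB hχ (sameBlock_symm fun g => ?_)
    rw [centralChar_indIrr]
    exact h ψ hψ χ hχ g
  · rintro rfl
    refine ⟨hB', isPBlock_blockOf _, fun ξ hξ χ hχ g => ?_⟩
    have h1 : MemLocalIdeal M (inducedCentralChar T (ξ : T → ℂ) g -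
        inducedCentralChar T (ψ : T → ℂ) g) := by
      rw [inducedCentralChar_eq, inducedCentralChar_eq]
      exact mli_omega_sub hM (IsPBlock.sameBlock hM hB' hξ hψ)
        (fun a q => classInd_isClassFunction g (a : G) (q : G)) fun a => mlr_classInd hM g _
    have h2 : MemLocalIdeal M (centralChar (indIrr hM hb hst hNT hc : G → ℂ) g -
        centralChar (χ : G → ℂ) g) := hχ g
    rw [centralChar_indIrr] at h2
    simpa using mli_add hM h1 h2

/-- Every member of a block covering `b` lies over `b`. -/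
theorem over_of_cover (hM : IsPModular p M) (hb : IsPBlock M b) {B : Set (IrrCharacter G)}
    (hB : IsPBlock M B) (hcov : ∃ χ ∈ B, ∃ θ ∈ b,
      classInner (fun n : N => (χ : G → ℂ) n) (θ : N → ℂ) ≠ 0) {χ : IrrCharacter G} (hχ : χ ∈ B) :
    ∃ θ ∈ b, classInner (fun n : N => (χ : G → ℂ) n) (θ : N → ℂ) ≠ 0 := by
  obtain ⟨χ₀, hχ₀, θ₀, hθ₀, h₀⟩ := hcov
  obtain ⟨θ, hθ⟩ := exists_res_constituent N χ
  obtain ⟨g, hg⟩ := constituent_mem_blockOrbit N hM hb hθ₀
    (mli_centralChar_of_cover N hM hB hb hχ₀ hθ₀ h₀ hχ hθ₀) hθ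
  refine ⟨_, hg, ?_⟩
  rwa [classInner_res_conjIrr N _ (IsCharacter.isClassFunction (isCharacter_irr χ))]

theorem block_iff (hM : IsPModular p M) (hb : IsPBlock M b) (hst : IsStab N b T)
    (hNT : N ≤ T) {B' : Set (IrrCharacter T)} (hB' : IsPBlock M B') {B : Set (IrrCharacter G)}
    (hind : IsInducedBlock M T B' B) {ψ₀ : IrrCharacter T} (hψ₀ : ψ₀ ∈ B') (hc₀ : Cov hNT b ψ₀)
    (χ : IrrCharacter G) : χ ∈ B ↔ ∃ ψ ∈ B', (χ : G → ℂ) = indFun T (ψ : T → ℂ) := by
  have e := (isInducedBlock_iff hM hb hst hNT hB' hψ₀ hc₀).mp hind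
  constructor
  · intro hχ
    obtain ⟨θ, hθ, h⟩ := over_of_cover hM hb hind.2.1
      ⟨_, e ▸ self_mem_blockOf hM _, indIrr_over hM hb hst hNT hc₀⟩ hχ
    obtain ⟨ψ, hc, rfl⟩ := exists_eq_indFun hM hb hst hNT hθ h
    refine ⟨ψ, ?_, rfl⟩
    rw [e] at hχ
    exact IsPBlock.mem_of_sameBlock hM hB' hψ₀ ((sameBlock_indIrr_iff hM hb hst hNT hc₀ hc).mp hχ)
  · rintro ⟨ψ, hψ, h⟩
    have hc := cov_of_sameBlock hM hb hst hNT (IsPBlock.sameBlock hM hB' hψ₀ hψ) hc₀
    rw [show χ = indIrr hM hb hst hNT hc from Subtype.ext h, e]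
    exact (sameBlock_indIrr_iff hM hb hst hNT hc₀ hc).mpr (IsPBlock.sameBlock hM hB' hψ₀ hψ)

theorem factorization_indIrr (hM : IsPModular p M) (hb : IsPBlock M b) (hst : IsStab N b T)
    (hNT : N ≤ T) {ψ : IrrCharacter T} (hc : Cov hNT b ψ) :
    (charDegree (indIrr hM hb hst hNT hc : G → ℂ)).factorization p =
      T.index.factorization p + (charDegree (ψ : T → ℂ)).factorization p := by
  have e : charDegree (indIrr hM hb hst hNT hc : G → ℂ) = T.index * charDegree (ψ : T → ℂ) := by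
    apply Nat.cast_injective (R := ℂ)
    rw [← irr_apply_one, Nat.cast_mul, ← irr_apply_one]
    exact indFun_one T _
  rw [e, Nat.factorization_mul T.index_ne_zero_of_finite (charDegree_pos ψ).ne', Finsupp.add_apply]

theorem minExp_induced (hM : IsPModular p M) (hb : IsPBlock M b) (hst : IsStab N b T)
    (hNT : N ≤ T) {B' : Set (IrrCharacter T)} (hB' : IsPBlock M B') {B : Set (IrrCharacter G)}
    (hind : IsInducedBlock M T B' B) {ψ₀ : IrrCharacter T} (hψ₀ : ψ₀ ∈ B') (hc₀ : Cov hNT b ψ₀) :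
    minExp p B = T.index.factorization p + minExp p B' ∧ blockDefect p B = blockDefect p B' := by
  have hiff := block_iff hM hb hst hNT hB' hind hψ₀ hc₀
  have hcov : ∀ ψ ∈ B', Cov hNT b ψ := fun ψ hψ =>
    cov_of_sameBlock hM hb hst hNT (IsPBlock.sameBlock hM hB' hψ₀ hψ) hc₀
  have h1 : minExp p B = T.index.factorization p + minExp p B' := by
    obtain ⟨ψ, hψ, he⟩ := exists_minExp hM hB'
    obtain ⟨χ, hχ, hf⟩ := exists_minExp hM hind.2.1
    obtain ⟨ψ', hψ', e'⟩ := (hiff χ).mp hχ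
    apply le_antisymm
    · rw [← he, ← factorization_indIrr hM hb hst hNT (hcov ψ hψ)]
      exact minExp_le ((hiff _).mpr ⟨ψ, hψ, rfl⟩)
    · rw [← hf, show χ = indIrr hM hb hst hNT (hcov ψ' hψ') from Subtype.ext e',
        factorization_indIrr]
      exact Nat.add_le_add_left (minExp_le hψ') _
  refine ⟨h1, ?_⟩
  have h2 := congrArg (fun n : ℕ => n.factorization p) T.index_mul_card
  simp only [Nat.factorization_mul T.index_ne_zero_of_finite Nat.card_pos.ne',
    Finsupp.add_apply] at h2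
  rw [blockDefect_eq, blockDefect_eq, h1]
  omega

theorem defectGroup_induced (hM : IsPModular p M) (hb : IsPBlock M b) (hst : IsStab N b T)
    (hNT : N ≤ T) {B' : Set (IrrCharacter T)} (hB' : IsPBlock M B') {B : Set (IrrCharacter G)}
    (hind : IsInducedBlock M T B' B) {ψ₀ : IrrCharacter T} (hψ₀ : ψ₀ ∈ B') (hc₀ : Cov hNT b ψ₀)
    {D : Subgroup T} (hD : IsDefectGroup p M B' D) : IsDefectGroup p M B (D.map T.subtype) := by
  classical
  haveI : Fact p.Prime := ⟨hM.1⟩
  obtain ⟨g, hg⟩ := exists_isDefectClass hM hind.2.1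
  obtain ⟨P⟩ : Nonempty (Sylow p (Subgroup.centralizer ({g} : Set G))) := inferInstance
  have hun := hg.2.2 (indIrr hM hb hst hNT hc₀)
    ((block_iff hM hb hst hNT hB' hind hψ₀ hc₀ _).mpr ⟨ψ₀, hψ₀, rfl⟩)
  haveI : Finite (ConjClasses T) := Finite.of_surjective _ ConjClasses.mk_surjective
  haveI : Fintype (ConjClasses T) := Fintype.ofFinite _
  obtain ⟨t, htg, ht⟩ : ∃ t : T, IsConj g (t : G) ∧
      ¬ MemLocalIdeal M (centralChar (ψ₀ : T → ℂ) t) := by
    by_contra hne
    push Not at hne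
    apply hun
    rw [centralChar_indIrr, inducedCentralChar_eq, omega_eq_sum_centralChar
      (IsCharacter.isClassFunction (isCharacter_irr ψ₀))
      (fun a q => classInd_isClassFunction g (a : G) (q : G))]
    refine mli_sum hM _ fun c _ => ?_
    by_cases hcc : IsConj g ((c.out : T) : G)
    · exact mli_mul_left hM (mlr_classInd hM g _) (hne _ hcc)
    · simp only [classInd, if_neg hcc, zero_mul]
      exact mli_zero hM
  obtain ⟨x, hx⟩ := defectGroup_le_centralizer hM hB' hD hψ₀ ht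
  obtain ⟨w, hw⟩ := isConj_iff.mp htg
  set D₀ := D.map T.subtype with hD₀
  have hle : D₀.map (MulAut.conj (w⁻¹ * (x : G))).toMonoidHom ≤
      Subgroup.centralizer ({g} : Set G) := by
    rintro _ ⟨_, ⟨d, hd, rfl⟩, rfl⟩
    have h1 := Subgroup.mem_centralizer_singleton_iff.mp (hx (Subgroup.mem_map_of_mem _ hd))
    have h2 : ((x : G) * d * (x : G)⁻¹) * (t : G) = (t : G) * ((x : G) * d * (x : G)⁻¹) :=
      congrArg Subtype.val h1
    refine Subgroup.mem_centralizer_singleton_iff.mpr ?_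
    change w⁻¹ * (x : G) * (d : G) * (w⁻¹ * (x : G))⁻¹ * g =
      g * (w⁻¹ * (x : G) * (d : G) * (w⁻¹ * (x : G))⁻¹)
    rw [← hw] at h2
    calc w⁻¹ * (x : G) * (d : G) * (w⁻¹ * (x : G))⁻¹ * g
        = w⁻¹ * (((x : G) * d * (x : G)⁻¹) * (w * g * w⁻¹)) * w := by group
      _ = w⁻¹ * ((w * g * w⁻¹) * ((x : G) * d * (x : G)⁻¹)) * w := by rw [h2]
      _ = _ := by group
  have hDp : IsPGroup p D₀ := (defectGroup_isPGroup hD).map _
  obtain ⟨y, hy⟩ := exists_conj_centralizer_le_sylow (hDp.map _) hle P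
  set DB := (P : Subgroup (Subgroup.centralizer ({g} : Set G))).map
    (Subgroup.centralizer ({g} : Set G)).subtype
  have hDB : IsDefectGroup p M B DB := ⟨g, hg, P, rfl⟩
  have hcard : Nat.card DB = Nat.card D₀ := by
    rw [card_defectGroup hM hind.2.1 hDB, hD₀,
      Subgroup.card_map_of_injective (Subgroup.subtype_injective _), card_defectGroup hM hB' hD,
      (minExp_induced hM hb hst hNT hB' hind hψ₀ hc₀).2]
  have heq := Subgroup.eq_of_le_of_card_ge hy (by rw [card_map_conj, card_map_conj, hcard])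
  set z := y * (w⁻¹ * (x : G))
  have hz : D₀.map (MulAut.conj z).toMonoidHom = DB := by
    have ec : (MulAut.conj y).toMonoidHom.comp (MulAut.conj (w⁻¹ * (x : G))).toMonoidHom =
        (MulAut.conj z).toMonoidHom := by ext a; simp [z, mul_assoc]
    exact (congrArg (fun f => D₀.map f) ec).symm.trans ((Subgroup.map_map D₀ _ _).symm.trans heq)
  have := isDefectGroup_map_conj hM hDB z⁻¹
  rw [← hz, Subgroup.map_map] at this
  rwa [show (MulAut.conj z⁻¹).toMonoidHom.comp (MulAut.conj z).toMonoidHom = MonoidHom.id G by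
    ext a; simp [mul_assoc], Subgroup.map_id] at this

end CfsgLib.Blocks.FR
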