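import Cfsg.Agent.Lib.Blocks.CentComplement
import Cfsg.Agent.Lib.FocalTransfer
import Cfsg.Agent.Lib.Chars.Induced
import Cfsg.Agent.Lib.Chars.Linear
import Mathlib.GroupTheory.FiniteAbelian.Duality

/-!
An abelian Sylow subgroup with a fixed-point-free normalizer action: characters and fusion.
-/

set_option linter.style.haveILetI false
set_option linter.unusedSectionVars false

namespace CfsgLib.Blocks.FS

open scoped ComplexConjugate
open Cfsg CfsgLib.Chars

universe u

variable {G : Type u} [Group G] [Finite G] {p : ℕ} (P : Sylow p G)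

/-- Frobenius action of the normalizer on the Sylow subgroup. -/
def Frob : Prop :=
  ∀ y : G, y ∈ (P : Subgroup G) → y ≠ 1 →
    Subgroup.centralizer ({y} : Set G) ⊓ Subgroup.normalizer ((P : Subgroup G) : Set G) =
      Subgroup.centralizer ((P : Subgroup G) : Set G)

/-- The automorphisms induced by the normalizer. -/
def autGroup : Subgroup (MulAut (P : Subgroup G)) := (Subgroup.normalizerMonoidHom (P : Subgroup G)).range

variable {P}

theorem mem_autGroup {α : MulAut (P : Subgroup G)} :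
    α ∈ autGroup P ↔ ∃ n ∈ Subgroup.normalizer ((P : Subgroup G) : Set G),
      ∀ w : (P : Subgroup G), ((α w : (P : Subgroup G)) : G) = n * w * n⁻¹ := by
  constructor
  · rintro ⟨n, rfl⟩
    exact ⟨n, n.2, fun w => rfl⟩
  · rintro ⟨n, hn, h⟩
    exact ⟨⟨n, hn⟩, MulEquiv.ext fun w => Subtype.ext (h w).symm⟩

theorem card_autGroup : Nat.card (autGroup P) =
    (Subgroup.centralizer ((P : Subgroup G) : Set G)).relIndex
      (Subgroup.normalizer ((P : Subgroup G) : Set G)) := by
  rw [autGroup, ← Subgroup.index_ker, Subgroup.normalizerMonoidHom_ker]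
  rfl

/-- A nontrivial induced automorphism fixes only the identity. -/
theorem free (hF : Frob P) {α : MulAut (P : Subgroup G)} (hα : α ∈ autGroup P) (h1 : α ≠ 1)
    {w : (P : Subgroup G)} (hw : α w = w) : w = 1 := by
  by_contra hne
  obtain ⟨n, hn, hα'⟩ := mem_autGroup.mp hα
  apply h1
  have hnC : n ∈ Subgroup.centralizer ((P : Subgroup G) : Set G) := by
    rw [← hF (w : G) w.2 fun h => hne (Subtype.ext h)]
    refine ⟨Subgroup.mem_centralizer_singleton_iff.mpr (mul_inv_eq_iff_eq_mul.mp ?_), hn⟩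
    rw [← hα' w, hw]
  refine MulEquiv.ext fun v => Subtype.ext ?_
  rw [hα' v]
  simp [← Subgroup.mem_centralizer_iff.mp hnC (v : G) v.2]

section Hom

variable [hab : IsMulCommutative (P : Subgroup G)]

/-- Sum of a homomorphism over the group. -/
theorem hom_sum [Fintype (P : Subgroup G)] (φ : (P : Subgroup G) →* ℂˣ) [Decidable (φ = 1)] :
    ∑ w : (P : Subgroup G), ((φ w : ℂˣ) : ℂ) = if φ = 1 then (Nat.card (P : Subgroup G) : ℂ) else 0 := by
  classical
  rw [show (∑ w : (P : Subgroup G), ((φ w : ℂˣ) : ℂ)) =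
    ∑ w : (P : Subgroup G), ((Units.coeHom ℂ).comp φ) w from rfl, sum_hom_units]
  have : (Units.coeHom ℂ).comp φ = 1 ↔ φ = 1 := by
    constructor
    · intro h; ext w; simpa using DFunLike.congr_fun h w
    · intro h; subst h; ext w; simp
  split_ifs with h1 h2 h2
  · rw [Nat.card_eq_fintype_card]
  · exact absurd (this.mp h1) h2
  · exact absurd (this.mpr h2) h1
  · simp

/-- An induced automorphism fixing a nontrivial character is trivial. -/
theorem free_dual (hF : Frob P) {α : MulAut (P : Subgroup G)} (hα : α ∈ autGroup P) (h1 : α ≠ 1)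
    {φ : (P : Subgroup G) →* ℂˣ} (hφ : φ.comp α.toMonoidHom = φ) : φ = 1 := by
  letI : CommGroup (P : Subgroup G) :=
    { (inferInstance : Group (P : Subgroup G)) with mul_comm := fun a b => mul_comm' a b }
  let f : ↥(P : Subgroup G) → ↥(P : Subgroup G) := fun w => w⁻¹ * α w
  have hinj : Function.Injective f := by
    intro v w h
    simp only [f] at h
    have : α (v * w⁻¹) = v * w⁻¹ := by
      rw [map_mul, map_inv]
      rw [inv_mul_eq_iff_eq_mul] at h
      rw [h]
      group
    exact mul_inv_eq_one.mp (free hF hα h1 this)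
  refine MonoidHom.ext fun v => ?_
  obtain ⟨w, rfl⟩ := Finite.injective_iff_surjective.mp hinj v
  simp only [f, map_mul, map_inv, MonoidHom.one_apply]
  rw [show φ (α w) = φ w from DFunLike.congr_fun hφ w, inv_mul_cancel]
  all_goals simp

theorem card_dual : Nat.card ((P : Subgroup G) →* ℂˣ) = Nat.card (P : Subgroup G) := by
  letI : CommGroup (P : Subgroup G) :=
    { (inferInstance : Group (P : Subgroup G)) with mul_comm := fun a b => mul_comm' a b }
  exact CommGroup.card_monoidHom_of_hasEnoughRootsOfUnity (P : Subgroup G) ℂ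

theorem finite_dual : Finite ((P : Subgroup G) →* ℂˣ) :=
  Nat.finite_of_card_ne_zero (by rw [card_dual]; exact Nat.card_pos.ne')

/-- Sum of all characters at an element. -/
theorem dual_sum [Fintype ((P : Subgroup G) →* ℂˣ)] (z : (P : Subgroup G)) [Decidable (z = 1)] :
    ∑ φ : (P : Subgroup G) →* ℂˣ, ((φ z : ℂˣ) : ℂ) =
      if z = 1 then (Nat.card (P : Subgroup G) : ℂ) else 0 := by
  split_ifs with h
  · subst h
    simp [← card_dual (P := P), Nat.card_eq_fintype_card]
  · letI : CommGroup (P : Subgroup G) :=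
      { (inferInstance : Group (P : Subgroup G)) with mul_comm := fun a b => mul_comm' a b }
    obtain ⟨χ, hχ⟩ := CommGroup.exists_apply_ne_one_of_hasEnoughRootsOfUnity (P : Subgroup G) ℂ h
    have e : ((χ z : ℂˣ) : ℂ) * ∑ φ : (P : Subgroup G) →* ℂˣ, ((φ z : ℂˣ) : ℂ) =
        ∑ φ : (P : Subgroup G) →* ℂˣ, ((φ z : ℂˣ) : ℂ) := by
      rw [Finset.mul_sum]
      refine Fintype.sum_equiv (Equiv.mulLeft χ) _ _ fun φ => ?_
      simp
    by_contra hne
    exact hχ (Units.ext (by simpa using mul_eq_right₀ hne |>.mp e))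

end Hom

/-- The orbit of a character under the normalizer, as in the statements. -/
def orbSet (P : Sylow p G) (ψ : (P : Subgroup G) →* ℂˣ) : Set ((P : Subgroup G) →* ℂˣ) :=
  {ψ' | ∃ n : G, n ∈ Subgroup.normalizer ((P : Subgroup G) : Set G) ∧
    ∀ w w' : (P : Subgroup G), (w' : G) = n * w * n⁻¹ → ψ' w' = ψ w}

theorem mem_orbSet {ψ φ : (P : Subgroup G) →* ℂˣ} :
    φ ∈ orbSet P ψ ↔ ∃ α ∈ autGroup P, φ.comp α.toMonoidHom = ψ := by
  constructor
  · rintro ⟨n, hn, h⟩
    refine ⟨_, ⟨⟨n, hn⟩, rfl⟩, MonoidHom.ext fun w => h w _ rfl⟩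
  · rintro ⟨α, hα, h⟩
    obtain ⟨n, hn, hα'⟩ := mem_autGroup.mp hα
    refine ⟨n, hn, fun w w' hw => ?_⟩
    rw [← h]
    exact congrArg φ (Subtype.ext (hw.trans (hα' w).symm))

theorem orbSet_eq_of_mem {ψ φ : (P : Subgroup G) →* ℂˣ} (h : φ ∈ orbSet P ψ) :
    orbSet P φ = orbSet P ψ := by
  obtain ⟨α, hα, he⟩ := mem_orbSet.mp h
  ext χ
  rw [mem_orbSet, mem_orbSet]
  constructor
  · rintro ⟨β, hβ, e⟩
    refine ⟨β * α, mul_mem hβ hα, ?_⟩
    rw [← he, ← e]
    rfl
  · rintro ⟨β, hβ, e⟩
    refine ⟨β * α⁻¹, mul_mem hβ (inv_mem hα), MonoidHom.ext fun w => ?_⟩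
    have := DFunLike.congr_fun (e.trans he.symm) (α.symm w)
    simpa using this

theorem self_mem_orbSet (ψ : (P : Subgroup G) →* ℂˣ) : ψ ∈ orbSet P ψ :=
  mem_orbSet.mpr ⟨1, one_mem _, rfl⟩

theorem one_notMem_orbSet {ψ φ : (P : Subgroup G) →* ℂˣ} (hψ : ψ ≠ 1) (h : φ ∈ orbSet P ψ) : φ ≠ 1 := by
  rintro rfl
  obtain ⟨α, -, e⟩ := mem_orbSet.mp h
  exact hψ (e.symm.trans (MonoidHom.one_comp _))

theorem card_orbSet [IsMulCommutative (P : Subgroup G)] (hF : Frob P)
    {ψ : (P : Subgroup G) →* ℂˣ} (hψ : ψ ≠ 1) :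
    Nat.card (orbSet P ψ) = Nat.card (autGroup P) := by
  symm
  refine Nat.card_congr (Equiv.ofBijective
    (fun α => ⟨ψ.comp (α : MulAut (P : Subgroup G)).symm.toMonoidHom,
      mem_orbSet.mpr ⟨α, α.2, MonoidHom.ext fun w => by simp⟩⟩) ⟨?_, ?_⟩)
  · intro α β h
    by_contra hne
    apply hψ
    have h' := congrArg Subtype.val h
    refine free_dual hF (mul_mem (inv_mem α.2) β.2 : (α : MulAut (P : Subgroup G))⁻¹ * β ∈ autGroup P)
      (fun e => hne (Subtype.ext (inv_mul_eq_one.mp e))) (MonoidHom.ext fun w => ?_)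
    have := DFunLike.congr_fun h' ((β : MulAut (P : Subgroup G)) w)
    simpa using this
  · rintro ⟨φ, hφ⟩
    obtain ⟨α, hα, e⟩ := mem_orbSet.mp hφ
    refine ⟨⟨α, hα⟩, Subtype.ext (MonoidHom.ext fun w => ?_)⟩
    have := DFunLike.congr_fun e.symm (α.symm w)
    simpa using this

section Fusion

variable [hab : IsMulCommutative (P : Subgroup G)] [Fact p.Prime]

theorem le_centralizer_of_mem {y : G} (hy : y ∈ (P : Subgroup G)) :
    (P : Subgroup G) ≤ Subgroup.centralizer ({y} : Set G) := fun x hx =>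
  Subgroup.mem_centralizer_singleton_iff.mpr
    (congrArg Subtype.val (mul_comm' (⟨x, hx⟩ : (P : Subgroup G)) ⟨y, hy⟩))

/-- Centralizers of nontrivial elements of the Sylow subgroup have normal complements. -/
theorem cent_index (hF : Frob P) {y : G} (hy : y ∈ (P : Subgroup G)) (hy1 : y ≠ 1) :
    (∃ j : ℕ, (pPrimeCore p (Subgroup.centralizer ({y} : Set G))).index = p ^ j) ∧
      p ^ (Nat.card (Subgroup.centralizer ({y} : Set G))).factorization p = Nat.card (P : Subgroup G) := by
  have hle := le_centralizer_of_mem hy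
  set R : Sylow p (Subgroup.centralizer ({y} : Set G)) := P.subtype hle with hR
  have hcard : Nat.card (R : Subgroup (Subgroup.centralizer ({y} : Set G))) =
      Nat.card (P : Subgroup G) := Nat.card_congr (Subgroup.subgroupOfEquivOfLe hle).toEquiv
  refine ⟨?_, by rw [← R.card_eq_multiplicity, hcard]⟩
  have hnorm : Subgroup.normalizer
      ((R : Subgroup (Subgroup.centralizer ({y} : Set G))) : Set (Subgroup.centralizer ({y} : Set G))) ≤
      Subgroup.centralizer ((R : Subgroup (Subgroup.centralizer ({y} : Set G))) : Set _) := by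
    intro g hg
    have hgN : (g : G) ∈ Subgroup.normalizer ((P : Subgroup G) : Set G) := by
      rw [Subgroup.mem_normalizer_iff]
      intro h
      constructor
      · intro hh
        exact ((Subgroup.mem_normalizer_iff.mp hg) ⟨h, hle hh⟩).mp hh
      · intro hh
        have hC : h ∈ Subgroup.centralizer ({y} : Set G) := by
          have := mul_mem (mul_mem (inv_mem g.2) (hle hh)) g.2
          rwa [show (g : G)⁻¹ * ((g : G) * h * (g : G)⁻¹) * (g : G) = h by group] at this
        exact ((Subgroup.mem_normalizer_iff.mp hg) ⟨h, hC⟩).mpr hh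
    have hgC : (g : G) ∈ Subgroup.centralizer ((P : Subgroup G) : Set G) := by
      rw [← hF y hy hy1]; exact ⟨g.2, hgN⟩
    rw [Subgroup.mem_centralizer_iff]
    intro h hh
    exact Subtype.ext (Subgroup.mem_centralizer_iff.mp hgC (h : G) hh)
  obtain ⟨R', N, hN, hNc⟩ := FocalTransfer.npc_of_normalizer_le R hnorm
  have hNcop : (Nat.card N).Coprime p := by
    have h1 := hNc.card_mul_card
    have h2 : (Nat.card (Subgroup.centralizer ({y} : Set G))).factorization p =
        (Nat.card N).factorization p +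
          (Nat.card (Subgroup.centralizer ({y} : Set G))).factorization p := by
      conv_lhs => rw [← h1, Nat.factorization_mul Nat.card_pos.ne' Nat.card_pos.ne', Finsupp.add_apply,
        R'.card_eq_multiplicity, (Fact.out : p.Prime).factorization_pow, Finsupp.single_eq_same]
    refine Nat.Coprime.symm ((Nat.Prime.coprime_iff_not_dvd Fact.out).mpr fun h => ?_)
    have := (Fact.out : p.Prime).factorization_pos_of_dvd Nat.card_pos.ne' h
    omega
  have hidx : (pPrimeCore p (Subgroup.centralizer ({y} : Set G))).index ∣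
      p ^ (Nat.card (Subgroup.centralizer ({y} : Set G))).factorization p := by
    refine (Subgroup.index_dvd_of_le (Core.le_pPrimeCore hN hNcop)).trans ?_
    rw [hNc.symm.index_eq_card, R'.card_eq_multiplicity]
  obtain ⟨j, -, hj⟩ := (Nat.dvd_prime_pow Fact.out).mp hidx
  exact ⟨j, hj⟩

/-- Fusion in the Sylow subgroup is controlled by the induced automorphisms. -/
theorem isConj_iff_aut {v w : (P : Subgroup G)} :
    IsConj (v : G) (w : G) ↔ ∃ α ∈ autGroup P, α v = w := by
  constructor
  · intro h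
    obtain ⟨g, hg⟩ := isConj_iff.mp h
    obtain ⟨n, hn, e⟩ := P.conj_eq_normalizer_conj_of_mem (v : G) g⁻¹ v.2
      (by rw [inv_inv, hg]; exact w.2)
    rw [inv_inv, hg] at e
    refine ⟨_, ⟨⟨n⁻¹, inv_mem hn⟩, rfl⟩, Subtype.ext ?_⟩
    change n⁻¹ * (v : G) * n⁻¹⁻¹ = (w : G)
    rw [inv_inv, e]
  · rintro ⟨α, hα, rfl⟩
    obtain ⟨n, -, e⟩ := mem_autGroup.mp hα
    exact isConj_iff.mpr ⟨n, (e v).symm⟩

end Fusion

end CfsgLib.Blocks.FS
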