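import Cfsg.Agent.Lib.Blocks.FrobeniusLattice

/-!
Exceptional and non-exceptional characters of the principal block for an abelian Sylow subgroup
with a fixed-point-free normalizer action.
-/

set_option linter.style.haveILetI false
set_option linter.unusedSectionVars false

namespace CfsgLib.Blocks.FS

open scoped ComplexConjugate
open Cfsg CfsgLib.Chars

universe u

variable {G : Type u} [Group G] [Fintype G] {p : ℕ} [Fact p.Prime]

/-- The shape of the principal block. -/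
structure BlockShape (M : Ideal AlgInt) (P : Sylow p G) (m : ℕ) where
  /-- The characters constant on the nontrivial sections. -/
  X : Set (IrrCharacter G)
  /-- The exceptional characters. -/
  Y : Set (IrrCharacter G)
  /-- The constants. -/
  a : IrrCharacter G → ℤ
  /-- The common shift. -/
  d : ℤ
  /-- The sign. -/
  δ : ℤ
  /-- The labelling of the exceptional characters. -/
  ζ : ((P : Subgroup G) →* ℂˣ) → IrrCharacter G
  union_eq : principalBlock M G = X ∪ Y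
  disjoint : Disjoint X Y
  card_mul : Nat.card (P : Subgroup G) = m * Nat.card Y + 1
  two_le : 2 ≤ Nat.card Y
  card_le : Nat.card X ≤ m
  triv_mem : trivIrr G ∈ X
  a_triv : a (trivIrr G) = 1
  sign : δ = 1 ∨ δ = -1
  a_ne : ∀ χ ∈ X, a χ ≠ 0
  valueX : ∀ χ ∈ X, ∀ z y : G, IsPPart p z y → y ∈ (P : Subgroup G) → y ≠ 1 →
    (χ : G → ℂ) z = (a χ : ℂ)
  ζ_mem : ∀ ψ : (P : Subgroup G) →* ℂˣ, ψ ≠ 1 → ζ ψ ∈ Y
  ζ_surj : ∀ η ∈ Y, ∃ ψ : (P : Subgroup G) →* ℂˣ, ψ ≠ 1 ∧ ζ ψ = η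
  ζ_orbit : ∀ ψ ψ' : (P : Subgroup G) →* ℂˣ, ψ ≠ 1 → ψ' ∈ orbSet P ψ → ζ ψ' = ζ ψ
  valueY : ∀ ψ : (P : Subgroup G) →* ℂˣ, ψ ≠ 1 → ∀ (z : G) (y : (P : Subgroup G)),
    IsPPart p z (y : G) → (y : G) ≠ 1 → (ζ ψ : G → ℂ) z =
      (d : ℂ) + (δ : ℂ) * ∑ᶠ ψ' ∈ orbSet P ψ, ((ψ' y : ℂˣ) : ℂ)
  square_sum : (d - δ) ^ 2 + ((Nat.card Y : ℤ) - 1) * d ^ 2 + ∑ᶠ χ ∈ X, a χ ^ 2 = (m : ℤ) + 1
  regular_eq : ∀ η ∈ Y, ∀ η' ∈ Y, ∀ g : G, ¬ p ∣ orderOf g → (η : G → ℂ) g = (η' : G → ℂ) g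
  relation : ∀ η ∈ Y, ∀ g : G, ¬ p ∣ orderOf g →
    ((Nat.card Y : ℂ) * d - δ) * (η : G → ℂ) g + ∑ᶠ χ ∈ X, (a χ : ℂ) * (χ : G → ℂ) g = 0
  two_ne : Nat.card Y = 2 → d ≠ δ

theorem nonempty_shape {M : Ideal AlgInt} (hM : IsPModular p M) {P : Sylow p G}
    (hab : IsMulCommutative (P : Subgroup G)) (hF : Frob P) (hP1 : Nat.card (P : Subgroup G) ≠ 1)
    {m : ℕ} (hm : Nat.card (autGroup P) = m) (hm2 : m + 1 < Nat.card (P : Subgroup G)) :
    Nonempty (BlockShape M P m) := by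
  classical
  haveI : Fintype (P : Subgroup G) := Fintype.ofFinite _
  haveI : Finite ((P : Subgroup G) →* ℂˣ) := finite_dual
  haveI : Fintype ((P : Subgroup G) →* ℂˣ) := Fintype.ofFinite _
  let f : {ψ : (P : Subgroup G) →* ℂˣ // ψ ≠ 1} → Set ((P : Subgroup G) →* ℂˣ) :=
    fun ψ => orbSet P ψ.1
  let ι := Set.range f
  haveI : Fintype ι := Fintype.ofFinite _
  let o : {ψ : (P : Subgroup G) →* ℂˣ // ψ ≠ 1} → ι := Set.rangeFactorization f
  choose r hr using fun i : ι => i.2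
  have ho : ∀ i, o (r i) = i := fun i => Subtype.ext (hr i)
  have hcount : Nat.card (P : Subgroup G) = m * Fintype.card ι + 1 := by
    have hfib : ∀ i : ι, (Finset.univ.filter fun ψ => o ψ = i).card = m := by
      intro i
      rw [← Fintype.card_subtype, ← Nat.card_eq_fintype_card, ← hm, ← card_orbSet hF (r i).2]
      refine Nat.card_congr ⟨fun ψ => ⟨ψ.1.1, ?_⟩,
        fun φ => ⟨⟨φ.1, one_notMem_orbSet (r i).2 φ.2⟩, ?_⟩, fun ψ => rfl, fun φ => rfl⟩
      · have h := congrArg Subtype.val (ψ.2.trans (ho i).symm)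
        exact (Set.ext_iff.mp (h : orbSet P ψ.1.1 = orbSet P (r i).1) _).mp (self_mem_orbSet _)
      · exact (Subtype.ext (orbSet_eq_of_mem φ.2)).trans (ho i)
    have h := Finset.card_eq_sum_card_fiberwise (s := Finset.univ) (t := Finset.univ) (f := o)
      (fun _ _ => Finset.mem_univ _)
    simp only [hfib, Finset.sum_const, Finset.card_univ, smul_eq_mul] at h
    rw [Fintype.card_subtype_compl, Fintype.card_subtype_eq, ← Nat.card_eq_fintype_card, card_dual] at h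
    have := Nat.card_pos (α := (P : Subgroup G))
    rw [mul_comm] at h
    omega
  have ht : 2 ≤ Fintype.card ι := by
    by_contra h
    interval_cases Fintype.card ι <;> omega
  let β := {χ : IrrCharacter G // χ ∈ principalBlock M G}
  let U : ι → β → ℤ := fun i b => vec b.1 (r i).1
  have hsub : ∀ (F : IrrCharacter G → ℂ),
      ∑ χ ∈ Finset.univ.filter (· ∈ principalBlock M G), F χ = ∑ b : β, F b.1 :=
    fun F => Finset.sum_subtype _ (fun χ => by simp) F
  have hg : ∀ i j, ∑ b, U i b * U j b = (if i = j then 1 else 0) + (m : ℤ) := by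
    intro i j
    rw [← hm, ← Finset.sum_subtype (Finset.univ.filter (· ∈ principalBlock M G)) (fun χ => by simp)
      (fun χ => vec χ (r i).1 * vec χ (r j).1), gram hM hF (r i).2 (r j).2]
    congr 1
    refine if_congr ⟨fun h => ?_, fun h => h ▸ self_mem_orbSet _⟩ rfl rfl
    exact (ho i).symm.trans ((Subtype.ext (orbSet_eq_of_mem h).symm : o (r i) = o (r j)).trans (ho j))
  have horth : ∀ {g : G}, ¬ p ∣ orderOf g → ∀ i, ∑ b : β, (b.1 : G → ℂ) g * (U i b : ℂ) = 0 :=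
    fun {g} hgr i => (hsub fun χ => (χ : G → ℂ) g * (vec χ (r i).1 : ℂ)).symm.trans
      (vec_orth hM hF hgr _)
  have hdeg : ∀ i, ∑ b : β, (charDegree (b.1 : G → ℂ) : ℤ) * U i b = 0 := by
    intro i
    have h := horth (not_dvd_orderOf_one hM) i
    simp only [irr_apply_one] at h
    exact_mod_cast h
  obtain ⟨δ, c, y, w, hδ, hy, hU, hc, hnorm, hflip⟩ := CV.coherent U
    (fun b => (charDegree (b.1 : G → ℂ) : ℤ)) (fun b => by exact_mod_cast charDegree_pos b.1)
    (m : ℤ) hg hdeg ht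
  have hδ2 : δ * δ = 1 := by rcases hδ with h | h <;> simp [h]
  let tr : β := ⟨trivIrr G, self_mem_blockOf hM (trivIrr G)⟩
  have htr : ∀ i, y i ≠ tr := by
    intro i he
    obtain ⟨j, hj⟩ := Fintype.exists_ne_of_one_lt_card (by omega : 1 < Fintype.card ι) i
    have h1 := hU i tr
    have h2 := hU j tr
    rw [← he, CV.unit_ne (fun h => hj (hy h).symm), he] at h2
    rw [← he, CV.unit_self, he] at h1
    simp only [U, tr, vec_triv (r i).2] at h1
    simp only [U, tr, vec_triv (r j).2] at h2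
    rcases hδ with h | h <;> rw [h] at h1 <;> linarith
  have hwtr : w tr = -1 := by
    obtain ⟨i⟩ : Nonempty ι := Fintype.card_pos_iff.mp (by omega)
    have h1 := hU i tr
    rw [CV.unit_ne (htr i).symm] at h1
    simp only [U, tr, vec_triv (r i).2, mul_zero, zero_add] at h1
    exact h1.symm
  -- vectors at every character of the subgroup
  have hvec : ∀ (ψ : (P : Subgroup G) →* ℂˣ) (h : ψ ≠ 1) (b : β),
      vec b.1 ψ = δ * CV.unit (y (o ⟨ψ, h⟩)) b + w b := by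
    intro ψ h b
    rw [← hU]
    refine vec_invariant ?_ b.1
    exact (Set.ext_iff.mp (congrArg Subtype.val (ho (o ⟨ψ, h⟩)) : orbSet P (r (o ⟨ψ, h⟩)).1 = orbSet P ψ) _).mpr
      (self_mem_orbSet ψ)
  have hvalue : ∀ (b : β) (v : (P : Subgroup G)), v ≠ 1 → (b.1 : G → ℂ) (v : G) =
      -(w b : ℂ) + (δ : ℂ) * ∑ ψ ∈ Finset.univ.filter
        (fun ψ : (P : Subgroup G) →* ℂˣ => ∃ h : ψ ≠ 1, y (o ⟨ψ, h⟩) = b), ((ψ v : ℂˣ) : ℂ) := by
    intro b v hv
    rw [value_eq b.1 hv]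
    have hpt : ∀ ψ : (P : Subgroup G) →* ℂˣ, (vec b.1 ψ : ℂ) * ((ψ v : ℂˣ) : ℂ) =
        (w b : ℂ) * ((ψ v : ℂˣ) : ℂ) + (if ψ = 1 then -(w b : ℂ) else 0) +
        (δ : ℂ) * (if ∃ h : ψ ≠ 1, y (o ⟨ψ, h⟩) = b then ((ψ v : ℂˣ) : ℂ) else 0) := by
      intro ψ
      by_cases h : ψ = 1
      · subst h
        simp [vec]
      · rw [hvec ψ h b, if_neg h]
        by_cases hb : y (o ⟨ψ, h⟩) = b
        · rw [if_pos ⟨h, hb⟩, hb, CV.unit_self]; push_cast; ring
        · rw [if_neg (fun ⟨_, e⟩ => hb e), CV.unit_ne (Ne.symm hb)]; push_cast; ring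
    simp only [hpt, Finset.sum_add_distrib, ← Finset.mul_sum, dual_sum, if_neg hv, mul_zero, zero_add,
      Finset.sum_ite_eq', Finset.mem_univ, if_true, Finset.sum_filter]
  have horb : ∀ (ψ : (P : Subgroup G) →* ℂˣ) (h : ψ ≠ 1),
      Finset.univ.filter (fun φ : (P : Subgroup G) →* ℂˣ => ∃ h' : φ ≠ 1, y (o ⟨φ, h'⟩) = y (o ⟨ψ, h⟩)) =
        Finset.univ.filter (· ∈ orbSet P ψ) := by
    intro ψ h
    ext φ
    simp only [Finset.mem_filter, Finset.mem_univ, true_and]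
    constructor
    · rintro ⟨h', e⟩
      have e' : orbSet P φ = orbSet P ψ := congrArg Subtype.val (hy e)
      exact e' ▸ self_mem_orbSet φ
    · exact fun hφ => ⟨one_notMem_orbSet h hφ, congrArg y (Subtype.ext (orbSet_eq_of_mem hφ))⟩
  set XF : Finset β := Finset.univ \ Finset.univ.image y with hXF
  have hmemX : ∀ b, b ∈ XF ↔ ∀ i, y i ≠ b := fun b => by simp [hXF]
  have hsplit : ∀ F : β → ℂ, ∑ b, F b = ∑ b ∈ XF, F b + ∑ i, F (y i) := fun F => by
    rw [← Finset.sum_image (g := y) (f := F) hy.injOn, hXF,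
      Finset.sum_sdiff (Finset.subset_univ _)]
  have hsplitZ : ∀ F : β → ℤ, ∑ b, F b = ∑ b ∈ XF, F b + ∑ i, F (y i) := fun F => by
    rw [← Finset.sum_image (g := y) (f := F) hy.injOn, hXF,
      Finset.sum_sdiff (Finset.subset_univ _)]
  let a : IrrCharacter G → ℤ := fun χ => if h : χ ∈ principalBlock M G then -w ⟨χ, h⟩ else 0
  have ha : ∀ b : β, a b.1 = -w b := fun b => by simp [a, b.2]
  have haX : ∀ b ∈ XF, w b ≠ 0 := by
    intro b hb hw0
    obtain ⟨ψ, hψ⟩ := exists_vec_ne hM hF hP1 b.2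
    by_cases h : ψ = 1
    · exact hψ (by rw [h, vec, sub_self])
    · rw [hvec ψ h b, CV.unit_ne ((hmemX b).mp hb _).symm, hw0] at hψ
      simp at hψ
  have hsq : (-c - δ) ^ 2 + ((Fintype.card ι : ℤ) - 1) * (-c) ^ 2 + ∑ b ∈ XF, (-w b) ^ 2 = (m : ℤ) + 1 := by
    rw [hsplitZ] at hnorm
    simp only [hc, Finset.sum_const, Finset.card_univ, nsmul_eq_mul] at hnorm
    simp only [sq, neg_mul_neg]
    linear_combination hnorm + hδ2
  have hXle : XF.card ≤ m := by
    have h1 : (XF.card : ℤ) ≤ ∑ b ∈ XF, (-w b) ^ 2 := by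
      rw [Finset.cast_card]
      refine Finset.sum_le_sum fun b hb => ?_
      have := sq_pos_of_ne_zero (neg_ne_zero.mpr (haX b hb))
      omega
    have h2 : 1 ≤ (-c - δ) ^ 2 + ((Fintype.card ι : ℤ) - 1) * (-c) ^ 2 := by
      by_cases h0 : c = 0
      · subst h0; rcases hδ with h | h <;> simp [h]
      · have := sq_pos_of_ne_zero (neg_ne_zero.mpr h0)
        have : (2 : ℤ) ≤ Fintype.card ι := by exact_mod_cast ht
        nlinarith [sq_nonneg (-c - δ)]
    have : (XF.card : ℤ) ≤ m := by linarith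
    exact_mod_cast this
  have hcardY : Nat.card (Subtype.val '' Set.range y : Set (IrrCharacter G)) = Fintype.card ι := by
    rw [Nat.card_image_of_injective Subtype.val_injective, Nat.card_range_of_injective hy,
      Nat.card_eq_fintype_card]
  have hcardX : Nat.card (Subtype.val '' (XF : Set β) : Set (IrrCharacter G)) = XF.card := by
    rw [Nat.card_image_of_injective Subtype.val_injective, Nat.card_coe_set_eq, Set.ncard_coe_finset]
  have hδC : (δ : ℂ) ≠ 0 := by rcases hδ with h | h <;> simp [h]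
  have heta : ∀ {g : G}, ¬ p ∣ orderOf g → ∀ k,
      (δ : ℂ) * ((y k).1 : G → ℂ) g + ∑ b : β, (b.1 : G → ℂ) g * (w b : ℂ) = 0 := by
    intro g hgr k
    have h := horth hgr k
    simp only [hU, Int.cast_add, Int.cast_mul, mul_add, Finset.sum_add_distrib] at h
    rw [Finset.sum_eq_single (y k) (fun b _ hb => by rw [CV.unit_ne hb]; simp) (by simp),
      CV.unit_self] at h
    linear_combination h
  refine ⟨{
    X := Subtype.val '' (XF : Set β)
    Y := Subtype.val '' Set.range y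
    a := a
    d := -c
    δ := δ
    ζ := fun ψ => if h : ψ ≠ 1 then (y (o ⟨ψ, h⟩)).1 else trivIrr G
    union_eq := ?_
    disjoint := ?_
    card_mul := by rw [hcardY]; exact hcount
    two_le := by rw [hcardY]; exact ht
    card_le := by rw [hcardX]; exact hXle
    triv_mem := ⟨tr, (hmemX tr).mpr htr, rfl⟩
    a_triv := by rw [show trivIrr G = tr.1 from rfl, ha, hwtr]; rfl
    sign := hδ
    a_ne := ?_
    valueX := ?_
    ζ_mem := ?_
    ζ_surj := ?_
    ζ_orbit := ?_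
    valueY := ?_
    square_sum := ?_
    regular_eq := ?_
    relation := ?_
    two_ne := ?_ }⟩
  · ext χ
    constructor
    · intro hχ
      by_cases h : ∃ i, y i = (⟨χ, hχ⟩ : β)
      · obtain ⟨i, hi⟩ := h
        exact Or.inr ⟨_, ⟨i, rfl⟩, congrArg Subtype.val hi⟩
      · exact Or.inl ⟨⟨χ, hχ⟩, (hmemX _).mpr fun i hi => h ⟨i, hi⟩, rfl⟩
    · rintro (⟨b, -, rfl⟩ | ⟨b, -, rfl⟩) <;> exact b.2
  · rw [Set.disjoint_left]
    rintro _ ⟨b, hb, rfl⟩ ⟨b', ⟨i, rfl⟩, e⟩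
    exact (hmemX b).mp hb i (Subtype.ext e)
  · rintro _ ⟨b, hb, rfl⟩
    rw [ha]
    exact neg_ne_zero.mpr (haX b hb)
  · rintro _ ⟨b, hb, rfl⟩ z v hz hv hv1
    rw [value_section hM hF b.2 hz hv hv1, show v = ((⟨v, hv⟩ : (P : Subgroup G)) : G) from rfl,
      hvalue b ⟨v, hv⟩ (fun h => hv1 (congrArg Subtype.val h)), ha,
      Finset.filter_false_of_mem (fun ψ _ => fun ⟨h, e⟩ => (hmemX b).mp hb _ e), Finset.sum_empty]
    push_cast
    ring
  · intro ψ hψ
    simp only [dif_pos hψ]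
    exact ⟨_, ⟨_, rfl⟩, rfl⟩
  · rintro _ ⟨_, ⟨i, rfl⟩, rfl⟩
    refine ⟨(r i).1, (r i).2, ?_⟩
    simp only [dif_pos (r i).2]
    exact congrArg (fun j => (y j).1) (ho i)
  · intro ψ ψ' hψ h
    simp only [dif_pos hψ, dif_pos (one_notMem_orbSet hψ h)]
    exact congrArg (fun j => (y j).1) (Subtype.ext (orbSet_eq_of_mem h))
  · intro ψ hψ z v hz hv1
    simp only [dif_pos hψ]
    rw [value_section hM hF (y (o ⟨ψ, hψ⟩)).2 hz v.2 hv1,
      hvalue _ v (fun h => hv1 (congrArg Subtype.val h)), hc, horb ψ hψ, finsum_mem_eq_toFinset_sum]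
    rw [Int.cast_neg]
    congr 2
    exact Finset.sum_congr (by ext φ; simp) fun _ _ => rfl
  · rw [hcardY, finsum_mem_image Subtype.val_injective.injOn, finsum_mem_coe_finset]
    simp only [ha]
    exact hsq
  · rintro _ ⟨_, ⟨i, rfl⟩, rfl⟩ _ ⟨_, ⟨j, rfl⟩, rfl⟩ g hgr
    exact mul_left_cancel₀ hδC (add_right_cancel ((heta hgr i).trans (heta hgr j).symm))
  · rintro _ ⟨_, ⟨i, rfl⟩, rfl⟩ g hgr
    have hi := heta hgr i
    have heq : ∀ k, ((y k).1 : G → ℂ) g = ((y i).1 : G → ℂ) g := fun k =>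
      mul_left_cancel₀ hδC (add_right_cancel ((heta hgr k).trans hi.symm))
    rw [hsplit (fun b => (b.1 : G → ℂ) g * (w b : ℂ))] at hi
    simp only [hc, heq, Finset.sum_const, Finset.card_univ, nsmul_eq_mul] at hi
    rw [hcardY, finsum_mem_image Subtype.val_injective.injOn, finsum_mem_coe_finset]
    have hX : ∑ b ∈ XF, (a b.1 : ℂ) * (b.1 : G → ℂ) g = -∑ b ∈ XF, (b.1 : G → ℂ) g * (w b : ℂ) := by
      rw [← Finset.sum_neg_distrib]
      exact Finset.sum_congr rfl fun b _ => by rw [ha]; push_cast; ring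
    rw [hX, Int.cast_neg]
    linear_combination -hi
  · rw [hcardY]
    intro h2 he
    exact hflip h2 (by linarith)

end CfsgLib.Blocks.FS
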