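import Cfsg.Agent.Lib.Blocks.FrobeniusMain
import Cfsg.Agent.Lib.Blocks.KleinPrincipal
import Cfsg.Agent.Lib.Chars.Kernel

/-!
An abelian Sylow subgroup with a fixed-point-free normalizer action of order three.
-/

set_option linter.style.haveILetI false
set_option linter.unusedSectionVars false

namespace CfsgLib.Blocks.FS

open scoped ComplexConjugate
open Cfsg CfsgLib.Chars

universe u

variable {G : Type u} [Group G] [Fintype G] {p : ℕ} [Fact p.Prime]

/-- The numerical conclusion. -/
theorem three_arith {x₁ x₂ x₃ z₁ z₂ z₃ : ℤ} (h₁ : x₁ ≠ 0) (h₂ : x₂ ≠ 0) (h₃ : x₃ ≠ 0)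
    (hx : x₁ + x₂ + x₃ = -1) (hz : z₁ + z₂ + z₃ = 0) (hz₁ : z₁ ≠ 0)
    (hq : z₁ ^ 2 * (x₂ * x₃) + z₂ ^ 2 * (x₁ * x₃) + z₃ ^ 2 * (x₁ * x₂) = 0) :
    0 < x₁ * x₂ * x₃ ∧ IsSquare (x₁ * x₂ * x₃) ∧
      (if x₁ < 0 then 1 else 0) + (if x₂ < 0 then 1 else 0) + (if x₃ < 0 then (1 : ℕ) else 0) = 2 := by
  obtain rfl : z₃ = -z₁ - z₂ := by linarith
  obtain rfl : x₃ = -1 - x₁ - x₂ := by linarith
  set x₃ := -1 - x₁ - x₂ with hx₃
  have hkey : ((x₂ * x₃ + x₁ * x₂) * z₁ + x₁ * x₂ * z₂) ^ 2 = z₂ ^ 2 * (x₁ * x₂ * x₃) := by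
    rw [hx₃] at hq ⊢
    linear_combination (x₂ * (-1 - x₁ - x₂) + x₁ * x₂) * hq
  have hz₂ : z₂ = 0 → x₁ + x₃ = 0 := by
    intro h0
    subst h0
    have : z₁ ^ 2 * x₂ * (x₁ + x₃) = 0 := by linear_combination hq
    rcases mul_eq_zero.mp this with h | h
    · rcases mul_eq_zero.mp h with h' | h'
      · exact absurd (eq_zero_of_pow_eq_zero h') hz₁
      · exact absurd h' h₂
    · exact h
  have hsq : IsSquare (x₁ * x₂ * x₃) := by
    by_cases h0 : z₂ = 0
    · have h := hz₂ h0
      obtain rfl : x₂ = -1 := by linarith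
      exact ⟨x₁, by rw [show x₃ = -x₁ by linarith]; ring⟩
    · obtain ⟨q, hq'⟩ := (Int.pow_dvd_pow_iff two_ne_zero).mp
        (⟨_, hkey⟩ : z₂ ^ 2 ∣ ((x₂ * x₃ + x₁ * x₂) * z₁ + x₁ * x₂ * z₂) ^ 2)
      refine ⟨q, mul_left_cancel₀ (pow_ne_zero 2 h0) ?_⟩
      rw [← hkey, hq']
      ring
  obtain ⟨r, hr⟩ := id hsq
  have hpos : 0 < x₁ * x₂ * x₃ :=
    lt_of_le_of_ne (hr ▸ mul_self_nonneg r) (Ne.symm (mul_ne_zero (mul_ne_zero h₁ h₂) h₃))
  refine ⟨hpos, hsq, ?_⟩
  rcases lt_or_gt_of_ne h₁ with a | a <;> rcases lt_or_gt_of_ne h₂ with b | b <;>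
    rcases lt_or_gt_of_ne h₃ with c | c <;>
    simp only [a, b, c, not_lt.mpr a.le, not_lt.mpr b.le, not_lt.mpr c.le, if_true, if_false] <;>
    first | rfl | nlinarith [mul_pos_of_neg_of_neg a b] | nlinarith [mul_pos a b] |
      nlinarith [mul_neg_of_neg_of_pos a b] | nlinarith [mul_neg_of_pos_of_neg a b] | linarith

variable {M : Ideal AlgInt} {P : Sylow p G}

open Classical in
/-- The shift vanishes and the constants are signs. -/
theorem three_shape (D : BlockShape M P 3) (hM : IsPModular p M) :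
    D.d = 0 ∧ (∀ χ ∈ D.X, D.a χ = 1 ∨ D.a χ = -1) ∧ Nat.card D.X = 3 := by
  have hsum := D.square_sum
  rw [finsum_mem_eq_toFinset_sum] at hsum
  set S := ∑ χ ∈ D.X.toFinset, D.a χ ^ 2 with hS
  have hone : ∀ χ ∈ D.X.toFinset, 1 ≤ D.a χ ^ 2 := fun χ hχ => by
    have := sq_pos_of_ne_zero (D.a_ne χ (Set.mem_toFinset.mp hχ))
    omega
  have hle : (D.X.toFinset.card : ℤ) ≤ S := by
    rw [hS, Finset.cast_card]
    exact Finset.sum_le_sum hone
  have htriv : (1 : ℤ) ≤ D.X.toFinset.card := by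
    exact_mod_cast Finset.card_pos.mpr ⟨_, Set.mem_toFinset.mpr D.triv_mem⟩
  have ht : (2 : ℤ) ≤ (Nat.card D.Y : ℤ) := by exact_mod_cast D.two_le
  have hd0 : D.d = 0 := by
    by_contra hd
    have h1 : 1 ≤ D.d ^ 2 := by have := sq_pos_of_ne_zero hd; omega
    have hp : D.d ^ 2 ≤ ((Nat.card D.Y : ℤ) - 1) * D.d ^ 2 :=
      le_mul_of_one_le_left (sq_nonneg _) (by linarith)
    push_cast at hsum
    have h2 : (D.d - D.δ) ^ 2 ≤ 2 := by linarith
    have h3 : D.d ^ 2 ≤ 3 := by linarith [sq_nonneg (D.d - D.δ)]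
    have hd1 : -1 ≤ D.d := by nlinarith
    have hd2 : D.d ≤ 1 := by nlinarith
    have hde : D.d = D.δ := by
      rcases D.sign with h | h <;> rw [h] at h2 ⊢
      · by_contra hne
        have : D.d = -1 := by omega
        rw [this] at h2; norm_num at h2
      · by_contra hne
        have : D.d = 1 := by omega
        rw [this] at h2; norm_num at h2
    have hδ2 : D.δ ^ 2 = 1 := by rcases D.sign with h | h <;> simp [h]
    rw [hde, sub_self, hδ2, mul_one] at hsum
    have hcases : Nat.card D.Y = 2 ∨ Nat.card D.Y = 3 ∨ Nat.card D.Y = 4 := by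
      have : (Nat.card D.Y : ℤ) ≤ 4 := by push_cast at hsum; linarith
      omega
    rcases hcases with h | h | h
    · exact D.two_ne h hde
    · have h10 : p ^ (Nat.card G).factorization p = 10 := by
        rw [← P.card_eq_multiplicity, D.card_mul, h]
      have hp : p ∣ 10 := by
        rw [← h10]
        refine dvd_pow_self _ fun e => ?_
        rw [e] at h10; norm_num at h10
      have e2 := (Nat.prime_dvd_prime_iff_eq Nat.prime_two Fact.out).mp
        ((Nat.prime_two).dvd_of_dvd_pow (h10 ▸ (by norm_num : 2 ∣ 10)))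
      have e5 := (Nat.prime_dvd_prime_iff_eq (by norm_num : Nat.Prime 5) Fact.out).mp
        ((by norm_num : Nat.Prime 5).dvd_of_dvd_pow (h10 ▸ (by norm_num : 5 ∣ 10)))
      omega
    · rw [h] at hsum
      push_cast at hsum
      have hcard1 : D.X.toFinset.card = 1 := by omega
      obtain ⟨χ₀, hχ₀⟩ := Finset.card_eq_one.mp hcard1
      have htr : trivIrr G = χ₀ := by
        have := Set.mem_toFinset.mpr D.triv_mem
        rwa [hχ₀, Finset.mem_singleton] at this
      obtain ⟨η, hη⟩ : D.Y.Nonempty := by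
        rw [Set.nonempty_iff_ne_empty]
        rintro e
        simp [e] at h
      have hrel := D.relation η hη 1 (not_dvd_orderOf_one hM)
      rw [finsum_mem_eq_toFinset_sum, hχ₀, Finset.sum_singleton, ← htr, D.a_triv, h, hde,
        irr_apply_one] at hrel
      simp only [trivIrr] at hrel
      have hrelZ : (4 * D.δ - D.δ) * (charDegree (η : G → ℂ) : ℤ) + 1 = 0 := by
        have : (((4 * D.δ - D.δ) * (charDegree (η : G → ℂ) : ℤ) + 1 : ℤ) : ℂ) = 0 := by
          push_cast at hrel ⊢
          linear_combination hrel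
        exact_mod_cast this
      rcases D.sign with e | e <;> rw [e] at hrelZ <;> omega
  have hδ2 : D.δ ^ 2 = 1 := by rcases D.sign with h | h <;> simp [h]
  have hS3 : S = 3 := by
    rw [hd0, zero_sub, neg_sq, hδ2] at hsum
    push_cast at hsum
    linarith [hsum]
  have hsign : ∀ χ ∈ D.X, D.a χ ^ 2 = 1 := by
    intro χ hχ
    have h1 := Finset.single_le_sum (fun i _ => sq_nonneg (D.a i)) (Set.mem_toFinset.mpr hχ)
    rw [← hS, hS3] at h1
    have h2 := hone χ (Set.mem_toFinset.mpr hχ)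
    have : -1 ≤ D.a χ := by nlinarith
    have : D.a χ ≤ 1 := by nlinarith
    have := D.a_ne χ hχ
    rcases (by omega : D.a χ = 1 ∨ D.a χ = -1) with e | e <;> simp [e]
  refine ⟨hd0, fun χ hχ => sq_eq_one_iff.mp (hsign χ hχ), ?_⟩
  have : (D.X.toFinset.card : ℤ) = 3 := by
    rw [← hS3, hS, Finset.cast_card]
    exact Finset.sum_congr rfl fun χ hχ => (hsign χ (Set.mem_toFinset.mp hχ)).symm
  rw [Nat.card_coe_set_eq, Set.ncard_eq_toFinset_card']
  exact_mod_cast this

/-- A character other than the principal one separates a normally generating element. -/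
theorem value_ne_degree {t : G} (hgen : ∀ K : Subgroup G, K.Normal → t ∈ K → K = ⊤)
    {χ : IrrCharacter G} (hχ : χ ≠ trivIrr G) : (χ : G → ℂ) t ≠ (χ : G → ℂ) 1 := by
  classical
  intro h
  obtain ⟨K, hKn, hK, -⟩ := IsCharacter.exists_kernel (isCharacter_irr χ)
  have htop := hgen K hKn ((hK t).mpr h)
  have hs := sum_mul_conj_irr χ (trivIrr G)
  rw [if_neg hχ] at hs
  have hconst : ∀ g : G, (χ : G → ℂ) g = (χ : G → ℂ) 1 := fun g => (hK g).mp (htop ▸ Subgroup.mem_top g)
  simp only [trivIrr, map_one, mul_one] at hs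
  rw [Finset.sum_congr rfl (fun g _ => hconst g), Finset.sum_const, Finset.card_univ, nsmul_eq_mul] at hs
  rcases mul_eq_zero.mp hs with e | e
  · simp [Fintype.card_ne_zero] at e
  · exact irr_one_ne_zero χ e

variable [hab : IsMulCommutative (P : Subgroup G)]

/-- With automizer of order three a nontrivial element conjugate to its inverse is an involution. -/
theorem inv_eq_of_conj (hF : Frob P) (hm : Nat.card (autGroup P) = 3) {x : (P : Subgroup G)}
    (h : IsConj (x : G) (x : G)⁻¹) : (x : G)⁻¹ = x := by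
  obtain ⟨α, hα, he⟩ := (isConj_iff_aut (v := x) (w := x⁻¹)).mp (by rwa [Subgroup.coe_inv])
  by_cases h1 : α = 1
  · rw [h1, MulAut.one_apply] at he
    rw [← Subgroup.coe_inv, ← he]
  · by_cases hx : x = 1
    · simp [hx]
    refine absurd (free hF (mul_mem hα hα) (fun e => h1 ?_) (w := x) ?_) hx
    · have h3 : α ^ 3 = 1 := by
        have := pow_card_eq_one' (x := (⟨α, hα⟩ : autGroup P))
        rw [hm] at this
        exact congrArg Subtype.val this
      rw [← h3, pow_succ, pow_two, e, one_mul]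
    · rw [MulAut.mul_apply, he, map_inv, he, inv_inv]

/-- For an involution the orbit of the automizer together with the identity is a subgroup. -/
theorem orbit_triple (hF : Frob P) (hm : Nat.card (autGroup P) = 3) (w : (P : Subgroup G)) :
    ∃ g : autGroup P, g ≠ 1 ∧ (∀ α : autGroup P, α = 1 ∨ α = g ∨ α = g * g) ∧
      w * (g : MulAut (P : Subgroup G)) w * ((g * g : autGroup P) : MulAut (P : Subgroup G)) w = 1 := by
  haveI : Nontrivial (autGroup P) := Finite.one_lt_card_iff_nontrivial.mp (by omega)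
  obtain ⟨g, hg⟩ := exists_ne (1 : autGroup P)
  have h3 : g ^ 3 = 1 := hm ▸ pow_card_eq_one'
  have hgg : g * g ≠ 1 := fun e => hg (by rw [← h3, pow_succ, pow_two, e, one_mul])
  have hgg' : g * g ≠ g := fun e => hg (mul_left_cancel (e.trans (mul_one g).symm))
  haveI : Fintype (autGroup P) := Fintype.ofFinite _
  classical
  have huniv : ({1, g, g * g} : Finset (autGroup P)) = Finset.univ := by
    apply Finset.eq_univ_of_card
    rw [Finset.card_insert_of_notMem (by simp [hg.symm, hgg.symm]),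
      Finset.card_pair hgg'.symm, ← Nat.card_eq_fintype_card, hm]
  refine ⟨g, hg, fun α => by simpa [← huniv] using Finset.mem_univ α, ?_⟩
  refine free hF g.2 (fun e => hg (Subtype.ext e)) ?_
  have e3 : (g : MulAut (P : Subgroup G)) ((g : MulAut (P : Subgroup G)) ((g : MulAut (P : Subgroup G)) w)) = w := by
    have := congrArg (fun a : autGroup P => (a : MulAut (P : Subgroup G)) w) h3
    simpa [pow_succ] using this
  simp only [Subgroup.coe_mul, MulAut.mul_apply, map_mul, e3]
  rw [mul_comm' _ w, ← mul_assoc]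

open Classical in
/-- The value of an orbit sum at an involution. -/
theorem orbit_sum_involution (hF : Frob P) (hm : Nat.card (autGroup P) = 3) {w : (P : Subgroup G)}
    (hw : w * w = 1) {ψ : (P : Subgroup G) →* ℂˣ} (hψ : ψ ≠ 1) :
    ∑ᶠ φ ∈ orbSet P ψ, ((φ w : ℂˣ) : ℂ) = 3 ∨ ∑ᶠ φ ∈ orbSet P ψ, ((φ w : ℂˣ) : ℂ) = -1 := by
  haveI : Fintype (P : Subgroup G) := Fintype.ofFinite _
  haveI : Finite ((P : Subgroup G) →* ℂˣ) := finite_dual
  haveI : Fintype ((P : Subgroup G) →* ℂˣ) := Fintype.ofFinite _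
  haveI : Fintype (autGroup P) := Fintype.ofFinite _
  obtain ⟨g, hg, hall, hprod⟩ := orbit_triple hF hm w
  let f : autGroup P → ((P : Subgroup G) →* ℂˣ) := fun α =>
    ψ.comp (α : MulAut (P : Subgroup G)).toMonoidHom
  have hinj : Function.Injective f := by
    intro α β h
    by_contra hne
    refine hψ (free_dual hF (mul_mem α.2 (inv_mem β.2) :
      (α : MulAut (P : Subgroup G)) * (β : MulAut (P : Subgroup G))⁻¹ ∈ autGroup P)
      (fun e => hne (Subtype.ext (mul_inv_eq_one.mp e))) (MonoidHom.ext fun v => ?_))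
    have := DFunLike.congr_fun h ((β : MulAut (P : Subgroup G)).symm v)
    simpa [f] using this
  have himg : (orbSet P ψ).toFinset = Finset.univ.image f := by
    ext φ
    simp only [Set.mem_toFinset, Finset.mem_image, Finset.mem_univ, true_and]
    constructor
    · intro h
      obtain ⟨α, hα, e⟩ := mem_orbSet.mp h
      refine ⟨⟨α, hα⟩⁻¹, MonoidHom.ext fun v => ?_⟩
      have := DFunLike.congr_fun e (α.symm v)
      simpa [f] using this.symm
    · rintro ⟨α, rfl⟩
      exact mem_orbSet.mpr ⟨(α : MulAut (P : Subgroup G))⁻¹, inv_mem α.2,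
        MonoidHom.ext fun v => by simp [f]⟩
  rw [finsum_mem_eq_toFinset_sum, himg, Finset.sum_image hinj.injOn]
  have hgg' : g * g ≠ g := fun e => hg (mul_left_cancel (e.trans (mul_one g).symm))
  have hgg : g * g ≠ 1 := fun e => by
    have h3 : g ^ 3 = 1 := hm ▸ pow_card_eq_one'
    exact hg (by rw [← h3, pow_succ, pow_two, e, one_mul])
  have huniv : (Finset.univ : Finset (autGroup P)) = {1, g, g * g} := by
    ext α; simpa using hall α
  rw [huniv, Finset.sum_insert (by simp [hg.symm, hgg.symm]), Finset.sum_pair hgg'.symm]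
  have hsq : ∀ v : (P : Subgroup G), v * v = 1 → ((ψ v : ℂˣ) : ℂ) = 1 ∨ ((ψ v : ℂˣ) : ℂ) = -1 := by
    intro v hv
    apply mul_self_eq_one_iff.mp
    rw [← Units.val_mul, ← map_mul, hv, map_one, Units.val_one]
  have hp := congrArg (fun v => ((ψ v : ℂˣ) : ℂ)) hprod
  simp only [map_mul, map_one, Units.val_mul, Units.val_one] at hp
  have e1 := hsq w hw
  have e2 := hsq ((g : MulAut (P : Subgroup G)) w) (by rw [← map_mul, hw, map_one])
  have e3 := hsq (((g * g : autGroup P) : MulAut (P : Subgroup G)) w) (by rw [← map_mul, hw, map_one])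
  simp only [f, Subgroup.coe_one, MonoidHom.comp_apply, MulEquiv.coe_toMonoidHom, MulAut.one_apply]
  rcases e1 with a | a <;> rcases e2 with b | b <;> rcases e3 with c | c <;>
    rw [a, b, c] at hp ⊢ <;> norm_num at hp <;> norm_num

/-- An element outside the orbit triple of an involution. -/
theorem exists_outside (hF : Frob P) (hm : Nat.card (autGroup P) = 3)
    (hcard : 4 < Nat.card (P : Subgroup G)) (w : (P : Subgroup G)) :
    ∃ x : (P : Subgroup G), x ≠ 1 ∧ ∀ α ∈ autGroup P, (α : MulAut (P : Subgroup G)) w ≠ x := by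
  classical
  haveI : Fintype (P : Subgroup G) := Fintype.ofFinite _
  haveI : Fintype (autGroup P) := Fintype.ofFinite _
  have hlt : (insert (1 : (P : Subgroup G))
      (Finset.univ.image fun α : autGroup P => (α : MulAut (P : Subgroup G)) w)).card < Fintype.card (P : Subgroup G) := by
    have := Finset.card_insert_le (1 : (P : Subgroup G))
      (Finset.univ.image fun α : autGroup P => (α : MulAut (P : Subgroup G)) w)
    have h2 := Finset.card_image_le (s := Finset.univ) (f := fun α : autGroup P => (α : MulAut (P : Subgroup G)) w)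
    rw [Finset.card_univ, ← Nat.card_eq_fintype_card, hm] at h2
    rw [← Nat.card_eq_fintype_card]
    omega
  obtain ⟨x, -, hx⟩ := Finset.exists_mem_notMem_of_card_lt_card (by rwa [← Finset.card_univ] at hlt)
  simp only [Finset.mem_insert, Finset.mem_image, Finset.mem_univ, true_and, not_or, not_exists] at hx
  exact ⟨x, hx.1, fun α hα => hx.2 ⟨α, hα⟩⟩

end CfsgLib.Blocks.FS
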