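import Cfsg.Agent.Lib.Core
import Cfsg.Agent.Lib.Blocks.Inverting
import Mathlib.GroupTheory.GroupAction.Quotient
import Mathlib.GroupTheory.SchurZassenhaus

/-!
The order of a group with trivial odd core is bounded by the 2-part and the number of fixed
points of an involutive automorphism.
-/

namespace CfsgLib.InvolutionBound

open Cfsg

universe u

variable {L : Type u} [Group L] [Finite L]

/-- Elements almost fixed modulo a subgroup. -/
theorem card_almost_fixed (σ : MulAut L) {n : ℕ} (hn : Nat.card {l : L // σ l = l} ≤ n)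
    (M : Subgroup L) : Nat.card {l : L // l⁻¹ * σ l ∈ M} ≤ n * Nat.card M := by
  classical
  let f : {l : L // l⁻¹ * σ l ∈ M} → M := fun l => ⟨_, l.2⟩
  let r : M → L := fun m => if h : ∃ l : L, l⁻¹ * σ l = (m : L) then h.choose else 1
  have hr : ∀ l : {l : L // l⁻¹ * σ l ∈ M}, (r (f l))⁻¹ * σ (r (f l)) = (l : L)⁻¹ * σ l := by
    intro l
    have h : ∃ k : L, k⁻¹ * σ k = ((f l : M) : L) := ⟨l.1, rfl⟩
    simp only [r, dif_pos h]
    exact h.choose_spec
  have hfix : ∀ l : {l : L // l⁻¹ * σ l ∈ M}, σ ((l : L) * (r (f l))⁻¹) = (l : L) * (r (f l))⁻¹ := by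
    intro l
    have e : σ (r (f l)) = r (f l) * ((l : L)⁻¹ * σ l) := by rw [← hr l, mul_inv_cancel_left]
    rw [map_mul, map_inv, e]
    group
  refine (Nat.card_le_card_of_injective
    (fun l => ((⟨_, hfix l⟩ : {l : L // σ l = l}), f l)) fun a b h => ?_).trans ?_
  · obtain ⟨h1, h2⟩ := Prod.ext_iff.mp h
    have h1' := congrArg Subtype.val h1
    simp only [show r (f a) = r (f b) from congrArg r h2] at h1'
    exact Subtype.ext (mul_right_cancel h1')
  · rw [Nat.card_prod]
    exact Nat.mul_le_mul_right _ hn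

open Classical in
/-- A nontrivial element inverted up to conjugation with a small class. -/
theorem exists_small_class (σ : MulAut L) (hσ : ∀ l, σ (σ l) = l) {n : ℕ}
    (hn : Nat.card {l : L // σ l = l} ≤ n) (hL : ∃ l, σ l ≠ l) :
    ∃ y : L, y ≠ 1 ∧ IsConj (σ y) y⁻¹ ∧
      (Subgroup.centralizer ({y} : Set L)).index ≤ 2 * n ^ 2 := by
  haveI := Fintype.ofFinite L
  set T : Finset L := Finset.univ.image fun l => l * (σ l)⁻¹ with hT
  have hTσ : ∀ u ∈ T, σ u = u⁻¹ := by
    intro u hu
    obtain ⟨l, -, rfl⟩ := Finset.mem_image.mp hu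
    rw [map_mul, map_inv, hσ, mul_inv_rev, inv_inv]
  have hcard : Nat.card L ≤ n * T.card := by
    rw [Nat.card_eq_fintype_card, ← Finset.card_univ]
    rw [Finset.card_eq_sum_card_image (fun l => l * (σ l)⁻¹)]
    refine (Finset.sum_le_card_nsmul _ _ n fun u hu => ?_).trans (by rw [smul_eq_mul, mul_comm])
    obtain ⟨l, -, rfl⟩ := Finset.mem_image.mp hu
    refine le_trans ?_ hn
    rw [← Fintype.card_subtype, ← Nat.card_eq_fintype_card]
    refine Nat.card_le_card_of_injective (fun a => ⟨l⁻¹ * (a : L), ?_⟩) fun a b h => ?_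
    · have e : (a : L) * (σ a)⁻¹ = l * (σ l)⁻¹ := a.2
      rw [map_mul, map_inv]
      have e2 : σ a = σ l * l⁻¹ * a := by
        have := congrArg (fun v => (v)⁻¹) e
        simp only [mul_inv_rev, inv_inv] at this
        rw [← this]; group
      rw [e2]; group
    · exact Subtype.ext (mul_left_cancel (congrArg Subtype.val h))
  have hT2 : 2 ≤ T.card := by
    obtain ⟨l, hl⟩ := hL
    refine Finset.one_lt_card.mpr ⟨1, Finset.mem_image.mpr ⟨1, Finset.mem_univ _, by simp⟩,
      l * (σ l)⁻¹, Finset.mem_image.mpr ⟨l, Finset.mem_univ _, rfl⟩, fun e => hl ?_⟩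
    exact (mul_inv_eq_one.mp e.symm).symm
  set P := T.offDiag with hP
  have hfib : ∀ y : L, (P.filter fun uv => uv.1 * uv.2⁻¹ = y).card ≤
      Nat.card (Subgroup.centralizer ({y} : Set L)) := by
    intro y
    rcases (P.filter fun uv => uv.1 * uv.2⁻¹ = y).eq_empty_or_nonempty with h | ⟨⟨u₀, v₀⟩, h0⟩
    · rw [h]; simp
    · have key : ∀ uv ∈ P.filter (fun uv => uv.1 * uv.2⁻¹ = y),
          uv.1 * σ y * uv.1⁻¹ = y⁻¹ := by
        rintro ⟨u, v⟩ huv
        simp only [P, Finset.mem_filter, Finset.mem_offDiag] at huv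
        simp only
        rw [← huv.2, map_mul, map_inv, hTσ u huv.1.1, hTσ v huv.1.2.1]
        group
      rw [Nat.card_eq_fintype_card]
      refine Finset.card_le_card_of_injOn
        (fun uv => if h : uv.1 * u₀⁻¹ ∈ Subgroup.centralizer ({y} : Set L) then
          (⟨_, h⟩ : Subgroup.centralizer ({y} : Set L)) else 1) (fun _ _ => Finset.mem_univ _) ?_
      have hm : ∀ uv ∈ P.filter (fun uv => uv.1 * uv.2⁻¹ = y),
          uv.1 * u₀⁻¹ ∈ Subgroup.centralizer ({y} : Set L) := by
        intro uv huv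
        have e1 := key uv huv
        have e2 := key (u₀, v₀) h0
        simp only at e2
        have e3 : σ y = u₀⁻¹ * y⁻¹ * u₀ := by rw [← e2]; group
        rw [Subgroup.mem_centralizer_singleton_iff]
        rw [e3] at e1
        have e4 : (uv.1 * u₀⁻¹) * y⁻¹ * (uv.1 * u₀⁻¹)⁻¹ = y⁻¹ := by
          conv_rhs => rw [← e1]
          group
        have e5 : Commute (uv.1 * u₀⁻¹) y⁻¹ := mul_inv_eq_iff_eq_mul.mp e4
        exact (Commute.inv_right_iff.mp e5).eq
      intro a ha b hb hab
      simp only [dif_pos (hm a ha), dif_pos (hm b hb), Subtype.mk.injEq] at hab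
      have e1 := mul_right_cancel hab
      have ha' := (Finset.mem_filter.mp ha).2
      have hb' := (Finset.mem_filter.mp hb).2
      rw [← hb', ← e1] at ha'
      exact Prod.ext e1 (inv_inj.mp (mul_left_cancel ha'))
  by_contra hn'
  push Not at hn'
  have hsum : P.card * (2 * n ^ 2) < Nat.card L * Nat.card L := by
    have h1 : P.card = ∑ y : L, (P.filter fun uv => uv.1 * uv.2⁻¹ = y).card :=
      Finset.card_eq_sum_card_fiberwise fun _ _ => Finset.mem_univ _
    rw [h1, Finset.sum_mul, Nat.card_eq_fintype_card, ← Finset.card_univ (α := L)]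
    conv_rhs => rw [← smul_eq_mul, ← Finset.sum_const]
    refine Finset.sum_lt_sum (fun y _ => ?_) ⟨1, Finset.mem_univ _, ?_⟩
    · rcases (P.filter fun uv => uv.1 * uv.2⁻¹ = y).eq_empty_or_nonempty with h | ⟨⟨u, v⟩, huv⟩
      · rw [h]; simp
      · simp only [P, Finset.mem_filter, Finset.mem_offDiag] at huv
        have hy : y ≠ 1 := fun e => huv.1.2.2 (mul_inv_eq_one.mp (huv.2.trans e))
        have hc : IsConj (σ y) y⁻¹ := isConj_iff.mpr ⟨u, by
          rw [← huv.2, map_mul, map_inv, hTσ u huv.1.1, hTσ v huv.1.2.1]; group⟩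
        calc _ ≤ Nat.card (Subgroup.centralizer ({y} : Set L)) *
              (Subgroup.centralizer ({y} : Set L)).index :=
              Nat.mul_le_mul (hfib y) (hn' y hy hc).le
          _ = _ := by rw [Subgroup.card_mul_index, Nat.card_eq_fintype_card, Finset.card_univ]
    · rw [Finset.filter_eq_empty_iff.mpr fun uv huv => ?_]
      · simp [Finset.card_univ, Fintype.card_pos]
      · exact fun e => (Finset.mem_offDiag.mp huv).2.2 (mul_inv_eq_one.mp e)
  rw [hP, Finset.offDiag_card] at hsum
  have h1 : T.card * T.card ≤ 2 * (T.card * T.card - T.card) := by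
    have : 2 * T.card ≤ T.card * T.card := Nat.mul_le_mul_right _ hT2
    omega
  have h2 := Nat.mul_le_mul hcard hcard
  have h3 : n * T.card * (n * T.card) ≤ (T.card * T.card - T.card) * (2 * n ^ 2) :=
    calc n * T.card * (n * T.card) = T.card * T.card * n ^ 2 := by ring
      _ ≤ 2 * (T.card * T.card - T.card) * n ^ 2 := Nat.mul_le_mul_right _ h1
      _ = _ := by ring
  omega

/-- Kernel of the conjugation action on the class of `y`. -/
theorem card_le_class {y : L} {n : ℕ} (hy : (Subgroup.centralizer ({y} : Set L)).index ≤ n) :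
    (Subgroup.centralizer ((Subgroup.normalClosure ({y} : Set L) : Subgroup L) : Set L)).index ≤
      n.factorial := by
  classical
  set C := Subgroup.centralizer ({y} : Set L)
  haveI := Fintype.ofFinite (L ⧸ C)
  haveI : Fintype (Equiv.Perm (L ⧸ C)) := Fintype.ofFinite _
  have hle : C.normalCore ≤
      Subgroup.centralizer ((Subgroup.normalClosure ({y} : Set L) : Subgroup L) : Set L) := by
    intro c hc
    rw [Subgroup.mem_centralizer_iff]
    intro m hm
    have : Subgroup.normalClosure ({y} : Set L) ≤ Subgroup.centralizer (C.normalCore : Set L) := by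
      haveI : (Subgroup.centralizer (C.normalCore : Set L)).Normal := inferInstance
      refine Subgroup.normalClosure_le_normal fun z hz => ?_
      rw [Set.mem_singleton_iff] at hz
      subst hz
      exact Subgroup.mem_centralizer_iff.mpr fun c hc =>
        Subgroup.mem_centralizer_singleton_iff.mp (C.normalCore_le hc)
    exact (Subgroup.mem_centralizer_iff.mp (this hm) c hc).symm
  have h1 : C.normalCore.index ≤ n.factorial := by
    rw [Subgroup.normalCore_eq_ker, Subgroup.index_ker]
    refine (Subgroup.card_le_card_group _).trans ?_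
    rw [Nat.card_perm]
    refine Nat.factorial_le ?_
    rw [← Subgroup.index_eq_card]
    exact hy
  exact le_trans (Nat.le_of_dvd (Nat.pos_of_ne_zero Subgroup.index_ne_zero_of_finite)
    (Subgroup.index_dvd_of_le hle)) h1

/-- An odd-order abelian normal subgroup is trivial when the odd core is. -/
theorem isPGroup_of_comm (h0 : pPrimeCore 2 L = ⊥) (M : Subgroup L) [M.Normal]
    (hM : IsMulCommutative M) : IsPGroup 2 M := by
  haveI : Fact (Nat.Prime 2) := ⟨Nat.prime_two⟩
  haveI := hM
  intro m
  obtain ⟨k, o, ho, hmo⟩ := Nat.exists_eq_two_pow_mul_odd (orderOf_pos m).ne'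
  refine ⟨k, ?_⟩
  let O : Subgroup L :=
    { carrier := {g | g ∈ M ∧ g ^ o = 1}
      one_mem' := ⟨M.one_mem, one_pow o⟩
      mul_mem' := fun {a b} ha hb => ⟨M.mul_mem ha.1 hb.1, by
        have hc : Commute a b :=
          congrArg Subtype.val (hM.is_comm.comm (⟨a, ha.1⟩ : M) ⟨b, hb.1⟩)
        rw [hc.mul_pow, ha.2, hb.2, one_mul]⟩
      inv_mem' := fun {a} ha => ⟨M.inv_mem ha.1, by rw [inv_pow, ha.2, inv_one]⟩ }
  have hOn : O.Normal := ⟨fun g hg l => ⟨‹M.Normal›.conj_mem g hg.1 l, by rw [conj_pow, hg.2, mul_one, mul_inv_cancel]⟩⟩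
  have hOc : (Nat.card O).Coprime 2 := by
    rw [Nat.coprime_comm, Nat.Prime.coprime_iff_not_dvd Nat.prime_two]
    intro hd
    obtain ⟨g, hg⟩ := exists_prime_orderOf_dvd_card' (G := O) 2 hd
    have : orderOf (g : L) ∣ o := orderOf_dvd_of_pow_eq_one g.2.2
    rw [Subgroup.orderOf_coe, hg] at this
    exact ho.not_two_dvd_nat this
  have hO : O = ⊥ := eq_bot_iff.mpr (h0 ▸ CfsgLib.Core.le_pPrimeCore hOn hOc)
  have : ((m : L) ^ 2 ^ k) ∈ O := ⟨M.pow_mem m.2 _, by
    rw [← pow_mul, ← hmo, Subgroup.orderOf_coe m |>.symm, pow_orderOf_eq_one]⟩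
  rw [hO, Subgroup.mem_bot] at this
  exact Subtype.ext (by simpa using this)

/-- The odd core of a quotient by a central 2-subgroup. -/
theorem core_quotient (h0 : pPrimeCore 2 L = ⊥) (M : Subgroup L) [M.Normal] (hM : IsPGroup 2 M)
    (hMZ : M ≤ Subgroup.center L) : pPrimeCore 2 (L ⧸ M) = ⊥ := by
  haveI : Fact (Nat.Prime 2) := ⟨Nat.prime_two⟩
  set π := QuotientGroup.mk' M
  set K := (pPrimeCore 2 (L ⧸ M)).comap π with hK
  haveI : (pPrimeCore 2 (L ⧸ M)).Normal :=
    haveI := CfsgLib.Core.pPrimeCore_characteristic (G := L ⧸ M) 2; inferInstance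
  haveI : K.Normal := Subgroup.Normal.comap inferInstance _
  have hMK : M ≤ K := fun m hm => by
    rw [hK, Subgroup.mem_comap, show π m = 1 from (QuotientGroup.eq_one_iff m).mpr hm]
    exact one_mem _
  have hKmap : K.map π = pPrimeCore 2 (L ⧸ M) :=
    Subgroup.map_comap_eq_self_of_surjective (QuotientGroup.mk'_surjective M) _
  have hidx : (M.subgroupOf K).index = Nat.card (pPrimeCore 2 (L ⧸ M)) := by
    rw [← hKmap, ← Subgroup.relIndex_ker, QuotientGroup.ker_mk']
    rfl
  obtain ⟨j, hj⟩ := IsPGroup.iff_card.mp hM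
  have hcop : (Nat.card (M.subgroupOf K)).Coprime (M.subgroupOf K).index := by
    rw [hidx, Nat.card_congr (Subgroup.subgroupOfEquivOfLe hMK).toEquiv, hj]
    exact ((CfsgLib.Core.card_pPrimeCore_coprime (G := L ⧸ M) 2).symm.pow_left j)
  obtain ⟨Q, hQ⟩ := Subgroup.exists_right_complement'_of_coprime hcop
  have hQn : Q.Normal := by
    refine Subgroup.normalizer_eq_top_iff.mp (top_le_iff.mp ?_)
    rw [← hQ.sup_eq_top]
    refine sup_le (fun m hm => Subgroup.mem_normalizer_iff.mpr fun q => ?_) Subgroup.le_normalizer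
    have hc : ∀ q : K, m * q * m⁻¹ = q := fun q => Subtype.ext (by
      simp only [Subgroup.coe_mul, InvMemClass.coe_inv]
      rw [← (Subgroup.mem_center_iff.mp (hMZ (Subgroup.mem_subgroupOf.mp hm)) (q : L)), mul_inv_cancel_right])
    rw [hc q]
  have hQc : (Nat.card Q).Coprime 2 := by
    have e := hQ.card_mul
    rw [← Subgroup.card_mul_index (M.subgroupOf K)] at e
    rw [Nat.eq_of_mul_eq_mul_left Nat.card_pos e, hidx]
    exact CfsgLib.Core.card_pPrimeCore_coprime 2
  have h1 : Q.map K.subtype = ⊥ := eq_bot_iff.mpr (h0 ▸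
    (Subgroup.map_mono (CfsgLib.Core.le_pPrimeCore hQn hQc)).trans
      (CfsgLib.Core.pPrimeCore_subgroup_map_le 2 K))
  rw [Subgroup.map_eq_bot_iff_of_injective _ (Subgroup.subtype_injective K)] at h1
  have h2 : (M.subgroupOf K) = ⊤ := by
    rw [← hQ.sup_eq_top, h1, sup_bot_eq]
  refine Subgroup.eq_bot_of_card_eq _ ?_
  rw [← hidx, h2, Subgroup.index_top]

/-- The bound. -/
theorem bound : ∀ a n : ℕ, ∃ N : ℕ, ∀ (L : Type u) [Group L] [Finite L] (σ : MulAut L),
    (∀ l, σ (σ l) = l) → Nat.card {l : L // σ l = l} ≤ n →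
    (Nat.card L).factorization 2 ≤ a → pPrimeCore 2 L = ⊥ → Nat.card L ≤ N := by
  haveI : Fact (Nat.Prime 2) := ⟨Nat.prime_two⟩
  intro a
  induction a with
  | zero =>
    intro n
    refine ⟨1, fun L _ _ σ _ _ ha h0 => ?_⟩
    have hc : (Nat.card L).Coprime 2 := by
      rw [Nat.coprime_comm, Nat.Prime.coprime_iff_not_dvd Nat.prime_two]
      intro hd
      have := (Nat.prime_two).factorization_pos_of_dvd Nat.card_pos.ne' hd
      omega
    have : (⊤ : Subgroup L) ≤ ⊥ := h0 ▸ CfsgLib.Core.le_pPrimeCore inferInstance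
      (by rwa [Subgroup.card_top])
    calc Nat.card L = Nat.card (⊤ : Subgroup L) := Subgroup.card_top.symm
      _ ≤ Nat.card (⊥ : Subgroup L) := Subgroup.card_le_of_le this
      _ = 1 := Subgroup.card_bot
  | succ a ih =>
    intro n
    obtain ⟨N₁, hN₁⟩ := ih n
    obtain ⟨N₂, hN₂⟩ := ih (n * 2 ^ (a + 1))
    refine ⟨n + (2 * n ^ 2).factorial * (2 ^ (a + 1) * (N₁ + N₂)), fun L _ _ σ hσ hn ha h0 => ?_⟩
    by_cases hL : ∀ l, σ l = l
    · refine le_trans (le_trans ?_ hn) (Nat.le_add_right _ _)
      rw [Nat.card_congr (Equiv.subtypeUnivEquiv hL)]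
    push Not at hL
    refine le_trans ?_ (Nat.le_add_left _ _)
    obtain ⟨y, hy1, hyc, hyi⟩ := exists_small_class σ hσ hn hL
    set M := Subgroup.normalClosure ({y} : Set L) with hMdef
    have hMσ : ∀ m ∈ M, σ m ∈ M := by
      have : M ≤ M.comap σ.toMonoidHom := by
        haveI : (M.comap σ.toMonoidHom).Normal := Subgroup.Normal.comap inferInstance _
        refine Subgroup.normalClosure_le_normal fun z hz => ?_
        rw [Set.mem_singleton_iff] at hz
        subst hz
        obtain ⟨c, hc⟩ := isConj_iff.mp hyc.symm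
        change σ z ∈ M
        rw [← hc]
        exact Subgroup.Normal.conj_mem inferInstance _
          (inv_mem (Subgroup.subset_normalClosure (Set.mem_singleton z))) c
      exact fun m hm => this hm
    have hCi := card_le_class hyi
    rw [← hMdef] at hCi
    set C := Subgroup.centralizer (M : Set L) with hCdef
    haveI : C.Normal := inferInstance
    have hCσ : ∀ c ∈ C, σ c ∈ C := fun c hc => Subgroup.mem_centralizer_iff.mpr fun m hm => by
      have := congrArg σ (Subgroup.mem_centralizer_iff.mp hc (σ m) (hMσ m hm))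
      rwa [map_mul, map_mul, hσ] at this
    let σC : MulAut C :=
      { toFun := fun c => ⟨σ c, hCσ c c.2⟩
        invFun := fun c => ⟨σ c, hCσ c c.2⟩
        left_inv := fun c => Subtype.ext (hσ c)
        right_inv := fun c => Subtype.ext (hσ c)
        map_mul' := fun c d => Subtype.ext (map_mul σ (c : L) d) }
    have hσC : ∀ c, σC (σC c) = c := fun c => Subtype.ext (hσ c)
    have hnC : Nat.card {c : C // σC c = c} ≤ n :=
      le_trans (Nat.card_le_card_of_injective
        (fun c => (⟨((c : C) : L), congrArg Subtype.val c.2⟩ : {l : L // σ l = l}))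
        fun c d h => Subtype.ext (Subtype.ext (congrArg Subtype.val h :))) hn
    have h0C : pPrimeCore 2 C = ⊥ := by
      have := CfsgLib.Core.pPrimeCore_subgroup_map_le 2 C
      rw [h0, le_bot_iff, Subgroup.map_eq_bot_iff_of_injective _ (Subgroup.subtype_injective C)] at this
      exact this
    set Z := M.subgroupOf C with hZdef
    haveI : Z.Normal := Subgroup.normal_subgroupOf
    have hZZ : Z ≤ Subgroup.center C := fun z hz => Subgroup.mem_center_iff.mpr fun c =>
      Subtype.ext (Subgroup.mem_centralizer_iff.mp c.2 (z : L) hz).symm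
    have hZp : IsPGroup 2 Z := isPGroup_of_comm h0C Z ⟨⟨fun u v => Subtype.ext
      (Subgroup.mem_center_iff.mp (hZZ v.2) (u : C))⟩⟩
    obtain ⟨j, hj⟩ := IsPGroup.iff_card.mp hZp
    have hCdvd : (Nat.card C).factorization 2 ≤ a + 1 :=
      ((Nat.factorization_le_iff_dvd Nat.card_pos.ne' Nat.card_pos.ne').mpr
        (Subgroup.card_subgroup_dvd_card C) 2).trans ha
    have key : Nat.card C ≤ 2 ^ (a + 1) * (N₁ + N₂) := by
      rcases Nat.eq_zero_or_pos j with hj0 | hj0
      · subst hj0
        rw [pow_zero] at hj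
        -- the closure is a nontrivial subgroup of even order meeting C trivially
        have hMe : 2 ∣ Nat.card M := by
          by_contra hd
          have : M ≤ ⊥ := h0 ▸ CfsgLib.Core.le_pPrimeCore inferInstance
            (Nat.coprime_comm.mp ((Nat.Prime.coprime_iff_not_dvd Nat.prime_two).mpr hd))
          exact hy1 (Subgroup.mem_bot.mp (this (Subgroup.subset_normalClosure (Set.mem_singleton y))))
        have hinf : M ⊓ C = ⊥ := by
          rw [eq_bot_iff]
          intro m hm
          have : (⟨m, hm.2⟩ : C) ∈ Z := hm.1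
          rw [Subgroup.eq_bot_of_card_eq Z hj, Subgroup.mem_bot] at this
          exact congrArg Subtype.val this
        have hdvd : Nat.card M * Nat.card C ∣ Nat.card L := by
          haveI : M.Normal := Subgroup.normalClosure_normal
          have h1 : Nat.card M = M.relIndex ⊥ * Nat.card M := by simp
          have h2 : C.relIndex M * Nat.card C ∣ Nat.card L := by
            rw [← Subgroup.index_mul_card C]
            exact Nat.mul_dvd_mul_right (Subgroup.relIndex_dvd_index_of_normal C M) _
          rwa [show C.relIndex M = Nat.card M from by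
            rw [← Subgroup.inf_relIndex_right, inf_comm, hinf, Subgroup.relIndex_bot_left]] at h2
        have h2a : (Nat.card C).factorization 2 ≤ a := by
          have h1 := (Nat.factorization_le_iff_dvd (Nat.mul_ne_zero Nat.card_pos.ne' Nat.card_pos.ne')
            Nat.card_pos.ne').mpr hdvd 2
          rw [Nat.factorization_mul Nat.card_pos.ne' Nat.card_pos.ne', Finsupp.add_apply] at h1
          have := Nat.prime_two.factorization_pos_of_dvd Nat.card_pos.ne' hMe
          omega
        refine (hN₁ C σC hσC hnC h2a h0C).trans ?_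
        exact le_trans (Nat.le_add_right _ N₂) (Nat.le_mul_of_pos_left _ (Nat.two_pow_pos _))
      · have hje : j ≤ a + 1 := by
          have h1 := ((Nat.factorization_le_iff_dvd Nat.card_pos.ne' Nat.card_pos.ne').mpr
            (Subgroup.card_subgroup_dvd_card Z) 2).trans hCdvd
          rwa [hj, Nat.prime_two.factorization_pow, Finsupp.single_eq_same] at h1
        have hZσ : Z ≤ Z.comap σC.toMonoidHom := fun z hz => hMσ _ hz
        let f : C ⧸ Z →* C ⧸ Z := QuotientGroup.map Z Z σC.toMonoidHom hZσ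
        have hff : ∀ q, f (f q) = q := fun q => QuotientGroup.induction_on q fun c => by
          simp only [f, QuotientGroup.map_mk]
          exact congrArg _ (hσC c)
        let σQ : MulAut (C ⧸ Z) :=
          { toFun := f, invFun := f, left_inv := hff, right_inv := hff, map_mul' := map_mul f }
        have hnQ : Nat.card {q : C ⧸ Z // σQ q = q} ≤ n * 2 ^ (a + 1) := by
          refine le_trans ?_ ((card_almost_fixed σC hnC Z).trans (Nat.mul_le_mul_left n
            (hj ▸ Nat.pow_le_pow_right (by norm_num) hje)))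
          refine Nat.card_le_card_of_injective (fun q => ⟨q.1.out, ?_⟩) fun q r h => ?_
          · rw [← QuotientGroup.eq]
            have hq := q.2
            change f q.1 = q.1 at hq
            conv_lhs at hq => rw [← QuotientGroup.out_eq' q.1, QuotientGroup.map_mk]
            rw [QuotientGroup.out_eq']
            exact hq.symm
          · have h' := congrArg (fun v => QuotientGroup.mk (s := Z) (Subtype.val v)) h
            simp only [QuotientGroup.out_eq'] at h'
            exact Subtype.ext h'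
        have h2a : (Nat.card (C ⧸ Z)).factorization 2 ≤ a := by
          have e := Subgroup.card_eq_card_quotient_mul_card_subgroup Z
          have h1 := hCdvd
          rw [e, Nat.factorization_mul Nat.card_pos.ne' Nat.card_pos.ne', Finsupp.add_apply, hj,
            Nat.prime_two.factorization_pow, Finsupp.single_eq_same] at h1
          omega
        rw [Subgroup.card_eq_card_quotient_mul_card_subgroup Z, hj, mul_comm]
        refine Nat.mul_le_mul (Nat.pow_le_pow_right (by norm_num) hje) ?_
        exact (hN₂ (C ⧸ Z) σQ hff hnQ h2a (core_quotient h0C Z hZp hZZ)).trans (Nat.le_add_left _ _)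
    rw [← Subgroup.index_mul_card C]
    exact Nat.mul_le_mul hCi key

variable {G : Type u} [Group G] [Finite G]

/-- Two involutions modulo an odd normal subgroup whose product's involution has small
centraliser bound that subgroup. -/
theorem card_odd_normal_le (K : Subgroup G) [K.Normal] (hK : Odd (Nat.card K)) {n : ℕ} {y₁ y₂ : G}
    (h1 : y₁ * y₁ = 1) (h2 : y₂ * y₂ = 1) (h12 : Commute y₁ y₂)
    (hb : ∀ y ∈ ({y₁, y₂, y₁ * y₂} : Set G), Nat.card (Subgroup.centralizer ({y} : Set G)) ≤ n) :
    Nat.card K ≤ n ^ 4 := by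
  classical
  haveI := Fintype.ofFinite G
  set y₃ := y₁ * y₂
  have h3 : y₃ * y₃ = 1 := by
    change y₁ * y₂ * (y₁ * y₂) = 1
    rw [h12.symm.mul_mul_mul_comm, h1, h2, one_mul]
  let S : G → Finset G := fun y =>
    (Finset.univ.filter (· ∈ K)).image fun k : G => k * y * k⁻¹
  have hKcard : Nat.card K = (Finset.univ.filter (· ∈ K)).card := by
    rw [Nat.card_eq_fintype_card]
    exact Fintype.card_of_subtype _ (fun g => by simp)
  have hS : ∀ y ∈ ({y₁, y₂, y₁ * y₂} : Set G), Nat.card K ≤ n * (S y).card := by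
    intro y hy
    rw [hKcard, Finset.card_eq_sum_card_image (fun k : G => k * y * k⁻¹)]
    refine (Finset.sum_le_card_nsmul _ _ n fun s hs => ?_).trans (by rw [smul_eq_mul, mul_comm])
    obtain ⟨k₀, -, rfl⟩ := Finset.mem_image.mp hs
    refine le_trans ?_ (hb y hy)
    rw [Nat.card_eq_fintype_card]
    refine Finset.card_le_card_of_injOn
      (fun k => if h : k₀⁻¹ * k ∈ Subgroup.centralizer ({y} : Set G) then
        (⟨_, h⟩ : Subgroup.centralizer ({y} : Set G)) else 1) (fun _ _ => Finset.mem_univ _) ?_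
    have hm : ∀ k ∈ (Finset.univ.filter (· ∈ K)).filter (fun k : G => k * y * k⁻¹ = k₀ * y * k₀⁻¹),
        k₀⁻¹ * k ∈ Subgroup.centralizer ({y} : Set G) := by
      intro k hk
      rw [Subgroup.mem_centralizer_singleton_iff]
      have e := (Finset.mem_filter.mp hk).2
      calc k₀⁻¹ * k * y = k₀⁻¹ * (k * y * k⁻¹) * k := by group
        _ = y * (k₀⁻¹ * k) := by rw [e]; group
    intro a ha b hb' hab
    simp only [dif_pos (hm a ha), dif_pos (hm b hb'), Subtype.mk.injEq] at hab
    exact mul_left_cancel hab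
  have hmem : ∀ {y s : G}, s ∈ S y → y * y = 1 → s * s = 1 ∧ y⁻¹ * s ∈ K := by
    intro y s hs hy
    obtain ⟨k, hk, rfl⟩ := Finset.mem_image.mp hs
    simp only [Finset.mem_filter, Finset.mem_univ, true_and] at hk
    refine ⟨?_, ?_⟩
    · calc k * y * k⁻¹ * (k * y * k⁻¹) = k * (y * y) * k⁻¹ := by group
        _ = 1 := by rw [hy]; group
    · rw [show y⁻¹ * (k * y * k⁻¹) = (y⁻¹ * k * y⁻¹⁻¹) * k⁻¹ by group]
      exact K.mul_mem (‹K.Normal›.conj_mem k hk _) (K.inv_mem hk)
  set Z := Finset.univ.filter (fun z : G => z * z = 1 ∧ y₃⁻¹ * z ∈ K) with hZ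
  -- the involution attached to a pair
  have hz : ∀ st ∈ S y₁ ×ˢ S y₂, ∃ z ∈ Z, Commute st.1 z ∧ Commute st.2 z := by
    rintro ⟨s, t⟩ hst
    simp only [Finset.mem_product] at hst
    obtain ⟨hs2, hsK⟩ := hmem hst.1 h1
    obtain ⟨ht2, htK⟩ := hmem hst.2 h2
    set w := s * t
    have hw : y₃⁻¹ * w ∈ K := by
      rw [show y₃⁻¹ * w = y₂⁻¹ * (y₁⁻¹ * s) * y₂⁻¹⁻¹ * (y₂⁻¹ * t) by simp only [y₃, w]; group]
      exact K.mul_mem (‹K.Normal›.conj_mem _ hsK _) htK
    have hw2 : w ^ 2 ∈ K := by
      rw [pow_two, show w * w = y₃ * y₃ * (y₃⁻¹ * (y₃⁻¹ * w) * y₃⁻¹⁻¹) * (y₃⁻¹ * w) by group,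
        h3, one_mul]
      exact K.mul_mem (‹K.Normal›.conj_mem _ hw _) hw
    obtain ⟨j, hj⟩ : Odd (orderOf (w ^ 2)) := by
      refine Odd.of_dvd_nat hK ?_
      rw [← Subgroup.orderOf_mk _ hw2]
      exact orderOf_dvd_natCard _
    set z := w ^ (2 * j + 1)
    have hzz : z * z = 1 := by
      rw [← pow_add, ← two_mul, pow_mul, ← hj, pow_orderOf_eq_one]
    have hzK : y₃⁻¹ * z ∈ K := by
      simp only [z]
      rw [pow_succ', pow_mul, ← mul_assoc]
      exact K.mul_mem hw (K.pow_mem hw2 j)
    have hinv : z⁻¹ = z := inv_eq_of_mul_eq_one_right hzz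
    refine ⟨z, Finset.mem_filter.mpr ⟨Finset.mem_univ _, hzz, hzK⟩, ?_, ?_⟩
    · have e : s * z * s⁻¹ = z := by
        conv_rhs => rw [← hinv]
        simp only [z]
        rw [← conj_pow, ← inv_pow]
        congr 1
        simp only [w, mul_inv_rev, inv_eq_of_mul_eq_one_right hs2, inv_eq_of_mul_eq_one_right ht2]
        rw [← mul_assoc s s t, hs2, one_mul]
      exact mul_inv_eq_iff_eq_mul.mp e
    · have e : t * z * t⁻¹ = z := by
        conv_rhs => rw [← hinv]
        simp only [z]
        rw [← conj_pow, ← inv_pow]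
        congr 1
        simp only [w, mul_inv_rev, inv_eq_of_mul_eq_one_right hs2, inv_eq_of_mul_eq_one_right ht2]
        simp only [mul_assoc, ht2, mul_one]
      exact mul_inv_eq_iff_eq_mul.mp e
  -- all involutions over y₃ are conjugate to it
  have hconj : ∀ z ∈ Z, Nat.card (Subgroup.centralizer ({z} : Set G)) ≤ n := by
    intro z hz'
    obtain ⟨hzz, hzK⟩ := (Finset.mem_filter.mp hz').2
    have hodd : Odd (orderOf (z * y₃)) := by
      refine Odd.of_dvd_nat hK ?_
      have hm : z * y₃ ∈ K := by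
        have e : z * y₃ = y₃ * (y₃⁻¹ * z) * y₃⁻¹ * (y₃ * y₃) := by group
        rw [e, h3, mul_one]
        exact ‹K.Normal›.conj_mem _ hzK _
      rw [← Subgroup.orderOf_mk _ hm]
      exact orderOf_dvd_natCard _
    obtain ⟨c, hc⟩ := isConj_iff.mp (CfsgLib.Blocks.Inv.isConj_of_odd h3 hzz hodd)
    refine le_trans (le_of_eq (Nat.card_congr ?_)) (hb y₃ (by simp [y₃]))
    refine (MulAut.conj c).toEquiv.symm.subtypeEquiv fun g => ?_
    simp only [Subgroup.mem_centralizer_singleton_iff]
    change g * z = z * g ↔ c⁻¹ * g * c * y₃ = y₃ * (c⁻¹ * g * c)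
    subst hc
    constructor
    · intro h
      calc c⁻¹ * g * c * y₃ = c⁻¹ * (g * (c * y₃ * c⁻¹)) * c := by group
        _ = _ := by rw [h]; group
    · intro h
      calc g * (c * y₃ * c⁻¹) = c * (c⁻¹ * g * c * y₃) * c⁻¹ := by group
        _ = _ := by rw [h]; group
  -- count the pairs
  have hZc : Z.card ≤ Nat.card K := by
    rw [hKcard]
    refine Finset.card_le_card_of_injOn (fun z => y₃⁻¹ * z) (fun z hz' => ?_)
      fun a _ b _ h => mul_left_cancel h
    exact Finset.mem_coe.mpr (Finset.mem_filter.mpr ⟨Finset.mem_univ _, (Finset.mem_filter.mp hz').2.2⟩)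
  have hcover : S y₁ ×ˢ S y₂ ⊆ Z.biUnion fun z =>
      (Finset.univ.filter fun g => Commute g z) ×ˢ (Finset.univ.filter fun g => Commute g z) := by
    intro st hst
    obtain ⟨z, hz1, hz2, hz3⟩ := hz st hst
    exact Finset.mem_biUnion.mpr ⟨z, hz1, Finset.mem_product.mpr
      ⟨Finset.mem_filter.mpr ⟨Finset.mem_univ _, hz2⟩, Finset.mem_filter.mpr ⟨Finset.mem_univ _, hz3⟩⟩⟩
  have hpairs : (S y₁).card * (S y₂).card ≤ Nat.card K * (n * n) := by
    rw [← Finset.card_product]
    refine (Finset.card_le_card hcover).trans (Finset.card_biUnion_le.trans ?_)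
    refine (Finset.sum_le_card_nsmul _ _ (n * n) fun z hz' => ?_).trans ?_
    · have e : (Finset.univ.filter fun g => Commute g z).card =
          Nat.card (Subgroup.centralizer ({z} : Set G)) := by
        rw [Nat.card_eq_fintype_card]
        exact (Fintype.card_of_subtype _ (fun g => by
          simp [Subgroup.mem_centralizer_singleton_iff, commute_iff_eq])).symm
      rw [Finset.card_product, e]
      exact Nat.mul_le_mul (hconj z hz') (hconj z hz')
    · rw [smul_eq_mul]
      exact Nat.mul_le_mul_right _ hZc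
  have ha := hS y₁ (by simp)
  have hb' := hS y₂ (by simp)
  refine Nat.le_of_mul_le_mul_left (c := Nat.card K) ?_ Nat.card_pos
  calc Nat.card K * Nat.card K ≤ n * (S y₁).card * (n * (S y₂).card) := Nat.mul_le_mul ha hb'
    _ = n * n * ((S y₁).card * (S y₂).card) := by ring
    _ ≤ n * n * (Nat.card K * (n * n)) := Nat.mul_le_mul_left _ hpairs
    _ = Nat.card K * n ^ 4 := by ring

end CfsgLib.InvolutionBound
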