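import Cfsg.Agent.Lib.Blocks.FirstMainTheorem
import Cfsg.Agent.Lib.Blocks.StabBlock
import Cfsg.Agent.Lib.Blocks.Cover
import Cfsg.Agent.Lib.Blocks.CoeffIdeal
import Cfsg.Agent.Lib.Chars.Kernel
import Cfsg.Agent.Lib.GroupB.Cores

/-!
Kernels of subsections of a block: the descent between the centralizers of `p`-subgroups.
-/

namespace CfsgLib.KernelDescent

open scoped ComplexConjugate Classical
open Cfsg CfsgLib.Chars CfsgLib.Blocks

universe u

variable {G : Type u} [Group G] [Fintype G] {p : ℕ} {M : Ideal AlgInt}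

/-- The normalised indicator of a subgroup. -/
noncomputable def avg (A : Subgroup G) (g : G) : ℂ :=
  if g ∈ A then ((Nat.card A : ℕ) : ℂ)⁻¹ else 0

/-- The elements of `A` lying in `K` are in the kernel of `θ`. -/
def KillsOn (K A : Subgroup G) (θ : IrrCharacter K) : Prop :=
  ∀ x : K, (x : G) ∈ A → (θ : K → ℂ) x = (θ : K → ℂ) 1

omit [Fintype G] in
theorem avg_class (A : Subgroup G) [hA : A.Normal] : IsClassFunction G (avg A) := fun x y => by
  have hiff : y * x * y⁻¹ ∈ A ↔ x ∈ A :=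
    ⟨fun h => by simpa [mul_assoc] using hA.conj_mem _ h y⁻¹, fun h => hA.conj_mem _ h y⟩
  simp only [avg, hiff]

theorem not_mli_card (hM : IsPModular p M) {n : ℕ} (hn : ¬ p ∣ n) : ¬ MemLocalIdeal M (n : ℂ) :=
  fun h => hn ((mli_natCast_iff hM n).mp h)

theorem mlr_avg (hM : IsPModular p M) {A : Subgroup G} (hA : ¬ p ∣ Nat.card A) (g : G) :
    MemLocalRing M (avg A g) := by
  rw [avg]
  split_ifs
  · exact mlr_inv (mlr_natCast hM _) (not_mli_card hM hA)
  · exact mlr_zero hM

theorem kills_iff_omega (hM : IsPModular p M) (A : Subgroup G) [A.Normal] (ξ : IrrCharacter G) :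
    ¬ MemLocalIdeal M (omega (ξ : G → ℂ) (avg A)) ↔
      ∀ a ∈ A, (ξ : G → ℂ) a = (ξ : G → ℂ) 1 := by
  have e : omega (ξ : G → ℂ) (avg A) =
      classInner (fun a : A => (ξ : G → ℂ) a) (trivIrr A : A → ℂ) / (ξ : G → ℂ) 1 := by
    rw [omega, classInner, Finset.mul_sum]
    congr 1
    simp only [avg, ite_mul, zero_mul, trivIrr, map_one, mul_one]
    rw [← Finset.sum_filter, Finset.sum_subtype (Finset.univ.filter (fun g : G => g ∈ A))
      (p := fun g => g ∈ A) (fun x => by simp)]
  constructor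
  · intro h a ha
    have hne : classInner (fun a : A => (ξ : G → ℂ) a) (trivIrr A : A → ℂ) ≠ 0 := fun h0 => h (by
      rw [e, h0, zero_div]; exact mli_zero hM)
    obtain ⟨m, -, -, hval, -⟩ := clifford A ξ (trivIrr A) hne
    have horb : ∀ φ ∈ orbit A (trivIrr A), ∀ n : A, (φ : A → ℂ) n = 1 := by
      intro φ hφ n
      obtain ⟨g, rfl⟩ := (mem_orbit A).mp hφ
      rw [conjIrr_apply]; rfl
    have e1 := hval ⟨a, ha⟩
    have e2 := hval 1
    rw [Finset.sum_congr rfl fun φ hφ => horb φ hφ _] at e1 e2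
    exact e1.trans e2.symm
  · intro h
    have h1 : classInner (fun a : A => (ξ : G → ℂ) a) (trivIrr A : A → ℂ) = (ξ : G → ℂ) 1 := by
      simp only [classInner, h _ (SetLike.coe_mem _), trivIrr, map_one, mul_one, Finset.sum_const,
        nsmul_eq_mul, Finset.card_univ, ← Nat.card_eq_fintype_card]
      rw [inv_mul_cancel_left₀ (natCast_card_ne_zero A)]
    rw [e, h1, div_self (irr_one_ne_zero ξ)]
    exact not_mli_one hM

omit [Fintype G] in
theorem card_subgroupOf_dvd (A K : Subgroup G) :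
    Nat.card (A.subgroupOf K) ∣ Nat.card A :=
  (Subgroup.card_map_of_injective K.subtype_injective ▸
    Subgroup.card_dvd_of_le (show (A.subgroupOf K).map K.subtype ≤ A by
      rintro _ ⟨x, hx, rfl⟩; exact hx))

theorem omega_avg_sub (hM : IsPModular p M) (A K : Subgroup G) (hA : ¬ p ∣ Nat.card A)
    (θ : IrrCharacter K) [(A.subgroupOf K).Normal] :
    ¬ MemLocalIdeal M (omega (θ : K → ℂ) (fun k : K => avg A (k : G))) ↔ KillsOn K A θ := by
  have hA' : ¬ p ∣ Nat.card (A.subgroupOf K) := fun h => hA (h.trans (card_subgroupOf_dvd A K))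
  have e : (fun k : K => avg A (k : G)) = fun k : K =>
      (((Nat.card A : ℕ) : ℂ)⁻¹ * (Nat.card (A.subgroupOf K) : ℂ)) * avg (A.subgroupOf K) k := by
    funext k
    by_cases h : (k : G) ∈ A
    · rw [avg, avg, if_pos h, if_pos (Subgroup.mem_subgroupOf.mpr h), mul_assoc,
        mul_inv_cancel₀ (natCast_card_ne_zero _), mul_one]
    · rw [avg, avg, if_neg h, if_neg (fun h' => h (Subgroup.mem_subgroupOf.mp h')), mul_zero]
  rw [e, omega_const_mul]
  have hr1 : MemLocalRing M (((Nat.card A : ℕ) : ℂ)⁻¹ * (Nat.card (A.subgroupOf K) : ℂ)) :=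
    mlr_mul hM (mlr_inv (mlr_natCast hM _) (not_mli_card hM hA)) (mlr_natCast hM _)
  have hr2 : ¬ MemLocalIdeal M (((Nat.card A : ℕ) : ℂ)⁻¹ * (Nat.card (A.subgroupOf K) : ℂ)) := by
    intro h
    apply not_mli_card hM hA'
    have := mli_mul_left hM (mlr_natCast hM (Nat.card A)) h
    rwa [mul_inv_cancel_left₀ (natCast_card_ne_zero A)] at this
  rw [show (KillsOn K A θ ↔ ∀ a ∈ A.subgroupOf K, (θ : K → ℂ) a = (θ : K → ℂ) 1) from Iff.rfl |>
    fun h => h]
  constructor
  · intro h
    refine (kills_iff_omega hM (A.subgroupOf K) θ).mp fun h0 => h ?_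
    exact mli_mul_left hM hr1 h0
  · intro h h0
    refine (kills_iff_omega hM (A.subgroupOf K) θ).mpr h ?_
    exact ((mli_mul_cases hM hr1 (mlr_omega hM θ (avg_class _) (mlr_avg hM hA')) h0).resolve_left hr2)

theorem omega_equiv {H H' : Type u} [Group H] [Group H'] [Fintype H] [Fintype H'] (e : H ≃* H')
    (χ : IrrCharacter H') (f : H' → ℂ) :
    omega (pullIrr e χ : H → ℂ) (fun h => f (e h)) = omega (χ : H' → ℂ) f := by
  simp only [omega, pullIrr_apply, map_one]
  congr 1
  exact Fintype.sum_equiv e.toEquiv _ _ fun h => rfl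

theorem brVal_centralizer (R : Subgroup G) (ψ : Subgroup.centralizer (R : Set G) → ℂ) (f : G → ℂ) :
    brVal R (Subgroup.centralizer (R : Set G)) ψ f =
      omega ψ (fun c : Subgroup.centralizer (R : Set G) => f (c : G)) := by
  rw [brVal]
  congr 1
  funext c
  rw [brTrunc, if_pos c.2]

/-- Relation of kernels across the Brauer map. -/
theorem ker_link (hM : IsPModular p M) {R : Subgroup G} (hR : IsPGroup p R) (A : Subgroup G)
    [A.Normal] (hA : ¬ p ∣ Nat.card A) {c : Set (IrrCharacter G)} (hc : IsPBlock M c)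
    {ξ : IrrCharacter G} (hξ : ξ ∈ c) {ψ : IrrCharacter (Subgroup.centralizer (R : Set G))}
    (h : ¬ MemLocalIdeal M (omega (ψ : _ → ℂ)
      (fun x : Subgroup.centralizer (R : Set G) => blockCoeff c (x : G)))) :
    (∀ a ∈ A, (ξ : G → ℂ) a = (ξ : G → ℂ) 1) ↔ KillsOn _ A ψ := by
  rw [← brVal_centralizer] at h
  have k := mli_brVal_sub_omega hM hR le_rfl (Subgroup.centralizer_le_normalizer _) ψ hc hξ h
    (avg_class A) (mlr_avg hM hA)
  rw [brVal_centralizer] at k
  haveI : (A.subgroupOf (Subgroup.centralizer (R : Set G))).Normal :=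
    Subgroup.Normal.subgroupOf inferInstance _
  rw [← kills_iff_omega hM A ξ, ← omega_avg_sub hM A _ hA ψ]
  constructor
  · intro h1 h2
    apply h1
    have := mli_sub hM h2 k
    rwa [sub_sub_cancel] at this
  · intro h1 h2
    apply h1
    have := mli_add hM k h2
    rwa [sub_add_cancel] at this

theorem exists_detect (hM : IsPModular p M) {c : Set (IrrCharacter G)} (hc : IsPBlock M c)
    {R : Subgroup G} (hR : IsDefectGroup p M c R) :
    ∃ ψ : IrrCharacter (Subgroup.centralizer (R : Set G)), ¬ MemLocalIdeal M (omega (ψ : _ → ℂ)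
      (fun x : Subgroup.centralizer (R : Set G) => blockCoeff c (x : G))) := by
  haveI : Fact p.Prime := ⟨hM.1⟩
  by_contra hne
  push Not at hne
  have hRp := defectGroup_isPGroup hR
  obtain ⟨g, hg, S, hS⟩ := hR
  have hgC : g ∈ Subgroup.centralizer (R : Set G) := Subgroup.mem_centralizer_iff.mpr fun q hq =>
    Subgroup.mem_centralizer_singleton_iff.mp (hS ▸ Subgroup.map_subtype_le _ <| hq)
  apply hg.2.1
  set C := Subgroup.centralizer (R : Set G)
  have hsl := mlr_blockCoeff hM hc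
  have hsc : IsClassFunction G (blockCoeff c) := blockCoeff_isClassFunction c
  have htc := brTrunc_isClassFunction (P := R) (H := C) (Subgroup.centralizer_le_normalizer _) hsc
  have hv : CoeffMli M (fun ψ : IrrCharacter C => omega (ψ : C → ℂ) (brTrunc R C (blockCoeff c))) := by
    refine coeffMli_of_idem hM (omega_mem_centerRing hM htc (mlr_brTrunc hM R C hsl))
      (fun ψ => ?_) (fun x => ?_)
    · have := hne ψ
      rwa [← brVal_centralizer] at this
    · have h := mli_brTrunc_conv hM hRp (le_refl C) hsc hsc hsl hsl x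
      rw [conv_blockCoeff_self] at h
      have h' := mli_neg h
      rw [neg_sub] at h'
      have e : coeffFun ((fun ψ : IrrCharacter C => omega (ψ : C → ℂ) (brTrunc R C (blockCoeff c))) *
          (fun ψ : IrrCharacter C => omega (ψ : C → ℂ) (brTrunc R C (blockCoeff c))) -
          fun ψ : IrrCharacter C => omega (ψ : C → ℂ) (brTrunc R C (blockCoeff c))) x =
          CfsgLib.Chars.conv (brTrunc R C (blockCoeff c)) (brTrunc R C (blockCoeff c)) x -
            brTrunc R C (blockCoeff c) x := by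
        have e2 : ∀ u v : IrrCharacter C → ℂ, coeffFun (u - v) x = coeffFun u x - coeffFun v x :=
          fun u v => by simp [coeffFun, sub_mul, Finset.sum_sub_distrib, mul_sub]
        rw [e2, coeffFun_mul, coeffFun_omega htc]
      rw [e]
      exact h'
  have := hv ⟨g, hgC⟩
  rw [coeffFun_omega htc, brTrunc, if_pos hgC] at this
  exact this

/-! ### Characters of the centralizer and of a subgroup of the normalizer -/

/-- A character of `H` and a constituent on the centralizer carry the same information. -/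
theorem rel_of_constituent (hM : IsPModular p M) {Q H : Subgroup G}
    (hCH : Subgroup.centralizer (Q : Set G) ≤ H) (hHN : H ≤ Subgroup.normalizer (Q : Set G))
    [((Subgroup.centralizer (Q : Set G)).subgroupOf H).Normal]
    (ξ : IrrCharacter H) (η : IrrCharacter ((Subgroup.centralizer (Q : Set G)).subgroupOf H))
    (hη : classInner (fun n : (Subgroup.centralizer (Q : Set G)).subgroupOf H => (ξ : H → ℂ) n)
      (η : _ → ℂ) ≠ 0) :
    (∀ f : G → ℂ, IsClassFunction G f →
      omega (pullIrr (Subgroup.subgroupOfEquivOfLe hCH).symm η :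
        Subgroup.centralizer (Q : Set G) → ℂ)
        (fun x : Subgroup.centralizer (Q : Set G) => f (x : G)) = brVal Q H (ξ : H → ℂ) f) ∧
    ∀ A : Subgroup G, A ≤ Subgroup.centralizer (Q : Set G) → ¬ p ∣ Nat.card A →
      (A.subgroupOf H).Normal →
      (KillsOn H A ξ ↔ KillsOn _ A (pullIrr (Subgroup.subgroupOfEquivOfLe hCH).symm η)) := by
  have tr : ∀ F : G → ℂ, omega (pullIrr (Subgroup.subgroupOfEquivOfLe hCH).symm η : (Subgroup.centralizer (Q : Set G)) → ℂ) (fun x : (Subgroup.centralizer (Q : Set G)) => F (x : G)) =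
      omega (η : ((Subgroup.centralizer (Q : Set G)).subgroupOf H) → ℂ) (fun j : ((Subgroup.centralizer (Q : Set G)).subgroupOf H) => F ((j : H) : G)) := by
    intro F
    rw [← omega_equiv (Subgroup.subgroupOfEquivOfLe hCH) (pullIrr (Subgroup.subgroupOfEquivOfLe hCH).symm η) (fun x : (Subgroup.centralizer (Q : Set G)) => F (x : G)), pullIrr_symm_apply]
    rfl
  constructor
  · intro f hf
    rw [tr, brVal]
    have h := omega_res_constituent ((Subgroup.centralizer (Q : Set G)).subgroupOf H) hη (brTrunc_isClassFunction hHN hf) fun x hx => by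
      rw [brTrunc, if_neg]
      exact hx
    rw [h]
    congr 1
    funext j
    rw [brTrunc, if_pos]
    exact j.2
  · intro A hAC hA hAn
    haveI := hAn
    haveI : (A.subgroupOf (Subgroup.centralizer (Q : Set G))).Normal := ⟨fun x hx k => hAn.conj_mem ⟨(x : G), hCH x.2⟩ hx ⟨(k : G), hCH k.2⟩⟩
    rw [← omega_avg_sub hM A H hA ξ, ← omega_avg_sub hM A (Subgroup.centralizer (Q : Set G)) hA _, tr]
    have h := omega_res_constituent ((Subgroup.centralizer (Q : Set G)).subgroupOf H) hη (f := fun x : H => avg A (x : G)) (fun x y => by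
      have : y * x * y⁻¹ ∈ A.subgroupOf H ↔ x ∈ A.subgroupOf H :=
        ⟨fun h => by simpa [mul_assoc] using hAn.conj_mem _ h y⁻¹, fun h => hAn.conj_mem _ h y⟩
      simp only [avg]
      exact if_congr this rfl rfl) fun x hx => by
      rw [avg, if_neg]
      exact fun h => hx (hAC h)
    rw [h]

/-! ### The largest normal subgroup of the centralizer with order in `π` -/

variable (π : Set ℕ)

/-- The `π`-core of the centralizer, as a subgroup of the whole group. -/
def O (Q : Subgroup G) : Subgroup G :=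
  (Cfsg.piCore π ↥(Subgroup.centralizer (Q : Set G))).map
    (Subgroup.centralizer (Q : Set G)).subtype

theorem O_le (Q : Subgroup G) : O π Q ≤ Subgroup.centralizer (Q : Set G) :=
  Subgroup.map_subtype_le _

theorem O_primes (Q : Subgroup G) {q : ℕ} (hq : q.Prime) (h : q ∣ Nat.card (O π Q)) : q ∈ π :=
  GroupB.Cores.piCore_spec π q hq (by
    rwa [O, Subgroup.card_map_of_injective (Subgroup.subtype_injective _)] at h)

theorem O_not_dvd {π : Set ℕ} (hp : p.Prime) (hpπ : p ∉ π) (Q : Subgroup G) :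
    ¬ p ∣ Nat.card (O π Q) :=
  fun h => hpπ (O_primes π Q hp h)

theorem le_O {Q A : Subgroup G} (hA : A ≤ Subgroup.centralizer (Q : Set G))
    (hn : ∀ c ∈ Subgroup.centralizer (Q : Set G), ∀ a ∈ A, c * a * c⁻¹ ∈ A)
    (hπ : ∀ q : ℕ, q.Prime → q ∣ Nat.card A → q ∈ π) : A ≤ O π Q := by
  intro a ha
  refine ⟨⟨a, hA ha⟩, (le_sSup (show A.subgroupOf (Subgroup.centralizer (Q : Set G)) ∈
    {N : Subgroup _ | N.Normal ∧ ∀ q : ℕ, q.Prime → q ∣ Nat.card N → q ∈ π} from
    ⟨⟨fun x hx c => hn c c.2 x hx⟩, fun q hq h => hπ q hq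
      (h.trans (card_subgroupOf_dvd A _))⟩)) ha, rfl⟩

theorem O_conj_centralizer (Q : Subgroup G) {c a : G}
    (hc : c ∈ Subgroup.centralizer (Q : Set G)) (ha : a ∈ O π Q) : c * a * c⁻¹ ∈ O π Q := by
  obtain ⟨x, hx, rfl⟩ := ha
  exact ⟨⟨c, hc⟩ * x * ⟨c, hc⟩⁻¹, (Cfsg.piCore_normal π _).conj_mem x hx _, rfl⟩

theorem map_conj_centralizer {Q Q' : Subgroup G} {g : G}
    (hQ : Q' = Q.map (MulAut.conj g).toMonoidHom) (x : G) :
    g * x * g⁻¹ ∈ Subgroup.centralizer (Q' : Set G) ↔ x ∈ Subgroup.centralizer (Q : Set G) := by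
  subst hQ
  simp only [Subgroup.mem_centralizer_iff]
  constructor
  · intro h q hq
    have := h (g * q * g⁻¹) ⟨q, hq, rfl⟩
    calc q * x = g⁻¹ * (g * q * g⁻¹ * (g * x * g⁻¹)) * g := by group
      _ = g⁻¹ * (g * x * g⁻¹ * (g * q * g⁻¹)) * g := by rw [this]
      _ = x * q := by group
  · rintro h _ ⟨q, hq, rfl⟩
    simp only [MulEquiv.coe_toMonoidHom, MulAut.conj_apply]
    calc g * q * g⁻¹ * (g * x * g⁻¹) = g * (q * x) * g⁻¹ := by group
      _ = g * (x * q) * g⁻¹ := by rw [h q hq]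
      _ = _ := by group

theorem O_map_conj_le {Q Q' : Subgroup G} {g : G} (hQ : Q' = Q.map (MulAut.conj g).toMonoidHom) :
    (O π Q).map (MulAut.conj g).toMonoidHom ≤ O π Q' := by
  refine le_O π ?_ ?_ fun q hq h => O_primes π Q hq (by rwa [card_map_conj] at h)
  · rintro _ ⟨a, ha, rfl⟩
    exact (map_conj_centralizer hQ a).mpr (O_le π Q ha)
  · rintro c hc _ ⟨a, ha, rfl⟩
    have hc' : g⁻¹ * c * g ∈ Subgroup.centralizer (Q : Set G) := by
      rw [← map_conj_centralizer hQ]
      simpa [mul_assoc] using hc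
    refine ⟨g⁻¹ * c * g * a * (g⁻¹ * c * g)⁻¹, O_conj_centralizer π Q hc' ha, ?_⟩
    simp only [MulEquiv.coe_toMonoidHom, MulAut.conj_apply]
    group

theorem O_normalized (Q : Subgroup G) {n a : G} (hn : n ∈ Subgroup.normalizer (Q : Set G))
    (ha : a ∈ O π Q) : n * a * n⁻¹ ∈ O π Q :=
  O_map_conj_le π ((Subgroup.mem_normalizer_iff_map_conj_eq.mp hn).symm) ⟨a, ha, rfl⟩

theorem O_inf_le {Q R : Subgroup G} (hQR : Q ≤ R) :
    O π Q ⊓ Subgroup.centralizer (R : Set G) ≤ O π R :=
  le_O π inf_le_right (fun c hc a ha =>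
    ⟨O_conj_centralizer π Q (Subgroup.centralizer_le hQR hc) ha.1,
      Subgroup.mul_mem _ (Subgroup.mul_mem _ hc ha.2) (Subgroup.inv_mem _ hc)⟩)
    fun q hq h => O_primes π Q hq (h.trans (Subgroup.card_dvd_of_le inf_le_left))

/-- All elements of the centralizer with order in `π` lie in the core. -/
def Hall (Q : Subgroup G) : Prop :=
  ∀ x ∈ Subgroup.centralizer (Q : Set G), (∀ q : ℕ, q.Prime → q ∣ orderOf x → q ∈ π) → x ∈ O π Q

theorem Hall.mono {π : Set ℕ} {Q R : Subgroup G} (h : Hall π Q) (hQR : Q ≤ R) : Hall π R :=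
  fun x hx hxπ => O_inf_le π hQR ⟨h x (Subgroup.centralizer_le hQR hx) hxπ, hx⟩

theorem Hall.O_le_O {π : Set ℕ} {Q R : Subgroup G} (h : Hall π Q) (hQR : Q ≤ R) :
    O π R ≤ O π Q := fun x hx => by
  refine h x (Subgroup.centralizer_le hQR (O_le π R hx)) fun q hq hd => O_primes π R hq ?_
  rw [← Subgroup.orderOf_mk x hx] at hd
  exact hd.trans (orderOf_dvd_natCard _)

theorem piCore_normalizer_eq (hp : p.Prime) (hpπ : p ∉ π) {D : Subgroup G} (hD : IsPGroup p D) :
    (Cfsg.piCore π ↥(Subgroup.normalizer (D : Set G))).map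
      (Subgroup.normalizer (D : Set G)).subtype = O π D := by
  haveI : Fact p.Prime := ⟨hp⟩
  set H := Subgroup.normalizer (D : Set G)
  have hDH : D ≤ H := Subgroup.le_normalizer
  refine le_antisymm (le_O π ?_ ?_ fun q hq h => GroupB.Cores.piCore_spec π q hq
    (by rwa [Subgroup.card_map_of_injective H.subtype_injective] at h)) ?_
  · rintro _ ⟨a, ha, rfl⟩
    haveI : (D.subgroupOf H).Normal :=
      (Subgroup.normal_subgroupOf_iff_le_normalizer hDH).mpr le_rfl
    have hdisj : Disjoint (D.subgroupOf H) (Cfsg.piCore π H) := by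
      refine disjoint_iff.mpr (Subgroup.inf_eq_bot_of_coprime ?_)
      obtain ⟨k, hk⟩ : ∃ k, Nat.card (D.subgroupOf H) = p ^ k := IsPGroup.iff_card.mp
        (hD.comap_of_injective H.subtype H.subtype_injective : IsPGroup p (D.subgroupOf H))
      rw [hk]
      exact (Nat.Coprime.pow_left k ((Nat.Prime.coprime_iff_not_dvd hp).mpr fun h =>
        hpπ (GroupB.Cores.piCore_spec π p hp h)))
    rw [Subgroup.mem_centralizer_iff]
    intro q hq
    exact congrArg Subtype.val (Subgroup.commute_of_normal_of_disjoint _ _ inferInstance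
      (Cfsg.piCore_normal π H) hdisj ⟨q, hDH hq⟩ a hq ha).eq
  · rintro c hc _ ⟨a, ha, rfl⟩
    exact ⟨⟨c, Subgroup.centralizer_le_normalizer _ hc⟩ * a *
      ⟨c, Subgroup.centralizer_le_normalizer _ hc⟩⁻¹, (Cfsg.piCore_normal π H).conj_mem a ha _, rfl⟩
  · intro a ha
    have haH : a ∈ H := Subgroup.centralizer_le_normalizer _ (O_le π D ha)
    refine ⟨⟨a, haH⟩, (le_sSup (show (O π D).subgroupOf H ∈
      {N : Subgroup _ | N.Normal ∧ ∀ q : ℕ, q.Prime → q ∣ Nat.card N → q ∈ π} from
      ⟨⟨fun x hx n => O_normalized π D n.2 hx⟩, fun q hq h => O_primes π D hq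
        (h.trans (card_subgroupOf_dvd _ _))⟩)) ha, rfl⟩

variable {π} {B : Set (IrrCharacter G)}

/-- The pair of a `p`-subgroup and a character of its centralizer belongs to the block. -/
def Det (M : Ideal AlgInt) (B : Set (IrrCharacter G)) (Q : Subgroup G)
    (θ : IrrCharacter (Subgroup.centralizer (Q : Set G))) : Prop :=
  ¬ MemLocalIdeal M (omega (θ : _ → ℂ)
    (fun x : Subgroup.centralizer (Q : Set G) => blockCoeff B (x : G)))

theorem centralizer_subgroupOf_normal {Q H : Subgroup G}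
    (hHN : H ≤ Subgroup.normalizer (Q : Set G)) :
    ((Subgroup.centralizer (Q : Set G)).subgroupOf H).Normal :=
  ⟨fun x hx k => conj_mem_centralizer_of_normalizer (hHN k.2) hx⟩

theorem O_subgroupOf_normal {Q H : Subgroup G} (hHN : H ≤ Subgroup.normalizer (Q : Set G)) :
    ((O π Q).subgroupOf H).Normal :=
  ⟨fun x hx k => O_normalized π Q (hHN k.2) hx⟩

/-- Some character of `H` over a character of the centralizer. -/
theorem exists_above (hM : IsPModular p M) (hpπ : p ∉ π) {Q H : Subgroup G}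
    (hCH : Subgroup.centralizer (Q : Set G) ≤ H) (hHN : H ≤ Subgroup.normalizer (Q : Set G))
    {θ : IrrCharacter (Subgroup.centralizer (Q : Set G))} (hθ : Det M B Q θ) :
    ∃ ξ : IrrCharacter H, ¬ MemLocalIdeal M (brVal Q H (ξ : H → ℂ) (blockCoeff B)) ∧
      (KillsOn H (O π Q) ξ ↔ KillsOn _ (O π Q) θ) := by
  haveI := centralizer_subgroupOf_normal (Q := Q) hHN
  obtain ⟨ξ, hξ⟩ := exists_over ((Subgroup.centralizer (Q : Set G)).subgroupOf H) (pullIrr (Subgroup.subgroupOfEquivOfLe hCH) θ)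
  obtain ⟨h1, h2⟩ := rel_of_constituent hM hCH hHN ξ _ hξ
  refine ⟨ξ, ?_, ?_⟩
  · rw [← h1 _ (blockCoeff_isClassFunction B), pullIrr_apply_symm]
    exact hθ
  · rw [h2 _ (O_le π Q) (O_not_dvd hM.1 hpπ Q) (O_subgroupOf_normal hHN), pullIrr_apply_symm]

/-- A constituent on the centralizer. -/
theorem exists_below (hM : IsPModular p M) (hpπ : p ∉ π) {Q H : Subgroup G}
    (hCH : Subgroup.centralizer (Q : Set G) ≤ H) (hHN : H ≤ Subgroup.normalizer (Q : Set G))
    {ξ : IrrCharacter H} (hξ : ¬ MemLocalIdeal M (brVal Q H (ξ : H → ℂ) (blockCoeff B))) :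
    ∃ θ : IrrCharacter (Subgroup.centralizer (Q : Set G)), Det M B Q θ ∧
      (KillsOn H (O π Q) ξ ↔ KillsOn _ (O π Q) θ) := by
  haveI := centralizer_subgroupOf_normal (Q := Q) hHN
  obtain ⟨η, hη⟩ := exists_res_constituent ((Subgroup.centralizer (Q : Set G)).subgroupOf H) ξ
  obtain ⟨h1, h2⟩ := rel_of_constituent hM hCH hHN ξ η hη
  exact ⟨_, by rw [Det, h1 _ (blockCoeff_isClassFunction B)]; exact hξ,
    h2 _ (O_le π Q) (O_not_dvd hM.1 hpπ Q) (O_subgroupOf_normal hHN)⟩

/-- The centralizer inside a subgroup as a centralizer in the whole group. -/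
def centEquiv {H : Subgroup G} (R' : Subgroup H)
    (h : Subgroup.centralizer ((R'.map H.subtype : Subgroup G) : Set G) ≤ H) :
    ↥(Subgroup.centralizer ((R'.map H.subtype : Subgroup G) : Set G)) ≃*
      ↥(Subgroup.centralizer (R' : Set H)) where
  toFun x := ⟨⟨(x : G), h x.2⟩, Subgroup.mem_centralizer_iff.mpr fun r hr =>
    Subtype.ext (Subgroup.mem_centralizer_iff.mp x.2 (r : G) ⟨r, hr, rfl⟩)⟩
  invFun x := ⟨((x : H) : G), Subgroup.mem_centralizer_iff.mpr fun r hr => by
    obtain ⟨r', hr', rfl⟩ := hr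
    exact congrArg Subtype.val (Subgroup.mem_centralizer_iff.mp x.2 r' hr')⟩
  left_inv _ := rfl
  right_inv _ := rfl
  map_mul' _ _ := rfl

/-- The basic step: either the normalizer pair is at the top or one can go up. -/
theorem step (hM : IsPModular p M) (hpπ : p ∉ π) (hB : IsPBlock M B) {Q : Subgroup G}
    (hQ : IsPGroup p Q) {θ : IrrCharacter (Subgroup.centralizer (Q : Set G))} (hθ : Det M B Q θ) :
    ∃ ξ : IrrCharacter (Subgroup.normalizer (Q : Set G)),
      ¬ MemLocalIdeal M (brVal Q (Subgroup.normalizer (Q : Set G)) (ξ : _ → ℂ) (blockCoeff B)) ∧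
      (KillsOn _ (O π Q) ξ ↔ KillsOn _ (O π Q) θ) ∧
      (IsDefectGroup p M (blockOf M (ξ : Subgroup.normalizer (Q : Set G) → ℂ))
          (Q.subgroupOf (Subgroup.normalizer (Q : Set G))) ∨
        ∃ R : Subgroup G, IsPGroup p R ∧ Q < R ∧
          ∃ ψ : IrrCharacter (Subgroup.centralizer (R : Set G)), Det M B R ψ ∧
            (KillsOn _ (O π Q) θ ↔ KillsOn _ (O π Q) ψ)) := by
  haveI : Fact p.Prime := ⟨hM.1⟩
  obtain ⟨ξ, hξB, hξθ⟩ := exists_above (π := π) hM hpπ (Subgroup.centralizer_le_normalizer _) le_rfl hθ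
  refine ⟨ξ, hξB, hξθ, ?_⟩
  have hc : IsPBlock M (blockOf M (ξ : Subgroup.normalizer (Q : Set G) → ℂ)) := isPBlock_blockOf ξ
  have hξc := self_mem_blockOf hM ξ
  obtain ⟨R', hR'⟩ := exists_isDefectGroup hM hc
  have hQH : Q ≤ Subgroup.normalizer (Q : Set G) := Subgroup.le_normalizer
  haveI : (Q.subgroupOf (Subgroup.normalizer (Q : Set G))).Normal :=
    (Subgroup.normal_subgroupOf_iff_le_normalizer hQH).mpr le_rfl
  have hQR : Q.subgroupOf (Subgroup.normalizer (Q : Set G)) ≤ R' :=
    normal_pGroup_le_defectGroup hM (Q.subgroupOf (Subgroup.normalizer (Q : Set G))) (hQ.comap_of_injective _ (Subgroup.subtype_injective _)) hc hR'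
  rcases eq_or_ne (Q.subgroupOf (Subgroup.normalizer (Q : Set G))) R' with heq | hne
  · exact Or.inl (heq ▸ hR')
  refine Or.inr ⟨R'.map (Subgroup.normalizer (Q : Set G)).subtype, (defectGroup_isPGroup hR').map _,
    ?_, ?_⟩
  · refine lt_of_le_of_ne (fun q hq => ⟨⟨q, hQH hq⟩, hQR hq, rfl⟩) fun e => hne ?_
    refine le_antisymm hQR fun r hr => ?_
    exact e.ge ⟨r, hr, rfl⟩
  have hQle : Q ≤ R'.map (Subgroup.normalizer (Q : Set G)).subtype :=
    fun q hq => ⟨⟨q, hQH hq⟩, hQR hq, rfl⟩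
  have hCle : Subgroup.centralizer ((R'.map (Subgroup.normalizer (Q : Set G)).subtype : Subgroup G) : Set G)
      ≤ Subgroup.centralizer (Q : Set G) := Subgroup.centralizer_le hQle
  obtain ⟨ψ, hψ⟩ := exists_detect hM hc hR'
  refine ⟨pullIrr (centEquiv R' (hCle.trans (Subgroup.centralizer_le_normalizer _))) ψ, ?_, ?_⟩
  · intro h0
    apply hξB
    have hf := brTrunc_isClassFunction (P := Q) (H := Subgroup.normalizer (Q : Set G)) le_rfl
      (blockCoeff_isClassFunction B)
    have hψ' := hψ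
    rw [← brVal_centralizer] at hψ'
    have k := mli_brVal_sub_omega hM (defectGroup_isPGroup hR') le_rfl
      (Subgroup.centralizer_le_normalizer _) ψ hc hξc hψ' hf
      (mlr_brTrunc hM Q _ (mlr_blockCoeff hM hB))
    rw [brVal_centralizer] at k
    have e : omega (ψ : _ → ℂ) (fun x : Subgroup.centralizer (R' : Set (Subgroup.normalizer (Q : Set G))) =>
        brTrunc Q (Subgroup.normalizer (Q : Set G)) (blockCoeff B) (x : Subgroup.normalizer (Q : Set G))) =
        omega (pullIrr (centEquiv R' (hCle.trans (Subgroup.centralizer_le_normalizer _))) ψ).1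
          (fun x => blockCoeff B (x : G)) := by
      rw [← omega_equiv (centEquiv R' (hCle.trans (Subgroup.centralizer_le_normalizer _))) ψ]
      congr 1
      funext x
      rw [brTrunc, if_pos]
      · rfl
      · exact hCle x.2
    rw [e] at k
    have := mli_sub hM h0 k
    rwa [sub_sub_cancel] at this
  · rw [← hξθ]
    haveI := O_subgroupOf_normal (π := π) (Q := Q) (H := Subgroup.normalizer (Q : Set G)) le_rfl
    have h := ker_link hM (defectGroup_isPGroup hR') ((O π Q).subgroupOf (Subgroup.normalizer (Q : Set G)))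
      (fun h => O_not_dvd hM.1 hpπ Q (h.trans (card_subgroupOf_dvd _ _))) hc hξc hψ
    constructor
    · intro hk x hx
      exact h.mp (fun a ha => hk a ha) _ hx
    · intro hk x hx
      exact h.mpr (fun y hy => hk ((centEquiv R' (hCle.trans (Subgroup.centralizer_le_normalizer _))).symm y) hy) x hx

/-- Transport along a conjugation of `p`-subgroups. -/
def normEquiv {D Q : Subgroup G} {g : G} (hQ : Q = D.map (MulAut.conj g).toMonoidHom) :
    ↥(Subgroup.normalizer (D : Set G)) ≃* ↥(Subgroup.normalizer (Q : Set G)) where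
  toFun x := ⟨g * x * g⁻¹, by
    subst hQ
    rw [Subgroup.mem_normalizer_iff_map_conj_eq, Subgroup.map_map]
    conv_rhs => rw [← Subgroup.mem_normalizer_iff_map_conj_eq.mp x.2, Subgroup.map_map]
    congr 1
    ext y
    simp [mul_assoc]⟩
  invFun x := ⟨g⁻¹ * x * g, by
    subst hQ
    rw [Subgroup.mem_normalizer_iff]
    intro y
    have := Subgroup.mem_normalizer_iff.mp x.2 (g * y * g⁻¹)
    rw [Subgroup.mem_map_equiv, Subgroup.mem_map_equiv] at this
    simpa [mul_assoc] using this⟩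
  left_inv x := Subtype.ext (by simp [mul_assoc])
  right_inv x := Subtype.ext (by simp [mul_assoc])
  map_mul' x y := Subtype.ext (by simp [mul_assoc])

/-- At the top one reaches the correspondent at the defect group. -/
theorem top (hM : IsPModular p M) (hB : IsPBlock M B) {D : Subgroup G}
    (hBD : IsDefectGroup p M B D)
    {B₁ : Set (IrrCharacter (Subgroup.normalizer (D : Set G)))}
    (hB₁ : IsInducedBlock M (Subgroup.normalizer (D : Set G)) B₁ B)
    (hB₁D : IsDefectGroup p M B₁ (D.subgroupOf (Subgroup.normalizer (D : Set G))))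
    {Q : Subgroup G} (hQ : IsPGroup p Q) {ξ : IrrCharacter (Subgroup.normalizer (Q : Set G))}
    (hξ : ¬ MemLocalIdeal M (brVal Q (Subgroup.normalizer (Q : Set G)) (ξ : _ → ℂ) (blockCoeff B)))
    (hdef : IsDefectGroup p M (blockOf M (ξ : Subgroup.normalizer (Q : Set G) → ℂ))
      (Q.subgroupOf (Subgroup.normalizer (Q : Set G)))) :
    ∃ ξ₁ ∈ B₁, (KillsOn _ (O π Q) ξ ↔ KillsOn _ (O π D) ξ₁) := by
  have hQD := firstMain_defect hM hQ (isPBlock_blockOf ξ) hdef (self_mem_blockOf hM ξ) hB hξ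
  obtain ⟨g, hg⟩ := defectGroup_conj hM hB hBD hQD
  set ξ₁ := pullIrr (normEquiv hg) ξ with hξ₁
  have hDp := defectGroup_isPGroup hBD
  have e : brVal D (Subgroup.normalizer (D : Set G)) (ξ₁ : _ → ℂ) (blockCoeff B) =
      brVal Q (Subgroup.normalizer (Q : Set G)) (ξ : _ → ℂ) (blockCoeff B) := by
    rw [brVal, brVal, ← omega_equiv (normEquiv hg) ξ]
    congr 1
    funext x
    simp only [brTrunc]
    exact if_congr (map_conj_centralizer hg (x : G)).symm (blockCoeff_isClassFunction B (x : G) g).symm rfl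
  obtain ⟨η, hη⟩ := IsPBlock.nonempty hM hB₁.1
  have hmem : ξ₁ ∈ B₁ := by
    have := firstMain_injective hM hDp (isPBlock_blockOf ξ₁) hB₁.1 hB₁D (self_mem_blockOf hM ξ₁) hη
      hB (by rwa [e]) ((isInducedBlock_iff_brVal hM hDp Subgroup.le_normalizer
        (Subgroup.centralizer_le_normalizer _) le_rfl hB₁.1 hB hη).mp hB₁)
    exact this ▸ self_mem_blockOf hM ξ₁
  refine ⟨ξ₁, hmem, ?_, ?_⟩
  · intro h x hx
    rw [hξ₁, pullIrr_apply, pullIrr_apply, map_one]
    exact h _ (O_map_conj_le π hg ⟨(x : G), hx, rfl⟩)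
  · intro h x hx
    have hD : D = Q.map (MulAut.conj g⁻¹).toMonoidHom := by
      rw [hg, Subgroup.map_map, show ((MulAut.conj g⁻¹).toMonoidHom.comp
        (MulAut.conj g).toMonoidHom) = MonoidHom.id G from
          MonoidHom.ext fun g => by simp [mul_assoc], Subgroup.map_id]
    have := h ((normEquiv hg).symm x) (by
      have h2 := O_map_conj_le π hD ⟨(x : G), hx, rfl⟩
      simpa [normEquiv] using h2)
    rwa [hξ₁, pullIrr_apply, pullIrr_apply, map_one, MulEquiv.apply_symm_apply] at this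

theorem killsOn_block (hM : IsPModular p M) {H : Subgroup G} {A : Subgroup G}
    [(A.subgroupOf H).Normal] (hA : ¬ p ∣ Nat.card A) {c : Set (IrrCharacter H)}
    (hc : IsPBlock M c) {ξ ξ' : IrrCharacter H} (hξ : ξ ∈ c) (hξ' : ξ' ∈ c)
    (h : KillsOn H A ξ) : KillsOn H A ξ' := by
  have hA' : ¬ p ∣ Nat.card (A.subgroupOf H) := fun h => hA (h.trans (card_subgroupOf_dvd A H))
  have hu := (kills_iff_omega hM (A.subgroupOf H) ξ).mpr fun a ha => h a ha
  refine fun x hx => (kills_iff_omega hM (A.subgroupOf H) ξ').mp (fun h0 => hu ?_) x hx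
  have := mli_add hM (mli_omega_sub hM (IsPBlock.sameBlock hM hc hξ hξ') (avg_class _) (mlr_avg hM hA')) h0
  rwa [sub_add_cancel] at this

/-- Kernels descend from the normalizer of the defect group. -/
theorem down (hM : IsPModular p M) (hpπ : p ∉ π) (hB : IsPBlock M B) {D : Subgroup G}
    (hBD : IsDefectGroup p M B D)
    {B₁ : Set (IrrCharacter (Subgroup.normalizer (D : Set G)))}
    (hB₁ : IsInducedBlock M (Subgroup.normalizer (D : Set G)) B₁ B)
    (hB₁D : IsDefectGroup p M B₁ (D.subgroupOf (Subgroup.normalizer (D : Set G))))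
    (hker : ∀ ξ ∈ B₁, KillsOn _ (O π D) ξ) :
    ∀ (Q : Subgroup G), IsPGroup p Q → ∀ θ, Det M B Q θ → KillsOn _ (O π Q) θ := by
  suffices ∀ n, ∀ Q : Subgroup G, Nat.card G - Nat.card Q = n → IsPGroup p Q → ∀ θ,
      Det M B Q θ → KillsOn _ (O π Q) θ from fun Q => this _ Q rfl
  intro n
  induction n using Nat.strong_induction_on with
  | _ n ih =>
    intro Q hn hQ θ hθ
    obtain ⟨ξ, hξB, hξθ, hcase⟩ := step (π := π) hM hpπ hB hQ hθ
    rcases hcase with hdef | ⟨R, hR, hQR, ψ, hψ, hψθ⟩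
    · obtain ⟨ξ₁, hξ₁, hiff⟩ := top (π := π) hM hB hBD hB₁ hB₁D hQ hξB hdef
      exact hξθ.mp (hiff.mpr (hker ξ₁ hξ₁))
    · refine hψθ.mpr fun x hx => ih _ ?_ R rfl hR ψ hψ x (O_inf_le π hQR.le ⟨hx, x.2⟩)
      have h1 := Set.ncard_lt_ncard (show (Q : Set G) ⊂ R from hQR) (Set.toFinite _)
      have h2 := Subgroup.card_le_card_group R
      rw [← Nat.card_coe_set_eq, ← Nat.card_coe_set_eq] at h1
      have h3 : Nat.card Q < Nat.card R := h1
      omega

/-- Kernels go up to the normalizer of the defect group. -/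
theorem up (hM : IsPModular p M) (hpπ : p ∉ π) (hB : IsPBlock M B) {D : Subgroup G}
    (hBD : IsDefectGroup p M B D)
    {B₁ : Set (IrrCharacter (Subgroup.normalizer (D : Set G)))}
    (hB₁ : IsInducedBlock M (Subgroup.normalizer (D : Set G)) B₁ B)
    (hB₁D : IsDefectGroup p M B₁ (D.subgroupOf (Subgroup.normalizer (D : Set G)))) :
    ∀ (Q : Subgroup G), IsPGroup p Q → Hall π Q → ∀ θ, Det M B Q θ → KillsOn _ (O π Q) θ →
      ∀ ξ ∈ B₁, KillsOn _ (O π D) ξ := by
  suffices ∀ n, ∀ Q : Subgroup G, Nat.card G - Nat.card Q = n → IsPGroup p Q → Hall π Q → ∀ θ,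
      Det M B Q θ → KillsOn _ (O π Q) θ → ∀ ξ ∈ B₁, KillsOn _ (O π D) ξ from
    fun Q => this _ Q rfl
  intro n
  induction n using Nat.strong_induction_on with
  | _ n ih =>
    intro Q hn hQ hHall θ hθ hk
    obtain ⟨ξ, hξB, hξθ, hcase⟩ := step (π := π) hM hpπ hB hQ hθ
    rcases hcase with hdef | ⟨R, hR, hQR, ψ, hψ, hψθ⟩
    · obtain ⟨ξ₁, hξ₁, hiff⟩ := top (π := π) hM hB hBD hB₁ hB₁D hQ hξB hdef
      intro ξ' hξ'
      haveI := O_subgroupOf_normal (π := π) (Q := D) (H := Subgroup.normalizer (D : Set G)) le_rfl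
      exact killsOn_block hM (O_not_dvd hM.1 hpπ D) hB₁.1 hξ₁ hξ' (hiff.mp (hξθ.mpr hk))
    · refine ih _ ?_ R rfl hR (hHall.mono hQR.le) ψ hψ
        fun x hx => hψθ.mp hk x (hHall.O_le_O hQR.le hx)
      have h1 := Set.ncard_lt_ncard (show (Q : Set G) ⊂ R from hQR) (Set.toFinite _)
      have h2 := Subgroup.card_le_card_group R
      rw [← Nat.card_coe_set_eq, ← Nat.card_coe_set_eq] at h1
      have h3 : Nat.card Q < Nat.card R := h1
      omega

end CfsgLib.KernelDescent
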