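import Cfsg.Agent.Lib.Blocks.KleinPrincipal
import Cfsg.Agent.Lib.KleinBasic

/-!
Products of two involutions falling into the section of an involution, for Klein four Sylow 2-subgroups.
-/

set_option linter.style.haveILetI false

namespace CfsgLib.Blocks.KP

open scoped ComplexConjugate
open Cfsg CfsgLib.Chars CfsgLib.Involution

universe u

/-- A group of order `4 g₀` without normal subgroup of order `g₀` has a Klein four Sylow subgroup
and one class of involutions. -/
theorem klein_of_no_complement {G : Type u} [Group G] [Finite G] {g₀ : ℕ} (hg₀ : Odd g₀)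
    (hG : Nat.card G = 4 * g₀) (hnc : ¬ ∃ N : Subgroup G, N.Normal ∧ Nat.card N = g₀)
    (P : Sylow 2 G) :
    IsKleinFour (P : Subgroup G) ∧ ∀ s t : G, orderOf s = 2 → orderOf t = 2 → IsConj s t := by
  haveI : Fact (Nat.Prime 2) := ⟨Nat.prime_two⟩
  have hf : (Nat.card G).factorization 2 = 2 := by
    rw [hG, show (4 : ℕ) = 2 ^ 2 from rfl, Nat.factorization_mul (by norm_num) hg₀.pos.ne',
      Finsupp.add_apply, Nat.prime_two.factorization_pow, Finsupp.single_eq_same,
      Nat.factorization_eq_zero_of_not_dvd hg₀.not_two_dvd_nat]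
  have hP : Nat.card (P : Subgroup G) = 4 := by rw [P.card_eq_multiplicity, hf]; norm_num
  have hnot : ¬ Subgroup.normalizer ((P : Subgroup G) : Set G) ≤
      Subgroup.centralizer ((P : Subgroup G) : Set G) := by
    intro h
    have hc := (MonoidHom.ker_transferSylow_isComplement' P h).card_mul_card
    rw [hP, hG] at hc
    exact hnc ⟨(MonoidHom.transferSylow P h).ker, inferInstance, by omega⟩
  have hk : IsKleinFour (P : Subgroup G) := by
    refine ⟨hP, ?_⟩
    haveI : Nontrivial (P : Subgroup G) := by
      rw [← Finite.one_lt_card_iff_nontrivial, hP]; norm_num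
    refine (Monoid.exponent_eq_prime_iff Nat.prime_two).mpr fun z hz => ?_
    have h4 : orderOf z ∣ 2 ^ 2 := (orderOf_dvd_natCard z).trans (dvd_of_eq (hP.trans rfl))
    obtain ⟨i, hi, hz'⟩ := (Nat.dvd_prime_pow Nat.prime_two).mp h4
    interval_cases i
    · exact absurd (orderOf_eq_one_iff.mp (hz'.trans (pow_zero 2))) hz
    · simpa using hz'
    · exfalso
      refine hnot (IsCyclic.normalizer_le_centralizer
        ((Nat.minFac_eq_two_iff _).mpr (hG ▸ dvd_mul_of_dvd_left (by norm_num) _)) ?_)
      exact isCyclic_of_orderOf_eq_card z (hz'.trans hP.symm)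
  refine ⟨hk, ?_⟩
  rcases KleinSylow.dichotomy P hk with h | h
  · exact absurd h.1 hnot
  · exact h

section Central

variable {H : Type u} [Group H] [Finite H] {t a : H} (O : Subgroup H) [O.Normal]

/-- Pairs of involutions with product in `t O`, for a central involution `t`. -/
theorem card_pairs_central (ht : orderOf t = 2) (htc : ∀ h : H, Commute h t) (ha : orderOf a = 2)
    (hodd : ∀ y : H, y ∈ O ↔ Odd (orderOf y))
    (hcomm : ∀ x y : H, QuotientGroup.mk' O x * QuotientGroup.mk' O y =
      QuotientGroup.mk' O y * QuotientGroup.mk' O x)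
    (hsyl : ∀ y : H, orderOf y = 2 → y ≠ t → IsConj a y ∨ IsConj (a * t) y) (hat : a ≠ t) :
    Nat.card {q : H × H // q.1 ∈ O ∧ orderOf q.2 = 2 ∧ orderOf (q.2 * t * q.1) = 2} =
      2 * (Subgroup.centralizer ({a} : Set H)).index ^ 2 := by
  classical
  haveI : Fintype H := Fintype.ofFinite H
  set n := (Subgroup.centralizer ({a} : Set H)).index
  have hat2 : orderOf (a * t) = 2 := by
    refine orderOf_eq_two ?_ fun h => hat ?_
    · calc a * t * (a * t) = a * (t * a) * t := by group
        _ = a * a * (t * t) := by rw [← (htc a).eq]; group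
        _ = 1 := by rw [mul_self ha, mul_self ht, one_mul]
    · rw [eq_inv_of_mul_eq_one_left h, inv_eq ht]
  have hcen : ∀ y : H, Subgroup.centralizer ({y * t} : Set H) = Subgroup.centralizer ({y} : Set H) := by
    intro y
    ext h
    simp only [Subgroup.mem_centralizer_singleton_iff]
    constructor
    · intro e
      refine mul_right_cancel (b := t) ?_
      rw [mul_assoc, e, mul_assoc, ← (htc h).eq, ← mul_assoc]
    · intro e
      rw [← mul_assoc, e, mul_assoc, (htc h).eq, ← mul_assoc]
  have hclass : ∀ y : H, orderOf y = 2 → y ≠ t → (Subgroup.centralizer ({y} : Set H)).index = n := by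
    intro y hy hyt
    have key : ∀ x z : H, IsConj x z → (Subgroup.centralizer ({x} : Set H)).index =
        (Subgroup.centralizer ({z} : Set H)).index := by
      intro x z hxz
      rw [← card_isConj_eq_index, ← card_isConj_eq_index]
      exact Nat.card_congr (Equiv.subtypeEquivRight fun g =>
        ⟨fun h => hxz.symm.trans h, fun h => hxz.trans h⟩)
    rcases hsyl y hy hyt with h | h
    · exact (key _ _ h).symm
    · rw [← key _ _ h, hcen]
  have hmk : ∀ x z : H, IsConj x z → QuotientGroup.mk' O x = QuotientGroup.mk' O z := by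
    intro x z h
    obtain ⟨c, rfl⟩ := isConj_iff.mp h
    rw [map_mul, map_mul, hcomm c x, ← map_mul, ← map_mul, mul_inv_cancel_right]
  have hnconj : ¬ IsConj a (a * t) := by
    intro h
    have h1 := hmk _ _ h
    rw [map_mul, left_eq_mul] at h1
    have h2 := (hodd t).mp ((QuotientGroup.eq_one_iff t).mp h1)
    rw [ht] at h2
    exact absurd h2 (by decide)
  -- the involutions other than `t`
  set Inv := Finset.univ.filter (fun y : H => orderOf y = 2 ∧ y ≠ t)
  have hInv : Inv.card = 2 * n := by
    have hsplit : Inv = Finset.univ.filter (fun y : H => IsConj a y) ∪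
        Finset.univ.filter (fun y : H => IsConj (a * t) y) := by
      ext y
      simp only [Inv, Finset.mem_filter, Finset.mem_univ, true_and, Finset.mem_union]
      refine ⟨fun h => hsyl y h.1 h.2, ?_⟩
      rintro (h | h) <;> obtain ⟨c, rfl⟩ := isConj_iff.mp h
      · refine ⟨orderOf_conj' ha, fun e => hat ?_⟩
        rw [mul_inv_eq_iff_eq_mul, ← (htc c).eq] at e
        exact mul_left_cancel e
      · refine ⟨orderOf_conj' hat2, fun e => ?_⟩
        rw [mul_inv_eq_iff_eq_mul, ← (htc c).eq] at e
        exact ne_one ha (mul_eq_right.mp (mul_left_cancel e))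
    have hdisj : Disjoint (Finset.univ.filter (fun y : H => IsConj a y))
        (Finset.univ.filter (fun y : H => IsConj (a * t) y)) := by
      rw [Finset.disjoint_filter]
      exact fun y _ h1 h2 => hnconj (h1.trans h2.symm)
    rw [hsplit, Finset.card_union_of_disjoint hdisj, ← Fintype.card_subtype,
      ← Fintype.card_subtype, ← Nat.card_eq_fintype_card, ← Nat.card_eq_fintype_card,
      card_isConj_eq_index, card_isConj_eq_index, hcen, two_mul]
  -- the second member runs over the class of the translate
  have hstep : ∀ y : H, orderOf y = 2 → ∀ z : H, orderOf z = 2 →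
      (y * t * z ∈ O ↔ y ≠ t ∧ IsConj (y * t) z) := by
    intro y hy z hz
    constructor
    · intro h
      have h0 := (hodd _).mp h
      have hyt : y ≠ t := by
        rintro rfl
        rw [mul_self ht, one_mul, hz] at h0
        exact absurd h0 (by decide)
      refine ⟨hyt, isConj_of_odd (orderOf_eq_two ?_ fun e => hyt ?_) hz h0⟩
      · calc y * t * (y * t) = y * (t * y) * t := by group
          _ = y * y * (t * t) := by rw [← (htc y).eq]; group
          _ = 1 := by rw [mul_self hy, mul_self ht, one_mul]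
      · rw [eq_inv_of_mul_eq_one_left e, inv_eq ht]
    · rintro ⟨-, h⟩
      refine (QuotientGroup.eq_one_iff _).mp ?_
      change QuotientGroup.mk' O (y * t * z) = 1
      rw [map_mul, ← hmk _ _ h, ← map_mul,
        show y * t * (y * t) = y * (t * y) * t by group, ← (htc y).eq,
        show y * (y * t) * t = (y * y) * (t * t) by group, mul_self hy, mul_self ht, one_mul,
        map_one]
  have hEquiv : {q : H × H // q.1 ∈ O ∧ orderOf q.2 = 2 ∧ orderOf (q.2 * t * q.1) = 2} ≃
      Σ y : Inv, {z : H // IsConj ((y : H) * t) z} := by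
    refine
      { toFun := fun q => ⟨⟨q.1.2, ?_⟩, ⟨q.1.2 * t * q.1.1, ?_⟩⟩
        invFun := fun w => ⟨(((w.1 : H) * t) * (w.2 : H), (w.1 : H)), ?_⟩
        left_inv := ?_
        right_inv := ?_ }
    · obtain ⟨⟨o, y⟩, ho, hy, hz⟩ := q
      simp only [Inv, Finset.mem_filter, Finset.mem_univ, true_and]
      refine ⟨hy, ((hstep y hy _ hz).mp ?_).1⟩
      have : y * t * (y * t * o) = o := by
        calc y * t * (y * t * o) = y * (t * y) * t * o := by group
          _ = y * y * (t * t) * o := by rw [← (htc y).eq]; group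
          _ = o := by rw [mul_self hy, mul_self ht, one_mul, one_mul]
      rw [this]; exact ho
    · obtain ⟨⟨o, y⟩, ho, hy, hz⟩ := q
      refine ((hstep y hy _ hz).mp ?_).2
      have : y * t * (y * t * o) = o := by
        calc y * t * (y * t * o) = y * (t * y) * t * o := by group
          _ = y * y * (t * t) * o := by rw [← (htc y).eq]; group
          _ = o := by rw [mul_self hy, mul_self ht, one_mul, one_mul]
      rw [this]; exact ho
    · obtain ⟨⟨y, hy⟩, ⟨z, hz⟩⟩ := w
      simp only [Inv, Finset.mem_filter, Finset.mem_univ, true_and] at hy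
      have hyt2 : orderOf (y * t) = 2 := by
        refine orderOf_eq_two ?_ fun e => hy.2 (by rw [eq_inv_of_mul_eq_one_left e, inv_eq ht])
        calc y * t * (y * t) = y * (t * y) * t := by group
          _ = y * y * (t * t) := by rw [← (htc y).eq]; group
          _ = 1 := by rw [mul_self hy.1, mul_self ht, one_mul]
      have hz2 : orderOf z = 2 := by
        obtain ⟨c, hc⟩ := isConj_iff.mp hz
        rw [← hc]; exact orderOf_conj' hyt2
      refine ⟨(hstep y hy.1 z hz2).mpr ⟨hy.2, hz⟩, hy.1, ?_⟩
      rw [← mul_assoc, mul_self hyt2, one_mul]; exact hz2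
    · rintro ⟨⟨o, y⟩, ho, hy, hz⟩
      refine Subtype.ext (Prod.ext ?_ rfl)
      change y * t * (y * t * o) = o
      calc y * t * (y * t * o) = y * (t * y) * t * o := by group
        _ = y * y * (t * t) * o := by rw [← (htc y).eq]; group
        _ = o := by rw [mul_self hy, mul_self ht, one_mul, one_mul]
    · rintro ⟨⟨y, hy⟩, ⟨z, hz⟩⟩
      simp only [Inv, Finset.mem_filter, Finset.mem_univ, true_and] at hy
      refine Sigma.subtype_ext rfl ?_
      change y * t * (y * t * z) = z
      calc y * t * (y * t * z) = y * (t * y) * t * z := by group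
        _ = y * y * (t * t) * z := by rw [← (htc y).eq]; group
        _ = z := by rw [mul_self hy.1, mul_self ht, one_mul, one_mul]
  rw [Nat.card_congr hEquiv, Nat.card_sigma, Finset.sum_congr rfl (g := fun _ => n) fun y _ => ?_,
    Finset.sum_const, Finset.card_univ, Fintype.card_coe, hInv, smul_eq_mul]
  · ring
  · obtain ⟨y, hy⟩ := y
    simp only [Inv, Finset.mem_filter, Finset.mem_univ, true_and] at hy
    rw [card_isConj_eq_index, hcen]
    exact hclass y hy.1 hy.2

end Central

variable {G : Type u} [Group G] [Finite G] (P : Sylow 2 G) (hP : IsKleinFour (P : Subgroup G))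
  (hone : ∀ s t : G, orderOf s = 2 → orderOf t = 2 → IsConj s t)
include hP hone

/-- The local data at an involution of the Sylow subgroup. -/
theorem local_facts {J : G} (hJP : J ∈ (P : Subgroup G)) (hJ : orderOf J = 2) :
    (pPrimeCore 2 (Subgroup.centralizer ({J} : Set G))).Normal ∧
    (∀ y : Subgroup.centralizer ({J} : Set G),
      y ∈ pPrimeCore 2 (Subgroup.centralizer ({J} : Set G)) ↔ Odd (orderOf y)) ∧
    Nat.card (Subgroup.centralizer ({J} : Set G)) =
      4 * Nat.card (pPrimeCore 2 (Subgroup.centralizer ({J} : Set G))) ∧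
    ∀ o : Subgroup.centralizer ({J} : Set G), o ∈ pPrimeCore 2 (Subgroup.centralizer ({J} : Set G)) →
      ∀ y : G, orderOf y = 2 → orderOf (y * J * (o : G)) = 2 → Commute y J := by
  classical
  haveI : Fact (Nat.Prime 2) := ⟨Nat.prime_two⟩
  haveI hn : (pPrimeCore 2 (Subgroup.centralizer ({J} : Set G))).Normal := by
    haveI := Core.pPrimeCore_characteristic (G := Subgroup.centralizer ({J} : Set G)) 2
    infer_instance
  obtain ⟨⟨j, hj⟩, hmem⟩ := centralizer_complement P hP hone hJ
  have hcop : (Nat.card (pPrimeCore 2 (Subgroup.centralizer ({J} : Set G)))).Coprime 2 :=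
    Core.card_pPrimeCore_coprime 2
  have hodd : ∀ y : Subgroup.centralizer ({J} : Set G),
      y ∈ pPrimeCore 2 (Subgroup.centralizer ({J} : Set G)) ↔ Odd (orderOf y) := fun y =>
    ⟨fun h => (Nat.coprime_two_right.mp hcop).of_dvd_nat
      (by rw [← Subgroup.orderOf_mk y h]; exact orderOf_dvd_natCard _), hmem y⟩
  have hle : (P : Subgroup G) ≤ Subgroup.centralizer ({J} : Set G) := fun x hx => by
    haveI := hP
    haveI : IsMulCommutative (P : Subgroup G) :=
      ⟨⟨mul_comm_of_exponent_two IsKleinFour.exponent_two⟩⟩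
    exact Subgroup.mem_centralizer_singleton_iff.mpr
      (congrArg Subtype.val (mul_comm' (⟨x, hx⟩ : (P : Subgroup G)) ⟨J, hJP⟩))
  have hcard := (pPrimeCore 2 (Subgroup.centralizer ({J} : Set G))).card_mul_index
  rw [hj] at hcard
  have hj2 : j = 2 := by
    have h1 : (Nat.card (Subgroup.centralizer ({J} : Set G))).factorization 2 = j := by
      rw [← hcard, Nat.factorization_mul Nat.card_pos.ne' (pow_ne_zero _ two_ne_zero),
        Finsupp.add_apply, Nat.prime_two.factorization_pow, Finsupp.single_eq_same,
        Nat.factorization_eq_zero_of_not_dvd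
          (fun h => (Nat.Prime.coprime_iff_not_dvd Nat.prime_two).mp hcop.symm h), zero_add]
    have h2 := (P.subtype hle).card_eq_multiplicity
    rw [show ((P.subtype hle : Sylow 2 (Subgroup.centralizer ({J} : Set G))) :
        Subgroup (Subgroup.centralizer ({J} : Set G))) = (P : Subgroup G).subgroupOf _ from rfl,
      Nat.card_congr (Subgroup.subgroupOfEquivOfLe hle).toEquiv, hP.card_four, h1] at h2
    exact (Nat.pow_right_injective le_rfl (show 2 ^ 2 = 2 ^ j from h2)).symm
  refine ⟨hn, hodd, by rw [← hcard, hj2]; ring, fun o ho y hy hz => ?_⟩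
  have hoJ : Commute (o : G) J := Subgroup.mem_centralizer_singleton_iff.mp o.2
  have hk : Odd (orderOf (o : G)) := by rw [Subgroup.orderOf_coe]; exact (hodd o).mp ho
  set g := J * (o : G) with hg
  have hgk : g ^ orderOf (o : G) = J := by
    rw [hg, hoJ.symm.mul_pow, pow_orderOf_eq_one, mul_one]
    obtain ⟨i, hi⟩ := hk
    rw [hi, pow_succ, pow_mul, pow_two, mul_self hJ, one_pow, one_mul]
  have hinv : y * g * y⁻¹ = g⁻¹ := by
    have h2 := mul_self hz
    rw [inv_eq hy, eq_inv_iff_mul_eq_one]
    calc y * g * y * g = (y * J * (o : G)) * (y * J * (o : G)) := by rw [hg]; group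
      _ = 1 := h2
  have h3 : y * J * y⁻¹ = J := by
    have := congrArg (· ^ orderOf (o : G)) hinv
    simp only [conj_pow, inv_pow, hgk] at this
    rw [this, inv_eq hJ]
  exact mul_inv_eq_iff_eq_mul.mp h3

/-- The number of products of two involutions in the section of `J`. -/
theorem pair_count [Fintype G] {J : G} (hJP : J ∈ (P : Subgroup G)) (hJ : orderOf J = 2) :
    Nat.card {q : Subgroup.centralizer ({J} : Set G) × G //
        q.1 ∈ pPrimeCore 2 (Subgroup.centralizer ({J} : Set G)) ∧ orderOf q.2 = 2 ∧
          orderOf (q.2 * J * (q.1 : G)) = 2} * Nat.card (Subgroup.centralizer ((P : Subgroup G) : Set G)) ^ 2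
      = 2 * Nat.card (Subgroup.centralizer ({J} : Set G)) ^ 2 := by
  classical
  haveI : Fact (Nat.Prime 2) := ⟨Nat.prime_two⟩
  obtain ⟨hn, hodd, hcard, hcomm⟩ := local_facts P hP hone hJP hJ
  haveI := hn
  haveI := hP
  haveI : Fintype (P : Subgroup G) := Fintype.ofFinite _
  -- the other involution
  obtain ⟨a, ha, ha1, haJ⟩ : ∃ a ∈ (P : Subgroup G), a ≠ 1 ∧ a ≠ J := by
    by_contra hno
    push Not at hno
    have hsub : ((P : Subgroup G) : Set G) ⊆ {1, J} := fun x hx => by
      by_cases hx1 : x = 1
      · exact Or.inl hx1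
      · exact Or.inr (hno x hx hx1)
    have h4 := (Set.ncard_le_ncard hsub (Set.toFinite _)).trans (Set.ncard_insert_le _ _)
    rw [Set.ncard_singleton, ← Nat.card_coe_set_eq] at h4
    exact absurd (hP.card_four ▸ h4 : (4 : ℕ) ≤ 1 + 1) (by norm_num)
  have ha2 : orderOf a = 2 :=
    orderOf_eq_two (congrArg Subtype.val (IsKleinFour.mul_self (⟨a, ha⟩ : (P : Subgroup G)))) ha1
  haveI : IsMulCommutative (P : Subgroup G) :=
    ⟨⟨mul_comm_of_exponent_two IsKleinFour.exponent_two⟩⟩
  have hle : (P : Subgroup G) ≤ Subgroup.centralizer ({J} : Set G) := fun x hx =>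
    Subgroup.mem_centralizer_singleton_iff.mpr
      (congrArg Subtype.val (mul_comm' (⟨x, hx⟩ : (P : Subgroup G)) ⟨J, hJP⟩))
  let t' : Subgroup.centralizer ({J} : Set G) := ⟨J, hle hJP⟩
  let a' : Subgroup.centralizer ({J} : Set G) := ⟨a, hle ha⟩
  have ht' : orderOf t' = 2 := by rw [← Subgroup.orderOf_coe]; exact hJ
  have htc : ∀ h : Subgroup.centralizer ({J} : Set G), Commute h t' := fun h =>
    Subtype.ext (Subgroup.mem_centralizer_singleton_iff.mp h.2)
  have hquot : ∀ x y : Subgroup.centralizer ({J} : Set G),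
      QuotientGroup.mk' (pPrimeCore 2 (Subgroup.centralizer ({J} : Set G))) x *
        QuotientGroup.mk' (pPrimeCore 2 (Subgroup.centralizer ({J} : Set G))) y =
      QuotientGroup.mk' (pPrimeCore 2 (Subgroup.centralizer ({J} : Set G))) y *
        QuotientGroup.mk' (pPrimeCore 2 (Subgroup.centralizer ({J} : Set G))) x := by
    have h4 : Nat.card (Subgroup.centralizer ({J} : Set G) ⧸
        pPrimeCore 2 (Subgroup.centralizer ({J} : Set G))) = 2 ^ 2 := by
      rw [← Subgroup.index_eq_card]
      refine Nat.eq_of_mul_eq_mul_left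
        (Nat.card_pos (α := pPrimeCore 2 (Subgroup.centralizer ({J} : Set G)))) ?_
      rw [Subgroup.card_mul_index, hcard]
      ring
    exact fun x y => (IsPGroup.commGroupOfCardEqPrimeSq h4).mul_comm _ _
  have hsyl : ∀ y : Subgroup.centralizer ({J} : Set G), orderOf y = 2 → y ≠ t' →
      IsConj a' y ∨ IsConj (a' * t') y := by
    intro y hy hyt
    obtain ⟨Q, hyQ, htQ⟩ := exists_sylow_mem_pair hy ht' (htc y)
    obtain ⟨c, hc⟩ := MulAction.exists_smul_eq (Subgroup.centralizer ({J} : Set G)) Q (P.subtype hle)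
    have hcy : c * y * c⁻¹ ∈ ((P.subtype hle : Sylow 2 (Subgroup.centralizer ({J} : Set G))) :
        Subgroup (Subgroup.centralizer ({J} : Set G))) := by
      rw [← hc]
      exact Subgroup.mem_map_of_mem _ hyQ
    have hcy' : (c : G) * (y : G) * (c : G)⁻¹ ∈ (P : Subgroup G) := hcy
    have hconj : IsConj y (c * y * c⁻¹) := isConj_iff.mpr ⟨c, rfl⟩
    rcases KleinBasic.mem_cases hP hJP ha (ne_one hJ) ha1 haJ.symm hcy' with h | h | h | h
    · exact absurd (conj_eq_one_iff.mp (Subtype.ext h : c * y * c⁻¹ = 1)) (ne_one hy)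
    · exfalso
      have he : c * y * c⁻¹ = t' := Subtype.ext h
      rw [mul_inv_eq_iff_eq_mul, ← (htc c).eq] at he
      exact hyt (mul_left_cancel he)
    · exact Or.inl ((Subtype.ext h : c * y * c⁻¹ = a') ▸ hconj).symm
    · refine Or.inr ((Subtype.ext ?_ : c * y * c⁻¹ = a' * t') ▸ hconj).symm
      change (c : G) * (y : G) * (c : G)⁻¹ = a * J
      rw [h, Subgroup.mem_centralizer_singleton_iff.mp (hle ha)]
  have key := card_pairs_central (t := t') (a := a')
    (pPrimeCore 2 (Subgroup.centralizer ({J} : Set G))) ht' htc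
    (by rw [← Subgroup.orderOf_coe]; exact ha2) hodd hquot hsyl
    (fun h => haJ (congrArg Subtype.val h))
  have e1 : {q : Subgroup.centralizer ({J} : Set G) × G //
        q.1 ∈ pPrimeCore 2 (Subgroup.centralizer ({J} : Set G)) ∧ orderOf q.2 = 2 ∧
          orderOf (q.2 * J * (q.1 : G)) = 2} ≃
      {q : Subgroup.centralizer ({J} : Set G) × Subgroup.centralizer ({J} : Set G) //
        q.1 ∈ pPrimeCore 2 (Subgroup.centralizer ({J} : Set G)) ∧ orderOf q.2 = 2 ∧
          orderOf (q.2 * t' * q.1) = 2} :=
    { toFun := fun q => ⟨(q.1.1, ⟨q.1.2, Subgroup.mem_centralizer_singleton_iff.mpr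
          (hcomm q.1.1 q.2.1 q.1.2 q.2.2.1 q.2.2.2)⟩), q.2.1,
          by rw [← Subgroup.orderOf_coe]; exact q.2.2.1, by rw [← Subgroup.orderOf_coe]; exact q.2.2.2⟩
      invFun := fun q => ⟨(q.1.1, (q.1.2 : G)), q.2.1,
          by rw [Subgroup.orderOf_coe]; exact q.2.2.1,
          by
            rw [show (q.1.2 : G) * J * (q.1.1 : G) = ((q.1.2 * t' * q.1.1 : _) : G) from rfl,
              Subgroup.orderOf_coe]
            exact q.2.2.2⟩
      left_inv := fun _ => rfl
      right_inv := fun _ => rfl }
  have e2 : Subgroup.centralizer ({a'} : Set (Subgroup.centralizer ({J} : Set G))) ≃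
      Subgroup.centralizer ((P : Subgroup G) : Set G) :=
    { toFun := fun h => ⟨((h : Subgroup.centralizer ({J} : Set G)) : G),
          Subgroup.mem_centralizer_iff.mpr fun w hw => by
            have hJh : Commute ((h : Subgroup.centralizer ({J} : Set G)) : G) J :=
              Subgroup.mem_centralizer_singleton_iff.mp h.1.2
            have hah : Commute ((h : Subgroup.centralizer ({J} : Set G)) : G) a :=
              congrArg Subtype.val (Subgroup.mem_centralizer_singleton_iff.mp h.2)
            rcases KleinBasic.mem_cases hP hJP ha (ne_one hJ) ha1 haJ.symm hw with rfl | rfl | rfl | rfl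
            exacts [by simp, hJh.eq.symm, hah.eq.symm, (hJh.mul_right hah).eq.symm]⟩
      invFun := fun g => ⟨⟨(g : G), Subgroup.mem_centralizer_singleton_iff.mpr
          (Subgroup.mem_centralizer_iff.mp g.2 J hJP).symm⟩,
          Subgroup.mem_centralizer_singleton_iff.mpr
            (Subtype.ext (Subgroup.mem_centralizer_iff.mp g.2 a ha).symm)⟩
      left_inv := fun _ => rfl
      right_inv := fun _ => rfl }
  rw [Nat.card_congr e1, key, ← Nat.card_congr e2, mul_assoc, ← mul_pow,
    mul_comm (Subgroup.index _), Subgroup.card_mul_index]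

end CfsgLib.Blocks.KP
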