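import Cfsg.Agent.Lib.Blocks.KleinCount
import Cfsg.Agent.Lib.Blocks.RealBlock
import Cfsg.Agent.Lib.Chars.IndicatorBound

/-!
Brauer's order formula for a Klein four Sylow 2-subgroup.
-/

set_option linter.style.haveILetI false

namespace CfsgLib.Blocks.KP

open scoped ComplexConjugate
open Cfsg CfsgLib.Chars CfsgLib.Involution

universe u

variable {G : Type u} [Group G] [Fintype G] (P : Sylow 2 G) {M : Ideal AlgInt}
  (hM : IsPModular 2 M) (hP : IsKleinFour (P : Subgroup G))
  (hone : ∀ s t : G, orderOf s = 2 → orderOf t = 2 → IsConj s t)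
include hM hP hone

open Classical in
/-- Sums over the section `J O` see only the principal block. -/
theorem core_sum {J : G} (hJP : J ∈ (P : Subgroup G)) (hJ : orderOf J = 2)
    [Fintype (Subgroup.centralizer ({J} : Set G))] (χ : IrrCharacter G) :
    ∑ o ∈ Finset.univ.filter (· ∈ pPrimeCore 2 (Subgroup.centralizer ({J} : Set G))),
        (χ : G → ℂ) (J * (o : G)) =
      if χ ∈ principalBlock M G then
        (Nat.card (pPrimeCore 2 (Subgroup.centralizer ({J} : Set G))) : ℂ) * (χ : G → ℂ) J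
      else 0 := by
  obtain ⟨hn, hodd, hcard, -⟩ := local_facts P hP hone hJP hJ
  haveI := hn
  have hC : ∀ g : G, g ∈ Subgroup.centralizer ({J} : Set G) ↔ Commute g J := fun g =>
    Subgroup.mem_centralizer_singleton_iff
  set O := Finset.univ.filter (· ∈ pPrimeCore 2 (Subgroup.centralizer ({J} : Set G))) with hO
  have hOcard : (O.card : ℂ) = (Nat.card (pPrimeCore 2 (Subgroup.centralizer ({J} : Set G))) : ℂ) := by
    rw [hO, ← Fintype.card_subtype, ← Nat.card_eq_fintype_card]
  have hreg : ∀ o ∈ O, ¬ 2 ∣ orderOf o := fun o ho =>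
    ((hodd o).mp (Finset.mem_filter.mp ho).2).not_two_dvd_nat
  have hval : ∀ ψ ∈ principalBlock M G,
      ∑ o ∈ O, (ψ : G → ℂ) (J * (o : G)) = (O.card : ℂ) * (ψ : G → ℂ) J := by
    intro ψ hψ
    rw [Finset.sum_congr rfl (g := fun _ => (ψ : G → ℂ) J) fun o ho => ?_, Finset.sum_const,
      nsmul_eq_mul]
    exact value_const P hM hP hone hψ hJ ((hC _).mp o.2)
      (by rw [Subgroup.orderOf_coe]; exact (hodd o).mp (Finset.mem_filter.mp ho).2)
  set T : IrrCharacter G → ℂ := fun ψ => ∑ o ∈ O, (ψ : G → ℂ) (J * (o : G)) with hT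
  have htot : ∑ ψ : IrrCharacter G, T ψ * conj (T ψ) =
      (O.card : ℂ) * (Nat.card (Subgroup.centralizer ({J} : Set G)) : ℂ) := by
    simp only [hT, map_sum, Finset.sum_mul_sum]
    rw [Finset.sum_comm, Finset.sum_congr rfl
      (g := fun _ => (Nat.card (Subgroup.centralizer ({J} : Set G)) : ℂ)) fun o ho => ?_,
      Finset.sum_const, nsmul_eq_mul]
    rw [Finset.sum_comm, Finset.sum_congr rfl fun o' ho' =>
      sec_col_orth Nat.prime_two (k := 1) (by rw [hJ, pow_one]) hC (hreg o ho) (hreg o' ho')]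
    rw [Finset.sum_subset (Finset.subset_univ O) (fun c _ hc => ?_), Finset.sum_comm,
      Finset.sum_eq_single (trivIrr (Subgroup.centralizer ({J} : Set G)))]
    · simp [trivIrr, Nat.card_eq_fintype_card]
    · intro φ _ hφ
      have h := sum_mul_conj_irr (trivIrr (Subgroup.centralizer ({J} : Set G))) φ
      rw [if_neg (Ne.symm hφ)] at h
      simp only [trivIrr, one_mul] at h
      rw [← Finset.mul_sum, h, mul_zero]
    · simp
    · rw [col_orth, if_neg]
      intro hcon
      obtain ⟨d, hd⟩ := isConj_iff.mp hcon.symm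
      refine hc (Finset.mem_filter.mpr ⟨Finset.mem_univ _, ?_⟩)
      rw [← hd]
      exact Subgroup.Normal.conj_mem hn _ (Finset.mem_filter.mp ho).2 d
  have hblock : ∑ ψ ∈ Finset.univ.filter (· ∈ principalBlock M G), T ψ * conj (T ψ) =
      (O.card : ℂ) * (Nat.card (Subgroup.centralizer ({J} : Set G)) : ℂ) := by
    rw [Finset.sum_congr rfl (g := fun ψ : IrrCharacter G => (O.card : ℂ) * (O.card : ℂ) *
      ((ψ : G → ℂ) J * conj ((ψ : G → ℂ) J))) fun ψ hψ => ?_, ← Finset.mul_sum,
      sum_sq P hM hP hone hJ, hcard, Nat.cast_mul, ← hOcard]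
    · push_cast; ring
    · rw [show T ψ = _ from hval ψ (Finset.mem_filter.mp hψ).2, map_mul, Complex.conj_natCast]
      ring
  have hrest : ∀ ψ : IrrCharacter G, ψ ∉ principalBlock M G → T ψ = 0 := by
    intro ψ hψ
    have h := Finset.sum_filter_add_sum_filter_not Finset.univ (· ∈ principalBlock M G)
      (fun ψ : IrrCharacter G => T ψ * conj (T ψ))
    rw [htot, hblock, add_eq_left] at h
    simp only [Complex.mul_conj, ← Complex.ofReal_sum, Complex.ofReal_eq_zero] at h
    rw [Finset.sum_eq_zero_iff_of_nonneg (fun _ _ => Complex.normSq_nonneg _)] at h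
    exact Complex.normSq_eq_zero.mp (h ψ (Finset.mem_filter.mpr ⟨Finset.mem_univ _, hψ⟩))
  split_ifs with h
  · rw [← hOcard]; exact hval χ h
  · exact hrest χ h

open Classical in
/-- The order formula. -/
theorem order_eq {J : G} (hJP : J ∈ (P : Subgroup G)) (hJ : orderOf J = 2) :
    (Nat.card G : ℂ) * (∑ χ ∈ Finset.univ.filter (· ∈ principalBlock M G),
        (χ : G → ℂ) J / (χ : G → ℂ) 1) *
      (Nat.card (Subgroup.centralizer ((P : Subgroup G) : Set G)) : ℂ) ^ 2 =
      8 * (Nat.card (Subgroup.centralizer ({J} : Set G)) : ℂ) ^ 3 := by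
  haveI : Fintype (Subgroup.centralizer ({J} : Set G)) := Fintype.ofFinite _
  obtain ⟨hn, hodd, hcard, -⟩ := local_facts P hP hone hJP hJ
  set O := Finset.univ.filter (· ∈ pPrimeCore 2 (Subgroup.centralizer ({J} : Set G))) with hO
  set f := classInd J
  have hf : IsClassFunction G f := classInd_isClassFunction J
  set k := (Subgroup.centralizer ({J} : Set G)).index
  have hom : ∀ χ : IrrCharacter G,
      omega (χ : G → ℂ) f = (k : ℂ) * (χ : G → ℂ) J / (χ : G → ℂ) 1 := fun χ => by
    rw [omega_classInd (IsCharacter.isClassFunction (isCharacter_irr χ)), centralChar]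
  -- the count
  have hN : ∑ o ∈ O, CfsgLib.Chars.conv f f (J * (o : G)) =
      (Nat.card {q : Subgroup.centralizer ({J} : Set G) × G //
        q.1 ∈ pPrimeCore 2 (Subgroup.centralizer ({J} : Set G)) ∧ orderOf q.2 = 2 ∧
          orderOf (q.2 * J * (q.1 : G)) = 2} : ℂ) := by
    have hinv : ∀ z : G, IsConj J z ↔ orderOf z = 2 := fun z =>
      ⟨fun h => by obtain ⟨c, rfl⟩ := isConj_iff.mp h; exact orderOf_conj' hJ, hone J z hJ⟩
    rw [Nat.card_eq_fintype_card, Fintype.card_subtype, ← Finset.sum_boole, Fintype.sum_prod_type,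
      hO, Finset.sum_filter]
    refine Finset.sum_congr rfl fun o _ => ?_
    by_cases ho : o ∈ pPrimeCore 2 (Subgroup.centralizer ({J} : Set G))
    · rw [if_pos ho]
      simp only [CfsgLib.Chars.conv]
      refine Finset.sum_congr rfl fun y _ => ?_
      by_cases hy : orderOf y = 2
      · rw [show f y = 1 from if_pos ((hinv y).mpr hy), one_mul, inv_eq hy, ← mul_assoc]
        simp only [f, classInd, hinv, ho, hy, true_and]
      · rw [show f y = 0 from if_neg (mt (hinv y).mp hy), zero_mul]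
        simp [hy]
    · rw [if_neg ho]
      symm
      exact Finset.sum_eq_zero fun y _ => by simp [ho]
  set S := Finset.univ.filter (· ∈ principalBlock M G)
  have hchar : ∑ o ∈ O, CfsgLib.Chars.conv f f (J * (o : G)) = (Nat.card G : ℂ)⁻¹ * ((k : ℂ) ^ 2 *
      (Nat.card (pPrimeCore 2 (Subgroup.centralizer ({J} : Set G))) : ℂ) *
      ∑ χ ∈ S, (χ : G → ℂ) J / (χ : G → ℂ) 1) := by
    rw [Finset.sum_congr (rfl : O = O) (g := fun o : Subgroup.centralizer ({J} : Set G) => (Nat.card G : ℂ)⁻¹ *
      ∑ χ : IrrCharacter G, omega (χ : G → ℂ) (CfsgLib.Chars.conv f f) * (χ : G → ℂ) 1 *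
        conj ((χ : G → ℂ) (J * (o : G))))
      fun o _ => inversion (IsClassFunction.conv hf hf) (J * (o : G)),
      ← Finset.mul_sum]
    congr 1
    rw [Finset.sum_comm, Finset.mul_sum, Finset.sum_filter]
    refine Finset.sum_congr rfl fun χ _ => ?_
    rw [← Finset.mul_sum, ← map_sum, hO, core_sum P hM hP hone hJP hJ χ, omega_conv χ hf hf, hom]
    split_ifs with h
    · have hd := irr_one_ne_zero χ
      rcases (structure_at P hM hP hone hJ).2 χ h with ha | ha <;>
        rw [ha] <;> simp only [map_mul, map_neg, map_one, Complex.conj_natCast] <;> field_simp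
    · simp
  have hcount := pair_count P hP hone hJP hJ
  have hcountC := congrArg (Nat.cast : ℕ → ℂ) hcount
  simp only [Nat.cast_mul, Nat.cast_pow] at hcountC
  rw [← hN, hchar] at hcountC
  have hk : (k : ℂ) * (Nat.card (Subgroup.centralizer ({J} : Set G)) : ℂ) = (Nat.card G : ℂ) := by
    rw [← Nat.cast_mul, Subgroup.index_mul_card]
  have hC4 : (Nat.card (Subgroup.centralizer ({J} : Set G)) : ℂ) =
      4 * (Nat.card (pPrimeCore 2 (Subgroup.centralizer ({J} : Set G))) : ℂ) := by
    rw [hcard]; norm_num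
  have hG0 : (Nat.card G : ℂ) ≠ 0 := natCast_card_ne_zero G
  rw [← hk] at hcountC hG0 ⊢
  have hk0 : (k : ℂ) ≠ 0 := left_ne_zero_of_mul hG0
  have hC0 := right_ne_zero_of_mul hG0
  rw [hC4] at hcountC hC0 ⊢
  have hO0 := right_ne_zero_of_mul hC0
  field_simp at hcountC
  linear_combination (4 * (Nat.card (pPrimeCore 2 (Subgroup.centralizer ({J} : Set G))) : ℂ)) * hcountC

end CfsgLib.Blocks.KP
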