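import Cfsg.Agent.Lib.Blocks.KleinFormula

/-!
Square roots and the Klein four principal block: the two characters with value one at involutions
have the same degree.
-/

set_option linter.style.haveILetI false
set_option linter.unusedSectionVars false

namespace CfsgLib.Blocks.KP

open scoped ComplexConjugate
open Cfsg CfsgLib.Chars CfsgLib.Involution

universe u

variable {G : Type u} [Group G] [Fintype G]

open Classical in
/-- The number of square roots. -/
noncomputable def sqrtNum (y : G) : ℂ := ((Finset.univ.filter (fun x : G => x ^ 2 = y)).card : ℂ)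

open Classical in
/-- The number of solutions of `s² = 1` commuting with a given element. -/
noncomputable def fixNum (y : G) : ℂ :=
  ((Finset.univ.filter (fun s : G => s ^ 2 = 1 ∧ Commute y s)).card : ℂ)

theorem sqrtNum_isClassFunction : IsClassFunction G (sqrtNum : G → ℂ) := fun g h => by
  classical
  simp only [sqrtNum, Nat.cast_inj]
  refine Finset.card_equiv (MulAut.conj h).symm.toEquiv fun x => ?_
  simp only [Finset.mem_filter, Finset.mem_univ, true_and, MulEquiv.toEquiv_eq_coe,
    MulEquiv.coe_toEquiv]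
  rw [← map_pow, MulEquiv.symm_apply_eq, MulAut.conj_apply]

theorem fixNum_isClassFunction : IsClassFunction G (fixNum : G → ℂ) := fun g h => by
  classical
  simp only [fixNum, Nat.cast_inj]
  refine Finset.card_equiv (MulAut.conj h).symm.toEquiv fun s => ?_
  simp only [Finset.mem_filter, Finset.mem_univ, true_and, MulEquiv.toEquiv_eq_coe,
    MulEquiv.coe_toEquiv]
  refine and_congr ?_ ?_
  · rw [← map_pow, MulEquiv.map_eq_one_iff]
  · rw [MulAut.conj_symm_apply]
    conv_lhs => rw [show s = h * (h⁻¹ * s * h) * h⁻¹ by group, Commute.conj_iff]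

/-- At elements of odd order both counts agree. -/
theorem sqrtNum_eq_fixNum {y : G} (hy : Odd (orderOf y)) : sqrtNum y = fixNum y := by
  classical
  obtain ⟨j, hj⟩ := hy
  set w := y ^ (j + 1) with hw
  have hw2 : w ^ 2 = y := by
    rw [hw, ← pow_mul, show (j + 1) * 2 = orderOf y + 1 by omega, pow_succ, pow_orderOf_eq_one,
      one_mul]
  simp only [sqrtNum, fixNum, Nat.cast_inj]
  refine Finset.card_equiv (Equiv.mulRight w⁻¹) fun x => ?_
  simp only [Finset.mem_filter, Finset.mem_univ, true_and, Equiv.coe_mulRight]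
  constructor
  · intro hx
    have hxy : Commute x y := by rw [← hx]; exact Commute.self_pow x 2
    have hxw : Commute x w⁻¹ := (hxy.pow_right _).inv_right
    refine ⟨by rw [hxw.mul_pow, inv_pow, hw2, hx, mul_inv_cancel], ?_⟩
    exact hxy.symm.mul_right ((Commute.refl y).pow_right _).inv_right
  · rintro ⟨hs, hc⟩
    have hcw : Commute (x * w⁻¹) w := (hc.pow_left _).symm
    have h1 := hcw.mul_pow 2
    rw [inv_mul_cancel_right, hs, one_mul, hw2] at h1
    exact h1

/-- The inner products with the square root count are the indicators. -/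
theorem classInner_sqrtNum (χ : IrrCharacter G) :
    classInner (sqrtNum : G → ℂ) (χ : G → ℂ) =
      conj ((Nat.card G : ℂ)⁻¹ * ∑ g : G, (χ : G → ℂ) (g ^ 2)) := by
  classical
  rw [classInner, map_mul, map_inv₀, Complex.conj_natCast, map_sum]
  congr 1
  rw [← Finset.sum_fiberwise_of_maps_to (s := Finset.univ) (t := Finset.univ)
    (g := fun g : G => g ^ 2) (fun _ _ => Finset.mem_univ _)
    (f := fun g => conj ((χ : G → ℂ) (g ^ 2)))]
  refine Finset.sum_congr rfl fun y _ => ?_
  rw [Finset.sum_congr rfl (fun x hx => by rw [(Finset.mem_filter.mp hx).2]), Finset.sum_const,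
    nsmul_eq_mul]
  rfl

variable (P : Sylow 2 G) {M : Ideal AlgInt} (hM : IsPModular 2 M)
  (hP : IsKleinFour (P : Subgroup G))
  (hone : ∀ s t : G, orderOf s = 2 → orderOf t = 2 → IsConj s t)
include hM hP hone

open Classical in
/-- The two characters of value one at involutions have the same degree. -/
theorem degree_eq {J : G} (hJP : J ∈ (P : Subgroup G)) (hJ : orderOf J = 2)
    {χ₁ χ₂ χ₃ : IrrCharacter G}
    (hsum : ∀ F : IrrCharacter G → ℂ, ∑ χ ∈ Finset.univ.filter (· ∈ principalBlock M G), F χ =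
      F (trivIrr G) + F χ₁ + F χ₂ + F χ₃)
    (hmem : ∀ χ ∈ principalBlock M G, χ = trivIrr G ∨ χ = χ₁ ∨ χ = χ₂ ∨ χ = χ₃)
    (hin : χ₁ ∈ principalBlock M G ∧ χ₂ ∈ principalBlock M G ∧ χ₃ ∈ principalBlock M G)
    (hne1 : χ₁ ≠ trivIrr G) (hne2 : χ₂ ≠ trivIrr G) (hne3 : χ₃ ≠ trivIrr G)
    (v1 : (χ₁ : G → ℂ) J = 1) (v2 : (χ₂ : G → ℂ) J = 1) (v3 : (χ₃ : G → ℂ) J = -1) :
    charDegree (χ₁ : G → ℂ) = charDegree (χ₂ : G → ℂ) := by
  obtain ⟨i1, i2, i3⟩ := hin
  haveI : Fintype (Subgroup.centralizer ({J} : Set G)) := Fintype.ofFinite _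
  obtain ⟨hn, hodd, hcard, -⟩ := local_facts P hP hone hJP hJ
  haveI := hn
  set C := Subgroup.centralizer ({J} : Set G) with hCdef
  set O := Finset.univ.filter (· ∈ pPrimeCore 2 C) with hO
  set o : ℂ := (Nat.card (pPrimeCore 2 C) : ℂ) with ho
  have ho0 : o ≠ 0 := natCast_card_ne_zero _
  -- indicators
  choose r s hrs using fun χ : IrrCharacter G =>
    CfsgLib.GroupB.Indicator.exists_split_indicator (isCharacter_irr χ)
  have hν : ∀ χ : IrrCharacter G,
      classInner (sqrtNum : G → ℂ) (χ : G → ℂ) = (r χ : ℂ) - (s χ : ℂ) := by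
    intro χ
    rw [classInner_sqrtNum, (hrs χ).1]
    simp
  have hreal : ∀ χ : IrrCharacter G, conjChar χ = χ → r χ + s χ = 1 := by
    intro χ hc
    have h1 : (Nat.card G : ℂ)⁻¹ * ∑ g : G, (χ : G → ℂ) g * (χ : G → ℂ) g = 1 := by
      have h := classInner_irr χ (conjChar χ)
      rw [if_pos hc.symm, classInner] at h
      simpa [conjChar] using h
    rw [(hrs χ).2] at h1
    exact_mod_cast h1
  have htriv : conjChar (trivIrr G) = trivIrr G := Subtype.ext (funext fun g => by
    simp [conjChar, trivIrr])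
  have hrt : r (trivIrr G) = 1 ∧ s (trivIrr G) = 0 := by
    have h1 := (hrs (trivIrr G)).1
    simp only [trivIrr, Finset.sum_const, Finset.card_univ, nsmul_eq_mul, mul_one] at h1
    rw [← Nat.card_eq_fintype_card, inv_mul_cancel₀ (natCast_card_ne_zero G)] at h1
    have h2 : ((r (trivIrr G) : ℤ) : ℂ) - ((s (trivIrr G) : ℤ) : ℂ) = ((1 : ℤ) : ℂ) := by
      simpa [trivIrr] using h1.symm
    have h3 : (r (trivIrr G) : ℤ) - s (trivIrr G) = 1 := by exact_mod_cast h2
    have := hreal _ htriv
    omega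
  -- conjugation permutes the block
  have hconj : ∀ χ ∈ principalBlock M G, conjChar χ ∈ principalBlock M G := by
    intro χ hχ
    have hB := isPBlock_principalBlock (M := M) (G := G)
    have h := sameBlock_conjChar (IsPBlock.sameBlock hM hB (self_mem_blockOf hM (trivIrr G)) hχ)
    rw [htriv] at h
    exact IsPBlock.mem_of_sameBlock hM hB (self_mem_blockOf hM (trivIrr G)) h
  have hne0 : ∀ χ : IrrCharacter G, χ ≠ trivIrr G → conjChar χ ≠ trivIrr G := fun χ h e =>
    h (by rw [← conjChar_conjChar χ, e, htriv])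
  have hcv : ∀ χ : IrrCharacter G, ∀ a : ℤ, (χ : G → ℂ) J = (a : ℂ) →
      (conjChar χ : G → ℂ) J = (a : ℂ) := fun χ a h => by
    change conj ((χ : G → ℂ) J) = _
    rw [h, map_intCast]
  by_cases hc1 : conjChar χ₁ = χ₁
  swap
  · -- conjugate characters
    rcases hmem _ (hconj _ i1) with h | h | h | h
    · exact absurd h (hne0 _ hne1)
    · exact absurd h hc1
    · have e : (χ₂ : G → ℂ) 1 = (χ₁ : G → ℂ) 1 := by
        rw [← h]
        exact conj_irr_one χ₁
      rw [irr_apply_one, irr_apply_one] at e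
      exact_mod_cast e.symm
    · have e := hcv χ₁ 1 (by rw [v1, Int.cast_one])
      rw [h, v3] at e
      norm_num at e
  have hc3 : conjChar χ₃ = χ₃ := by
    rcases hmem _ (hconj _ i3) with h | h | h | h
    · exact absurd h (hne0 _ hne3)
    · have e := hcv χ₃ (-1) (by rw [v3]; norm_num)
      rw [h, v1] at e
      norm_num at e
    · have e := hcv χ₃ (-1) (by rw [v3]; norm_num)
      rw [h, v2] at e
      norm_num at e
    · exact h
  have hc2 : conjChar χ₂ = χ₂ := by
    rcases hmem _ (hconj _ i2) with h | h | h | h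
    · exact absurd h (hne0 _ hne2)
    · rw [← conjChar_conjChar χ₂, h, hc1, hc1]
    · exact h
    · have e := hcv χ₂ 1 (by rw [v2, Int.cast_one])
      rw [h, v3] at e
      norm_num at e
  -- values on the sections
  have hgconj : ∀ x : G, orderOf x = 2 → ∀ χ : IrrCharacter G, (χ : G → ℂ) x = (χ : G → ℂ) J := by
    intro x hx χ
    obtain ⟨c, hc⟩ := isConj_iff.mp (hone J x hJ hx)
    rw [← hc, IsCharacter.isClassFunction (isCharacter_irr χ) J c]
  have hsingval : ∀ χ ∈ principalBlock M G, ∀ g : G, 2 ∣ orderOf g →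
      (χ : G → ℂ) g = (χ : G → ℂ) J := by
    intro χ hχ g hg
    obtain ⟨x, y, rfl, hx, hyx, hy⟩ := decomp P hP hg
    rw [value_const P hM hP hone hχ hx hyx hy, hgconj x hx]
  -- averages over the core and multiplicities in the centralizer
  have hOcard : (O.card : ℂ) = o := by
    rw [hO, ho, ← Fintype.card_subtype, ← Nat.card_eq_fintype_card]
  have hA : ∀ χ : IrrCharacter G, ∃ A : ℕ, ∑ c ∈ O, (χ : G → ℂ) (c : G) = o * A := by
    intro χ
    haveI : Fintype (pPrimeCore 2 C) := Fintype.ofFinite _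
    obtain ⟨A, hA⟩ := exists_mult_character
      (IsCharacter.restrict (IsCharacter.restrict (isCharacter_irr χ) C) (pPrimeCore 2 C))
      (show IsCharacter (pPrimeCore 2 C) (fun _ : pPrimeCore 2 C => (1 : ℂ)) from
        IsIrrCharacter.isCharacter (isIrrCharacter_one (pPrimeCore 2 C)))
    refine ⟨A, ?_⟩
    rw [← hA, classInner, ← mul_assoc, ho, mul_inv_cancel₀ (natCast_card_ne_zero _), one_mul, hO,
      Finset.sum_subtype (F := inferInstance) (Finset.univ.filter (· ∈ pPrimeCore 2 C))
        (p := fun c => c ∈ pPrimeCore 2 C) (fun c => by simp)]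
    simp
  have hm : ∀ χ : IrrCharacter G, ∃ m : ℕ,
      ∑ c : C, (χ : G → ℂ) (c : G) = (Nat.card C : ℂ) * m := by
    intro χ
    obtain ⟨m, hm⟩ := exists_mult_character (IsCharacter.restrict (isCharacter_irr χ) C)
      (show IsCharacter C (fun _ : C => (1 : ℂ)) from
        IsIrrCharacter.isCharacter (isIrrCharacter_one C))
    refine ⟨m, ?_⟩
    rw [← hm, classInner, ← mul_assoc, mul_inv_cancel₀ (natCast_card_ne_zero C), one_mul]
    simp
  choose A hA using hA
  choose m hm using hm
  have hmA : ∀ χ ∈ principalBlock M G, 4 * (m χ : ℂ) = (A χ : ℂ) + 3 * (χ : G → ℂ) J := by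
    intro χ hχ
    have h := hm χ
    rw [← Finset.sum_filter_add_sum_filter_not Finset.univ (· ∈ pPrimeCore 2 C), ← hO, hA χ,
      Finset.sum_congr rfl (g := fun _ => (χ : G → ℂ) J) fun c hc => ?_, Finset.sum_const,
      nsmul_eq_mul] at h
    · have hnot : ((Finset.univ.filter (fun c : C => c ∉ pPrimeCore 2 C)).card : ℂ) = 3 * o := by
        have h1 := Finset.card_filter_add_card_filter_not (s := (Finset.univ : Finset C))
          (· ∈ pPrimeCore 2 C)
        rw [← hO, Finset.card_univ, ← Nat.card_eq_fintype_card, hcard] at h1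
        have h2 := congrArg (Nat.cast : ℕ → ℂ) h1
        push_cast at h2
        rw [hOcard] at h2
        linear_combination h2
      rw [hnot, hcard] at h
      push_cast at h
      rw [← ho] at h
      refine mul_left_cancel₀ ho0 ?_
      linear_combination -h
    · refine hsingval χ hχ _ ?_
      by_contra h2
      refine (Finset.mem_filter.mp hc).2 ((hodd c).mpr ?_)
      rw [← Subgroup.orderOf_coe]
      exact Nat.not_even_iff_odd.mp fun he => h2 he.two_dvd
  have hrelA : (1 : ℂ) + A χ₁ + A χ₂ - A χ₃ = 0 := by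
    have h := Finset.sum_congr (rfl : O = O) fun c (hc : c ∈ O) =>
      orth P hM hP hone hJ (y := (c : G))
        (by rw [Subgroup.orderOf_coe]; exact ((hodd c).mp (Finset.mem_filter.mp hc).2).not_two_dvd_nat)
    rw [Finset.sum_const_zero] at h
    simp only [hsum, v1, v2, v3, show (trivIrr G : G → ℂ) J = 1 from rfl, mul_one, mul_neg,
      Finset.sum_add_distrib, Finset.sum_neg_distrib, hA] at h
    have hA0 : (A (trivIrr G) : ℂ) = 1 := by
      refine mul_left_cancel₀ ho0 ?_
      rw [← hA, mul_one, ← hOcard]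
      simp [trivIrr]
    rw [hA0] at h
    refine mul_left_cancel₀ ho0 ?_
    linear_combination h
  have e1 := hmA χ₁ i1
  have e2 := hmA χ₂ i2
  have e3 := hmA χ₃ i3
  rw [v1] at e1; rw [v2] at e2; rw [v3] at e3
  have n1 : (4 * m χ₁ : ℤ) = A χ₁ + 3 := by
    have : ((4 * m χ₁ : ℤ) : ℂ) = ((A χ₁ + 3 : ℤ) : ℂ) := by push_cast; linear_combination e1
    exact_mod_cast this
  have n2 : (4 * m χ₂ : ℤ) = A χ₂ + 3 := by
    have : ((4 * m χ₂ : ℤ) : ℂ) = ((A χ₂ + 3 : ℤ) : ℂ) := by push_cast; linear_combination e2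
    exact_mod_cast this
  have n3 : (4 * m χ₃ : ℤ) = A χ₃ - 3 := by
    have : ((4 * m χ₃ : ℤ) : ℂ) = ((A χ₃ - 3 : ℤ) : ℂ) := by push_cast; linear_combination e3
    exact_mod_cast this
  have n0 : (1 : ℤ) + A χ₁ + A χ₂ - A χ₃ = 0 := by
    have : ((1 + A χ₁ + A χ₂ - A χ₃ : ℤ) : ℂ) = ((0 : ℤ) : ℂ) := by
      push_cast; linear_combination hrelA
    exact_mod_cast this
  -- no square roots in the section
  have hN0 : ∀ c ∈ O, sqrtNum (J * (c : G)) = 0 := by
    intro c hc
    simp only [sqrtNum, Nat.cast_eq_zero, Finset.card_eq_zero, Finset.filter_eq_empty_iff]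
    intro x _ hx
    have hcJ : Commute J (c : G) := (Subgroup.mem_centralizer_singleton_iff.mp c.2).symm
    have hoc : Odd (orderOf (c : G)) := by
      rw [Subgroup.orderOf_coe]; exact (hodd c).mp (Finset.mem_filter.mp hc).2
    have hord : orderOf (x ^ 2) = 2 * orderOf (c : G) := by
      rw [hx, hcJ.orderOf_mul_eq_mul_orderOf_of_coprime, hJ]
      rw [hJ]; exact Nat.coprime_two_left.mpr hoc
    have h2 : 2 ∣ orderOf x := by
      have h3 : orderOf (x ^ 2) ∣ orderOf x := orderOf_pow_dvd 2
      rw [hord] at h3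
      exact (dvd_mul_right 2 _).trans h3
    obtain ⟨u, y, hxe, hu, hyu, hyo⟩ := decomp P hP h2
    have hsq : x ^ 2 = y ^ 2 := by
      rw [hxe, hyu.symm.mul_pow, pow_two u, mul_self hu, one_mul]
    have : Odd (orderOf (x ^ 2)) := by
      rw [hsq]; exact hyo.of_dvd_nat (orderOf_pow_dvd 2)
    rw [hord] at this
    exact Nat.not_even_iff_odd.mpr this (even_two_mul _)
  -- the signed sum of indicators vanishes
  set ν : IrrCharacter G → ℤ := fun χ => (r χ : ℤ) - s χ with hνdef
  have hνc : ∀ χ : IrrCharacter G, classInner (sqrtNum : G → ℂ) (χ : G → ℂ) = (ν χ : ℂ) := fun χ => by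
    rw [hν]; simp [hνdef]
  have hsig : (1 : ℤ) + ν χ₁ + ν χ₂ - ν χ₃ = 0 := by
    have h : ∑ c ∈ O, sqrtNum (J * (c : G)) = 0 := Finset.sum_eq_zero hN0
    rw [Finset.sum_congr (rfl : O = O) (g := fun c : C =>
      ∑ χ : IrrCharacter G, (ν χ : ℂ) * (χ : G → ℂ) (J * (c : G))) fun c _ => by
        rw [classFunction_expand sqrtNum_isClassFunction (J * (c : G))]
        simp only [hνc], Finset.sum_comm] at h
    have hcs : ∀ χ : IrrCharacter G, ∑ c ∈ O, (χ : G → ℂ) (J * (c : G)) =
        if χ ∈ principalBlock M G then o * (χ : G → ℂ) J else 0 := fun χ => by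
      have e := core_sum P hM hP hone hJP hJ χ
      convert e using 2 <;> first | rfl | (ext; simp [hO]; rfl)
    simp only [← Finset.mul_sum, hcs, mul_ite, mul_zero] at h
    rw [← Finset.sum_filter, hsum, v1, v2, v3, show (trivIrr G : G → ℂ) J = 1 from rfl] at h
    have hν0 : ν (trivIrr G) = 1 := by simp [hνdef, hrt.1, hrt.2]
    rw [hν0] at h
    have : ((1 + ν χ₁ + ν χ₂ - ν χ₃ : ℤ) : ℂ) = ((0 : ℤ) : ℂ) := by
      push_cast
      refine mul_left_cancel₀ ho0 ?_
      rw [ho]
      simp only [Int.cast_one] at h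
      linear_combination h
    exact_mod_cast this
  -- the permutation character
  have hfix : ∀ χ : IrrCharacter G, classInner (fixNum : G → ℂ) (χ : G → ℂ) =
      (if χ = trivIrr G then 1 else 0) + (m χ : ℂ) := by
    intro χ
    rw [classInner]
    have h1 : ∑ y : G, fixNum y * conj ((χ : G → ℂ) y) =
        ∑ x ∈ Finset.univ.filter (fun x : G => x ^ 2 = 1),
          ∑ y ∈ Finset.univ.filter (fun y : G => Commute y x), conj ((χ : G → ℂ) y) := by
      simp only [fixNum, Finset.card_filter, Nat.cast_sum, Finset.sum_mul, Finset.sum_filter]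
      rw [Finset.sum_comm]
      refine Finset.sum_congr rfl fun x _ => ?_
      by_cases hx : x ^ 2 = 1
      · rw [if_pos hx]
        exact Finset.sum_congr rfl fun y _ => by by_cases hy : Commute y x <;> simp [hx, hy]
      · rw [if_neg hx]
        exact Finset.sum_eq_zero fun y _ => by simp [hx]
    have h2 : ∀ x : G, orderOf x = 2 →
        ∑ y ∈ Finset.univ.filter (fun y : G => Commute y x), conj ((χ : G → ℂ) y) =
          (Nat.card C : ℂ) * m χ := by
      intro x hx
      obtain ⟨g, hg⟩ := isConj_iff.mp (hone J x hJ hx)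
      have h3 : ∑ y ∈ Finset.univ.filter (fun y : G => Commute y x), conj ((χ : G → ℂ) y) =
          ∑ y ∈ Finset.univ.filter (fun y : G => Commute y J), conj ((χ : G → ℂ) y) := by
        refine (Finset.sum_equiv (MulAut.conj g).toEquiv (fun y => ?_) fun y _ => ?_).symm
        · simp only [Finset.mem_filter, Finset.mem_univ, true_and, MulEquiv.toEquiv_eq_coe,
            MulEquiv.coe_toEquiv]
          rw [← hg, MulAut.conj_apply]
          exact (Commute.conj_iff g).symm
        · simp only [MulEquiv.toEquiv_eq_coe, MulEquiv.coe_toEquiv, MulAut.conj_apply]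
          rw [IsCharacter.isClassFunction (isCharacter_irr χ) y g]
      rw [h3, Finset.sum_subtype _ (p := fun y : G => y ∈ C)
        (fun y => by rw [Finset.mem_filter, and_iff_right (Finset.mem_univ _), hCdef,
          Subgroup.mem_centralizer_singleton_iff, commute_iff_eq]),
        ← map_sum, hm χ, map_mul, Complex.conj_natCast, Complex.conj_natCast]
    have hInvset : Finset.univ.filter (fun x : G => x ^ 2 = 1) =
        insert 1 (Finset.univ.filter (fun x : G => IsConj J x)) := by
      ext x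
      simp only [Finset.mem_filter, Finset.mem_univ, true_and, Finset.mem_insert]
      constructor
      · intro hx
        by_cases h : x = 1
        · exact Or.inl h
        · exact Or.inr (hone J x hJ (orderOf_eq_two (by rwa [← pow_two]) h))
      · rintro (rfl | h)
        · exact one_pow 2
        · obtain ⟨c, rfl⟩ := isConj_iff.mp h
          rw [pow_two]; exact mul_self (orderOf_conj' hJ)
    have h1' : ∑ y ∈ Finset.univ.filter (fun y : G => Commute y 1), conj ((χ : G → ℂ) y) =
        (Nat.card G : ℂ) * (if χ = trivIrr G then 1 else 0) := by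
      have h := sum_mul_conj_irr (trivIrr G) χ
      simp only [show (trivIrr G : G → ℂ) = fun _ => 1 from rfl, one_mul] at h
      simp only [Commute.one_right, Finset.filter_true, h]
      by_cases he : χ = trivIrr G
      · rw [if_pos he, if_pos he.symm, mul_one]
      · rw [if_neg (Ne.symm he), if_neg he, mul_zero]
    rw [h1, hInvset, Finset.sum_insert (fun h => by
        obtain ⟨c, hc⟩ := isConj_iff.mp (Finset.mem_filter.mp h).2
        exact ne_one hJ (conj_eq_one_iff.mp hc)), h1',
      Finset.sum_congr rfl fun x hx => h2 x (by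
        obtain ⟨c, rfl⟩ := isConj_iff.mp (Finset.mem_filter.mp hx).2
        exact orderOf_conj' hJ),
      Finset.sum_const, nsmul_eq_mul, ← Fintype.card_subtype, ← Nat.card_eq_fintype_card,
      card_isConj_eq_index, ← hCdef, mul_add, ← mul_assoc (a := (C.index : ℂ)), ← Nat.cast_mul,
      Subgroup.index_mul_card, inv_mul_cancel_left₀ (natCast_card_ne_zero G),
      inv_mul_cancel_left₀ (natCast_card_ne_zero G)]
  have hdeg : (ν (trivIrr G) : ℤ) + ν χ₁ * charDegree (χ₁ : G → ℂ) + ν χ₂ * charDegree (χ₂ : G → ℂ) +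
      ν χ₃ * charDegree (χ₃ : G → ℂ) = (1 + m (trivIrr G) : ℤ) + m χ₁ * charDegree (χ₁ : G → ℂ) +
        m χ₂ * charDegree (χ₂ : G → ℂ) + m χ₃ * charDegree (χ₃ : G → ℂ) := by
    have hcl : IsClassFunction G (fun g : G => sqrtNum g - fixNum g) := fun g h => by
      show sqrtNum (h * g * h⁻¹) - fixNum (h * g * h⁻¹) = sqrtNum g - fixNum g
      rw [sqrtNum_isClassFunction g h, fixNum_isClassFunction g h]
    have h := blockPart_eq_zero_of_regular hM (isPBlock_principalBlock (M := M) (G := G)) hcl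
      (fun y hy => by
        rw [sqrtNum_eq_fixNum (Nat.not_even_iff_odd.mp fun he => hy he.two_dvd), sub_self])
      (not_dvd_orderOf_one hM (G := G))
    rw [blockPart_sub, blockPart_eq_filter, blockPart_eq_filter, hsum, hsum] at h
    simp only [hνc, hfix, if_neg hne1, if_neg hne2, if_neg hne3, irr_apply_one, zero_add] at h
    have ht : (charDegree (trivIrr G : G → ℂ) : ℂ) = 1 := by rw [← irr_apply_one]; rfl
    simp only [if_true, ht] at h
    have : ((ν (trivIrr G) + ν χ₁ * charDegree (χ₁ : G → ℂ) + ν χ₂ * charDegree (χ₂ : G → ℂ) +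
        ν χ₃ * charDegree (χ₃ : G → ℂ) : ℤ) : ℂ) = (((1 + m (trivIrr G) : ℤ) +
        m χ₁ * charDegree (χ₁ : G → ℂ) + m χ₂ * charDegree (χ₂ : G → ℂ) +
        m χ₃ * charDegree (χ₃ : G → ℂ) : ℤ) : ℂ) := by
      push_cast; linear_combination h
    exact_mod_cast this
  have hm0 : (m (trivIrr G) : ℤ) = 1 := by
    have h := hm (trivIrr G)
    simp only [trivIrr, Finset.sum_const, Finset.card_univ, nsmul_eq_mul, mul_one] at h
    rw [← Nat.card_eq_fintype_card] at h
    have h1 : ((1 : ℕ) : ℂ) = (m (trivIrr G) : ℂ) := by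
      refine mul_left_cancel₀ (natCast_card_ne_zero C) ?_
      rw [Nat.cast_one, mul_one]
      simpa [trivIrr] using h
    exact_mod_cast h1.symm
  have hdsum : (1 : ℤ) + charDegree (χ₁ : G → ℂ) + charDegree (χ₂ : G → ℂ) =
      charDegree (χ₃ : G → ℂ) := by
    have h := orth P hM hP hone hJ (y := (1 : G)) (not_dvd_orderOf_one hM)
    rw [hsum, v1, v2, v3, show (trivIrr G : G → ℂ) J = 1 from rfl] at h
    simp only [mul_one, mul_neg, irr_apply_one] at h
    have ht : (charDegree (trivIrr G : G → ℂ) : ℂ) = 1 := by rw [← irr_apply_one]; rfl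
    rw [ht] at h
    have : ((1 + charDegree (χ₁ : G → ℂ) + charDegree (χ₂ : G → ℂ) : ℤ) : ℂ) =
        ((charDegree (χ₃ : G → ℂ) : ℤ) : ℂ) := by push_cast; linear_combination h
    exact_mod_cast this
  have hν0 : ν (trivIrr G) = 1 := by simp [hνdef, hrt.1, hrt.2]
  have p1 := hreal χ₁ hc1
  have p2 := hreal χ₂ hc2
  have p3 := hreal χ₃ hc3
  have q1 : ν χ₁ = 1 ∨ ν χ₁ = -1 := by simp only [hνdef]; omega
  have q2 : ν χ₂ = 1 ∨ ν χ₂ = -1 := by simp only [hνdef]; omega
  have q3 : ν χ₃ = 1 ∨ ν χ₃ = -1 := by simp only [hνdef]; omega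
  have d1 : (1 : ℤ) ≤ charDegree (χ₁ : G → ℂ) := by exact_mod_cast charDegree_pos χ₁
  have d2 : (1 : ℤ) ≤ charDegree (χ₂ : G → ℂ) := by exact_mod_cast charDegree_pos χ₂
  have m1 : (1 : ℤ) ≤ m χ₁ := by omega
  have m2 : (1 : ℤ) ≤ m χ₂ := by omega
  rw [hν0, hm0] at hdeg
  suffices (charDegree (χ₁ : G → ℂ) : ℤ) = charDegree (χ₂ : G → ℂ) by exact_mod_cast this
  generalize hD1 : (charDegree (χ₁ : G → ℂ) : ℤ) = D1 at *
  generalize hD2 : (charDegree (χ₂ : G → ℂ) : ℤ) = D2 at *
  generalize hD3 : (charDegree (χ₃ : G → ℂ) : ℤ) = D3 at *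
  have b1 : D1 ≤ (m χ₁ : ℤ) * D1 := le_mul_of_one_le_left (by omega) m1
  have b2 : D2 ≤ (m χ₂ : ℤ) * D2 := le_mul_of_one_le_left (by omega) m2
  rcases q3 with h3 | h3
  · rw [h3] at hdeg hsig
    by_cases hm3 : m χ₃ = 0
    · rw [hm3] at hdeg n3
      push_cast at n3
      rcases q1 with h1 | h1
      · have h2 : ν χ₂ = -1 := by omega
        rw [h1, h2] at hdeg
        -- `m₁ = 1`
        have hm1 : (m χ₁ : ℤ) = 1 := by omega
        have hm2 : (m χ₂ : ℤ) = 1 := by omega
        rw [hm1, hm2] at hdeg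
        push_cast at hdeg
        linarith
      · have h2 : ν χ₂ = 1 := by omega
        rw [h1, h2] at hdeg
        have hm1 : (m χ₁ : ℤ) = 1 := by omega
        have hm2 : (m χ₂ : ℤ) = 1 := by omega
        rw [hm1, hm2] at hdeg
        push_cast at hdeg
        linarith
    · have b3 : D3 ≤ (m χ₃ : ℤ) * D3 := le_mul_of_one_le_left (by omega)
        (by exact_mod_cast Nat.one_le_iff_ne_zero.mpr hm3)
      rcases q1 with h1 | h1
      · have h2 : ν χ₂ = -1 := by omega
        rw [h1, h2] at hdeg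
        have b1' : (m χ₁ : ℤ) ≤ 1 := by nlinarith
        nlinarith
      · have h2 : ν χ₂ = 1 := by omega
        rw [h1, h2] at hdeg
        have b1' : (m χ₂ : ℤ) ≤ 1 := by nlinarith
        nlinarith
  · rw [h3] at hdeg hsig
    rcases q1 with h1 | h1 <;> rcases q2 with h2 | h2 <;> rw [h1, h2] at hdeg hsig
    all_goals first
      | omega
      | (exfalso; nlinarith [mul_nonneg (show (0 : ℤ) ≤ m χ₃ by positivity) (show (0 : ℤ) ≤ D3 by omega)])

end CfsgLib.Blocks.KP
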