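import Cfsg.Agent.Lib.Chars.Linear
import Cfsg.Agent.Lib.Chars.CycloAvg
import Cfsg.Agent.Lib.CharAbelian
import Mathlib.GroupTheory.FiniteAbelian.Duality

/-!
Knörr's inequality for an abelian group of operators: a quadratic form on the dual of an abelian
group which is at least the group order on every nonzero integral vector, and a list of subgroups
of the dual coming from a chief series of the module.
-/

set_option linter.style.haveILetI false
set_option linter.unusedSectionVars false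

namespace CfsgLib.Blocks.KV

open scoped ComplexConjugate
open Cfsg CfsgLib.Chars

universe u

variable {C : Type u} [CommGroup C] [Fintype C] [Fintype (C →* ℂˣ)]

/-- The vectors obtained by the difference operators. -/
noncomputable def E : List (Subgroup (C →* ℂˣ)) → ((C →* ℂˣ) → ℂ) → List ℂ
  | [], x => Finset.univ.toList.map x
  | H :: l, x => E l x ++ E l x ++
      (H : Set (C →* ℂˣ)).toFinite.toFinset.toList.flatMap fun μ => E l (fun d => x d - x (d * μ⁻¹))

/-- Squared length of a list. -/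
noncomputable def Q (L : List ℂ) : ℂ := (L.map fun z => z * conj z).sum

open Classical in
/-- Number of nonzero entries of a list. -/
noncomputable def N (L : List ℂ) : ℕ := (L.map fun z => if z = 0 then 0 else 1).sum

theorem Q_append (L L' : List ℂ) : Q (L ++ L') = Q L + Q L' := by simp [Q]

theorem N_append (L L' : List ℂ) : N (L ++ L') = N L + N L' := by simp [N]

theorem Q_flatMap {ι : Type*} (s : Finset ι) (F : ι → List ℂ) :
    Q (s.toList.flatMap F) = ∑ i ∈ s, Q (F i) := by
  rw [← Finset.sum_map_toList s fun i => Q (F i)]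
  induction s.toList with
  | nil => simp [Q]
  | cons a l ih => simp [Q_append, ih]

theorem N_flatMap {ι : Type*} (s : Finset ι) (F : ι → List ℂ) :
    N (s.toList.flatMap F) = ∑ i ∈ s, N (F i) := by
  rw [← Finset.sum_map_toList s fun i => N (F i)]
  induction s.toList with
  | nil => simp [N]
  | cons a l ih => simp [N_append, ih]

theorem dual_assoc (a b c : C →* ℂˣ) : a * b * c = a * (b * c) := mul_assoc a b c

theorem dual_mul_inv (a b : C →* ℂˣ) : a * b * b⁻¹ = a := mul_inv_cancel_right a b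

theorem dual_inv_mul (a b : C →* ℂˣ) : a * b⁻¹ * b = a := inv_mul_cancel_right a b

theorem dual_mul_inv' (a b : C →* ℂˣ) : a * (a⁻¹ * b) = b := mul_inv_cancel_left a b

theorem dual_inv_mul' (a b : C →* ℂˣ) : a⁻¹ * (a * b) = b := inv_mul_cancel_left a b

theorem dual_right_comm (a b c : C →* ℂˣ) : a * b * c = a * c * b := mul_right_comm a b c

theorem dual_one (a : C →* ℂˣ) : a * 1 = a := mul_one a

/-- The Fourier transform. -/
noncomputable def phi (x : (C →* ℂˣ) → ℂ) (c : C) : ℂ := ∑ d, x d * (d c : ℂ)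

theorem phi_sub_shift (x : (C →* ℂˣ) → ℂ) (μ : C →* ℂˣ) (c : C) :
    phi (fun d => x d - x (d * μ⁻¹)) c = (1 - (μ c : ℂ)) * phi x c := by
  have h : ∑ d, x (d * μ⁻¹) * (d c : ℂ) = (μ c : ℂ) * ∑ d, x d * (d c : ℂ) := by
    rw [Finset.mul_sum]
    refine Fintype.sum_equiv (Equiv.mulRight μ⁻¹) _ _ fun d => ?_
    simp only [Equiv.coe_mulRight, MonoidHom.mul_apply, MonoidHom.inv_apply, Units.val_mul,
      Units.val_inv_eq_inv_val]
    have := Units.ne_zero (μ c)
    field_simp
  simp only [phi, sub_mul, Finset.sum_sub_distrib, h, one_mul]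

open Classical in
theorem parseval (x : (C →* ℂˣ) → ℂ) :
    ∑ c, phi x c * conj (phi x c) = (Nat.card C : ℂ) * ∑ d, x d * conj (x d) := by
  simp only [phi, map_sum, map_mul, Finset.sum_mul, Finset.mul_sum]
  rw [Finset.sum_comm]
  refine Finset.sum_congr rfl fun d _ => ?_
  rw [Finset.sum_comm, Finset.sum_eq_single d]
  · rw [Finset.sum_congr rfl fun c _ => show x d * (d c : ℂ) * (conj (x d) * conj (d c : ℂ)) =
      x d * conj (x d) * ((d c : ℂ) * conj (d c : ℂ)) by ring, ← Finset.mul_sum]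
    simp only [hom_mul_conj, Finset.sum_const, Finset.card_univ, nsmul_eq_mul, mul_one,
      Nat.card_eq_fintype_card]
    ring
  · intro e _ he
    rw [Finset.sum_congr rfl fun c _ => show x e * (e c : ℂ) * (conj (x d) * conj (d c : ℂ)) =
      x e * conj (x d) * ((e c : ℂ) * conj (d c : ℂ)) by ring, ← Finset.mul_sum]
    have h := sum_mul_conj_irr (homIrr e) (homIrr d)
    rw [if_neg fun h => he (homIrr_injective h)] at h
    exact mul_eq_zero_of_right _ h
  · simp

/-- The weights. -/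
noncomputable def wt : List (Subgroup (C →* ℂˣ)) → C → ℕ
  | [], _ => 1
  | H :: l, c => by
    classical exact (if ∃ μ ∈ H, μ c ≠ 1 then 2 * (1 + Nat.card H) else 2) * wt l c

open Classical in
theorem factor_eq (H : Subgroup (C →* ℂˣ)) (c : C) :
    (2 : ℂ) + ∑ μ ∈ (H : Set (C →* ℂˣ)).toFinite.toFinset,
      (1 - (μ c : ℂ)) * conj (1 - (μ c : ℂ)) =
      ((if ∃ μ ∈ H, μ c ≠ 1 then 2 * (1 + Nat.card H) else 2 : ℕ) : ℂ) := by
  set s := (H : Set (C →* ℂˣ)).toFinite.toFinset
  have hs : ∀ μ, μ ∈ s ↔ μ ∈ H := fun μ => Set.Finite.mem_toFinset _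
  split_ifs with h
  · obtain ⟨ν, hν, hνc⟩ := h
    have h0 : ∑ μ ∈ s, (μ c : ℂ) = 0 := by
      have e : ∑ μ ∈ s, (μ c : ℂ) = (ν c : ℂ) * ∑ μ ∈ s, (μ c : ℂ) := by
        rw [Finset.mul_sum]
        refine (Finset.sum_nbij' (fun μ => ν * μ) (fun μ => ν⁻¹ * μ) ?_ ?_ ?_ ?_ ?_).symm
        · exact fun μ hμ => (hs _).mpr (H.mul_mem hν ((hs _).mp hμ))
        · exact fun μ hμ => (hs _).mpr (H.mul_mem (H.inv_mem hν) ((hs _).mp hμ))
        · intro μ _; simp [dual_inv_mul']
        · intro μ _; simp [dual_mul_inv']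
        · intro μ _; simp
      by_contra hne
      exact hνc (Units.ext ((mul_eq_right₀ hne).mp e.symm))
    have hcard : s.card = Nat.card H := by
      rw [← Set.ncard_eq_toFinset_card _ (H : Set (C →* ℂˣ)).toFinite, ← Nat.card_coe_set_eq]
      rfl
    have h1 : ∀ μ : C →* ℂˣ, (1 - (μ c : ℂ)) * conj (1 - (μ c : ℂ)) =
        2 - (μ c : ℂ) - conj (μ c : ℂ) := fun μ => by
      rw [map_sub, map_one]
      linear_combination hom_mul_conj μ c
    simp only [h1, Finset.sum_sub_distrib, ← map_sum, h0, map_zero, sub_zero, Finset.sum_const,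
      hcard, nsmul_eq_mul]
    push_cast
    ring
  · push Not at h
    rw [Finset.sum_eq_zero fun μ hμ => by rw [h μ ((hs μ).mp hμ), Units.val_one, sub_self, zero_mul]]
    simp

theorem Q_E : ∀ (l : List (Subgroup (C →* ℂˣ))) (x : (C →* ℂˣ) → ℂ),
    (Nat.card C : ℂ) * Q (E l x) = ∑ c, (wt l c : ℂ) * (phi x c * conj (phi x c))
  | [], x => by
    simp only [E, Q, wt, Nat.cast_one, one_mul, parseval, List.map_map]
    rw [← Finset.sum_map_toList]
    rfl
  | H :: l, x => by
    classical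
    set s := (H : Set (C →* ℂˣ)).toFinite.toFinset
    have hw : ∀ c, (wt (H :: l) c : ℂ) =
        (2 + ∑ μ ∈ s, (1 - (μ c : ℂ)) * conj (1 - (μ c : ℂ))) * wt l c := fun c => by
      rw [factor_eq, ← Nat.cast_mul]
      simp only [wt]
    simp only [E, Q_append, Q_flatMap, mul_add, Finset.mul_sum, Q_E l, phi_sub_shift, hw]
    rw [Finset.sum_comm (f := fun (μ : C →* ℂˣ) (c : C) =>
      (wt l c : ℂ) * ((1 - (μ c : ℂ)) * phi x c * conj ((1 - (μ c : ℂ)) * phi x c)))]
    rw [← Finset.sum_add_distrib, ← Finset.sum_add_distrib]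
    refine Finset.sum_congr rfl fun c _ => ?_
    rw [add_mul, add_mul, Finset.sum_mul, Finset.sum_mul]
    congr 1
    · ring
    refine Finset.sum_congr rfl fun μ _ => ?_
    rw [map_mul]
    ring

open Classical in
/-- The saturation of the support. -/
noncomputable def sat (W : Subgroup (C →* ℂˣ)) (x : (C →* ℂˣ) → ℂ) : Finset (C →* ℂˣ) :=
  Finset.univ.filter fun d => ∃ w ∈ W, x (d * w) ≠ 0

theorem mem_sat {W : Subgroup (C →* ℂˣ)} {x : (C →* ℂˣ) → ℂ} {d : C →* ℂˣ} :
    d ∈ sat W x ↔ ∃ w ∈ W, x (d * w) ≠ 0 := by simp [sat]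

open Classical in
theorem sat_mul_mem {W : Subgroup (C →* ℂˣ)} {x : (C →* ℂˣ) → ℂ} {d w : C →* ℂˣ}
    (hw : w ∈ W) (h : d ∈ sat W x) : d * w ∈ sat W x := by
  obtain ⟨u, hu, h⟩ := mem_sat.mp h
  exact mem_sat.mpr ⟨w⁻¹ * u, W.mul_mem (W.inv_mem hw) hu, by rwa [dual_assoc, dual_mul_inv']⟩

/-- The subgroup generated by the list. -/
def join (l : List (Subgroup (C →* ℂˣ))) : Subgroup (C →* ℂˣ) := l.foldr (· ⊔ ·) ⊥

open Classical in
theorem sat_le_N : ∀ (l : List (Subgroup (C →* ℂˣ))) (x : (C →* ℂˣ) → ℂ),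
    2 ^ l.length * (sat (join l) x).card ≤ N (E l x)
  | [], x => by
    have : N (E [] x) = ∑ d, if x d = 0 then 0 else 1 := by
      simp only [E, N, List.map_map]
      rw [← Finset.sum_map_toList]
      rfl
    rw [this, List.length_nil, pow_zero, one_mul]
    rw [show sat (join []) x = Finset.univ.filter (fun d => ¬ x d = 0) from ?_,
      Finset.card_filter]
    · exact le_of_eq (Finset.sum_congr rfl fun d _ => by split_ifs <;> rfl)
    · ext d
      simp [mem_sat, join, dual_one]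
  | H :: l, x => by
    set W := join l
    set U := sat W x
    set s := (H : Set (C →* ℂˣ)).toFinite.toFinset
    have hs : ∀ μ, μ ∈ s ↔ μ ∈ H := fun μ => Set.Finite.mem_toFinset _
    have hdiff : ∀ μ ∈ s, 2 * (U.filter fun u => u * μ ∉ U).card ≤
        (sat W fun d => x d - x (d * μ⁻¹)).card := by
      intro μ _
      set A := U.filter fun u => u * μ ∉ U
      set B := U.filter fun u => u * μ⁻¹ ∉ U
      have hAB : A.card = B.card := by
        have e1 : (U.filter fun u => u * μ ∈ U).card = (U.filter fun u => u * μ⁻¹ ∈ U).card := by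
          refine Finset.card_nbij' (fun u => u * μ) (fun u => u * μ⁻¹) ?_ ?_ ?_ ?_
          · intro u hu
            rw [Finset.mem_coe, Finset.mem_filter] at hu ⊢
            exact ⟨hu.2, by simpa [dual_mul_inv, dual_inv_mul] using hu.1⟩
          · intro u hu
            rw [Finset.mem_coe, Finset.mem_filter] at hu ⊢
            exact ⟨hu.2, by simpa [dual_mul_inv, dual_inv_mul] using hu.1⟩
          · intro u _; simp [dual_mul_inv, dual_inv_mul]
          · intro u _; simp [dual_mul_inv, dual_inv_mul]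
        have e2 := Finset.card_filter_add_card_filter_not (s := U) (fun u => u * μ ∈ U)
        have e3 := Finset.card_filter_add_card_filter_not (s := U) (fun u => u * μ⁻¹ ∈ U)
        simp only [A, B]
        omega
      have hdisj : Disjoint (A.image (· * μ)) B := by
        rw [Finset.disjoint_left]
        intro a ha hb
        obtain ⟨u, hu, rfl⟩ := Finset.mem_image.mp ha
        exact (Finset.mem_filter.mp hu).2 (Finset.mem_filter.mp hb).1
      calc 2 * A.card = (A.image (· * μ) ∪ B).card := by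
            rw [Finset.card_union_of_disjoint hdisj,
              Finset.card_image_of_injective _ (mul_left_injective μ), two_mul, hAB]
        _ ≤ _ := Finset.card_le_card ?_
      intro a ha
      rcases Finset.mem_union.mp ha with ha | ha
      · obtain ⟨u, hu, rfl⟩ := Finset.mem_image.mp ha
        obtain ⟨hu1, hu2⟩ := Finset.mem_filter.mp hu
        obtain ⟨w, hw, hx⟩ := mem_sat.mp hu1
        refine mem_sat.mpr ⟨w, hw, ?_⟩
        have h0 : x (u * μ * w) = 0 := by
          by_contra h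
          exact hu2 (mem_sat.mpr ⟨w, hw, h⟩)
        rwa [h0, show u * μ * w * μ⁻¹ = u * w by rw [dual_right_comm u μ w, dual_mul_inv],
          zero_sub, neg_ne_zero]
      · obtain ⟨hu1, hu2⟩ := Finset.mem_filter.mp ha
        obtain ⟨w, hw, hx⟩ := mem_sat.mp hu1
        refine mem_sat.mpr ⟨w, hw, ?_⟩
        have h0 : x (a * w * μ⁻¹) = 0 := by
          by_contra h
          exact hu2 (mem_sat.mpr ⟨w, hw, by rwa [dual_right_comm] at h⟩)
        rwa [h0, sub_zero]
    have hcover : (sat (join (H :: l)) x).card ≤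
        U.card + ∑ μ ∈ s, (U.filter fun u => u * μ ∉ U).card := by
      have hsub : sat (join (H :: l)) x ⊆
          U ∪ s.biUnion fun μ => (U.filter fun u => u * μ ∉ U).image (· * μ) := by
        intro d hd
        obtain ⟨w, hw, hx⟩ := mem_sat.mp hd
        by_cases hdU : d ∈ U
        · exact Finset.mem_union_left _ hdU
        refine Finset.mem_union_right _ (Finset.mem_biUnion.mpr ?_)
        obtain ⟨a, ha, b, hb, rfl⟩ := Subgroup.mem_sup.mp (show w ∈ H ⊔ W from hw)
        have hda : d * a ∈ U := mem_sat.mpr ⟨b, hb, by rwa [dual_assoc]⟩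
        refine ⟨a⁻¹, (hs _).mpr (H.inv_mem ha), Finset.mem_image.mpr ⟨d * a,
          Finset.mem_filter.mpr ⟨hda, ?_⟩, dual_mul_inv d a⟩⟩
        rwa [dual_mul_inv]
      refine (Finset.card_le_card hsub).trans ((Finset.card_union_le _ _).trans ?_)
      refine Nat.add_le_add_left (Finset.card_biUnion_le.trans ?_) _
      exact Finset.sum_le_sum fun μ _ => Finset.card_image_le
    have h1 := sat_le_N l x
    have h2 : ∑ μ ∈ s, 2 ^ l.length * (sat W fun d => x d - x (d * μ⁻¹)).card ≤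
        ∑ μ ∈ s, N (E l fun d => x d - x (d * μ⁻¹)) := Finset.sum_le_sum fun μ _ => sat_le_N l _
    have h3 : 2 * ∑ μ ∈ s, (U.filter fun u => u * μ ∉ U).card ≤
        ∑ μ ∈ s, (sat W fun d => x d - x (d * μ⁻¹)).card := by
      rw [Finset.mul_sum]; exact Finset.sum_le_sum hdiff
    rw [← Finset.mul_sum] at h2
    have h4 := (Nat.mul_le_mul_left (2 ^ l.length) h3).trans h2
    simp only [E, N_append, N_flatMap, List.length_cons, pow_succ]
    calc 2 ^ l.length * 2 * (sat (join (H :: l)) x).card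
        ≤ 2 ^ l.length * 2 * (U.card + ∑ μ ∈ s, (U.filter fun u => u * μ ∉ U).card) :=
          Nat.mul_le_mul_left _ hcover
      _ = 2 ^ l.length * U.card + 2 ^ l.length * U.card +
          2 ^ l.length * (2 * ∑ μ ∈ s, (U.filter fun u => u * μ ∉ U).card) := by ring
      _ ≤ _ := Nat.add_le_add (Nat.add_le_add h1 h1) h4

theorem mem_E {P : ℂ → Prop} (hsub : ∀ a b, P a → P b → P (a - b)) :
    ∀ (l : List (Subgroup (C →* ℂˣ))) (x : (C →* ℂˣ) → ℂ), (∀ d, P (x d)) → ∀ z ∈ E l x, P z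
  | [], x, hx, z, hz => by
    obtain ⟨d, -, rfl⟩ := List.mem_map.mp hz
    exact hx d
  | H :: l, x, hx, z, hz => by
    simp only [E, List.mem_append, List.mem_flatMap] at hz
    rcases hz with (h | h) | ⟨μ, -, h⟩
    · exact mem_E hsub l x hx z h
    · exact mem_E hsub l x hx z h
    · exact mem_E hsub l _ (fun d => hsub _ _ (hx _) (hx _)) z h

/-- A family of cyclotomic integers has at most as many nonzero members as its squared length. -/
theorem N_le_of_Q {n : ℕ} (hn : 0 < n) (L : List ℂ) (hz : ∀ z ∈ L, z ∈ cycField n)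
    (hint : ∀ z ∈ L, IsIntegral ℤ z) {q : ℕ} (hq : Q L = (q : ℂ)) : N L ≤ q := by
  classical
  set s := (Finset.univ : Finset (Fin L.length)).filter fun i => L[i.1] ≠ 0
  have hN : N L = s.card := by
    rw [Finset.card_filter, N, ← Fin.sum_univ_fun_getElem]
    refine Finset.sum_congr rfl fun i _ => ?_
    by_cases h : L[i.1] = 0 <;> simp [h]
  have hQ : ∑ i ∈ s, L[i.1] * conj L[i.1] = ((q : ℚ) : ℂ) := by
    rw [Finset.sum_subset (Finset.subset_univ s) (fun i _ hi => by
      simp only [s, Finset.mem_filter, Finset.mem_univ, true_and, not_not] at hi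
      rw [hi, zero_mul]), Rat.cast_natCast, ← hq, Q,
      ← Fin.sum_univ_fun_getElem]
  have h := card_le_of_sum_normSq hn s (fun i => L[i.1]) (fun i _ => hz _ (List.getElem_mem _))
    (fun i _ => hint _ (List.getElem_mem _)) (fun i hi => (Finset.mem_filter.mp hi).2) hQ
  rw [hN]
  exact_mod_cast h

theorem card_dual : Nat.card (C →* ℂˣ) = Nat.card C := by
  haveI : NeZero (Monoid.exponent C : ℂ) :=
    ⟨by exact_mod_cast Monoid.exponent_ne_zero_of_finite⟩
  exact CommGroup.card_monoidHom_of_hasEnoughRootsOfUnity C ℂ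

/-- A subgroup of the dual separating the points is everything. -/
theorem eq_top_of_separates (W : Subgroup (C →* ℂˣ)) (h : ∀ c : C, (∀ μ ∈ W, μ c = 1) → c = 1) :
    W = ⊤ := by
  classical
  refine Subgroup.eq_top_of_card_eq _ ?_
  rw [card_dual]
  set s := (W : Set (C →* ℂˣ)).toFinite.toFinset
  have hs : ∀ μ, μ ∈ s ↔ μ ∈ W := fun μ => Set.Finite.mem_toFinset _
  have h1 : ∀ c : C, ∑ μ ∈ s, (μ c : ℂ) = if c = 1 then (Nat.card W : ℂ) else 0 := by
    intro c
    split_ifs with hc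
    · subst hc
      simp only [map_one, Units.val_one, Finset.sum_const, nsmul_eq_mul, mul_one, Nat.cast_inj]
      rw [← Set.ncard_eq_toFinset_card _ (W : Set (C →* ℂˣ)).toFinite, ← Nat.card_coe_set_eq]
      rfl
    · obtain ⟨ν, hν, hνc⟩ : ∃ ν ∈ W, ν c ≠ 1 := by
        by_contra hh
        push Not at hh
        exact hc (h c hh)
      have e : ∑ μ ∈ s, (μ c : ℂ) = (ν c : ℂ) * ∑ μ ∈ s, (μ c : ℂ) := by
        rw [Finset.mul_sum]
        refine (Finset.sum_nbij' (fun μ => ν * μ) (fun μ => ν⁻¹ * μ) ?_ ?_ ?_ ?_ ?_).symm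
        · exact fun μ hμ => (hs _).mpr (W.mul_mem hν ((hs _).mp hμ))
        · exact fun μ hμ => (hs _).mpr (W.mul_mem (W.inv_mem hν) ((hs _).mp hμ))
        · intro μ _; simp [dual_inv_mul']
        · intro μ _; simp [dual_mul_inv']
        · intro μ _; simp
      by_contra hne
      exact hνc (Units.ext ((mul_eq_right₀ hne).mp e.symm))
  have h2 : ∀ μ ∈ s, ∑ c : C, (μ c : ℂ) = if μ = 1 then (Nat.card C : ℂ) else 0 := by
    intro μ _
    have := sum_mul_conj_irr (homIrr μ) (homIrr (1 : C →* ℂˣ))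
    simp only [homIrr, MonoidHom.one_apply, Units.val_one, map_one, mul_one] at this
    rw [this]
    exact if_congr ⟨fun e => homIrr_injective e, fun e => by rw [e]; rfl⟩ rfl rfl
  have h3 := Finset.sum_congr rfl fun c (_ : c ∈ (Finset.univ : Finset C)) => h1 c
  rw [Finset.sum_comm, Finset.sum_congr rfl h2, Finset.sum_ite_eq' s (1 : C →* ℂˣ),
    if_pos ((hs _).mpr W.one_mem), Finset.sum_ite_eq' Finset.univ (1 : C), if_pos (Finset.mem_univ _)]
    at h3
  exact (Nat.cast_injective (R := ℂ) h3).symm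

/-- A chief series of the module gives a separating list with small weights. -/
theorem exists_list {X : Type*} [Group X] [Finite X] (ι : C →* X) (V : Subgroup X) {p : ℕ}
    [Fact p.Prime]
    (hV : IsPGroup p V) (hab : ∀ a ∈ V, ∀ b ∈ V, a * b = b * a) (hcop : (Nat.card C).Coprime p)
    (U : Subgroup X) (hUV : U ≤ V) (hinv : ∀ c, ∀ u ∈ U, ι c * u * (ι c)⁻¹ ∈ U) :
    ∃ l : List (Subgroup (C →* ℂˣ)),
      (∀ c, (∀ μ ∈ join l, μ c = 1) → ∀ u ∈ U, ι c * u * (ι c)⁻¹ = u) ∧
      ∀ c, wt l c * Nat.card ↥(U ⊓ Subgroup.centralizer {ι c}) ≤ 2 ^ l.length * Nat.card U := by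
  classical
  induction hn : Nat.card U using Nat.strong_induction_on generalizing U with
  | _ n ih =>
  subst hn
  by_cases hbot : U = ⊥
  · subst hbot
    refine ⟨[], fun c _ u hu => ?_, fun c => ?_⟩
    · rw [Subgroup.mem_bot.mp hu]; group
    · simp [wt]
  let S : Set (Subgroup X) := {W | W < U ∧ ∀ c, ∀ u ∈ W, ι c * u * (ι c)⁻¹ ∈ W}
  obtain ⟨U', ⟨hlt, hinv'⟩, hmax⟩ := Set.Finite.exists_maximalFor (fun W : Subgroup X => W) S
    (Set.toFinite _) ⟨⊥, bot_lt_iff_ne_bot.mpr hbot, fun c u hu => by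
      rw [Subgroup.mem_bot.mp hu]; simp⟩
  have habU : ∀ a ∈ U, ∀ b ∈ U, a * b = b * a := fun a ha b hb => hab a (hUV ha) b (hUV hb)
  have hcard : Nat.card U' < Nat.card U := by
    refine lt_of_le_of_ne (Subgroup.card_le_of_le hlt.le) fun e => hlt.ne ?_
    exact Subgroup.eq_of_le_of_card_ge hlt.le e.ge
  obtain ⟨l, hl1, hl2⟩ := ih _ hcard U' (hlt.le.trans hUV) hinv' rfl
  have key : ∀ d : C, ∀ u ∈ U, u ∉ U' → ι d * u * (ι d)⁻¹ * u⁻¹ ∈ U' →
      ∀ a ∈ U, ι d * a * (ι d)⁻¹ * a⁻¹ ∈ U' := by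
    intro d u hu hu' hdu
    let F : Subgroup X :=
      { carrier := {a | a ∈ U ∧ ι d * a * (ι d)⁻¹ * a⁻¹ ∈ U'}
        one_mem' := ⟨U.one_mem, by simp [U'.one_mem]⟩
        mul_mem' := fun {a b} ha hb => ⟨U.mul_mem ha.1 hb.1, by
          have e : ι d * (a * b) * (ι d)⁻¹ * (a * b)⁻¹ =
              (ι d * a * (ι d)⁻¹) * (ι d * b * (ι d)⁻¹ * b⁻¹) * a⁻¹ := by group
          rw [e, mul_assoc, habU _ (hlt.le hb.2) a⁻¹ (U.inv_mem ha.1), ← mul_assoc]
          exact U'.mul_mem ha.2 hb.2⟩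
        inv_mem' := fun {a} ha => ⟨U.inv_mem ha.1, by
          have e : ι d * a⁻¹ * (ι d)⁻¹ * a⁻¹⁻¹ = (ι d * a * (ι d)⁻¹ * a⁻¹)⁻¹ := by
            rw [mul_inv_rev, inv_inv, habU a ha.1 _ (U.inv_mem (hinv d a ha.1))]
            group
          rw [e]
          exact U'.inv_mem ha.2⟩ }
    have hle : U' ≤ F := fun a ha => ⟨hlt.le ha, U'.mul_mem (hinv' d a ha) (U'.inv_mem ha)⟩
    have hFU : F ≤ U := fun a ha => ha.1
    have hFinv : ∀ c, ∀ a ∈ F, ι c * a * (ι c)⁻¹ ∈ F := by
      intro c a ha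
      refine ⟨hinv c a ha.1, ?_⟩
      have hcd : ι c * ι d = ι d * ι c := by rw [← map_mul, ← map_mul, mul_comm]
      have hcd' : (ι c)⁻¹ * (ι d)⁻¹ = (ι d)⁻¹ * (ι c)⁻¹ := by rw [← mul_inv_rev, ← mul_inv_rev, hcd]
      have e : ι d * (ι c * a * (ι c)⁻¹) * (ι d)⁻¹ * (ι c * a * (ι c)⁻¹)⁻¹ =
          ι c * (ι d * a * (ι d)⁻¹ * a⁻¹) * (ι c)⁻¹ := by
        simp only [mul_inv_rev, inv_inv, mul_assoc]
        rw [← mul_assoc (ι d) (ι c), ← hcd, mul_assoc, ← mul_assoc (ι c)⁻¹ (ι d)⁻¹, hcd',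
          mul_assoc, inv_mul_cancel_left]
      rw [e]
      exact hinv' c _ ha.2
    have hFeq : F = U := by
      by_contra hne
      have := hmax (j := F) ⟨lt_of_le_of_ne hFU hne, hFinv⟩ hle
      exact hu' (this ⟨hu, hdu⟩)
    intro a ha
    rw [← hFeq] at ha
    exact ha.2
  let K : Subgroup C :=
    { carrier := {d | ∀ a ∈ U, ι d * a * (ι d)⁻¹ * a⁻¹ ∈ U'}
      one_mem' := fun a _ => by simp [U'.one_mem]
      mul_mem' := fun {d e} hd he a ha => by
        have h : ι (d * e) * a * (ι (d * e))⁻¹ * a⁻¹ =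
            (ι d * (ι e * a * (ι e)⁻¹ * a⁻¹) * (ι d)⁻¹) * (ι d * a * (ι d)⁻¹ * a⁻¹) := by
          rw [map_mul]; group
        rw [h]
        exact U'.mul_mem (hinv' d _ (he a ha)) (hd a ha)
      inv_mem' := fun {d} hd a ha => by
        have h := hd _ (hinv d⁻¹ a ha)
        have e : ι d⁻¹ * a * (ι d⁻¹)⁻¹ * a⁻¹ =
            (ι d * (ι d⁻¹ * a * (ι d⁻¹)⁻¹) * (ι d)⁻¹ * (ι d⁻¹ * a * (ι d⁻¹)⁻¹)⁻¹)⁻¹ := by
          simp only [map_inv]; group
        rw [e]
        exact U'.inv_mem h }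
  let H : Subgroup (C →* ℂˣ) :=
    { carrier := {μ | ∀ k ∈ K, μ k = 1}
      one_mem' := fun k _ => rfl
      mul_mem' := fun {a b} ha hb k hk => by rw [MonoidHom.mul_apply, ha k hk, hb k hk, one_mul]
      inv_mem' := fun {a} ha k hk => by rw [MonoidHom.inv_apply, ha k hk, inv_one] }
  haveI : NeZero (Monoid.exponent (C ⧸ K) : ℂ) :=
    ⟨by exact_mod_cast Monoid.exponent_ne_zero_of_finite⟩
  have hHK : Nat.card H ≤ K.index := by
    rw [Subgroup.index, ← CommGroup.card_monoidHom_of_hasEnoughRootsOfUnity (C ⧸ K) ℂ]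
    haveI : Finite (C ⧸ K →* ℂˣ) := Nat.finite_of_card_ne_zero (by
      rw [CommGroup.card_monoidHom_of_hasEnoughRootsOfUnity]; exact Nat.card_pos.ne')
    refine Nat.card_le_card_of_injective
      (fun μ : H => QuotientGroup.lift K (μ : C →* ℂˣ) (fun k hk => μ.2 k hk)) fun a b e => ?_
    exact Subtype.ext (MonoidHom.ext fun c => DFunLike.congr_fun e (c : C ⧸ K))
  obtain ⟨u₀, hu₀, hu₀'⟩ := SetLike.exists_of_lt hlt
  haveI : Finite (U ⧸ U'.subgroupOf U) := inferInstance
  have hKidx : K.index + 1 ≤ U'.relIndex U := by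
    let f : Option (C ⧸ K) → U ⧸ U'.subgroupOf U := fun o => o.elim ((1 : U) : U ⧸ U'.subgroupOf U)
      fun q => ((⟨ι q.out * u₀ * (ι q.out)⁻¹, hinv _ _ hu₀⟩ : U) : U ⧸ U'.subgroupOf U)
    have hne : ∀ q : C ⧸ K, f (some q) ≠ f none := by
      intro q e
      have h : (ι q.out * u₀ * (ι q.out)⁻¹)⁻¹ * 1 ∈ U' :=
        Subgroup.mem_subgroupOf.mp (QuotientGroup.eq.mp e)
      rw [mul_one, inv_mem_iff] at h
      have := hinv' q.out⁻¹ _ h
      exact hu₀' (by simpa [map_inv, mul_assoc] using this)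
    have hf : Function.Injective f := by
      intro a b e
      rcases a with _ | a <;> rcases b with _ | b
      · rfl
      · exact absurd e.symm (hne b)
      · exact absurd e (hne a)
      · congr 1
        set x := a.out
        set y := b.out
        have h : (ι x * u₀ * (ι x)⁻¹)⁻¹ * (ι y * u₀ * (ι y)⁻¹) ∈ U' :=
          Subgroup.mem_subgroupOf.mp (QuotientGroup.eq.mp e)
        rw [habU _ (U.inv_mem (hinv _ _ hu₀)) _ (hinv _ _ hu₀)] at h
        have h2 := hinv' x⁻¹ _ h
        have h3 : ι (x⁻¹ * y) * u₀ * (ι (x⁻¹ * y))⁻¹ * u₀⁻¹ ∈ U' := by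
          convert h2 using 1
          simp only [map_mul, map_inv]; group
        rw [← Quotient.out_eq' a, ← Quotient.out_eq' b]
        exact QuotientGroup.eq.mpr (fun z hz => key _ u₀ hu₀ hu₀' h3 z hz)
    have h := Nat.card_le_card_of_injective f hf
    rw [Finite.card_option] at h
    exact h
  refine ⟨H :: l, fun c hc u hu => ?_, fun c => ?_⟩
  · have hcK : c ∈ K := by
      by_contra hcK
      obtain ⟨ψ, hψ⟩ := CommGroup.exists_apply_ne_one_of_hasEnoughRootsOfUnity (C ⧸ K) ℂ
        (a := (c : C ⧸ K)) fun e => hcK ((QuotientGroup.eq_one_iff c).mp e)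
      refine hψ (hc (ψ.comp (QuotientGroup.mk' K)) (Subgroup.mem_sup_left fun k hk => ?_))
      change ψ (k : C ⧸ K) = 1
      rw [(QuotientGroup.eq_one_iff k).mpr hk, map_one]
    set z := ι c * u * (ι c)⁻¹ * u⁻¹
    have hz : z ∈ U' := hcK u hu
    have hzc : ι c * z * (ι c)⁻¹ = z :=
      hl1 c (fun μ hμ => hc μ (Subgroup.mem_sup_right hμ)) z hz
    have hpow : ∀ k : ℕ, ι c ^ k * u * (ι c ^ k)⁻¹ = z ^ k * u := by
      intro k
      induction k with
      | zero => simp
      | succ k ihk =>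
        rw [pow_succ', mul_inv_rev, show ι c * ι c ^ k * u * ((ι c ^ k)⁻¹ * (ι c)⁻¹) =
          ι c * (ι c ^ k * u * (ι c ^ k)⁻¹) * (ι c)⁻¹ by group, ihk,
          show ι c * (z ^ k * u) * (ι c)⁻¹ = (ι c * z * (ι c)⁻¹) ^ k * (ι c * u * (ι c)⁻¹) by
            rw [← MulAut.conj_apply, ← MulAut.conj_apply, ← MulAut.conj_apply, map_mul, map_pow],
          hzc, show ι c * u * (ι c)⁻¹ = z * u from (inv_mul_cancel_right _ _).symm, pow_succ, mul_assoc]
        simp only [z, mul_assoc, inv_mul_cancel, mul_one]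
    have h1 := hpow (orderOf c)
    rw [← map_pow, pow_orderOf_eq_one, map_one, one_mul, inv_one, mul_one] at h1
    have h2 : z ^ orderOf c = 1 := mul_eq_right.mp h1.symm
    obtain ⟨j, hj⟩ := IsPGroup.iff_orderOf.mp hV ⟨z, hUV (hlt.le hz)⟩
    rw [← Subgroup.orderOf_coe] at hj
    have h3 : orderOf z ∣ Nat.gcd (orderOf c) (p ^ j) :=
      Nat.dvd_gcd (orderOf_dvd_of_pow_eq_one h2) (dvd_of_eq hj)
    rw [Nat.Coprime.gcd_eq_one ((hcop.coprime_dvd_left (orderOf_dvd_natCard c)).pow_right j),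
      Nat.dvd_one, orderOf_eq_one_iff] at h3
    rw [← mul_inv_eq_one]
    exact h3
  · set A := U ⊓ Subgroup.centralizer {ι c}
    set A' := U' ⊓ Subgroup.centralizer {ι c}
    have hidx : Nat.card U' * U'.relIndex U = Nat.card U := by
      rw [← Subgroup.relIndex_bot_left, Subgroup.relIndex_mul_relIndex _ _ _ bot_le hlt.le,
        Subgroup.relIndex_bot_left]
    rw [List.length_cons, pow_succ, ← hidx]
    by_cases hex : ∃ μ ∈ H, μ c ≠ 1
    · have hcK : c ∉ K := fun h => by
        obtain ⟨μ, hμ, hne⟩ := hex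
        exact hne (hμ c h)
      have hA : A ≤ A' := by
        intro a ha
        obtain ⟨haU, hac⟩ := Subgroup.mem_inf.mp ha
        refine Subgroup.mem_inf.mpr ⟨?_, hac⟩
        by_contra haU'
        refine hcK (key c a haU haU' ?_)
        rw [← Subgroup.mem_centralizer_singleton_iff.mp hac, mul_inv_cancel_right, mul_inv_cancel]
        exact U'.one_mem
      simp only [wt, if_pos hex]
      calc 2 * (1 + Nat.card H) * wt l c * Nat.card A
          ≤ 2 * U'.relIndex U * wt l c * Nat.card A' := by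
            gcongr
            · omega
            · exact Subgroup.card_le_of_le hA
        _ = 2 * U'.relIndex U * (wt l c * Nat.card A') := by ring
        _ ≤ 2 * U'.relIndex U * (2 ^ l.length * Nat.card U') := Nat.mul_le_mul_left _ (hl2 c)
        _ = _ := by ring
    · simp only [wt, if_neg hex]
      have hA : Nat.card A ≤ Nat.card A' * U'.relIndex U := by
        have e : A ⊓ U' = A' := by
          ext a
          simp only [A, A', Subgroup.mem_inf]
          exact ⟨fun h => ⟨h.2, h.1.2⟩, fun h => ⟨⟨hlt.le h.1, h.2⟩, h.1⟩⟩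
        rw [← Subgroup.relIndex_bot_left A, ← Subgroup.relIndex_mul_relIndex ⊥ (A ⊓ U') A bot_le
          inf_le_left, Subgroup.relIndex_bot_left, Subgroup.inf_relIndex_left, e]
        refine Nat.mul_le_mul_left _ (Subgroup.relIndex_le_of_le_right inf_le_left ?_)
        intro h0
        omega
      calc 2 * wt l c * Nat.card A ≤ 2 * wt l c * (Nat.card A' * U'.relIndex U) :=
            Nat.mul_le_mul_left _ hA
        _ = 2 * U'.relIndex U * (wt l c * Nat.card A') := by ring
        _ ≤ 2 * U'.relIndex U * (2 ^ l.length * Nat.card U') := Nat.mul_le_mul_left _ (hl2 c)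
        _ = _ := by ring

/-- Fourier expansion. -/
theorem phi_classInner (f : C → ℂ) (c : C) :
    phi (fun d => classInner f (homIrr d : C → ℂ)) c = f c := by
  conv_rhs => rw [classFunction_expand (f := f) (fun g h => by rw [mul_comm h g, mul_inv_cancel_right]) c]
  refine Fintype.sum_bijective homIrr ⟨homIrr_injective, fun χ => ?_⟩ _ _ fun d => rfl
  exact exists_homIrr χ (charDegree_eq_one_of_comm mul_comm χ)

open Classical in
/-- The count of a family of functions from the orthogonality relation. -/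
theorem card_le {ι₀ : Type*} [Fintype ι₀] {n : ℕ} (hn : 0 < n) (f : ι₀ → C → ℂ)
    (hf : ∀ i, f i 1 ≠ 0)
    (hint : ∀ i (d : C →* ℂˣ), classInner (f i) (homIrr d : C → ℂ) ∈ cycField n ∧
      IsIntegral ℤ (classInner (f i) (homIrr d : C → ℂ)))
    (a : C → ℕ) (hsum : ∀ c, ∑ i, f i c * conj (f i c) = (Nat.card C * a c : ℕ))
    (l : List (Subgroup (C →* ℂˣ))) (hl : join l = ⊤) {v : ℕ}
    (hw : ∀ c, wt l c * a c ≤ 2 ^ l.length * v) : Nat.card ι₀ ≤ v := by
  set x : ι₀ → (C →* ℂˣ) → ℂ := fun i d => classInner (f i) (homIrr d : C → ℂ) with hx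
  set L := (Finset.univ : Finset ι₀).toList.flatMap fun i => E l (x i)
  have hQ : Q L = ((∑ c, wt l c * a c : ℕ) : ℂ) := by
    refine mul_left_cancel₀ (natCast_card_ne_zero C) ?_
    rw [Q_flatMap, Finset.mul_sum, Finset.sum_congr rfl fun i _ => Q_E l (x i), Finset.sum_comm,
      Nat.cast_sum, Finset.mul_sum]
    refine Finset.sum_congr rfl fun c _ => ?_
    rw [← Finset.mul_sum]
    simp only [hx, phi_classInner, hsum]
    push_cast
    ring
  have hP : ∀ z ∈ L, z ∈ cycField n ∧ IsIntegral ℤ z := by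
    intro z hz
    obtain ⟨i, -, hz⟩ := List.mem_flatMap.mp hz
    exact mem_E (P := fun z => z ∈ cycField n ∧ IsIntegral ℤ z)
      (fun a b ha hb => ⟨sub_mem ha.1 hb.1, ha.2.sub hb.2⟩) l (x i) (hint i) z hz
  have h1 := N_le_of_Q hn L (fun z hz => (hP z hz).1) (fun z hz => (hP z hz).2) hQ
  have h2 : ∀ i, 2 ^ l.length * Nat.card C ≤ N (E l (x i)) := by
    intro i
    refine le_trans (le_of_eq ?_) (sat_le_N l (x i))
    congr 1
    rw [hl, ← card_dual, Nat.card_eq_fintype_card, ← Finset.card_univ]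
    congr 1
    obtain ⟨d₀, hd₀⟩ : ∃ d, x i d ≠ 0 := by
      by_contra hh
      push Not at hh
      refine hf i ?_
      rw [← phi_classInner (f i) 1, phi]
      refine Finset.sum_eq_zero fun d _ => ?_
      rw [show classInner (f i) (homIrr d : C → ℂ) = 0 from hh d, zero_mul]
    symm
    ext d
    simp only [mem_sat, Finset.mem_univ, iff_true]
    exact ⟨d⁻¹ * d₀, Subgroup.mem_top _, by rwa [dual_mul_inv']⟩
  have h3 : Nat.card ι₀ * (2 ^ l.length * Nat.card C) ≤ 2 ^ l.length * v * Nat.card C := by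
    calc Nat.card ι₀ * (2 ^ l.length * Nat.card C) = ∑ _i : ι₀, 2 ^ l.length * Nat.card C := by
          rw [Finset.sum_const, Finset.card_univ, smul_eq_mul, Nat.card_eq_fintype_card]
      _ ≤ ∑ i, N (E l (x i)) := Finset.sum_le_sum fun i _ => h2 i
      _ = N L := (N_flatMap _ _).symm
      _ ≤ ∑ c, wt l c * a c := h1
      _ ≤ ∑ _c : C, 2 ^ l.length * v := Finset.sum_le_sum fun c _ => hw c
      _ = _ := by rw [Finset.sum_const, Finset.card_univ, smul_eq_mul, Nat.card_eq_fintype_card,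
        mul_comm]
  rw [mul_comm (2 ^ l.length) v, mul_assoc] at h3
  exact Nat.le_of_mul_le_mul_right h3 (Nat.mul_pos (pow_pos two_pos _) Nat.card_pos)

end CfsgLib.Blocks.KV
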