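import Cfsg.Agent.Lib.Blocks.KnorrLower

/-!
Knörr's theorem: a defect group of a covering block meets the normal subgroup in a defect group of
a covered block, which it stabilises.
-/

set_option autoImplicit false

namespace CfsgLib.KnorrBound

open scoped ComplexConjugate
open Cfsg CfsgLib.Chars CfsgLib.Blocks

universe u

variable {G : Type u} [Group G] [Fintype G] {p : ℕ} [Fact p.Prime] {M : Ideal AlgInt}
  (N : Subgroup G) [hN : N.Normal] [Fintype N]

/-- The conjugate of a set of characters of a normal subgroup. -/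
def cb (b : Set (IrrCharacter N)) (g : G) : Set (IrrCharacter N) := {θ | conjIrr N θ g ∈ b}

theorem mem_cb {b : Set (IrrCharacter N)} {g : G} {θ : IrrCharacter N} :
    θ ∈ cb N b g ↔ conjIrr N θ g ∈ b := Iff.rfl

theorem cb_cb (b : Set (IrrCharacter N)) (g h : G) : cb N (cb N b g) h = cb N b (h * g) := by
  ext θ
  simp only [mem_cb, conjIrr_mul]

theorem cb_one (b : Set (IrrCharacter N)) : cb N b 1 = b := by
  ext θ
  rw [mem_cb, conjIrr_one]

theorem isPBlock_cb (hM : IsPModular p M) {b : Set (IrrCharacter N)} (hb : IsPBlock M b) (g : G) :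
    IsPBlock M (cb N b g) := by
  obtain ⟨θ, hθ⟩ := IsPBlock.nonempty hM hb
  refine ⟨conjIrr N θ g⁻¹, Set.ext fun ψ => ?_⟩
  rw [mem_blockOf, mem_cb]
  constructor
  · intro h
    have := sameBlock_conjIrr N (IsPBlock.sameBlock hM hb hθ h) g⁻¹
    rwa [conjIrr_inv_cancel] at this
  · intro h
    refine IsPBlock.mem_of_sameBlock hM hb hθ ?_
    have := sameBlock_conjIrr N h g
    rwa [conjIrr_inv_cancel'] at this

theorem blockCoeff_cb (b : Set (IrrCharacter N)) (g : G) (n : N) :
    blockCoeff (cb N b g) n = blockCoeff b (conjN N g⁻¹ n) := by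
  classical
  rw [blockCoeff_eq_sum, blockCoeff_eq_sum, Finset.sum_filter, Finset.sum_filter]
  congr 1
  refine Fintype.sum_equiv
    { toFun := fun θ => conjIrr N θ g
      invFun := fun θ => conjIrr N θ g⁻¹
      left_inv := fun θ => conjIrr_inv_cancel N θ g
      right_inv := fun θ => conjIrr_inv_cancel' N θ g } _ _ fun θ => ?_
  simp only [Equiv.coe_fn_mk, mem_cb, conjIrr_apply, map_one, conjN_mul, mul_inv_cancel, conjN_one]

theorem blockDefect_cb (b : Set (IrrCharacter N)) (g : G) :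
    blockDefect p (cb N b g) = blockDefect p b := by
  simp only [blockDefect]
  congr 2
  ext k
  constructor
  · rintro ⟨θ, hθ, rfl⟩
    exact ⟨_, hθ, by simp only [charDegree_conjIrr]⟩
  · rintro ⟨θ, hθ, rfl⟩
    refine ⟨conjIrr N θ g⁻¹, ?_, by simp only [charDegree_conjIrr]⟩
    rw [mem_cb, conjIrr_inv_cancel']
    exact hθ

theorem exists_eq_cb (hM : IsPModular p M) {b b' : Set (IrrCharacter N)} (hb : IsPBlock M b)
    (hb' : IsPBlock M b') (hsub : b' ⊆ blockOrbit N b) : ∃ g : G, b' = cb N b g := by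
  obtain ⟨θ, hθ⟩ := IsPBlock.nonempty hM hb'
  obtain ⟨g, hg⟩ := hsub hθ
  exact ⟨g, IsPBlock.eq_of_mem hM hb' (isPBlock_cb N hM hb g) hθ hg⟩

omit [Fact p.Prime] in
theorem ext0_orbit_class (b : Set (IrrCharacter N)) :
    IsClassFunction G (ext0 N (blockCoeff (blockOrbit N b))) :=
  ext0_blockCoeff_isClassFunction N (blockOrbit_stable N b)

/-- The orbit idempotent is the sum of the idempotents of the conjugate blocks. -/
theorem orbit_coeff_sum (hM : IsPModular p M) {b : Set (IrrCharacter N)} (hb : IsPBlock M b)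
    [Fintype {b' : Set (IrrCharacter N) // IsPBlock M b' ∧ b' ⊆ blockOrbit N b}] (n : N) :
    blockCoeff (blockOrbit N b) n =
      ∑ b' : {b' : Set (IrrCharacter N) // IsPBlock M b' ∧ b' ⊆ blockOrbit N b},
        blockCoeff b'.1 n := by
  classical
  have e : indic (blockOrbit N b) =
      ∑ b' : {b' : Set (IrrCharacter N) // IsPBlock M b' ∧ b' ⊆ (blockOrbit N b)}, indic b'.1 := by
    funext θ
    rw [Finset.sum_apply]
    by_cases hθ : θ ∈ (blockOrbit N b)
    · rw [indic_of_mem hθ, Finset.sum_eq_single_of_mem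
        (⟨blockOf M (θ : N → ℂ), isPBlock_blockOf θ, fun ψ hψ => blockOrbit_union N hM hb θ hθ ψ hψ⟩ :
          {b' : Set (IrrCharacter N) // IsPBlock M b' ∧ b' ⊆ (blockOrbit N b)}) (Finset.mem_univ _),
        indic_of_mem (self_mem_blockOf hM θ)]
      intro B _ hne
      exact indic_of_notMem fun h => hne (Subtype.ext (IsPBlock.eq_blockOf hM B.2.1 h))
    · rw [indic_of_notMem hθ, Finset.sum_eq_zero]
      intro B _
      exact indic_of_notMem fun h => hθ (B.2.2 h)
  have hlin : coeffFun (∑ b' : {b' : Set (IrrCharacter N) // IsPBlock M b' ∧ b' ⊆ (blockOrbit N b)}, indic b'.1) n =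
      ∑ b' : {b' : Set (IrrCharacter N) // IsPBlock M b' ∧ b' ⊆ (blockOrbit N b)}, coeffFun (indic b'.1) n := by
    simp only [coeffFun, Finset.sum_apply, Finset.sum_mul, Finset.mul_sum]
    rw [Finset.sum_comm]
  rw [blockCoeff_eq_coeffFun, e, hlin]
  simp only [blockCoeff_eq_coeffFun]

/-- A defect group of a covering block meets `N` in at most a defect group. -/
theorem card_inf_le (hM : IsPModular p M) {b : Set (IrrCharacter N)} (hb : IsPBlock M b)
    {B : Set (IrrCharacter G)} (hB : IsPBlock M B)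
    (hcov : ∃ χ ∈ B, ∃ θ ∈ b, classInner (fun n : N => (χ : G → ℂ) n) (θ : N → ℂ) ≠ 0)
    {P : Subgroup G} (hP : IsDefectGroup p M B P) :
    Nat.card ↥(P ⊓ N) ≤ p ^ blockDefect p b := by
  classical
  haveI : Fintype {b' : Set (IrrCharacter N) // IsPBlock M b' ∧ b' ⊆ blockOrbit N b} :=
    Fintype.ofFinite _
  obtain ⟨χ₀, hχ₀, θ₀, hθ₀, h₀⟩ := hcov
  set O := blockOrbit N b
  set E : G → ℂ := ext0 N (blockCoeff O) with hE
  have hEc : IsClassFunction G E := ext0_orbit_class N b
  have hEN : ∀ g, g ∉ N → E g = 0 := fun g hg => by rw [hE, ext0, dif_neg hg]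
  have hEl : ∀ g, MemLocalRing M (E g) := fun g => by
    rw [hE, ext0]
    split_ifs
    · exact mlr_blockCoeff_union hM (blockOrbit_union N hM hb) _
    · exact mlr_zero hM
  have hω : omega (χ₀ : G → ℂ) E = 1 := by
    rw [omega_res_constituent N h₀ hEc hEN, show (fun n : N => E (n : G)) = blockCoeff O from
      funext fun n => by rw [hE, ext0, dif_pos n.2], omega_blockCoeff,
      indic_of_mem (show θ₀ ∈ O from ⟨1, by rwa [conjIrr_one]⟩)]
  haveI : Finite (ConjClasses G) := Finite.of_surjective _ ConjClasses.mk_surjective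
  haveI : Fintype (ConjClasses G) := Fintype.ofFinite _
  obtain ⟨c, hcE, hcω⟩ : ∃ c, ¬ MemLocalIdeal M (E c) ∧
      ¬ MemLocalIdeal M (centralChar (χ₀ : G → ℂ) c) := by
    by_contra hne
    push Not at hne
    apply not_mli_one hM
    rw [← hω, omega_eq_sum_centralChar (IsCharacter.isClassFunction (isCharacter_irr χ₀)) hEc]
    refine mli_sum hM _ fun c _ => ?_
    by_cases hc : MemLocalIdeal M (E c.out)
    · exact mli_mul_right hM hc (mlr_centralChar hM χ₀ _)
    · exact mli_mul_left hM (hEl _) (hne _ hc)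
  obtain ⟨x, hx⟩ := defectGroup_le_centralizer hM hB hP hχ₀ hcω
  have hcN : c ∈ N := by
    by_contra h
    exact hcE (by rw [hEN c h]; exact mli_zero hM)
  obtain ⟨b', hb'⟩ : ∃ b' : {b' : Set (IrrCharacter N) // IsPBlock M b' ∧ b' ⊆ O},
      ¬ MemLocalIdeal M (blockCoeff b'.1 ⟨c, hcN⟩) := by
    by_contra hne
    push Not at hne
    refine hcE ?_
    rw [hE, ext0, dif_pos hcN, orbit_coeff_sum N hM hb]
    exact mli_sum hM _ fun b' _ => hne b'
  obtain ⟨D, hD⟩ := exists_isDefectGroup hM b'.2.1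
  set R := ((P ⊓ N).map (MulAut.conj x).toMonoidHom).subgroupOf N with hR
  have hRN : (P ⊓ N).map (MulAut.conj x).toMonoidHom ≤ N := by
    rintro _ ⟨z, hz, rfl⟩
    exact hN.conj_mem z hz.2 x
  have hRp : IsPGroup p R := (((defectGroup_isPGroup hP).to_le inf_le_left).map _).comap_of_injective
    N.subtype N.subtype_injective
  obtain ⟨y, hy⟩ := pGroup_le_defectGroup hM b'.2.1 hD hb' hRp fun q hq => by
    obtain ⟨z, hz, he⟩ := hq
    have := Subgroup.mem_centralizer_singleton_iff.mp (hx ⟨z, hz.1, he⟩)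
    exact Subgroup.mem_centralizer_singleton_iff.mpr (Subtype.ext this)
  have h := Subgroup.card_le_of_le hy
  rw [card_map_conj, hR, Nat.card_congr (Subgroup.subgroupOfEquivOfLe hRN).toEquiv, card_map_conj,
    card_defectGroup hM b'.2.1 hD] at h
  obtain ⟨g, hg⟩ := exists_eq_cb N hM hb b'.2.1 b'.2.2
  rwa [hg, blockDefect_cb] at h

/-- Knörr: some defect group of a covering block meets `N` exactly in the given defect group. -/
theorem exists_inf_eq (hM : IsPModular p M) {b : Set (IrrCharacter N)} (hb : IsPBlock M b)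
    {Q : Subgroup G} (hQN : Q ≤ N) (hQ : IsDefectGroup p M b (Q.subgroupOf N))
    {B : Set (IrrCharacter G)} (hB : IsPBlock M B)
    (hcov : ∃ χ ∈ B, ∃ θ ∈ b, classInner (fun n : N => (χ : G → ℂ) n) (θ : N → ℂ) ≠ 0) :
    ∃ P : Subgroup G, IsDefectGroup p M B P ∧ P ⊓ N = Q := by
  obtain ⟨D, hD, hQD⟩ := KnorrLower.exists_defectGroup_ge N hM hb hQN hQ hB hcov
  refine ⟨D, hD, (Subgroup.eq_of_le_of_card_ge (le_inf hQD hQN) ?_).symm⟩
  refine (card_inf_le N hM hb hB hcov hD).trans (le_of_eq ?_)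
  rw [← card_defectGroup hM hb hQ, Nat.card_congr (Subgroup.subgroupOfEquivOfLe hQN).toEquiv]

/-- For every defect group of a block, a covered block is stabilised by it and has the
intersection with `N` as a defect group. -/
theorem exists_covered (hM : IsPModular p M) {B : Set (IrrCharacter G)} (hB : IsPBlock M B)
    {P : Subgroup G} (hP : IsDefectGroup p M B P) :
    ∃ c : Set (IrrCharacter N), IsPBlock M c ∧ (∀ x ∈ P, cb N c x = c) ∧
      (∃ χ ∈ B, ∃ θ ∈ c, classInner (fun n : N => (χ : G → ℂ) n) (θ : N → ℂ) ≠ 0) ∧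
      IsDefectGroup p M c ((P ⊓ N).subgroupOf N) := by
  classical
  obtain ⟨χ₀, hχ₀⟩ := IsPBlock.nonempty hM hB
  obtain ⟨θ₀, h₀⟩ := exists_res_constituent N χ₀
  set b := blockOf M (θ₀ : N → ℂ)
  have hb : IsPBlock M b := isPBlock_blockOf θ₀
  have hθ₀ : θ₀ ∈ b := self_mem_blockOf hM θ₀
  have hcov : ∃ χ ∈ B, ∃ θ ∈ b, classInner (fun n : N => (χ : G → ℂ) n) (θ : N → ℂ) ≠ 0 :=
    ⟨χ₀, hχ₀, θ₀, hθ₀, h₀⟩
  obtain ⟨D₀, hD₀⟩ := exists_isDefectGroup hM hb
  have hD₀e : (D₀.map N.subtype).subgroupOf N = D₀ :=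
    Subgroup.comap_map_eq_self_of_injective N.subtype_injective D₀
  obtain ⟨P', hP', hP'N⟩ := exists_inf_eq N hM hb (Q := D₀.map N.subtype)
    (Subgroup.map_subtype_le D₀) (by rw [hD₀e]; exact hD₀) hB hcov
  obtain ⟨z, hz⟩ := defectGroup_conj hM hB hP' hP
  have hcard : Nat.card ↥(P ⊓ N) = p ^ blockDefect p b := by
    have e : P ⊓ N = (P' ⊓ N).map (MulAut.conj z).toMonoidHom := by
      rw [hz, Subgroup.map_inf _ _ _ (MulEquiv.injective (MulAut.conj z))]
      congr 1
      refine (Subgroup.eq_of_le_of_card_ge ?_ (le_of_eq ?_)).symm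
      · rintro _ ⟨w, hw, rfl⟩
        exact hN.conj_mem w hw z
      · rw [card_map_conj]
    rw [e, card_map_conj, hP'N, Subgroup.card_map_of_injective N.subtype_injective,
      card_defectGroup hM hb hD₀]
  obtain ⟨g₀, hg₀, S, hS⟩ := id hP
  have hg₀C : g₀ ∈ Subgroup.centralizer (P : Set G) :=
    Subgroup.mem_centralizer_iff.mpr fun q hq =>
      Subgroup.mem_centralizer_singleton_iff.mp ((hS ▸ Subgroup.map_subtype_le _ : P ≤ _) hq)
  set O := blockOrbit N b
  set E : G → ℂ := ext0 N (blockCoeff O) with hE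
  have hEl : ∀ g, MemLocalRing M (E g) := fun g => by
    rw [hE, ext0]
    split_ifs
    · exact mlr_blockCoeff_union hM (blockOrbit_union N hM hb) _
    · exact mlr_zero hM
  obtain ⟨y, hyC, hyE⟩ : ∃ y ∈ Subgroup.centralizer (P : Set G), ¬ MemLocalIdeal M (E y) := by
    by_contra hne
    push Not at hne
    refine hg₀.2.1 ?_
    have h := mli_conv_sub_trunc hM (defectGroup_isPGroup hP) (f := E) (f' := blockCoeff B)
      (fun q _ g => ext0_orbit_class N b g q) (fun q _ g => blockCoeff_isClassFunction B g q) hEl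
      (mlr_blockCoeff hM hB) hg₀C
    rw [hE, KnorrLower.orbit_absorb N hM hb hB hcov, ← hE] at h
    have h2 := mli_sum hM (Finset.univ : Finset G) (f := fun g =>
      if g ∈ Subgroup.centralizer (P : Set G) then E g * blockCoeff B (g⁻¹ * g₀) else 0)
      fun g _ => by
        split_ifs with hg
        · exact mli_mul_right hM (hne g hg) (mlr_blockCoeff hM hB _)
        · exact mli_zero hM
    have h3 := mli_add hM h h2
    rwa [sub_add_cancel] at h3
  have hyN : y ∈ N := by
    by_contra h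
    exact hyE (by rw [hE, ext0, dif_neg h]; exact mli_zero hM)
  haveI : Fintype {b' : Set (IrrCharacter N) // IsPBlock M b' ∧ b' ⊆ O} := Fintype.ofFinite _
  letI act : MulAction P {b' : Set (IrrCharacter N) // IsPBlock M b' ∧ b' ⊆ O} :=
    { smul := fun q b' => ⟨cb N b'.1 (q : G), isPBlock_cb N hM b'.2.1 _, fun θ hθ => by
        have h := blockOrbit_stable N b _ (b'.2.2 hθ) (q : G)⁻¹
        rwa [conjIrr_inv_cancel] at h⟩
      one_smul := fun b' => Subtype.ext (by
        show cb N b'.1 ((1 : P) : G) = b'.1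
        rw [Subgroup.coe_one, cb_one])
      mul_smul := fun q q' b' => Subtype.ext (by
        show cb N b'.1 ((q * q' : P) : G) = cb N (cb N b'.1 (q' : G)) (q : G)
        rw [cb_cb, Subgroup.coe_mul]) }
  obtain ⟨c, hcfix, hcu⟩ : ∃ c : {b' : Set (IrrCharacter N) // IsPBlock M b' ∧ b' ⊆ O},
      (∀ q : P, q • c = c) ∧ ¬ MemLocalIdeal M (blockCoeff c.1 ⟨y, hyN⟩) := by
    by_contra hne
    push Not at hne
    refine hyE ?_
    rw [hE, ext0, dif_pos hyN, orbit_coeff_sum N hM hb]
    refine mli_sum_of_no_fixed hM (defectGroup_isPGroup hP) ?_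
      (fun b' => mlr_blockCoeff hM b'.2.1 _) hne
    intro q b'
    show blockCoeff (cb N b'.1 (q : G)) _ = _
    rw [blockCoeff_cb]
    congr 1
    apply Subtype.ext
    rw [conjN_coe]
    have h := Subgroup.mem_centralizer_iff.mp hyC _ q.2
    change (q : G)⁻¹ * y * (q : G)⁻¹⁻¹ = y
    rw [inv_inv, mul_assoc, ← h, inv_mul_cancel_left]
  obtain ⟨g, hg⟩ := exists_eq_cb N hM hb c.2.1 c.2.2
  refine ⟨c.1, c.2.1, fun x hx => congrArg Subtype.val (hcfix ⟨x, hx⟩),
    ⟨χ₀, hχ₀, conjIrr N θ₀ g⁻¹, ?_, ?_⟩, ?_⟩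
  · rw [hg, mem_cb, conjIrr_inv_cancel']
    exact hθ₀
  · rw [classInner_res_conjIrr N _ (IsCharacter.isClassFunction (isCharacter_irr χ₀))]
    exact h₀
  · obtain ⟨D, hD⟩ := exists_isDefectGroup hM c.2.1
    set R := (P ⊓ N).subgroupOf N with hR
    have hRp : IsPGroup p R := ((defectGroup_isPGroup hP).to_le inf_le_left).comap_of_injective
      N.subtype N.subtype_injective
    obtain ⟨n, hn⟩ := pGroup_le_defectGroup hM c.2.1 hD hcu hRp fun q hq =>
      Subgroup.mem_centralizer_singleton_iff.mpr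
        (Subtype.ext (Subgroup.mem_centralizer_iff.mp hyC _ hq.1))
    have e : R.map (MulAut.conj n).toMonoidHom = D := Subgroup.eq_of_le_of_card_ge hn (by
      rw [card_map_conj, card_defectGroup hM c.2.1 hD, hR,
        Nat.card_congr (Subgroup.subgroupOfEquivOfLe (inf_le_right : P ⊓ N ≤ N)).toEquiv, hcard,
        hg, blockDefect_cb])
    have hD' := isDefectGroup_map_conj hM hD n⁻¹
    rwa [← e, Subgroup.map_map, show ((MulAut.conj n⁻¹).toMonoidHom.comp
      (MulAut.conj n).toMonoidHom) = MonoidHom.id N from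
        MonoidHom.ext fun k => by simp [mul_assoc], Subgroup.map_id] at hD'

/-- Conversion to the prelude's notion of stabilising a block. -/
theorem stabilizesBlock_iff_cb (hM : IsPModular p M) {c : Set (IrrCharacter N)}
    (hc : IsPBlock M c) (x : G) : StabilizesBlock N c x ↔ cb N c x = c := by
  have hxN : x ∈ Subgroup.normalizer (N : Set G) := Subgroup.mem_normalizer_iff.mpr fun n =>
    ⟨fun h => hN.conj_mem n h x, fun h => by
      have := hN.conj_mem _ h x⁻¹
      simpa [mul_assoc] using this⟩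
  constructor
  · rintro ⟨-, h⟩
    obtain ⟨θ, hθ⟩ := IsPBlock.nonempty hM hc
    obtain ⟨θ', hθ', hconj⟩ := h θ hθ
    have e : conjIrr N θ' x = θ := Subtype.ext (funext fun k => by
      rw [conjIrr_apply']
      exact hconj k _ rfl)
    exact IsPBlock.eq_of_mem hM (isPBlock_cb N hM hc x) hc
      (show θ' ∈ cb N c x from mem_cb N |>.mpr (e.symm ▸ hθ)) hθ'
  · intro h
    refine ⟨hxN, fun θ hθ => ⟨conjIrr N θ x⁻¹, ?_, fun k k' hk => ?_⟩⟩
    · rw [← h, mem_cb, conjIrr_inv_cancel']
      exact hθ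
    · rw [conjIrr_apply']
      refine congrArg _ (Subtype.ext ?_)
      simp [hk, mul_assoc]

end CfsgLib.KnorrBound
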