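import Cfsg.Agent.Lib.Blocks.Cover
import Cfsg.Agent.Lib.Blocks.BrauerHom
import Cfsg.Agent.Lib.Blocks.CoeffIdeal
import Cfsg.Agent.Lib.Blocks.DefectClass
import Cfsg.Agent.Lib.Blocks.SecondVanish
import Cfsg.Agent.Lib.Blocks.SecondMain
import Cfsg.Agent.Lib.Blocks.BrauerPairs

/-!
A block covering a block with defect group `Q` does not vanish on the centralizer of `Q`
(the lower half of Knörr's theorem), by nilpotency of the graded pieces of its idempotent.
-/

set_option autoImplicit false

namespace CfsgLib.KnorrLower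

open scoped ComplexConjugate
open Cfsg CfsgLib.Chars CfsgLib.Blocks

universe u

variable {G : Type u} [Group G] [Fintype G]

/-- The identity for convolution. -/
noncomputable def delta (g : G) : ℂ := by classical exact if g = 1 then 1 else 0

theorem delta_one : (delta (1 : G)) = 1 := by rw [delta, if_pos rfl]

theorem delta_of_ne {g : G} (h : g ≠ 1) : delta g = 0 := by rw [delta, if_neg h]

theorem delta_conj (x g : G) : delta (x * g * x⁻¹) = delta g := by
  by_cases h : g = 1
  · subst h; simp
  · rw [delta_of_ne h, delta_of_ne fun e => h (by simpa using e)]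

theorem delta_conv (f : G → ℂ) : Chars.conv delta f = f := by
  funext g
  simp only [Chars.conv]
  rw [Fintype.sum_eq_single (1 : G) fun y hy => by rw [delta_of_ne hy, zero_mul], delta_one, one_mul,
    inv_one, one_mul]

theorem conv_conj_inv {f f' : G → ℂ} {x : G} (hf : ∀ g, f (x * g * x⁻¹) = f g)
    (hf' : ∀ g, f' (x * g * x⁻¹) = f' g) (g : G) :
    Chars.conv f f' (x * g * x⁻¹) = Chars.conv f f' g := by
  simp only [Chars.conv]
  refine (Fintype.sum_equiv (MulAut.conj x).toEquiv _ _ fun y => ?_).symm
  change f y * f' (y⁻¹ * g) = f (x * y * x⁻¹) * f' ((x * y * x⁻¹)⁻¹ * (x * g * x⁻¹))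
  rw [hf, show (x * y * x⁻¹)⁻¹ * (x * g * x⁻¹) = x * (y⁻¹ * g) * x⁻¹ by group, hf']

variable (N : Subgroup G) [hN : N.Normal]

/-- The part of a function on one coset. -/
noncomputable def piece (s : G → ℂ) (q : G ⧸ N) (g : G) : ℂ := by
  classical exact if (g : G ⧸ N) = q then s g else 0

/-- Products of coset parts. -/
noncomputable def pp (s : G → ℂ) : List (G ⧸ N) → G → ℂ
  | [] => delta
  | q :: l => Chars.conv (piece N s q) (pp s l)

theorem pp_append (s : G → ℂ) : ∀ a b : List (G ⧸ N),
    pp N s (a ++ b) = Chars.conv (pp N s a) (pp N s b)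
  | [], b => (delta_conv _).symm
  | q :: a, b => by
    rw [List.cons_append, pp, pp, pp_append s a b, conv_assoc]

theorem pp_supp (s : G → ℂ) : ∀ (w : List (G ⧸ N)) (g : G),
    (g : G ⧸ N) ≠ w.prod → pp N s w g = 0
  | [], g, h => delta_of_ne fun e => h (by rw [e]; rfl)
  | q :: l, g, h => by
    classical
    rw [pp]
    simp only [Chars.conv]
    refine Finset.sum_eq_zero fun y _ => ?_
    rw [piece]
    split_ifs with hy
    · rw [pp_supp s l _ fun e => h (by
        rw [List.prod_cons, ← hy, ← e, ← QuotientGroup.mk_mul, mul_inv_cancel_left]), mul_zero]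
    · rw [zero_mul]

theorem pp_conj {s : G → ℂ} (hs : IsClassFunction G s) :
    ∀ (w : List (G ⧸ N)) (n : G), n ∈ N → ∀ g, pp N s w (n * g * n⁻¹) = pp N s w g
  | [], n, _, g => delta_conj n g
  | q :: l, n, hn, g => by
    rw [pp]
    refine conv_conj_inv (fun y => ?_) (pp_conj hs l n hn) g
    classical
    have e : ((n * y * n⁻¹ : G) : G ⧸ N) = (y : G ⧸ N) := by
      rw [QuotientGroup.mk_mul, QuotientGroup.mk_mul, (QuotientGroup.eq_one_iff n).mpr hn,
        (QuotientGroup.eq_one_iff n⁻¹).mpr (inv_mem hn), one_mul, mul_one]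
    simp only [piece, e, hs y n]

variable {p : ℕ} {M : Ideal AlgInt}

theorem mlr_piece (hM : IsPModular p M) {s : G → ℂ} (hs : ∀ g, MemLocalRing M (s g)) (q : G ⧸ N)
    (g : G) : MemLocalRing M (piece N s q g) := by
  classical
  rw [piece]
  split_ifs
  · exact hs g
  · exact mlr_zero hM

theorem mlr_pp (hM : IsPModular p M) {s : G → ℂ} (hs : ∀ g, MemLocalRing M (s g)) :
    ∀ (w : List (G ⧸ N)) (g : G), MemLocalRing M (pp N s w g)
  | [], g => by
    classical
    rw [pp, delta]
    split_ifs
    · exact mlr_one hM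
    · exact mlr_zero hM
  | q :: l, g => mlr_conv hM (mlr_piece N hM hs q) (mlr_pp hM hs l) g

variable [Fintype N]

theorem ext0_conv (a b : N → ℂ) :
    ext0 N (Chars.conv a b) = Chars.conv (ext0 N a) (ext0 N b) := by
  classical
  funext g
  by_cases hg : g ∈ N
  · have h := conv_rest N (a := ext0 N a) (fun x hx => by rw [ext0, dif_neg hx]) (ext0 N b) ⟨g, hg⟩
    rw [ext0, dif_pos hg]
    refine Eq.trans ?_ h.symm
    congr 1 <;> exact funext fun n => (ext0_apply N _ n).symm
  · rw [ext0, dif_neg hg]
    simp only [Chars.conv]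
    refine (Finset.sum_eq_zero fun y _ => ?_).symm
    by_cases hy : y ∈ N
    · rw [ext0, ext0, dif_neg (show ¬ y⁻¹ * g ∈ N from fun h => hg (by simpa using mul_mem hy h)),
        mul_zero]
    · rw [ext0, dif_neg hy, zero_mul]

/-- Moving a function supported on `N` across a function supported on a coset. -/
theorem conv_ext0_move {h : G → ℂ} {x : G} (hh : ∀ g : G, (g : G ⧸ N) ≠ (x : G ⧸ N) → h g = 0)
    {f : N → ℂ} (hf : IsClassFunction N f) :
    Chars.conv h (ext0 N f) = Chars.conv (ext0 N (fun n : N => f (conjN N x⁻¹ n))) h := by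
  classical
  funext g
  simp only [Chars.conv]
  refine Fintype.sum_equiv ((Equiv.inv G).trans (Equiv.mulLeft g)) _ _ fun z => ?_
  simp only [Equiv.trans_apply, Equiv.inv_apply, Equiv.coe_mulLeft]
  rw [show (g * z⁻¹)⁻¹ * g = z by group, mul_comm]
  by_cases hz : (z : G ⧸ N) = (x : G ⧸ N)
  swap
  · rw [hh z hz, mul_zero, mul_zero]
  congr 1
  by_cases hm : z⁻¹ * g ∈ N
  · have hgx : x⁻¹ * g ∈ N := by
      rw [show x⁻¹ * g = x⁻¹ * z * (z⁻¹ * g) by group]
      exact mul_mem (QuotientGroup.eq.mp hz.symm) hm
    have hgz : g * z⁻¹ ∈ N := hN.mem_comm hm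
    rw [ext0, ext0, dif_pos hm, dif_pos hgz, ← hf ⟨z⁻¹ * g, hm⟩ ⟨x⁻¹ * g, hgx⟩]
    congr 1
    apply Subtype.ext
    rw [conjN_coe]
    simp only [Subgroup.coe_mul, InvMemClass.coe_inv]
    group
  · rw [ext0, ext0, dif_neg hm, dif_neg fun h' => hm (hN.mem_comm h')]

theorem omega_conjN (θ : IrrCharacter N) (x : G) (f : N → ℂ) :
    omega (θ : N → ℂ) (fun n : N => f (conjN N x n)) =
      omega (conjIrr N θ x⁻¹ : N → ℂ) f := by
  simp only [omega, conjIrr_apply, map_one]
  congr 1
  refine Fintype.sum_equiv (conjN N x).toEquiv _ _ fun n => ?_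
  simp only [MulEquiv.toEquiv_eq_coe, EquivLike.coe_coe]
  congr 2
  refine congrArg _ (Subtype.ext ?_)
  rw [conjN_coe, conjN_coe]
  group

/-- A local class function on `N` with all central values in the ideal. -/
def Good (M : Ideal AlgInt) (f : N → ℂ) : Prop :=
  IsClassFunction N f ∧ (∀ n, MemLocalRing M (f n)) ∧
    ∀ θ : IrrCharacter N, MemLocalIdeal M (omega (θ : N → ℂ) f)

/-- Products of `m` good functions. -/
def Jp (M : Ideal AlgInt) : ℕ → (N → ℂ) → Prop
  | 0, f => IsClassFunction N f ∧ ∀ n, MemLocalRing M (f n)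
  | m + 1, f => ∃ a b, Good N M a ∧ Jp M m b ∧ f = Chars.conv a b

theorem Jp.basic (hM : IsPModular p M) : ∀ {m : ℕ} {f : N → ℂ}, Jp N M m f →
    IsClassFunction N f ∧ ∀ n, MemLocalRing M (f n)
  | 0, _, h => h
  | _ + 1, _, ⟨_, _, ha, hb, e⟩ =>
    e ▸ ⟨IsClassFunction.conv ha.1 (Jp.basic hM hb).1, mlr_conv hM ha.2.1 (Jp.basic hM hb).2⟩

theorem Jp.vanish (hM : IsPModular p M) {f : N → ℂ}
    (hf : Jp N M (Fintype.card (IrrCharacter N)) f) (n : N) : MemLocalIdeal M (f n) := by
  classical
  have key : ∀ t : Finset (IrrCharacter N), ∀ f : N → ℂ, Jp N M t.card f →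
      ∃ w ∈ centerRing (G := N) hM, (∀ χ ∈ t, w χ = 0) ∧
        CoeffMli M ((fun θ : IrrCharacter N => omega (θ : N → ℂ) f) - w) := by
    intro t
    induction t using Finset.induction with
    | empty =>
      intro f hf
      exact ⟨_, omega_mem_centerRing hM hf.1 hf.2, by simp, by simpa using coeffMli_zero hM⟩
    | insert χ t hχ ih =>
      intro f hf
      rw [Finset.card_insert_of_notMem hχ] at hf
      obtain ⟨a, b, ha, hb, rfl⟩ := hf
      obtain ⟨w, hw, hw0, hwc⟩ := ih b hb
      set va : IrrCharacter N → ℂ := fun θ => omega (θ : N → ℂ) a with hva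
      have hvaR : va ∈ centerRing (G := N) hM := omega_mem_centerRing hM ha.1 ha.2.1
      have hcR : (fun _ : IrrCharacter N => va χ) ∈ centerRing (G := N) hM :=
        const_mem_centerRing hM (mli_ring (ha.2.2 χ))
      refine ⟨(va - fun _ => va χ) * w, mul_mem (sub_mem hvaR hcR) hw, fun ψ hψ => ?_, ?_⟩
      · rcases Finset.mem_insert.mp hψ with rfl | hψ
        · simp
        · simp [hw0 ψ hψ]
      · have e : (fun θ : IrrCharacter N => omega (θ : N → ℂ) (Chars.conv a b)) -
            (va - fun _ => va χ) * w =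
            va * ((fun θ : IrrCharacter N => omega (θ : N → ℂ) b) - w) -
              w * (-(fun _ => va χ)) := by
          funext θ
          simp only [Pi.sub_apply, Pi.mul_apply, Pi.neg_apply, hva,
            omega_conv θ ha.1 (Jp.basic N hM hb).1]
          ring
        rw [e]
        refine CoeffMli.sub hM (CoeffMli.mul_left hM hvaR hwc) (CoeffMli.mul_left hM hw ?_)
        rw [show (-(fun _ : IrrCharacter N => va χ)) = fun _ => -(va χ) from rfl]
        exact coeffMli_const hM (mli_neg (ha.2.2 χ))
  obtain ⟨w, -, hw0, hwc⟩ := key Finset.univ f hf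
  obtain rfl : w = 0 := funext fun χ => hw0 χ (Finset.mem_univ χ)
  rw [sub_zero] at hwc
  have := hwc n
  rwa [coeffFun_omega (Jp.basic N hM hf).1] at this

/-- A short prefix of a long word has a nonempty segment with trivial product. -/
theorem exists_segment {Q : Type*} [Group Q] [Fintype Q] (w : List Q)
    (hw : Fintype.card Q ≤ w.length) : ∃ a b c : List Q, w = a ++ (b ++ c) ∧ b ≠ [] ∧ b.prod = 1 ∧
      a.length + b.length ≤ Fintype.card Q := by
  obtain ⟨i, j, hij, he⟩ := Fintype.exists_ne_map_eq_of_card_lt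
    (fun i : Fin (Fintype.card Q + 1) => (w.take i).prod) (by simp)
  wlog hlt : (i : ℕ) < j generalizing i j with H
  · exact H j i hij.symm he.symm (by omega)
  have hj : (j : ℕ) ≤ w.length := by omega
  refine ⟨w.take i, (w.take j).drop i, w.drop j, ?_, ?_, ?_, ?_⟩
  · rw [← List.append_assoc]
    conv_lhs => rw [← List.take_append_drop j w]
    congr 1
    conv_lhs => rw [← List.take_append_drop i (w.take j), List.take_take]
    rw [min_eq_left hlt.le]
  · intro e
    have := congrArg List.length e
    simp at this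
    omega
  · have h : w.take j = w.take i ++ (w.take j).drop i := by
      conv_lhs => rw [← List.take_append_drop i (w.take j), List.take_take, min_eq_left hlt.le]
    have h' := congrArg List.prod h
    rw [List.prod_append, ← he] at h'
    exact mul_left_cancel (a := (w.take i).prod) (by rw [mul_one]; exact h'.symm)
  · simp
    omega

variable [Fact p.Prime]

theorem mli_omega_of_centralizer (hM : IsPModular p M) {H : Type u} [Group H] [Fintype H]
    {b : Set (IrrCharacter H)} (hb : IsPBlock M b) {D : Subgroup H}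
    (hD : IsDefectGroup p M b D) {θ : IrrCharacter H} (hθ : θ ∈ b) {f : H → ℂ}
    (hf : IsClassFunction H f) (hl : ∀ h, MemLocalRing M (f h))
    (h0 : ∀ h ∈ Subgroup.centralizer (D : Set H), MemLocalIdeal M (f h)) :
    MemLocalIdeal M (omega (θ : H → ℂ) f) := by
  haveI : Finite (ConjClasses H) := Finite.of_surjective _ ConjClasses.mk_surjective
  haveI : Fintype (ConjClasses H) := Fintype.ofFinite _
  rw [omega_eq_sum_centralChar (IsCharacter.isClassFunction (isCharacter_irr θ)) hf]
  refine mli_sum hM _ fun c _ => ?_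
  by_cases hω : MemLocalIdeal M (centralChar (θ : H → ℂ) c.out)
  · exact mli_mul_left hM (hl _) hω
  refine mli_mul_right hM ?_ (mlr_centralChar hM θ _)
  obtain ⟨x, hx⟩ := defectGroup_le_centralizer hM hb hD hθ hω
  rw [← hf c.out x⁻¹, inv_inv]
  refine h0 _ ?_
  rw [Subgroup.mem_centralizer_iff]
  intro d hd
  have h := Subgroup.mem_centralizer_singleton_iff.mp (hx ⟨d, hd, rfl⟩)
  change x * d * x⁻¹ * c.out = c.out * (x * d * x⁻¹) at h
  calc d * (x⁻¹ * c.out * x) = x⁻¹ * (x * d * x⁻¹ * c.out) * x := by group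
    _ = x⁻¹ * (c.out * (x * d * x⁻¹)) * x := by rw [h]
    _ = _ := by group

/-- The idempotent of an orbit of blocks absorbs the idempotent of a covering block. -/
theorem orbit_absorb (hM : IsPModular p M) {b : Set (IrrCharacter N)} (hb : IsPBlock M b)
    {B : Set (IrrCharacter G)} (hB : IsPBlock M B)
    (hcov : ∃ χ ∈ B, ∃ θ ∈ b, classInner (fun n : N => (χ : G → ℂ) n) (θ : N → ℂ) ≠ 0) :
    Chars.conv (ext0 N (blockCoeff (blockOrbit N b))) (blockCoeff B) = blockCoeff B := by
  classical
  set O := blockOrbit N b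
  set E : G → ℂ := ext0 N (blockCoeff O) with hE
  have hst := blockOrbit_stable N b
  have hEc : IsClassFunction G E := ext0_blockCoeff_isClassFunction N hst
  have hEl : ∀ g, MemLocalRing M (E g) := fun g => by
    rw [hE, ext0]
    split_ifs
    · exact mlr_blockCoeff_union hM (blockOrbit_union N hM hb) _
    · exact mlr_zero hM
  have hEN : ∀ g, g ∉ N → E g = 0 := fun g hg => by rw [hE, ext0, dif_neg hg]
  have hEr : (fun n : N => E (n : G)) = blockCoeff O := funext fun n => by
    rw [hE, ext0, dif_pos n.2]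
  set A : Set (IrrCharacter G) :=
    {χ | ∃ θ ∈ O, classInner (fun n : N => (χ : G → ℂ) n) (θ : N → ℂ) ≠ 0} with hA
  have hval : ∀ χ : IrrCharacter G, omega (χ : G → ℂ) E = indic A χ := by
    intro χ
    obtain ⟨θ, hθ⟩ := exists_res_constituent N χ
    rw [omega_res_constituent N hθ hEc hEN, hEr, omega_blockCoeff]
    by_cases hb' : θ ∈ O
    · rw [indic_of_mem hb', indic_of_mem (show χ ∈ A from ⟨θ, hb', hθ⟩)]
    · rw [indic_of_notMem hb', indic_of_notMem]
      rintro ⟨θ', hθ'b, hθ'⟩
      obtain ⟨g, rfl⟩ := clifford_conjugate N χ θ' θ hθ' hθ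
      exact hb' (hst _ hθ'b g)
  have hEA : E = blockCoeff A := by
    rw [← coeffFun_omega hEc, funext hval]
    exact (funext (blockCoeff_eq_coeffFun A)).symm
  obtain ⟨χ₀, hχ₀, θ₀, hθ₀, h₀⟩ := hcov
  have hBA : ∀ χ ∈ B, χ ∈ A := fun χ hχ =>
    mem_of_mlr_blockCoeff hM (fun g => hEA ▸ hEl g)
      (show χ₀ ∈ A from ⟨θ₀, ⟨1, by rwa [conjIrr_one]⟩, h₀⟩) (IsPBlock.sameBlock hM hB hχ₀ hχ)
  rw [hEA, show blockCoeff A = coeffFun (indic A) from funext (blockCoeff_eq_coeffFun A),
    show blockCoeff B = coeffFun (indic B) from funext (blockCoeff_eq_coeffFun B), ← coeffFun_mul]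
  congr 1
  funext χ
  rw [Pi.mul_apply]
  by_cases h : χ ∈ B
  · rw [indic_of_mem h, indic_of_mem (hBA χ h), one_mul]
  · rw [indic_of_notMem h, mul_zero]

/-- A block covering a block with defect group `Q` is not zero on the centralizer of `Q`. -/
theorem exists_unit (hM : IsPModular p M) {b : Set (IrrCharacter N)} (hb : IsPBlock M b)
    {Q : Subgroup G} (hQN : Q ≤ N) (hQ : IsDefectGroup p M b (Q.subgroupOf N))
    {B : Set (IrrCharacter G)} (hB : IsPBlock M B)
    (hcov : ∃ χ ∈ B, ∃ θ ∈ b, classInner (fun n : N => (χ : G → ℂ) n) (θ : N → ℂ) ≠ 0) :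
    ∃ x ∈ Subgroup.centralizer (Q : Set G), ¬ MemLocalIdeal M (blockCoeff B x) := by
  classical
  by_contra hno
  push Not at hno
  set s := blockCoeff B with hs
  have hsc : IsClassFunction G s := blockCoeff_isClassFunction B
  have hsl : ∀ g, MemLocalRing M (s g) := mlr_blockCoeff hM hB
  set O := blockOrbit N b
  have hEs := orbit_absorb N hM hb hB hcov
  have hEp : ∀ q, Chars.conv (ext0 N (blockCoeff O)) (piece N s q) = piece N s q := by
    intro q
    funext g
    simp only [Chars.conv]
    by_cases hg : (g : G ⧸ N) = q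
    · rw [piece, if_pos hg]
      refine Eq.trans (Finset.sum_congr rfl fun y _ => ?_) (congrFun hEs g)
      by_cases hy : y ∈ N
      · rw [piece, if_pos]
        rw [QuotientGroup.mk_mul, (QuotientGroup.eq_one_iff y⁻¹).mpr (inv_mem hy), one_mul, hg]
      · rw [ext0, dif_neg hy, zero_mul, zero_mul]
    · rw [piece, if_neg hg]
      refine Finset.sum_eq_zero fun y _ => ?_
      by_cases hy : y ∈ N
      · rw [piece, if_neg, mul_zero]
        rwa [QuotientGroup.mk_mul, (QuotientGroup.eq_one_iff y⁻¹).mpr (inv_mem hy), one_mul]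
      · rw [ext0, dif_neg hy, zero_mul]
  have hgood : ∀ w : List (G ⧸ N), w ≠ [] → w.prod = 1 → Good N M (fun n : N => pp N s w n) := by
    intro w hw hw1
    obtain ⟨q, l, rfl⟩ : ∃ q l, w = q :: l := by
      cases w with
      | nil => exact absurd rfl hw
      | cons q l => exact ⟨q, l, rfl⟩
    set r : N → ℂ := fun n => pp N s (q :: l) n with hr
    have hrc : IsClassFunction N r := fun n k => pp_conj N hsc (q :: l) k k.2 n
    refine ⟨hrc, fun n => mlr_pp N hM hsl _ _, fun θ => ?_⟩
    by_cases hθ : θ ∈ O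
    · obtain ⟨g, hg⟩ := hθ
      have e : omega (θ : N → ℂ) r =
          omega (conjIrr N θ g : N → ℂ) (fun n : N => r (conjN N g n)) := by
        rw [omega_conjN, conjIrr_inv_cancel]
      rw [e]
      refine mli_omega_of_centralizer hM hb hQ hg (fun n k => ?_)
        (fun n => mlr_pp N hM hsl _ _) fun n hn => ?_
      · simp only [map_mul, map_inv]
        exact hrc _ _
      · set R := Q.map (MulAut.conj g).toMonoidHom with hR
        have hQp : IsPGroup p Q :=
          (defectGroup_isPGroup hQ).of_equiv (Subgroup.subgroupOfEquivOfLe hQN)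
        have hRN : ∀ x ∈ R, x ∈ N := by
          rintro _ ⟨z, hz, rfl⟩
          exact hN.conj_mem z (hQN hz) g
        have hcR : ((conjN N g n : N) : G) ∈ Subgroup.centralizer (R : Set G) := by
          rw [Subgroup.mem_centralizer_iff]
          rintro _ ⟨z, hz, rfl⟩
          have h := congrArg Subtype.val
            (Subgroup.mem_centralizer_iff.mp hn ⟨z, hQN hz⟩ hz)
          change z * (n : G) = (n : G) * z at h
          rw [conjN_coe]
          change g * z * g⁻¹ * (g * (n : G) * g⁻¹) = g * (n : G) * g⁻¹ * (g * z * g⁻¹)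
          calc g * z * g⁻¹ * (g * (n : G) * g⁻¹) = g * (z * (n : G)) * g⁻¹ := by group
            _ = g * ((n : G) * z) * g⁻¹ := by rw [h]
            _ = _ := by group
        have hs0 : ∀ x ∈ Subgroup.centralizer (R : Set G), MemLocalIdeal M (s x) := by
          intro x hx
          rw [← hsc x g⁻¹, inv_inv]
          refine hno _ ?_
          rw [Subgroup.mem_centralizer_iff]
          intro z hz
          have h := Subgroup.mem_centralizer_iff.mp hx _ ⟨z, hz, rfl⟩
          change g * z * g⁻¹ * x = x * (g * z * g⁻¹) at h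
          calc z * (g⁻¹ * x * g) = g⁻¹ * (g * z * g⁻¹ * x) * g := by group
            _ = g⁻¹ * (x * (g * z * g⁻¹)) * g := by rw [h]
            _ = _ := by group
        have h := mli_conv_sub_trunc hM (hQp.map _ : IsPGroup p R) (f := piece N s q)
          (f' := pp N s l)
          (fun x hx y => by
            have e : ((x * y * x⁻¹ : G) : G ⧸ N) = (y : G ⧸ N) := by
              rw [QuotientGroup.mk_mul, QuotientGroup.mk_mul,
                (QuotientGroup.eq_one_iff x).mpr (hRN x hx),
                (QuotientGroup.eq_one_iff x⁻¹).mpr (inv_mem (hRN x hx)), one_mul, mul_one]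
            simp only [piece, e, hsc y x])
          (fun x hx y => pp_conj N hsc l x (hRN x hx) y)
          (mlr_piece N hM hsl q) (mlr_pp N hM hsl l) hcR
        have h2 := mli_sum hM (Finset.univ : Finset G) (f := fun y =>
          if y ∈ Subgroup.centralizer (R : Set G) then
            piece N s q y * pp N s l (y⁻¹ * ((conjN N g n : N) : G)) else 0) fun y _ => by
          split_ifs with hy
          · refine mli_mul_right hM ?_ (mlr_pp N hM hsl l _)
            rw [piece]
            split_ifs
            · exact hs0 y hy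
            · exact mli_zero hM
          · exact mli_zero hM
        have h3 := mli_add hM h h2
        rw [sub_add_cancel] at h3
        exact h3
    · have hr' : r = Chars.conv (blockCoeff O) r := by
        funext n
        have h0 : pp N s (q :: l) (n : G) =
            Chars.conv (ext0 N (blockCoeff O)) (pp N s (q :: l)) (n : G) := by
          rw [pp, ← conv_assoc, hEp]
        rw [conv_rest N (a := ext0 N (blockCoeff O)) (fun x hx => by rw [ext0, dif_neg hx])] at h0
        refine h0.trans ?_
        congr 1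
        exact funext fun k => ext0_apply N _ k
      rw [hr', omega_conv θ (blockCoeff_isClassFunction O) hrc, omega_blockCoeff,
        indic_of_notMem hθ, zero_mul]
      exact mli_zero hM
  haveI : Fintype (G ⧸ N) := Fintype.ofFinite _
  set r := Fintype.card (G ⧸ N) with hr
  have claim : ∀ m : ℕ, ∀ w : List (G ⧸ N), m * r ≤ w.length →
      ∃ (f : N → ℂ) (h : G → ℂ), Jp N M m f ∧ (∀ g, MemLocalRing M (h g)) ∧
        pp N s w = Chars.conv (ext0 N f) h := by
    intro m
    induction m with
    | zero =>
      intro w _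
      refine ⟨delta, pp N s w, ⟨fun n k => delta_conj k n, fun n => ?_⟩, mlr_pp N hM hsl w, ?_⟩
      · rw [delta]
        split_ifs
        · exact mlr_one hM
        · exact mlr_zero hM
      · rw [show ext0 N (delta : N → ℂ) = delta from ?_, delta_conv]
        funext g
        by_cases hg : g = 1
        · subst hg; rw [ext0, dif_pos N.one_mem, delta_one]; exact delta_one
        · rw [delta_of_ne hg, ext0]
          split_ifs with hgN
          · exact delta_of_ne fun e => hg (congrArg Subtype.val e)
          · rfl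
    | succ m ih =>
      intro w hw
      obtain ⟨a, b', c, rfl, hb', hb1, hlen⟩ := exists_segment w (by
        rw [Nat.succ_mul] at hw; omega)
      obtain ⟨f, h, hf, hh, e⟩ := ih (a ++ c) (by
        simp only [List.length_append] at hw ⊢; rw [Nat.succ_mul] at hw; omega)
      set x : G := a.prod.out with hxdef
      have hx : (x : G ⧸ N) = a.prod := QuotientGroup.out_eq' _
      set rb : N → ℂ := fun n => pp N s b' n with hrb
      obtain ⟨hc1, hc2, hc3⟩ := hgood b' hb' hb1
      have hb2 : pp N s b' = ext0 N rb := by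
        funext g
        by_cases hg : g ∈ N
        · rw [ext0, dif_pos hg]
        · rw [ext0, dif_neg hg]
          exact pp_supp N s b' g fun e' => hg ((QuotientGroup.eq_one_iff g).mp (e'.trans hb1))
      set rb' : N → ℂ := fun n => rb (conjN N x⁻¹ n) with hrb'
      refine ⟨Chars.conv rb' f, h, ⟨rb', f, ⟨fun n k => ?_, fun n => hc2 _, fun θ => ?_⟩, hf, rfl⟩,
        hh, ?_⟩
      · simp only [hrb', map_mul, map_inv]
        exact hc1 _ _
      · rw [hrb', omega_conjN]
        exact hc3 _
      · rw [pp_append, pp_append, hb2, ← conv_assoc,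
          conv_ext0_move N (x := x) (fun (g : G) hg => pp_supp N s a g (hx ▸ hg)) hc1, conv_assoc,
          ← pp_append, e, ← conv_assoc, ← ext0_conv]
  set L := Fintype.card (IrrCharacter N) * r with hL
  have hlong : ∀ w : List (G ⧸ N), L ≤ w.length → ∀ g,
      MemLocalIdeal M (Chars.conv (pp N s w) s g) := by
    intro w hw g
    obtain ⟨f, h, hf, hh, e⟩ := claim _ w hw
    rw [e, conv_assoc]
    refine mli_sum hM _ fun y _ => mli_mul_right hM ?_ (mlr_conv hM hh hsl _)
    rw [ext0]
    split_ifs
    · exact Jp.vanish N hM hf _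
    · exact mli_zero hM
  have hdown : ∀ k : ℕ, k ≤ L → ∀ w : List (G ⧸ N), L - k ≤ w.length → ∀ g,
      MemLocalIdeal M (Chars.conv (pp N s w) s g) := by
    intro k
    induction k with
    | zero => exact fun _ w hw => hlong w (by omega)
    | succ k ih =>
      intro hk w hw g
      have hdec : Chars.conv (pp N s w) s g =
          ∑ q : G ⧸ N, Chars.conv (pp N s (w ++ [q])) s g := by
        have h1 : ∀ q : G ⧸ N, pp N s (w ++ [q]) = Chars.conv (pp N s w) (piece N s q) := by
          intro q
          rw [pp_append]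
          congr 1
          show Chars.conv (piece N s q) delta = _
          funext y
          simp only [Chars.conv]
          rw [Fintype.sum_eq_single y fun z hz => by
            rw [delta_of_ne fun e => hz (inv_mul_eq_one.mp e), mul_zero],
            inv_mul_cancel, delta_one, mul_one]
        simp only [h1, conv_assoc]
        have hss : Chars.conv s s = s := conv_blockCoeff_self B
        rw [show Chars.conv (pp N s w) s g = Chars.conv (pp N s w) (Chars.conv s s) g by rw [hss]]
        simp only [Chars.conv]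
        rw [Finset.sum_comm]
        refine Finset.sum_congr rfl fun y _ => ?_
        rw [← Finset.mul_sum]
        congr 1
        rw [Finset.sum_comm]
        refine Finset.sum_congr rfl fun z _ => ?_
        rw [← Finset.sum_mul]
        congr 1
        rw [Fintype.sum_eq_single (z : G ⧸ N) fun q hq => by rw [piece, if_neg (Ne.symm hq)],
          piece, if_pos rfl]
      rw [hdec]
      exact mli_sum hM _ fun q _ => ih (by omega) (w ++ [q]) (by simp; omega) g
  obtain ⟨c, hc⟩ := exists_isDefectClass hM hB
  refine hc.2.1 ?_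
  have := hdown L le_rfl [] (by simp) c
  rwa [pp, delta_conv] at this

/-- Knörr's lower bound: some defect group of a covering block contains the given defect group. -/
theorem exists_defectGroup_ge (hM : IsPModular p M) {b : Set (IrrCharacter N)} (hb : IsPBlock M b)
    {Q : Subgroup G} (hQN : Q ≤ N) (hQ : IsDefectGroup p M b (Q.subgroupOf N))
    {B : Set (IrrCharacter G)} (hB : IsPBlock M B)
    (hcov : ∃ χ ∈ B, ∃ θ ∈ b, classInner (fun n : N => (χ : G → ℂ) n) (θ : N → ℂ) ≠ 0) :
    ∃ D : Subgroup G, IsDefectGroup p M B D ∧ Q ≤ D := by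
  obtain ⟨x, hx, hu⟩ := exists_unit N hM hb hQN hQ hB hcov
  obtain ⟨D, hD⟩ := exists_isDefectGroup hM hB
  have hQp : IsPGroup p Q :=
    (defectGroup_isPGroup hQ).of_equiv (Subgroup.subgroupOfEquivOfLe hQN)
  obtain ⟨y, hy⟩ := pGroup_le_defectGroup hM hB hD hu hQp fun q hq =>
    Subgroup.mem_centralizer_singleton_iff.mpr (Subgroup.mem_centralizer_iff.mp hx q hq)
  refine ⟨_, isDefectGroup_map_conj hM hD y⁻¹, fun q hq => ⟨_, hy ⟨q, hq, rfl⟩, ?_⟩⟩
  simp [mul_assoc]

end CfsgLib.KnorrLower
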