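import Cfsg.Agent.Lib.Blocks.BrauerFeit
import Cfsg.Agent.Lib.Blocks.HeightZero

/-!
Blocks are the classes of the relation generated by nonzero regular inner products, and so do
not depend on the maximal ideal.
-/

namespace CfsgLib.Blocks

open Cfsg CfsgLib.Chars

universe u

variable {G : Type u} [Group G] [Fintype G] {p : ℕ} {M M' : Ideal AlgInt}

/-- Two characters in the same block are linked to a common character. -/
theorem exists_common_linked (hM : IsPModular p M) {χ ψ : IrrCharacter G}
    (h : SameBlock M (χ : G → ℂ) (ψ : G → ℂ)) :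
    ∃ θ : IrrCharacter G, regMat hM.1 χ θ ≠ 0 ∧ regMat hM.1 ψ θ ≠ 0 := by
  have hB : IsPBlock M (blockOf M (χ : G → ℂ)) := isPBlock_blockOf χ
  obtain ⟨θ, hθ, h0⟩ := exists_height_zero hM hB
  exact ⟨θ, fun e => regMat_not_dvd hM hB hθ h0 (self_mem_blockOf hM χ) (e ▸ dvd_zero _),
    fun e => regMat_not_dvd hM hB hθ h0 (mem_blockOf.mpr h) (e ▸ dvd_zero _)⟩

/-- Linked characters lie in the same block. -/
theorem sameBlock_of_regMat_ne (hM : IsPModular p M) {χ ψ : IrrCharacter G}
    (h : regMat hM.1 χ ψ ≠ 0) : SameBlock M (χ : G → ℂ) (ψ : G → ℂ) := by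
  by_contra hn
  exact h (regMat_eq_zero hM hn)

/-- Blocks do not depend on the maximal ideal. -/
theorem sameBlock_indep (hM : IsPModular p M) (hM' : IsPModular p M') {χ ψ : IrrCharacter G}
    (h : SameBlock M (χ : G → ℂ) (ψ : G → ℂ)) : SameBlock M' (χ : G → ℂ) (ψ : G → ℂ) := by
  obtain ⟨θ, h1, h2⟩ := exists_common_linked hM h
  exact sameBlock_trans hM' (sameBlock_of_regMat_ne hM' h1)
    (sameBlock_symm (sameBlock_of_regMat_ne hM' h2))

theorem principalBlock_indep (hM : IsPModular p M) (hM' : IsPModular p M') :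
    principalBlock M G = principalBlock M' G :=
  Set.ext fun χ => ⟨fun h => sameBlock_indep hM hM' (χ := trivIrr G) h,
    fun h => sameBlock_indep hM' hM (χ := trivIrr G) h⟩

end CfsgLib.Blocks
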