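import Cfsg.Agent.Lib.Blocks.StabIndex
import Cfsg.Agent.Lib.Blocks.SubgroupChain

/-!
Fusion of pairs in a nilpotent block is controlled by the defect group.
-/

namespace CfsgLib.Blocks

set_option linter.style.haveILetI false

open scoped ComplexConjugate
open Cfsg CfsgLib.Chars

universe u

variable {G : Type u} [Group G] [Fintype G] {p : ℕ} {M : Ideal AlgInt}

/-- Conjugation by `x` on `Q` agrees with that by an element of `P`. -/
def InnerOn (P Q : Subgroup G) (x : G) : Prop :=
  ∃ u ∈ P, u⁻¹ * x ∈ Subgroup.centralizer (Q : Set G)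

omit [Fintype G] in
theorem innerOn_right_cancel {P Q : Subgroup G} {g x : G} (h : InnerOn P Q x)
    (h' : InnerOn P (Q.map (MulAut.conj g).toMonoidHom) (x * g⁻¹)) : InnerOn P Q g := by
  obtain ⟨u, hu, hc⟩ := h
  obtain ⟨w, hw, hd⟩ := h'
  refine ⟨w⁻¹ * u, mul_mem (inv_mem hw) hu, Subgroup.mem_centralizer_iff.mpr fun q hq => ?_⟩
  have h1 := Subgroup.mem_centralizer_iff.mp hc q hq
  have h2 : g * q * g⁻¹ * (w⁻¹ * (x * g⁻¹)) = w⁻¹ * (x * g⁻¹) * (g * q * g⁻¹) :=
    Subgroup.mem_centralizer_iff.mp hd _ ⟨q, hq, rfl⟩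
  have e2 : g * q * g⁻¹ = w⁻¹ * x * q * x⁻¹ * w := by
    calc g * q * g⁻¹ = g * q * g⁻¹ * (w⁻¹ * (x * g⁻¹)) * (w⁻¹ * (x * g⁻¹))⁻¹ := by group
      _ = w⁻¹ * (x * g⁻¹) * (g * q * g⁻¹) * (w⁻¹ * (x * g⁻¹))⁻¹ := by rw [h2]
      _ = _ := by group
  have e1 : x * q * x⁻¹ = u * q * u⁻¹ := by
    calc x * q * x⁻¹ = u * (u⁻¹ * x * q) * x⁻¹ := by group
      _ = u * (q * (u⁻¹ * x)) * x⁻¹ := by rw [h1]
      _ = _ := by group
  calc q * ((w⁻¹ * u)⁻¹ * g) = (w⁻¹ * u)⁻¹ * (w⁻¹ * (u * q * u⁻¹) * w) * g := by group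
    _ = (w⁻¹ * u)⁻¹ * (g * q * g⁻¹) * g := by rw [← e1, e2]; simp only [mul_assoc]
    _ = _ := by group

theorem pair_eq_of_le_same (hM : IsPModular p M) {P : Subgroup G}
    {e : Set (IrrCharacter (Subgroup.centralizer (P : Set G)))} (hPe : IsBrauerPair p M P e)
    {a : BrauerPairIdx G}
    (h : Relation.ReflTransGen (NormalSubpairRel p M) a (⟨P, e⟩ : BrauerPairIdx G))
    (h1 : a.1 = P) : a = ⟨P, e⟩ := by
  obtain ⟨R, g⟩ := a
  subst h1
  rw [subpair_below_unique hM hPe R g e h Relation.ReflTransGen.refl]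

/-- The stabilizer of a pair of a nilpotent block is a `p`-group modulo the centralizer. -/
theorem nilpotent_pairStab_mem (hM : IsPModular p M) {B : Set (IrrCharacter G)}
    (hnil : IsNilpotentBlock p M B) {R : Subgroup G}
    {f : Set (IrrCharacter (Subgroup.centralizer (R : Set G)))} (hR : IsBrauerPairOf p M B R f)
    {t : G} (ht : t ∈ Subgroup.normalizer (R : Set G))
    (hst : StabilizesBlock (Subgroup.centralizer (R : Set G)) f t) :
    ∃ j : ℕ, t ^ p ^ j ∈ Subgroup.centralizer (R : Set G) := by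
  obtain ⟨u, v, huv, hcomm, ⟨j, hu⟩, hv⟩ :=
    exists_pPart hM.1 (⟨t, ⟨ht, hst⟩⟩ : pairStab hM hR.1.2)
  refine ⟨j, ?_⟩
  have hvC : ((v : pairStab hM hR.1.2) : G) ∈ Subgroup.centralizer (R : Set G) :=
    hnil.2 R f hR _ v.2.1 v.2.2 (by
      show ¬ p ∣ orderOf (v : G)
      rwa [Subgroup.orderOf_coe])
  have e : (⟨t, ⟨ht, hst⟩⟩ : pairStab hM hR.1.2) ^ p ^ j = v ^ p ^ j := by
    rw [← huv, hcomm.mul_pow, ← hu, pow_orderOf_eq_one, one_mul]
  have e' := congrArg Subtype.val e
  simp only [SubmonoidClass.coe_pow] at e'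
  rw [e']
  exact pow_mem hvC _

/-- Fusion of pairs in a nilpotent block. -/
theorem nilpotent_inner (hM : IsPModular p M) {B : Set (IrrCharacter G)} {P : Subgroup G}
    {e : Set (IrrCharacter (Subgroup.centralizer (P : Set G)))}
    (hmax : IsMaximalBrauerPair p M B P e) (hnil : IsNilpotentBlock p M B) :
    ∀ Q : Subgroup G, ∀ f g, SubpairLE p M Q f P e →
      Relation.ReflTransGen (NormalSubpairRel p M) (pairConj g ⟨Q, f⟩)
        (⟨P, e⟩ : BrauerPairIdx G) →
      InnerOn P Q g := by
  classical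
  haveI : Fact p.Prime := ⟨hM.1⟩
  suffices H : ∀ n, ∀ Q : Subgroup G, Nat.card P - Nat.card Q = n → ∀ f g, SubpairLE p M Q f P e →
      Relation.ReflTransGen (NormalSubpairRel p M) (pairConj g ⟨Q, f⟩)
        (⟨P, e⟩ : BrauerPairIdx G) → InnerOn P Q g from fun Q => H _ Q rfl
  intro n
  induction n using Nat.strong_induction_on with
  | h n ih =>
    intro Q hn f g hle hg
    have hPe := hmax.1.1
    have hQP : Q ≤ P := SubpairLE.le hle
    rcases eq_or_lt_of_le hQP with hQ | hlt
    · subst hQ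
      obtain rfl := subpair_below_unique hM hPe Q f e hle Relation.ReflTransGen.refl
      have h1 : (pairConj g (⟨Q, f⟩ : BrauerPairIdx G)).1 = Q := by
        refine Subgroup.eq_of_le_of_card_ge (SubpairLE.le hg) (le_of_eq ?_)
        exact (Nat.card_congr ((Q.equivMapOfInjective _ (MulAut.conj g).injective).toEquiv))
      have hg' := (mem_pairStab_iff hM hPe.2).mpr (pair_eq_of_le_same hM hPe hg h1)
      obtain ⟨u, v, huv, -, ⟨j, hu⟩, hv⟩ := exists_pPart hM.1 (⟨g, hg'⟩ : pairStab hM hPe.2)
      have hvC : ((v : pairStab hM hPe.2) : G) ∈ Subgroup.centralizer (Q : Set G) :=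
        hnil.2 Q f hmax.1 _ v.2.1 v.2.2 (by
          show ¬ p ∣ orderOf (v : G)
          rwa [Subgroup.orderOf_coe])
      have huP := maximal_pElement_mem hM hmax u.2.1 u.2.2 ⟨j, by rw [Subgroup.orderOf_coe]; exact hu⟩
      rw [← SetLike.mem_coe, Subgroup.coe_mul_of_left_le_normalizer_right _ _
        (fun y hy => mem_normalizer_centralizer (Subgroup.le_normalizer hy))] at huP
      obtain ⟨a, ha, c, hc, hac⟩ := huP
      refine ⟨a, ha, ?_⟩
      have : g = a * c * (v : G) := by
        rw [show a * c = (u : G) from hac]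
        exact (congrArg Subtype.val huv).symm
      rw [this, show a⁻¹ * (a * c * (v : G)) = c * (v : G) by group]
      exact mul_mem hc hvC
    · -- a fully normalized conjugate
      obtain ⟨hQp, hf⟩ := SubpairLE.left_block hle hPe
      have hQf := (brauerPairOf_iff_le hM hle hmax.1.2.1).mp hmax.1
      set T := pairStab hM hf with hTdef
      haveI : Fintype T := Fintype.ofFinite _
      obtain ⟨F, hF, hcoef⟩ := exists_stab_block hM hQp hf (le_pairStab hM hf)
        (centralizer_le_pairStab hM hf) (fun y hy => hy.1) (fun y hy => hy.2)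
      obtain ⟨x, hQx, hfn⟩ := exists_fullyNormalized hM hmax hQf (T := T) (fun y => Iff.rfl) hF hcoef
      have hf' := (SubpairLE.left_block hQx hPe).2
      have hQf' := (brauerPairOf_iff_le hM hQx hmax.1.2.1).mp hmax.1
      obtain ⟨F', hF', hcoef', hFD⟩ := hfn (pairStab hM hf') (fun y => Iff.rfl)
      haveI : Fintype (pairStab hM hf') := Fintype.ofFinite _
      -- the stabilizer of the conjugate is `D C(R)`
      have hidx := stab_index_not_dvd hM hf' (centralizer_le_pairStab hM hf') (fun y hy => hy.1)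
        (fun y hy => hy.2) hF' hcoef' hFD
      have hsplit : ∀ t ∈ pairStab hM hf',
          ∃ d ∈ P ⊓ Subgroup.normalizer ((Q.map (MulAut.conj x).toMonoidHom : Subgroup G) : Set G),
            d⁻¹ * t ∈ Subgroup.centralizer ((Q.map (MulAut.conj x).toMonoidHom : Subgroup G) : Set G) := by
        intro t ht
        set K' := (Subgroup.centralizer ((Q.map (MulAut.conj x).toMonoidHom : Subgroup G) : Set G)).subgroupOf
          (pairStab hM hf') with hK'
        haveI : K'.Normal := (Subgroup.normal_subgroupOf_iff_le_normalizer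
          (centralizer_le_pairStab hM hf')).mpr fun y hy => mem_normalizer_centralizer hy.1
        have hq : IsPGroup p (pairStab hM hf' ⧸ K') := by
          rintro ⟨y⟩
          obtain ⟨j, hj⟩ := nilpotent_pairStab_mem hM hnil hQf' y.2.1 y.2.2
          refine ⟨j, ?_⟩
          show ((y : pairStab hM hf' ⧸ K')) ^ p ^ j = 1
          rw [← QuotientGroup.mk_pow, QuotientGroup.eq_one_iff, Subgroup.mem_subgroupOf]
          rw [SubmonoidClass.coe_pow]
          exact hj
        obtain ⟨n, hn⟩ := IsPGroup.iff_card.mp hq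
        have htop : (P ⊓ Subgroup.normalizer ((Q.map (MulAut.conj x).toMonoidHom : Subgroup G) : Set G)).subgroupOf
            (pairStab hM hf') ⊔ K' = ⊤ := by
          refine Subgroup.index_eq_one.mp ?_
          have hd : _ ∣ p ^ n := (Subgroup.index_dvd_of_le (le_sup_right : K' ≤
            (P ⊓ Subgroup.normalizer ((Q.map (MulAut.conj x).toMonoidHom : Subgroup G) : Set G)).subgroupOf
              (pairStab hM hf') ⊔ K')).trans (dvd_of_eq hn)
          obtain ⟨i, -, hi⟩ := (Nat.dvd_prime_pow (Fact.out : p.Prime)).mp hd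
          rcases Nat.eq_zero_or_pos i with rfl | hi0
          · simpa using hi
          · exact absurd (hi ▸ dvd_pow_self p hi0.ne') hidx
        obtain ⟨d, hd, c, hc, hdc⟩ := Subgroup.mem_sup_of_normal_right.mp
          (htop ▸ Subgroup.mem_top (⟨t, ht⟩ : pairStab hM hf'))
        refine ⟨(d : G), hd, ?_⟩
        have e : (d : G) * (c : G) = t := congrArg Subtype.val hdc
        rw [← e, inv_mul_cancel_left]
        exact hc
      -- conjugation into the fully normalized pair is inner
      have key : ∀ (A : Subgroup G) a y, A < P → Nat.card A = Nat.card Q →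
          SubpairLE p M A a P e →
          pairConj y (⟨A, a⟩ : BrauerPairIdx G) = pairConj x (⟨Q, f⟩ : BrauerPairIdx G) →
          (∀ N : Subgroup G, A < N → ∀ h g, SubpairLE p M N h P e →
            Relation.ReflTransGen (NormalSubpairRel p M) (pairConj g ⟨N, h⟩)
              (⟨P, e⟩ : BrauerPairIdx G) → InnerOn P N g) →
          InnerOn P A y := by
        intro A a y hA _ hleA hy IH
        have hgt := lt_inf_normalizer hPe.1 hA
        obtain ⟨gN, hgN⟩ := exists_subpair_below hM hPe (P ⊓ Subgroup.normalizer (A : Set G)) inf_le_left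
        have hN := normalSubpair_of_le hM hPe hleA hgN hgt.le inf_le_right
        have hN1 : NormalSubpairRel p M (pairConj y ⟨A, a⟩)
            (pairConj y ⟨_, gN⟩) := isNormalSubpair_conj hM hN y
        rw [hy] at hN1
        have hN' : IsNormalSubpair p M (Q.map (MulAut.conj x).toMonoidHom) (conjBlock Q x f)
          ((P ⊓ Subgroup.normalizer (A : Set G)).map (MulAut.conj y).toMonoidHom)
          (conjBlock _ y gN) := hN1
        have hH : ∀ z ∈ (P ⊓ Subgroup.normalizer (A : Set G)).map (MulAut.conj y).toMonoidHom,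
            z ∈ pairStab hM hf' := fun z hz => ⟨hN'.2.2.2.1 hz, hN'.2.2.2.2.1 z hz⟩
        have hRD : Q.map (MulAut.conj x).toMonoidHom ≤
            P ⊓ Subgroup.normalizer ((Q.map (MulAut.conj x).toMonoidHom : Subgroup G) : Set G) :=
          le_inf (SubpairLE.le hQx) Subgroup.le_normalizer
        obtain ⟨gD, hgD⟩ := exists_subpair_below hM hPe _ (inf_le_left :
          P ⊓ Subgroup.normalizer ((Q.map (MulAut.conj x).toMonoidHom : Subgroup G) : Set G) ≤ P)
        have hDN := normalSubpair_of_le hM hPe hQx hgD hRD inf_le_right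
        obtain ⟨t, ht, hle'⟩ := exists_conj_le_in_stab hM hPe hQx (centralizer_le_pairStab hM hf')
          (fun z hz => hz.1) (fun z hz => hz.2) inf_le_left hRD
          (fun z hz => ⟨inf_le_right (a := P) hz, hDN.2.2.2.2.1 z hz⟩) hF' hcoef' hFD hN' hH
        have h3 : Relation.ReflTransGen (NormalSubpairRel p M)
            (pairConj (t * y) ⟨_, gN⟩) (⟨P, e⟩ : BrauerPairIdx G) := by
          rw [pairConj_mul]; exact hle'
        obtain ⟨u, hu, ha⟩ := IH _ hgt gN (t * y) hgN h3
        have haA : u⁻¹ * (t * y) ∈ Subgroup.centralizer (A : Set G) :=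
          Subgroup.centralizer_le hgt.le ha
        obtain ⟨d, hd, hc⟩ := hsplit t⁻¹ (inv_mem ht)
        refine ⟨d * u, mul_mem hd.1 hu, Subgroup.mem_centralizer_iff.mpr fun q hq => ?_⟩
        have h4 := Subgroup.mem_centralizer_iff.mp haA q hq
        have hR : y * q * y⁻¹ ∈ Q.map (MulAut.conj x).toMonoidHom :=
          (congrArg Sigma.fst hy).le ⟨q, hq, rfl⟩
        have hR' : u * q * u⁻¹ ∈ Q.map (MulAut.conj x).toMonoidHom := by
          have : u * q * u⁻¹ = t * (y * q * y⁻¹) * t⁻¹ := by
            calc u * q * u⁻¹ = u * (q * (u⁻¹ * (t * y))) * (t * y)⁻¹ := by group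
              _ = u * (u⁻¹ * (t * y) * q) * (t * y)⁻¹ := by rw [h4]
              _ = _ := by group
          rw [this]
          exact (Subgroup.mem_normalizer_iff.mp ht.1 _).mp hR
        have h5 := Subgroup.mem_centralizer_iff.mp hc _ hR'
        calc q * ((d * u)⁻¹ * y) = u⁻¹ * ((u * q * u⁻¹) * (d⁻¹ * t⁻¹)) * (t * y) := by group
          _ = u⁻¹ * ((d⁻¹ * t⁻¹) * (u * q * u⁻¹)) * (t * y) := by rw [h5]
          _ = u⁻¹ * d⁻¹ * t⁻¹ * u * (q * (u⁻¹ * (t * y))) := by group
          _ = u⁻¹ * d⁻¹ * t⁻¹ * u * (u⁻¹ * (t * y) * q) := by rw [h4]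
          _ = _ := by group
      have hIH : ∀ A : Subgroup G, Nat.card A = Nat.card Q → ∀ N, A < N → ∀ h g,
          SubpairLE p M N h P e → Relation.ReflTransGen (NormalSubpairRel p M) (pairConj g ⟨N, h⟩)
            (⟨P, e⟩ : BrauerPairIdx G) → InnerOn P N g := fun A hA N hN h g hh => by
        refine ih _ ?_ N rfl h g hh
        have h1 : Nat.card A < Nat.card N := Set.Finite.card_lt_card (Set.toFinite _) hN
        have h2 := Subgroup.card_le_of_le (SubpairLE.le hh)
        omega
      have h1 : InnerOn P Q x := key Q f x hlt rfl hle rfl (hIH Q rfl)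
      have hcard : Nat.card (Q.map (MulAut.conj g).toMonoidHom) = Nat.card Q :=
        (Nat.card_congr ((Q.equivMapOfInjective _ (MulAut.conj g).injective).toEquiv)).symm
      have hlt' : Q.map (MulAut.conj g).toMonoidHom < P := by
        refine lt_of_le_of_ne (SubpairLE.le hg) fun he => absurd hlt ?_
        intro h
        exact h.ne (Subgroup.eq_of_le_of_card_ge h.le (le_of_eq (by rw [← hcard, he])))
      have h2 : InnerOn P (Q.map (MulAut.conj g).toMonoidHom) (x * g⁻¹) := by
        refine key _ (conjBlock Q g f) _ hlt' hcard hg ?_ (hIH _ hcard)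
        show pairConj (x * g⁻¹) (pairConj g (⟨Q, f⟩ : BrauerPairIdx G)) = _
        rw [← pairConj_mul, inv_mul_cancel_right]
      exact innerOn_right_cancel h1 h2

end CfsgLib.Blocks
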