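import Cfsg.Agent.Lib.Blocks.NilpotentFusion
import Cfsg.Prelude.Def_BlockFusion

/-!
Blocks in the pairs of a nilpotent block, and the fusion criterion for nilpotency.
-/

namespace CfsgLib.Blocks

set_option linter.style.haveILetI false

open scoped ComplexConjugate
open Cfsg CfsgLib.Chars

universe u

variable {G : Type u} [Group G] [Fintype G] {p : ℕ} {M : Ideal AlgInt}

theorem nilpotent_iff_inner (hM : IsPModular p M) {B : Set (IrrCharacter G)} {P : Subgroup G}
    {e : Set (IrrCharacter (Subgroup.centralizer (P : Set G)))}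
    {F : FusionSystem P} (hF : IsBlockFusionSystemOn p M B P e F) :
    IsNilpotentBlock p M B ↔ ∀ Q : Subgroup G, F.Hom Q = (innerFusionSystem P).Hom Q := by
  classical
  haveI : Fact p.Prime := ⟨hM.1⟩
  have hmax := hF.1
  constructor
  · intro hnil Q
    ext φ
    constructor
    · intro hφ
      obtain ⟨hQP, g, hg, -, f, hle, hle'⟩ := (hF.2 Q φ).mp hφ
      obtain ⟨u, hu, hc⟩ := nilpotent_inner hM hmax hnil Q f g hle hle'
      refine ⟨hQP, u, hu, fun x => ?_⟩
      rw [hg x]
      calc g * (x : G) * g⁻¹ = u * (u⁻¹ * g * (x : G)) * g⁻¹ := by group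
        _ = u * ((x : G) * (u⁻¹ * g)) * g⁻¹ := by rw [Subgroup.mem_centralizer_iff.mp hc _ x.2]
        _ = _ := by group
    · rintro ⟨hQP, u, hu, h⟩
      rw [show φ = conjHom Q u from MonoidHom.ext h]
      exact F.conj_mem hQP hu
  · intro hinner
    refine ⟨hmax.1.2.1, fun Q f hQf x hxN hxf hxr => ?_⟩
    obtain ⟨y, hy⟩ := exists_conj_le_maximal hM hmax hQf
    have hf' := (SubpairLE.left_block hy hmax.1.1).2
    have hx' : y * x * y⁻¹ ∈ pairStab hM hf' :=
      (mem_pairStab_conj_iff hM hQf.1.2 y x hf').mpr ⟨hxN, hxf⟩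
    have he : pairConj (y * x * y⁻¹) (⟨_, conjBlock Q y f⟩ : BrauerPairIdx G) =
        ⟨_, conjBlock Q y f⟩ := (mem_pairStab_iff hM hf').mp hx'
    have hle2 : Relation.ReflTransGen (NormalSubpairRel p M)
        (pairConj (y * x * y⁻¹) (⟨_, conjBlock Q y f⟩ : BrauerPairIdx G))
        (⟨P, e⟩ : BrauerPairIdx G) := by rw [he]; exact hy
    have hmem : conjHom (Q.map (MulAut.conj y).toMonoidHom) (y * x * y⁻¹) ∈ F.Hom _ :=
      (hF.2 _ _).mpr ⟨SubpairLE.le hy, _, fun u => rfl, SubpairLE.le hle2, _, hy, hle2⟩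
    rw [hinner] at hmem
    obtain ⟨-, u, hu, h⟩ := hmem
    -- conjugation by the regular element agrees with that by a `p`-element
    have hq : ∀ q ∈ Q, x * q * x⁻¹ = (y⁻¹ * u * y) * q * (y⁻¹ * u * y)⁻¹ := by
      intro q hq
      have h1 : (y * x * y⁻¹) * (y * q * y⁻¹) * (y * x * y⁻¹)⁻¹ =
          u * (y * q * y⁻¹) * u⁻¹ := h ⟨_, q, hq, rfl⟩
      calc x * q * x⁻¹ = y⁻¹ * ((y * x * y⁻¹) * (y * q * y⁻¹) * (y * x * y⁻¹)⁻¹) * y := by group
        _ = _ := by rw [h1]; group
    set N := Subgroup.normalizer (Q : Set G) with hN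
    have hwN : y⁻¹ * u * y ∈ N := by
      refine Subgroup.mem_normalizer_iff.mpr fun q => ⟨fun hq' => ?_, fun hq' => ?_⟩
      · rw [← hq q hq']
        exact (Subgroup.mem_normalizer_iff.mp hxN q).mp hq'
      · have h1 : x⁻¹ * ((y⁻¹ * u * y) * q * (y⁻¹ * u * y)⁻¹) * x ∈ Q := by
          have := (Subgroup.mem_normalizer_iff.mp (inv_mem hxN) _).mp hq'
          simpa using this
        have h2 := hq _ h1
        have h3 : (y⁻¹ * u * y) * q * (y⁻¹ * u * y)⁻¹ = (y⁻¹ * u * y) *
            (x⁻¹ * ((y⁻¹ * u * y) * q * (y⁻¹ * u * y)⁻¹) * x) * (y⁻¹ * u * y)⁻¹ := by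
          rw [← h2]; group
        rw [← mul_left_cancel (mul_right_cancel h3)] at h1
        exact h1
    obtain ⟨n, hn⟩ := hmax.1.1.1 ⟨u, hu⟩
    have hwp : (y⁻¹ * u * y) ^ p ^ n = 1 := by
      rw [show y⁻¹ * u * y = (MulAut.conj y⁻¹) u by simp, ← map_pow,
        show u ^ p ^ n = 1 from congrArg Subtype.val hn, map_one]
    haveI : ((Subgroup.centralizer (Q : Set G)).subgroupOf N).Normal :=
      (Subgroup.normal_subgroupOf_iff_le_normalizer (Subgroup.centralizer_le_normalizer _)).mpr
        fun z hz => mem_normalizer_centralizer hz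
    let π := QuotientGroup.mk' ((Subgroup.centralizer (Q : Set G)).subgroupOf N)
    have hπ : π ⟨x, hxN⟩ = π ⟨_, hwN⟩ := by
      refine QuotientGroup.eq.mpr (Subgroup.mem_subgroupOf.mpr (Subgroup.mem_centralizer_iff.mpr ?_))
      intro q hq'
      show q * (x⁻¹ * (y⁻¹ * u * y)) = x⁻¹ * (y⁻¹ * u * y) * q
      calc q * (x⁻¹ * (y⁻¹ * u * y)) = x⁻¹ * (x * q * x⁻¹) * (y⁻¹ * u * y) := by group
        _ = _ := by rw [hq q hq']; group
    have h1 : orderOf (π ⟨x, hxN⟩) ∣ orderOf x := by
      exact (orderOf_map_dvd π _).trans (dvd_of_eq (Subgroup.orderOf_mk x hxN))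
    have h2 : orderOf (π ⟨x, hxN⟩) ∣ p ^ n := by
      rw [hπ]
      exact (orderOf_map_dvd π _).trans (orderOf_dvd_of_pow_eq_one (Subtype.ext hwp))
    have h3 : π ⟨x, hxN⟩ = 1 := orderOf_eq_one_iff.mp (Nat.eq_one_of_dvd_coprimes
      (Nat.Coprime.pow_left n ((Fact.out : p.Prime).coprime_iff_not_dvd.mpr hxr)) h2 h1)
    exact Subgroup.mem_subgroupOf.mp ((QuotientGroup.eq_one_iff _).mp h3)

variable {Q : Subgroup G}

/-- The centralizer in `C(Q)` of a subgroup `R` of `C(Q)` is `C(QR)`. -/
def centSupEquiv (R : Subgroup (Subgroup.centralizer (Q : Set G))) :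
    Subgroup.centralizer (R : Set (Subgroup.centralizer (Q : Set G))) ≃*
      Subgroup.centralizer ((Q ⊔ R.map (Subgroup.centralizer (Q : Set G)).subtype : Subgroup G) : Set G) where
  toFun c := ⟨((c : Subgroup.centralizer (Q : Set G)) : G), by
    refine Subgroup.le_centralizer_iff.mp (sup_le ?_ ?_) (Subgroup.mem_zpowers _)
    · intro q hq
      rw [Subgroup.mem_centralizer_iff]
      rintro _ ⟨k, rfl⟩
      exact ((show Commute q ((c : Subgroup.centralizer (Q : Set G)) : G) from
        Subgroup.mem_centralizer_iff.mp (c : Subgroup.centralizer (Q : Set G)).2 q hq).zpow_right k).symm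
    · rintro _ ⟨r, hr, rfl⟩
      rw [Subgroup.mem_centralizer_iff]
      rintro _ ⟨k, rfl⟩
      exact ((show Commute (r : G) ((c : Subgroup.centralizer (Q : Set G)) : G) from
        congrArg Subtype.val (Subgroup.mem_centralizer_iff.mp c.2 r hr)).zpow_right k).symm⟩
  invFun c := ⟨⟨(c : G), Subgroup.centralizer_le
      (show (Q : Set G) ⊆ ((Q ⊔ R.map (Subgroup.centralizer (Q : Set G)).subtype : Subgroup G) : Set G)
        from (le_sup_left : Q ≤ _)) c.2⟩, Subgroup.mem_centralizer_iff.mpr fun r hr =>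
    Subtype.ext (Subgroup.mem_centralizer_iff.mp c.2 (r : G)
      ((le_sup_right : R.map (Subgroup.centralizer (Q : Set G)).subtype ≤ Q ⊔ _) ⟨r, hr, rfl⟩))⟩
  left_inv c := Subtype.ext (Subtype.ext rfl)
  right_inv c := Subtype.ext rfl
  map_mul' a b := Subtype.ext rfl

/-- The blocks in the pairs of a nilpotent block are nilpotent. -/
theorem nilpotent_local (hM : IsPModular p M) {B : Set (IrrCharacter G)}
    (hnil : IsNilpotentBlock p M B)
    {f : Set (IrrCharacter (Subgroup.centralizer (Q : Set G)))} (hQf : IsBrauerPairOf p M B Q f) :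
    IsNilpotentBlock p M f := by
  classical
  haveI : Fact p.Prime := ⟨hM.1⟩
  obtain ⟨⟨hQ, hf⟩, hB, -⟩ := id hQf
  refine ⟨hf, fun R g hRg x hxN hxg hxr => ?_⟩
  set S := Q ⊔ R.map (Subgroup.centralizer (Q : Set G)).subtype with hS
  let φ : Subgroup.centralizer (R : Set (Subgroup.centralizer (Q : Set G))) ≃*
      Subgroup.centralizer (S : Set G) := centSupEquiv R
  have hRK : R.map (Subgroup.centralizer (Q : Set G)).subtype ≤ Subgroup.centralizer (Q : Set G) :=
    Subgroup.map_subtype_le _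
  have hSN : S ≤ Subgroup.normalizer (Q : Set G) :=
    sup_le Subgroup.le_normalizer (hRK.trans (Subgroup.centralizer_le_normalizer _))
  have hSp : IsPGroup p S := hQ.to_sup_of_normal_left' (hRg.1.1.map _)
    (hRK.trans (Subgroup.centralizer_le_normalizer _))
  have hg' := isPBlock_mapBlock hM φ hRg.1.2
  have hnorm : IsNormalSubpair p M Q f S (mapBlock φ g) := by
    refine ⟨⟨hQ, hf⟩, ⟨hSp, hg'⟩, le_sup_left, hSN, fun z hz =>
      ((sup_le (le_pairStab hM hf) (hRK.trans (centralizer_le_pairStab hM hf)) :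
        S ≤ pairStab hM hf) hz).2, fun ξ hξ => ?_⟩
    have h1 := hRg.2.2 (pullIrr φ ξ) hξ
    have e : brauerOmega S (subgroupBlockCoeff (Subgroup.centralizer (Q : Set G)) f)
        (ξ : Subgroup.centralizer (S : Set G) → ℂ) =
        brauerOmega R (blockCoeff f) (pullIrr φ ξ : Subgroup.centralizer (R : Set (Subgroup.centralizer (Q : Set G))) → ℂ) := by
      rw [brauerOmega, brauerOmega]
      refine (finsum_eq_of_bijective φ (MulEquiv.bijective _) fun k => ?_).symm
      rw [pullIrr_apply, pullIrr_apply, map_one]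
      congr 2
      rw [show ((φ k : Subgroup.centralizer (S : Set G)) : G) =
        ((k : Subgroup.centralizer (Q : Set G)) : G) from rfl]
      exact (sbc_apply _ f (k : Subgroup.centralizer (Q : Set G))).symm
    rw [e]
    exact h1
  have hSB := (brauerPairOf_iff_normal hM hnorm hB).mpr hQf
  have hxQ : (x : G) ∈ Subgroup.normalizer (S : Set G) := by
    have hm : S.map (MulAut.conj (x : G)).toMonoidHom = S := by
      rw [hS, Subgroup.map_sup, Subgroup.map_map]
      congr 1
      · ext q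
        constructor
        · rintro ⟨r, hr, rfl⟩
          simpa [← Subgroup.mem_centralizer_iff.mp x.2 r hr] using hr
        · intro hq
          refine ⟨q, hq, ?_⟩
          show (x : G) * q * (x : G)⁻¹ = q
          rw [← Subgroup.mem_centralizer_iff.mp x.2 q hq, mul_inv_cancel_right]
      · rw [show (MulAut.conj (x : G)).toMonoidHom.comp (Subgroup.centralizer (Q : Set G)).subtype =
          (Subgroup.centralizer (Q : Set G)).subtype.comp (MulAut.conj x).toMonoidHom from
            MonoidHom.ext fun _ => rfl, ← Subgroup.map_map]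
        congr 1
        ext q
        constructor
        · rintro ⟨r, hr, rfl⟩
          exact (Subgroup.mem_normalizer_iff.mp hxN r).mp hr
        · intro hq
          refine ⟨x⁻¹ * q * x, ?_, by simp [mul_assoc]⟩
          have := (Subgroup.mem_normalizer_iff.mp (inv_mem hxN) q).mp hq
          simpa using this
    refine Subgroup.mem_normalizer_iff.mpr fun q => ?_
    conv_rhs => rw [← hm]
    exact ⟨fun hq => ⟨q, hq, rfl⟩, fun ⟨r, hr, e⟩ => (MulAut.conj (x : G)).injective e ▸ hr⟩
  obtain ⟨hxC, hfix⟩ := (stabilizesBlock_iff hM _ hRg.1.2).mp hxg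
  have hxC' := mem_normalizer_centralizer hxQ
  have hst : StabilizesBlock (Subgroup.centralizer (S : Set G)) (mapBlock φ g) (x : G) := by
    refine (stabilizesBlock_iff hM _ hg').mpr ⟨hxC', ?_⟩
    ext χ
    show pullIrr φ (pullIrr (normConj _ hxC') χ) ∈ g ↔ pullIrr φ χ ∈ g
    conv_rhs => rw [← hfix]
    show _ ↔ pullIrr (normConj _ hxC) (pullIrr φ χ) ∈ g
    rw [show pullIrr φ (pullIrr (normConj _ hxC') χ) = pullIrr (normConj _ hxC) (pullIrr φ χ) from
      Subtype.ext (funext fun k => congrArg (χ : Subgroup.centralizer (S : Set G) → ℂ) (Subtype.ext rfl))]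
  have h := hnil.2 S _ hSB (x : G) hxQ hst (by
    show ¬ p ∣ orderOf (x : G)
    rwa [Subgroup.orderOf_coe])
  exact Subgroup.mem_centralizer_iff.mpr fun r hr => Subtype.ext
    (Subgroup.mem_centralizer_iff.mp h (r : G)
      ((le_sup_right : R.map (Subgroup.centralizer (Q : Set G)).subtype ≤ S) ⟨r, hr, rfl⟩))

/-- The defect groups of the blocks in pairs of a nilpotent block below the maximal one. -/
theorem nilpotent_local_defect (hM : IsPModular p M) {B : Set (IrrCharacter G)} {P : Subgroup G}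
    {e : Set (IrrCharacter (Subgroup.centralizer (P : Set G)))}
    (hmax : IsMaximalBrauerPair p M B P e) (hnil : IsNilpotentBlock p M B)
    {f : Set (IrrCharacter (Subgroup.centralizer (Q : Set G)))} (hQf : IsBrauerPairOf p M B Q f)
    (hle : SubpairLE p M Q f P e) :
    IsDefectGroup p M f
      ((P ⊓ Subgroup.centralizer (Q : Set G)).subgroupOf (Subgroup.centralizer (Q : Set G))) := by
  classical
  haveI : Fact p.Prime := ⟨hM.1⟩
  obtain ⟨x, hx, hD⟩ := exists_fullyCentralized hM hmax hQf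
  obtain ⟨D, hD', hge⟩ := defect_ge_of_le hM hmax.1.1 hle
  have hx' : Relation.ReflTransGen (NormalSubpairRel p M) (pairConj x ⟨Q, f⟩)
      (⟨P, e⟩ : BrauerPairIdx G) := hx
  obtain ⟨u, hu, hc⟩ := nilpotent_inner hM hmax hnil Q f x hle hx'
  have hf' := (SubpairLE.left_block hx hmax.1.1).2
  have hDx : IsDefectGroup p M (conjBlock Q x f)
      (D.map (cEquiv (centralizer_conj_iff Q x)).toMonoidHom) := by
    rw [conjBlock_eq_map]; exact isDefectGroup_mapBlock _ hD'
  have hRu : Q.map (MulAut.conj x).toMonoidHom = Q.map (MulAut.conj u).toMonoidHom := by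
    ext g
    simp only [Subgroup.mem_map]
    refine exists_congr fun q => and_congr_right fun hq => ?_
    show x * q * x⁻¹ = g ↔ u * q * u⁻¹ = g
    rw [show x * q * x⁻¹ = u * q * u⁻¹ by
      calc x * q * x⁻¹ = u * (u⁻¹ * x * q) * x⁻¹ := by group
        _ = u * (q * (u⁻¹ * x)) * x⁻¹ := by rw [Subgroup.mem_centralizer_iff.mp hc q hq]
        _ = _ := by group]
  have hcard : Nat.card ((P ⊓ Subgroup.centralizer ((Q.map (MulAut.conj x).toMonoidHom : Subgroup G) : Set G)).subgroupOf
      (Subgroup.centralizer ((Q.map (MulAut.conj x).toMonoidHom : Subgroup G) : Set G))) =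
      Nat.card ((P ⊓ Subgroup.centralizer (Q : Set G)).subgroupOf (Subgroup.centralizer (Q : Set G))) := by
    rw [Nat.card_congr (Subgroup.subgroupOfEquivOfLe inf_le_right).toEquiv,
      Nat.card_congr (Subgroup.subgroupOfEquivOfLe inf_le_right).toEquiv, hRu]
    have hiff : ∀ c, u * c * u⁻¹ ∈ P ⊓ Subgroup.centralizer
        ((Q.map (MulAut.conj u).toMonoidHom : Subgroup G) : Set G) ↔
        c ∈ P ⊓ Subgroup.centralizer (Q : Set G) := fun c => by
      rw [Subgroup.mem_inf, Subgroup.mem_inf, centralizer_conj_iff]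
      refine and_congr_left' ⟨fun h => ?_, fun h => P.mul_mem (P.mul_mem hu h) (P.inv_mem hu)⟩
      have := P.mul_mem (P.mul_mem (P.inv_mem hu) h) hu
      simpa [mul_assoc] using this
    exact (Nat.card_congr (cEquiv hiff).toEquiv).symm
  have h1 := (card_defectGroup hM hf' hDx).trans (card_defectGroup hM hf' hD).symm
  rw [hcard, Nat.card_congr ((D.equivMapOfInjective _
    (MulEquiv.injective (cEquiv (centralizer_conj_iff Q x)))).toEquiv).symm] at h1
  rwa [Subgroup.eq_of_le_of_card_ge hge h1.le]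

end CfsgLib.Blocks
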