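import Cfsg.Agent.Lib.Blocks.Section
import Cfsg.Agent.Lib.Core

/-!
Orthogonality of the principal block on sections.
-/

namespace CfsgLib.Blocks

open scoped ComplexConjugate
open Cfsg CfsgLib.Chars

universe u

variable {G : Type u} [Group G] [Fintype G] {p : ℕ} {M : Ideal AlgInt}
  {C : Subgroup G} [Fintype C] {x : G} {k : ℕ}

/-- The principal block of the centralizer induces the principal block. -/
theorem principal_induced (hM : IsPModular p M) (hx : orderOf x = p ^ k)
    (hC : ∀ g, g ∈ C ↔ Commute g x) :
    IsInducedBlock M C (principalBlock M C) (principalBlock M G) := by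
  classical
  have hb : IsPBlock M (principalBlock M C) := isPBlock_principalBlock
  obtain ⟨ξ, hξ⟩ := IsPBlock.nonempty hM hb
  have hcen := centralizer_zpowers_eq hC
  have hN : C ≤ Subgroup.normalizer ((Subgroup.zpowers x : Subgroup G) : Set G) :=
    hcen.ge.trans (Subgroup.centralizer_le_normalizer _)
  obtain ⟨B, hB, hne⟩ := exists_block_brVal hM hN ξ
  have h := (isInducedBlock_iff_brVal hM (isPGroup_zpowers hM hx)
    (Subgroup.zpowers_le.mpr ((hC x).mpr (Commute.refl x))) hcen.le hN hb hB hξ).mpr hne
  rwa [(induced_principal_iff hM h).mpr rfl] at h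

/-- Sum of squares of the principal block on a section. -/
theorem principal_sec_sq (hM : IsPModular p M) (hx : orderOf x = p ^ k)
    (hC : ∀ g, g ∈ C ↔ Commute g x) [DecidablePred (· ∈ principalBlock M G)]
    [DecidablePred (· ∈ principalBlock M C)] {y : C} (hy : ¬ p ∣ orderOf y) :
    ∑ ζ ∈ Finset.univ.filter (· ∈ principalBlock M G),
        (ζ : G → ℂ) (x * (y : G)) * conj ((ζ : G → ℂ) (x * (y : G))) =
      ∑ φ ∈ Finset.univ.filter (· ∈ principalBlock M C), (φ : C → ℂ) y * conj ((φ : C → ℂ) y) := by
  classical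
  haveI : Fintype (Set (IrrCharacter C)) := Fintype.ofFinite _
  have hind := principal_induced (M := M) hM hx hC
  rw [← sec_orth_left hM hx hC hind hy hy]
  refine Finset.sum_congr rfl fun ζ hζ => ?_
  congr 1
  rw [sec_decomp hM hx hC (B := principalBlock M G) isPBlock_principalBlock
    (Finset.mem_filter.mp hζ).2 hy, Finset.sum_eq_single (principalBlock M C)]
  · intro b hb hne
    exact absurd ((induced_principal_iff hM (Finset.mem_filter.mp hb).2).mp rfl) hne
  · intro h
    exact absurd (Finset.mem_filter.mpr ⟨Finset.mem_univ (principalBlock M C), hind⟩) h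

/-- With a normal complement the squares of the principal block add up to the `p`-part. -/
theorem principal_sum_sq_of_complement (hM : IsPModular p M) {H : Type u} [Group H] [Fintype H]
    (hidx : ∃ j : ℕ, (pPrimeCore p H).index = p ^ j) [DecidablePred (· ∈ principalBlock M H)]
    {y : H} (hy : ¬ p ∣ orderOf y) :
    ∑ φ ∈ Finset.univ.filter (· ∈ principalBlock M H), (φ : H → ℂ) y * conj ((φ : H → ℂ) y) =
      ((p ^ (Nat.card H).factorization p : ℕ) : ℂ) := by
  classical
  obtain ⟨j, hj⟩ := hidx
  set O := pPrimeCore p H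
  haveI hOn : O.Normal := by
    haveI := Core.pPrimeCore_characteristic (G := H) p
    infer_instance
  have hOcop : (Nat.card O).Coprime p := Core.card_pPrimeCore_coprime p
  have hreg : ∀ a : H, ¬ p ∣ orderOf a ↔ a ∈ O := by
    intro a
    constructor
    · intro ha
      have h1 : orderOf (QuotientGroup.mk' O a) ∣ p ^ j := by
        rw [← hj, Subgroup.index_eq_card]; exact orderOf_dvd_natCard _
      have h2 : orderOf (QuotientGroup.mk' O a) ∣ orderOf a := orderOf_map_dvd _ a
      have h3 : orderOf (QuotientGroup.mk' O a) = 1 :=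
        Nat.eq_one_of_dvd_coprimes
          (Nat.Coprime.pow_left j ((Nat.Prime.coprime_iff_not_dvd hM.1).mpr ha)) h1 h2
      exact (QuotientGroup.eq_one_iff a).mp (orderOf_eq_one_iff.mp h3)
    · intro ha h
      refine (Nat.Prime.coprime_iff_not_dvd hM.1).mp hOcop.symm (h.trans ?_)
      rw [← Subgroup.orderOf_mk a ha]
      exact orderOf_dvd_natCard _
  have hOsum : ∀ φ : IrrCharacter H,
      ∑ a ∈ Finset.univ.filter (· ∈ O), (φ : H → ℂ) a =
        if φ ∈ principalBlock M H then (Nat.card O : ℂ) * (φ : H → ℂ) 1 else 0 := by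
    intro φ
    split_ifs with hφ
    · refine (Finset.sum_congr rfl fun a ha => (show (φ : H → ℂ) a = (φ : H → ℂ) 1 by
        have := principal_apply_mul hM hφ O hOcop (Finset.mem_filter.mp ha).2 1
        rwa [mul_one] at this)).trans ?_
      rw [Finset.sum_const, nsmul_eq_mul, Nat.card_eq_fintype_card, Fintype.card_subtype]
    · have h0 := regInner_eq_zero hM (χ := φ) (ψ := trivIrr H) fun hs => hφ
        (IsPBlock.mem_of_sameBlock hM isPBlock_principalBlock
          (self_mem_blockOf hM (trivIrr H)) (sameBlock_symm hs))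
      rw [regInner_eq, mul_eq_zero] at h0
      rw [← h0.resolve_left (inv_ne_zero (natCast_card_ne_zero H))]
      refine Finset.sum_congr (Finset.ext fun a => by simp [hreg a]) fun a _ => by simp [trivIrr]
  have h1 : ∑ φ ∈ Finset.univ.filter (· ∈ principalBlock M H),
      (Nat.card O : ℂ) * ((φ : H → ℂ) y * conj ((φ : H → ℂ) y)) = (Nat.card H : ℂ) := by
    have h2 : ∑ φ : IrrCharacter H, (φ : H → ℂ) 1 *
        ∑ a ∈ Finset.univ.filter (· ∈ O), (φ : H → ℂ) a = (Nat.card H : ℂ) := by
      simp only [Finset.mul_sum]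
      rw [Finset.sum_comm, Finset.sum_congr rfl fun a _ => sum_deg_mul a, Finset.sum_ite_eq',
        if_pos (Finset.mem_filter.mpr ⟨Finset.mem_univ _, one_mem O⟩)]
    rw [← h2, Finset.sum_filter]
    refine Finset.sum_congr rfl fun φ _ => ?_
    rw [hOsum]
    split_ifs with hφ
    · have h3 := principal_apply_mul hM hφ O hOcop ((hreg y).mp hy) 1
      rw [mul_one] at h3
      rw [h3, conj_irr_one]
      ring
    · rw [mul_zero]
  rw [← Finset.mul_sum] at h1
  have hcard : Nat.card H = Nat.card O * p ^ (Nat.card H).factorization p := by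
    have h2 := O.card_mul_index
    rw [hj] at h2
    have h3 : (Nat.card H).factorization p = j := by
      rw [← h2, Nat.factorization_mul Nat.card_pos.ne' (pow_ne_zero _ hM.1.ne_zero),
        Finsupp.add_apply, hM.1.factorization_pow, Finsupp.single_eq_same,
        Nat.factorization_eq_zero_of_not_dvd ((Nat.Prime.coprime_iff_not_dvd hM.1).mp hOcop.symm),
        zero_add]
    rw [h3, h2]
  refine mul_left_cancel₀ (natCast_card_ne_zero O) (h1.trans ?_)
  rw [← Nat.cast_mul, ← hcard]

end CfsgLib.Blocks
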