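import Cfsg.Agent.Lib.Blocks.BrauerFeit

/-!
Generalized characters supported on the regular elements.
-/

namespace CfsgLib.Blocks

open scoped ComplexConjugate
open Cfsg CfsgLib.Chars

universe u

variable {G : Type u} [Group G] [Fintype G] {p : ℕ} {M : Ideal AlgInt}

theorem isGenChar_of_int (n : IrrCharacter G → ℤ) :
    IsGeneralizedCharacter G (fun x => ∑ χ : IrrCharacter G, (n χ : ℂ) * (χ : G → ℂ) x) := by
  refine ⟨∑ χ : IrrCharacter G, (n χ).toNat • (χ : G → ℂ),
    ∑ χ : IrrCharacter G, (-n χ).toNat • (χ : G → ℂ),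
    IsCharacter.finset_sum fun χ _ => IsCharacter.nsmul (isCharacter_irr χ) _,
    IsCharacter.finset_sum fun χ _ => IsCharacter.nsmul (isCharacter_irr χ) _, ?_⟩
  funext x
  simp only [Pi.sub_apply, Finset.sum_apply, nsmul_eq_mul, ← Finset.sum_sub_distrib, Pi.mul_apply,
    Pi.natCast_apply]
  refine Finset.sum_congr rfl fun χ _ => ?_
  rw [← sub_mul]
  congr 1
  have h : ((n χ).toNat : ℤ) - ((-n χ).toNat : ℤ) = n χ := Int.toNat_sub_toNat_neg _
  have := congrArg (fun z : ℤ => (z : ℂ)) h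
  push_cast at this
  exact this.symm

theorem exists_int_inner_of_genChar {φ : G → ℂ} (h : IsGeneralizedCharacter G φ)
    (χ : IrrCharacter G) : ∃ n : ℤ, classInner φ (χ : G → ℂ) = (n : ℂ) := by
  obtain ⟨α, β, hα, hβ, rfl⟩ := h
  obtain ⟨m, hm⟩ := exists_mult hα χ
  obtain ⟨k, hk⟩ := exists_mult hβ χ
  refine ⟨(m : ℤ) - k, ?_⟩
  push_cast
  rw [← hm, ← hk]
  simp [classInner, sub_mul, Finset.sum_sub_distrib, mul_sub]

theorem isGenChar_scaled (hp : p.Prime) (χ : IrrCharacter G) :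
    IsGeneralizedCharacter G (fun x : G => if p ∣ orderOf x then (0 : ℂ) else
      ((p ^ ((Nat.card G).factorization p - (charDegree (χ : G → ℂ)).factorization p) : ℕ) : ℂ) *
        (χ : G → ℂ) x) := by
  set a := (Nat.card G).factorization p
  set b := (charDegree (χ : G → ℂ)).factorization p
  choose q hq using fun ψ => ppow_dvd_regMat hp χ ψ
  convert isGenChar_of_int q using 1
  funext x
  have h := regMat_sum_eq hp χ x
  have hpb : ((p ^ b : ℕ) : ℂ) ≠ 0 := ppow_cast_ne_zero hp b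
  have h' : ((p ^ b : ℕ) : ℂ) * ∑ ψ : IrrCharacter G, (q ψ : ℂ) * (ψ : G → ℂ) x =
      ((p ^ a : ℕ) : ℂ) * pRegularPart p (χ : G → ℂ) x := by
    rw [h, Finset.mul_sum]
    exact Finset.sum_congr rfl fun ψ _ => by rw [hq ψ]; push_cast; ring
  refine mul_left_cancel₀ hpb (Eq.trans ?_ h'.symm)
  split_ifs with hx
  · rw [pRegularPart_of_singular hx, mul_zero, mul_zero]
  · rw [pRegularPart_of_regular hx, ← mul_assoc, ← Nat.cast_mul, ← pow_add,
      Nat.add_sub_cancel' (factorization_charDegree_le χ p)]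

theorem not_isGenChar_scaled (hp : p.Prime) (χ : IrrCharacter G) :
    ¬ IsGeneralizedCharacter G (fun x : G => if p ∣ orderOf x then (0 : ℂ) else
      ((p ^ (Nat.card G).factorization p : ℕ) : ℂ) /
        ((p ^ ((charDegree (χ : G → ℂ)).factorization p + 1) : ℕ) : ℂ) * (χ : G → ℂ) x) := by
  intro hgen
  obtain ⟨ψ, hψ⟩ := exists_not_dvd_regMat hp χ
  obtain ⟨n, hn⟩ := exists_int_inner_of_genChar hgen ψ
  apply hψ
  refine ⟨n, ?_⟩
  set a := (Nat.card G).factorization p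
  set b := (charDegree (χ : G → ℂ)).factorization p
  have e : classInner (fun x : G => if p ∣ orderOf x then (0 : ℂ) else
      ((p ^ a : ℕ) : ℂ) / ((p ^ (b + 1) : ℕ) : ℂ) * (χ : G → ℂ) x) (ψ : G → ℂ) =
      ((p ^ a : ℕ) : ℂ) / ((p ^ (b + 1) : ℕ) : ℂ) * regInner p (χ : G → ℂ) (ψ : G → ℂ) := by
    simp only [regInner, classInner, Finset.mul_sum]
    refine Finset.sum_congr rfl fun x _ => ?_
    split_ifs with hx
    · rw [pRegularPart_of_singular hx]; ring
    · rw [pRegularPart_of_regular hx]; ring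
  rw [e, div_mul_eq_mul_div, regMat_spec hp, div_eq_iff (ppow_cast_ne_zero hp _)] at hn
  apply_fun (fun z : ℤ => (z : ℂ)) using Int.cast_injective
  push_cast at hn ⊢
  rw [hn, mul_comm]

open Classical in
theorem regPart_block_combination (hM : IsPModular p M) {B : Set (IrrCharacter G)}
    (hB : IsPBlock M B) {χ : IrrCharacter G} (hχ : χ ∈ B) {e : ℕ}
    (he : e ≤ (charDegree (χ : G → ℂ)).factorization p) :
    ∃ n : IrrCharacter G → ℤ, (∀ ψ, ψ ∉ B → n ψ = 0) ∧ ∀ x : G,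
      ((p ^ ((Nat.card G).factorization p - e) : ℕ) : ℂ) * pRegularPart p (χ : G → ℂ) x =
        ∑ ψ : IrrCharacter G, (n ψ : ℂ) * (ψ : G → ℂ) x := by
  have hp := hM.1
  choose q hq using fun ψ => dvd_trans (pow_dvd_pow (p : ℤ) he) (ppow_dvd_regMat hp χ ψ)
  refine ⟨q, fun ψ hψ => ?_, fun x => ?_⟩
  · have := regMat_eq_zero hM (χ := χ) (ψ := ψ)
      fun hs => hψ (IsPBlock.mem_of_sameBlock hM hB hχ hs)
    rw [hq ψ] at this
    exact (mul_eq_zero.mp this).resolve_left (pow_ne_zero _ (Int.natCast_ne_zero.mpr hp.ne_zero))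
  · refine mul_left_cancel₀ (ppow_cast_ne_zero hp e) ?_
    rw [← mul_assoc, ← Nat.cast_mul, ← pow_add,
      Nat.add_sub_cancel' (he.trans (factorization_charDegree_le χ p)), regMat_sum_eq hp,
      Finset.mul_sum]
    exact Finset.sum_congr rfl fun ψ _ => by rw [hq ψ]; push_cast; ring

open Classical in
/-- Integer combinations of a block. -/
theorem finsum_block_eq_sum (B : Set (IrrCharacter G)) (n : IrrCharacter G → ℤ) (x : G) :
    ∑ᶠ ψ ∈ B, (n ψ : ℂ) * (ψ : G → ℂ) x =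
      ∑ ψ : IrrCharacter G, (if ψ ∈ B then (n ψ : ℂ) else 0) * (ψ : G → ℂ) x := by
  rw [finsum_mem_eq_toFinset_sum, ← Set.filter_mem_univ_eq_toFinset, Finset.sum_filter]
  exact Finset.sum_congr rfl fun ψ _ => by split_ifs <;> ring

end CfsgLib.Blocks
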