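import Cfsg.Agent.Lib.Blocks.FrobeniusMain
import Cfsg.Agent.Lib.Chars.Misc

/-!
Characters of small degree when all nontrivial elements of a Sylow subgroup have the same
centralizer.
-/

set_option linter.style.haveILetI false

namespace CfsgLib.Blocks.SD

open scoped ComplexConjugate
open Cfsg CfsgLib.Chars CfsgLib.Blocks

universe u

variable {G : Type u} [Group G] {p : ℕ} {P : Sylow p G}

/-- All nontrivial elements of `P` have the centralizer of `P`. -/
def Uniform (P : Sylow p G) : Prop :=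
  ∀ x ∈ (P : Subgroup G), x ≠ 1 →
    Subgroup.centralizer ({x} : Set G) = Subgroup.centralizer ((P : Subgroup G) : Set G)

variable [Fintype G] [Fact p.Prime]

theorem comm_of_uniform (h : Uniform P) : IsMulCommutative (P : Subgroup G) := by
  refine ⟨⟨fun a b => ?_⟩⟩
  by_cases hP : Nontrivial (P : Subgroup G)
  · haveI := P.2.center_nontrivial
    obtain ⟨z, hz⟩ := exists_ne (1 : Subgroup.center (P : Subgroup G))
    have e := h ((z : (P : Subgroup G)) : G) (z : (P : Subgroup G)).2
      (fun e => hz (Subtype.ext (Subtype.ext e)))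
    have ha : (a : G) ∈ Subgroup.centralizer ({((z : (P : Subgroup G)) : G)} : Set G) :=
      Subgroup.mem_centralizer_singleton_iff.mpr
        (congrArg Subtype.val (Subgroup.mem_center_iff.mp z.2 a))
    rw [e] at ha
    exact Subtype.ext (Subgroup.mem_centralizer_iff.mp ha (b : G) b.2).symm
  · rw [not_nontrivial_iff_subsingleton] at hP
    exact Subsingleton.elim _ _

omit [Fintype G] [Fact p.Prime] in
theorem frob_of_uniform (h : Uniform P) : FS.Frob P := fun y hy hy1 => by
  rw [h y hy hy1, inf_eq_left]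
  exact Subgroup.centralizer_le_normalizer _

/-- The `p`-part of a centralizing element lies in the Sylow subgroup. -/
theorem mem_of_centralizes {z : G} (hz : z ∈ Subgroup.centralizer ((P : Subgroup G) : Set G))
    (hzp : ∃ k : ℕ, orderOf z = p ^ k) : z ∈ (P : Subgroup G) := by
  obtain ⟨k, hk⟩ := hzp
  have h1 : IsPGroup p (Subgroup.zpowers z) := IsPGroup.of_card (n := k) (by rw [Nat.card_zpowers, hk])
  have h2 : IsPGroup p ((P : Subgroup G) ⊔ Subgroup.zpowers z : Subgroup G) := by
    refine IsPGroup.to_sup_of_normal_left' P.2 h1 (Subgroup.zpowers_le.mpr ?_)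
    exact Subgroup.centralizer_le_normalizer _ hz
  have h3 := P.3 h2 le_sup_left
  rw [← h3]
  exact Subgroup.mem_sup_right (Subgroup.mem_zpowers z)

open Classical in
set_option maxHeartbeats 1600000 in
/-- Characters of small degree are linear when the conjugates of `P` generate. -/
theorem degree_eq_one (h : Uniform P)
    (hgen : Subgroup.normalClosure ((P : Subgroup G) : Set G) = ⊤) (χ : IrrCharacter G)
    (hdeg : charDegree (χ : G → ℂ) ^ 2 + 1 < Nat.card (P : Subgroup G)) :
    charDegree (χ : G → ℂ) = 1 := by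
  obtain ⟨M, hM⟩ := exists_isPModular (Fact.out : p.Prime)
  haveI hab := comm_of_uniform h
  have hF := frob_of_uniform h
  haveI : Fintype (P : Subgroup G) := Fintype.ofFinite _
  set C := Subgroup.centralizer ((P : Subgroup G) : Set G) with hC
  haveI : Fintype C := Fintype.ofFinite _
  by_contra hn1
  set n := charDegree (χ : G → ℂ) with hn
  have hn0 : 0 < n := charDegree_pos χ
  have hn2 : 2 ≤ n := by omega
  set q := Nat.card (P : Subgroup G) with hq
  -- a character containing `P` in its kernel is constant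
  have hker : ∀ f : G → ℂ, IsCharacter G f →
      (∀ x ∈ (P : Subgroup G), f x = f 1) → ∀ g, f g = f 1 := by
    intro f hf hP g
    obtain ⟨K, hKn, hK, -⟩ := IsCharacter.exists_kernel hf
    have : Subgroup.normalClosure ((P : Subgroup G) : Set G) ≤ K :=
      Subgroup.normalClosure_le_normal fun x hx => (hK x).mpr (hP x hx)
    exact (hK g).mp (this (hgen ▸ Subgroup.mem_top g))
  set ψ : G → ℂ := fun g => (χ : G → ℂ) g * conj ((χ : G → ℂ) g) with hψ
  have hψc : IsCharacter G ψ := IsCharacter.mul (isCharacter_irr χ)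
    (isCharacter_irr (⟨_, isIrrCharacter_conj χ⟩ : IrrCharacter G))
  have hψ1 : ψ 1 = (n : ℂ) * (n : ℂ) := by
    simp only [hψ]; rw [conj_irr_one, irr_apply_one]
  -- `χ` is not scalar on `P`
  have hns : ¬ ∀ x ∈ (P : Subgroup G), ψ x = ψ 1 := by
    intro hs
    have hall := hker ψ hψc hs
    have hrow := classInner_irr χ χ
    rw [if_pos rfl, classInner] at hrow
    have e : ∀ g, (χ : G → ℂ) g * conj ((χ : G → ℂ) g) = (n : ℂ) * (n : ℂ) := fun g => by
      rw [← hψ1]; exact hall g
    simp only [e, Finset.sum_const, Finset.card_univ, nsmul_eq_mul, ← Nat.card_eq_fintype_card] at hrow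
    rw [← mul_assoc, inv_mul_cancel₀ (natCast_card_ne_zero G), one_mul] at hrow
    have : n * n = 1 := by exact_mod_cast hrow
    exact hn1 (Nat.eq_one_of_mul_eq_one_right this)
  -- the restriction to the centralizer
  choose m hm using fun φ : IrrCharacter C =>
    exists_mult (IsCharacter.restrict (isCharacter_irr χ) C) φ
  have hexp : ∀ c : C, (χ : G → ℂ) (c : G) = ∑ φ : IrrCharacter C, (m φ : ℂ) * (φ : C → ℂ) c :=
    fun c => by
      rw [classFunction_expand (IsCharacter.isClassFunction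
        (IsCharacter.restrict (isCharacter_irr χ) C)) c]
      simp only [hm]
  set R := ∑ φ : IrrCharacter C, m φ * m φ with hR
  have hPC : (P : Subgroup G) ≤ C := fun x hx => Subgroup.mem_centralizer_iff.mpr fun y hy =>
    congrArg Subtype.val (hab.is_comm.comm (⟨y, hy⟩ : (P : Subgroup G)) ⟨x, hx⟩)
  let ι : (P : Subgroup G) →* C := Subgroup.inclusion hPC
  have hcen : ∀ x : (P : Subgroup G), ι x ∈ Subgroup.center C := fun x =>
    Subgroup.mem_center_iff.mpr fun c => Subtype.ext
      (Subgroup.mem_centralizer_iff.mp c.2 (x : G) x.2).symm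
  let lam : IrrCharacter C → ((P : Subgroup G) →* ℂˣ) := fun φ => MonoidHom.toHomUnits
    { toFun := fun x => (φ : C → ℂ) (ι x) / (φ : C → ℂ) 1
      map_one' := by simp [irr_one_ne_zero φ]
      map_mul' := fun x y => by
        have h1 := irr_one_ne_zero φ
        have e := mul_central φ (hcen x) (ι y)
        rw [map_mul]
        field_simp
        linear_combination e }
  have hlam : ∀ (φ : IrrCharacter C) (x : (P : Subgroup G)),
      (φ : C → ℂ) (ι x) = (φ : C → ℂ) 1 * ((lam φ x : ℂˣ) : ℂ) := fun φ x => by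
    simp only [lam, MonoidHom.coe_toHomUnits, MonoidHom.coe_mk, OneHom.coe_mk]
    field_simp [irr_one_ne_zero φ]
  obtain ⟨φ₀, hφ₀, hl₀⟩ : ∃ φ₀, m φ₀ ≠ 0 ∧ lam φ₀ ≠ 1 := by
    by_contra hno
    push Not at hno
    refine hns fun x hx => ?_
    have e : (χ : G → ℂ) x = (χ : G → ℂ) 1 := by
      have h1 := hexp (ι ⟨x, hx⟩)
      have h2 := hexp 1
      rw [OneMemClass.coe_one] at h2
      rw [show x = ((ι ⟨x, hx⟩ : C) : G) from rfl, h1, h2]
      refine Finset.sum_congr rfl fun φ _ => ?_
      by_cases hm0 : m φ = 0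
      · simp [hm0]
      · rw [hlam, hno φ hm0, MonoidHom.one_apply, Units.val_one, mul_one]
    simp only [hψ, e]
  -- the orbit of a nontrivial constituent
  set e := Nat.card (FS.autGroup P) with he
  have horb : ∀ α : FS.autGroup P, ∃ φ : IrrCharacter C, m φ = m φ₀ ∧
      lam φ = (lam φ₀).comp (α : MulAut (P : Subgroup G)).toMonoidHom := by
    intro α
    obtain ⟨k, hk, hα⟩ := FS.mem_autGroup.mp α.2
    have hkC : ∀ c ∈ C, k * c * k⁻¹ ∈ C := fun c hc => Subgroup.mem_centralizer_iff.mpr fun y hy => by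
      have hy' : k⁻¹ * y * k ∈ (P : Subgroup G) := by
        have := (Subgroup.mem_normalizer_iff.mp (inv_mem hk) y).mp hy
        simpa using this
      have := Subgroup.mem_centralizer_iff.mp hc _ hy'
      calc y * (k * c * k⁻¹) = k * ((k⁻¹ * y * k) * c) * k⁻¹ := by group
        _ = _ := by rw [this]; group
    have hkC' : ∀ c ∈ C, k⁻¹ * c * k ∈ C := fun c hc => Subgroup.mem_centralizer_iff.mpr fun y hy => by
      have hy' : k * y * k⁻¹ ∈ (P : Subgroup G) := (Subgroup.mem_normalizer_iff.mp hk y).mp hy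
      have := Subgroup.mem_centralizer_iff.mp hc _ hy'
      calc y * (k⁻¹ * c * k) = k⁻¹ * ((k * y * k⁻¹) * c) * k := by group
        _ = _ := by rw [this]; group
    let f : C ≃* C :=
      { toFun := fun c => ⟨k * c * k⁻¹, hkC c c.2⟩
        invFun := fun c => ⟨k⁻¹ * c * k, hkC' c c.2⟩
        left_inv := fun c => Subtype.ext (by simp [mul_assoc])
        right_inv := fun c => Subtype.ext (by simp [mul_assoc])
        map_mul' := fun a b => Subtype.ext (by simp [mul_assoc]) }
    refine ⟨⟨_, IsIrrCharacter.comp φ₀.2 f.toMonoidHom f.surjective⟩, ?_, ?_⟩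
    · apply Nat.cast_injective (R := ℂ)
      rw [← hm, ← hm]
      simp only [classInner]
      congr 1
      refine Fintype.sum_equiv f.toEquiv _ _ fun c => ?_
      change _ = (χ : G → ℂ) (k * (c : G) * k⁻¹) * _
      rw [IsCharacter.isClassFunction (isCharacter_irr χ)]
      rfl
    · refine MonoidHom.ext fun x => Units.ext ?_
      simp only [lam, MonoidHom.coe_comp, Function.comp_apply, MonoidHom.coe_toHomUnits,
        MonoidHom.coe_mk, OneHom.coe_mk, MulEquiv.coe_toMonoidHom, map_one]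
      exact congrArg (fun z => (φ₀ : C → ℂ) z / (φ₀ : C → ℂ) 1) (Subtype.ext (hα x).symm)
  choose φo hmo hlo using horb
  have hinj : Function.Injective φo := by
    intro α β hab'
    by_contra hne
    refine hl₀ (FS.free_dual hF (mul_mem β.2 (inv_mem α.2) :
      (β : MulAut (P : Subgroup G)) * (α : MulAut (P : Subgroup G))⁻¹ ∈ FS.autGroup P)
      (fun e' => hne (Subtype.ext (mul_inv_eq_one.mp e').symm)) (MonoidHom.ext fun x => ?_))
    have h1 := congrArg lam hab'
    rw [hlo, hlo] at h1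
    have h2 := DFunLike.congr_fun h1 ((α : MulAut (P : Subgroup G)).symm x)
    simpa using h2.symm
  have hmpos : ∀ α, 1 ≤ m (φo α) := fun α => by rw [hmo]; omega
  have heR : e ≤ R := by
    calc e = ∑ _α : FS.autGroup P, 1 := by simp [he, Nat.card_eq_fintype_card]
      _ ≤ ∑ α : FS.autGroup P, m (φo α) * m (φo α) :=
        Finset.sum_le_sum fun α _ => Nat.mul_pos (hmpos α) (hmpos α)
      _ = ∑ φ ∈ Finset.univ.image φo, m φ * m φ :=
        (Finset.sum_image (f := fun φ => m φ * m φ) hinj.injOn).symm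
      _ ≤ R := Finset.sum_le_sum_of_subset (Finset.subset_univ _)
  have hdegsum : n = ∑ φ : IrrCharacter C, m φ * charDegree (φ : C → ℂ) := by
    apply Nat.cast_injective (R := ℂ)
    rw [hn, ← irr_apply_one, ← OneMemClass.coe_one C, hexp]
    push_cast
    exact Finset.sum_congr rfl fun φ _ => by rw [irr_apply_one]
  have hen : e ≤ n := by
    rw [hdegsum]
    calc e = ∑ _α : FS.autGroup P, 1 := by simp [he, Nat.card_eq_fintype_card]
      _ ≤ ∑ α : FS.autGroup P, m (φo α) * charDegree (φo α : C → ℂ) :=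
        Finset.sum_le_sum fun α _ => Nat.mul_pos (hmpos α) (charDegree_pos _)
      _ = ∑ φ ∈ Finset.univ.image φo, m φ * charDegree (φ : C → ℂ) :=
        (Finset.sum_image (f := fun φ => m φ * charDegree (φ : C → ℂ)) hinj.injOn).symm
      _ ≤ _ := Finset.sum_le_sum_of_subset (Finset.subset_univ _)
  have hR2 : 2 ≤ R := by
    by_contra hlt
    push Not at hlt
    refine hns fun x hx => ?_
    have honly : ∀ φ, φ ≠ φ₀ → m φ = 0 := by
      intro φ hne
      by_contra h0
      have h2 := Finset.sum_le_sum_of_subset (f := fun φ => m φ * m φ)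
        (Finset.subset_univ ({φ, φ₀} : Finset (IrrCharacter C)))
      rw [Finset.sum_pair hne, ← hR] at h2
      have := Nat.mul_pos (Nat.pos_of_ne_zero h0) (Nat.pos_of_ne_zero h0)
      have := Nat.mul_pos (Nat.pos_of_ne_zero hφ₀) (Nat.pos_of_ne_zero hφ₀)
      omega
    have hv : ∀ c : C, (χ : G → ℂ) (c : G) = (m φ₀ : ℂ) * (φ₀ : C → ℂ) c := fun c => by
      rw [hexp, Finset.sum_eq_single φ₀ (fun φ _ hne => by simp [honly φ hne]) (by simp)]
    have e1 := hv (ι ⟨x, hx⟩)
    have e2 := hv 1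
    rw [OneMemClass.coe_one] at e2
    rw [hlam, ← mul_assoc, ← e2] at e1
    have hu : ((lam φ₀ ⟨x, hx⟩ : ℂˣ) : ℂ) * conj ((lam φ₀ ⟨x, hx⟩ : ℂˣ) : ℂ) = 1 := by
      rw [← IsCharacter.map_inv (isCharacter_hom (lam φ₀)) ⟨x, hx⟩, ← Units.val_mul, ← map_mul,
        mul_inv_cancel, map_one, Units.val_one]
    simp only [hψ]
    rw [show (χ : G → ℂ) x = _ from e1, map_mul]
    linear_combination ((χ : G → ℂ) 1 * conj ((χ : G → ℂ) 1)) * hu
  -- the shape of the principal block
  have hq2 : n ^ 2 + 2 ≤ q := by omega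
  have hnn : n ≤ n ^ 2 := Nat.le_self_pow (by norm_num) n
  obtain ⟨D⟩ := FS.nonempty_shape hM hab hF (by rw [← hq]; omega) he.symm (by rw [← hq]; omega)
  choose c hc using exists_mult hψc
  have hψexp : ∀ g, ψ g = ∑ θ : IrrCharacter G, (c θ : ℂ) * (θ : G → ℂ) g := fun g => by
    rw [classFunction_expand (IsCharacter.isClassFunction hψc) g]
    simp only [hc]
  have hc1 : c (trivIrr G) = 1 := by
    apply Nat.cast_injective (R := ℂ)
    rw [← hc, Nat.cast_one, ← (show classInner (χ : G → ℂ) (χ : G → ℂ) = 1 by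
      rw [classInner_irr, if_pos rfl])]
    simp [classInner, trivIrr, hψ]
  have hcdeg : ∑ θ : IrrCharacter G, c θ * charDegree (θ : G → ℂ) = n * n := by
    apply Nat.cast_injective (R := ℂ)
    push_cast
    rw [← hψ1, hψexp]
    exact Finset.sum_congr rfl fun θ _ => by rw [irr_apply_one]
  have hcle : ∀ θ, θ ≠ trivIrr G → c θ ≠ 0 → charDegree (θ : G → ℂ) + 1 ≤ n * n := by
    intro θ hne hc0
    rw [← hcdeg]
    have h2 := Finset.sum_le_sum_of_subset (f := fun θ => c θ * charDegree (θ : G → ℂ))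
      (Finset.subset_univ ({θ, trivIrr G} : Finset (IrrCharacter G)))
    rw [Finset.sum_pair hne, hc1, one_mul] at h2
    have h3 : charDegree ((trivIrr G : IrrCharacter G) : G → ℂ) = 1 := by simp [charDegree, trivIrr]
    rw [h3] at h2
    exact le_trans (Nat.add_le_add_right (Nat.le_mul_of_pos_left _ (Nat.pos_of_ne_zero hc0)) 1) h2
  -- the sums over the nontrivial elements
  have hSint : ∀ θ : IrrCharacter G, ∃ S : ℤ,
      (∑ x ∈ Finset.univ.filter (fun x : (P : Subgroup G) => x ≠ 1), (θ : G → ℂ) (x : G)) = (S : ℂ) ∧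
      (q : ℤ) ∣ (charDegree (θ : G → ℂ) : ℤ) + S := by
    intro θ
    have h1 := FS.mult_cast (P := P) θ 1
    simp only [MonoidHom.one_apply, Units.val_one, map_one, mul_one] at h1
    rw [← Finset.add_sum_erase Finset.univ _ (Finset.mem_univ (1 : (P : Subgroup G))),
      OneMemClass.coe_one, irr_apply_one, ← hq] at h1
    refine ⟨(q : ℤ) * FS.mult θ (1 : (P : Subgroup G) →* ℂˣ) - charDegree (θ : G → ℂ), ?_, ?_⟩
    · have hq0 : (q : ℂ) ≠ 0 := natCast_card_ne_zero _
      rw [Finset.filter_ne' Finset.univ (1 : (P : Subgroup G))]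
      push_cast
      rw [h1, ← mul_assoc, mul_inv_cancel₀ hq0, one_mul]
      ring
    · exact ⟨FS.mult θ (1 : (P : Subgroup G) →* ℂˣ), by ring⟩
  choose S hS hSdvd using hSint
  set A := Finset.univ.filter (fun o : C => ¬ p ∣ orderOf o) with hA
  have hA0 : 0 < A.card := Finset.card_pos.mpr ⟨1, Finset.mem_filter.mpr
    ⟨Finset.mem_univ _, not_dvd_orderOf_one hM⟩⟩
  have hcore : ∀ x : (P : Subgroup G), x ≠ 1 → ∀ θ : IrrCharacter G,
      ∑ o ∈ A, (θ : G → ℂ) ((x : G) * (o : G)) =
        if θ ∈ principalBlock M G then (A.card : ℂ) * (θ : G → ℂ) (x : G) else 0 := by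
    intro x hx θ
    have hx1 : (x : G) ≠ 1 := fun e => hx (Subtype.ext e)
    obtain ⟨hidx, -⟩ := FS.cent_index hF x.2 hx1
    obtain ⟨k, hk⟩ := IsPGroup.iff_orderOf.mp P.2 x
    haveI : Fintype (Subgroup.centralizer ({(x : G)} : Set G)) := Fintype.ofFinite _
    have hs := CS.core_sum hM (k := k) (by rw [Subgroup.orderOf_coe, hk]) hidx θ
    have e := h (x : G) x.2 hx1
    have hcard : (Nat.card (pPrimeCore p (Subgroup.centralizer ({(x : G)} : Set G))) : ℂ) =
        (A.card : ℂ) := by
      congr 1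
      rw [Nat.card_eq_fintype_card, Fintype.card_subtype]
      refine Finset.card_bij (fun a _ => (⟨(a : G), (SetLike.ext_iff.mp e _).mp a.2⟩ : C)) (fun a ha => ?_)
        (fun a _ b _ hab' => Subtype.ext (congrArg Subtype.val hab' :)) fun b hb => ?_
      · refine Finset.mem_filter.mpr ⟨Finset.mem_univ _, ?_⟩
        rw [← Subgroup.orderOf_coe]
        have := (CS.mem_core_iff hM.1 hidx a).mp (Finset.mem_filter.mp ha).2
        rwa [← Subgroup.orderOf_coe] at this
      · refine ⟨⟨(b : G), (SetLike.ext_iff.mp e _).mpr b.2⟩, Finset.mem_filter.mpr ⟨Finset.mem_univ _,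
          (CS.mem_core_iff hM.1 hidx _).mpr ?_⟩, rfl⟩
        have := (Finset.mem_filter.mp hb).2
        rw [← Subgroup.orderOf_coe] at this ⊢
        exact this
    rw [← hcard, ← hs]
    refine Finset.sum_bij (fun o _ => (⟨(o : G), (SetLike.ext_iff.mp e _).mpr o.2⟩ : Subgroup.centralizer ({(x : G)} : Set G)))
      (fun o ho => ?_) (fun a _ b _ hab' => Subtype.ext (congrArg Subtype.val hab' :))
      (fun b hb => ?_) (fun _ _ => rfl)
    · refine Finset.mem_filter.mpr ⟨Finset.mem_univ _, (CS.mem_core_iff hM.1 hidx _).mpr ?_⟩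
      have := (Finset.mem_filter.mp ho).2
      rw [← Subgroup.orderOf_coe] at this ⊢
      exact this
    · refine ⟨⟨(b : G), (SetLike.ext_iff.mp e _).mp b.2⟩, Finset.mem_filter.mpr ⟨Finset.mem_univ _, ?_⟩, rfl⟩
      have := (CS.mem_core_iff hM.1 hidx b).mp (Finset.mem_filter.mp hb).2
      rw [← Subgroup.orderOf_coe] at this ⊢
      exact this
  -- splitting the centralizer
  have hbij : Function.Bijective (fun xo : ↥(P : Subgroup G) × {o : C // o ∈ A} => ι xo.1 * xo.2.1) := by
    constructor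
    · rintro ⟨x, o⟩ ⟨x', o'⟩ he'
      simp only at he'
      have key : ∀ (y : (P : Subgroup G)) (o : {o : C // o ∈ A}), IsPPart p (ι y * o.1) (ι y) := by
        intro y o
        obtain ⟨k, hk⟩ := IsPGroup.iff_orderOf.mp P.2 y
        refine ⟨o.1, rfl, (Subgroup.mem_center_iff.mp (hcen y) o.1).symm,
          ⟨k, by rw [← hk, orderOf_injective ι (Subgroup.inclusion_injective hPC)]⟩,
          (Finset.mem_filter.mp o.2).2⟩
      have e1 := isPPart_unique hM.1 (key x o) (he' ▸ key x' o')
      have e2 : x = x' := Subgroup.inclusion_injective hPC e1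
      subst e2
      exact Prod.ext rfl (Subtype.ext (mul_left_cancel he'))
    · intro c
      obtain ⟨z, v, hzv, hcomm, hz, hv⟩ := exists_pPart hM.1 c
      obtain ⟨k, hk⟩ := hz
      have hzP : (z : G) ∈ (P : Subgroup G) :=
        mem_of_centralizes z.2 ⟨k, by rw [Subgroup.orderOf_coe, hk]⟩
      refine ⟨(⟨(z : G), hzP⟩, ⟨v, Finset.mem_filter.mpr ⟨Finset.mem_univ _, hv⟩⟩), ?_⟩
      exact hzv
  -- the two evaluations of the norm
  have hnormR : ∑ c' : C, ψ (c' : G) = (Nat.card C : ℂ) * (R : ℂ) := by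
    have h1 : classInner (fun c' : C => (χ : G → ℂ) c') (fun c' : C => (χ : G → ℂ) c') = (R : ℂ) := by
      conv_lhs => arg 1; ext c'; rw [hexp]
      rw [classInner_sum]
      simp only [hR]
      push_cast
      refine Finset.sum_congr rfl fun φ _ => ?_
      congr 1
      have h2 := congrArg conj (hm φ)
      simp only [classInner, map_mul, map_inv₀, map_natCast, map_sum, Complex.conj_conj] at h2
      rw [classInner, ← h2]
      exact congrArg _ (Finset.sum_congr rfl fun g _ => mul_comm _ _)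
    rw [classInner] at h1
    rw [← h1, ← mul_assoc, mul_inv_cancel₀ (natCast_card_ne_zero C), one_mul]
  have hcardC : Nat.card C = q * A.card := by
    rw [← Nat.card_congr (Equiv.ofBijective _ hbij), Nat.card_prod, hq, Nat.card_eq_fintype_card
      (α := {o : C // o ∈ A}), Fintype.card_coe]
  set Tot : ℤ := ∑ θ ∈ Finset.univ.filter (· ∈ principalBlock M G), (c θ : ℤ) * S θ with hTot
  set T1 : ℂ := ∑ o ∈ A, ψ (o : G) with hT1
  have htotal : (q : ℂ) * (A.card : ℂ) * (R : ℂ) = T1 + (A.card : ℂ) * (Tot : ℂ) := by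
    rw [← Nat.cast_mul, ← hcardC, ← hnormR, ← Fintype.sum_equiv (Equiv.ofBijective _ hbij)
      (fun xo => ψ ((ι xo.1 * xo.2.1 : C) : G)) _ (fun _ => rfl), Fintype.sum_prod_type,
      ← Finset.add_sum_erase Finset.univ _ (Finset.mem_univ (1 : (P : Subgroup G)))]
    congr 1
    · rw [hT1, ← Finset.sum_coe_sort A]
      exact Finset.sum_congr rfl fun o _ => by simp
    · have e : ∀ x ∈ Finset.univ.erase (1 : (P : Subgroup G)),
          ∑ o : {o : C // o ∈ A}, ψ ((ι x * o.1 : C) : G) =
            (A.card : ℂ) * ∑ θ ∈ Finset.univ.filter (· ∈ principalBlock M G),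
              (c θ : ℂ) * (θ : G → ℂ) (x : G) := by
        intro x hx
        rw [Finset.sum_coe_sort A (fun o : C => ψ ((ι x * o : C) : G))]
        simp only [hψexp, Subgroup.coe_mul]
        rw [Finset.sum_comm, Finset.mul_sum, Finset.sum_filter]
        refine Finset.sum_congr rfl fun θ _ => ?_
        rw [← Finset.mul_sum, show (ι x : G) = (x : G) from rfl,
          hcore x (Finset.ne_of_mem_erase hx) θ]
        split_ifs <;> ring
      rw [Finset.sum_congr rfl e, ← Finset.mul_sum, Finset.sum_comm, hTot, Int.cast_sum]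
      congr 1
      refine Finset.sum_congr rfl fun θ _ => ?_
      rw [← Finset.mul_sum, Int.cast_mul, Int.cast_natCast, ← hS θ,
        Finset.filter_ne' Finset.univ (1 : (P : Subgroup G))]
  have hT1le : ‖T1‖ ≤ (A.card : ℝ) * ((n : ℝ) * n) := by
    refine (norm_sum_le _ _).trans ((Finset.sum_le_card_nsmul _ _ ((n : ℝ) * n) fun o _ => ?_).trans
      (le_of_eq (nsmul_eq_mul _ _)))
    simp only [hψ, norm_mul, Complex.norm_conj]
    have h1 := IsCharacter.norm_le (isCharacter_irr χ) (o : G)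
    rw [irr_apply_one, Complex.natCast_re] at h1
    exact mul_le_mul h1 h1 (norm_nonneg _) (Nat.cast_nonneg _)
  have hkey : (q : ℤ) * R ≤ n * n + Tot := by
    have hA' : (0 : ℝ) < (A.card : ℝ) := by exact_mod_cast hA0
    have e : T1 = (((q : ℝ) * R - Tot) * A.card : ℝ) := by push_cast; linear_combination -htotal
    rw [e, Complex.norm_real, Real.norm_eq_abs, mul_comm (A.card : ℝ)] at hT1le
    have h1 := (le_abs_self _).trans hT1le
    have h2 := le_of_mul_le_mul_right h1 hA'
    have h3 : ((q : ℤ) * R : ℤ) ≤ ((n * n + Tot : ℤ) : ℝ) := by push_cast; linarith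
    exact_mod_cast h3
  -- bounding the contributions
  obtain ⟨hYcard, ht2⟩ := D.card_mul, D.two_le
  set t := Nat.card D.Y with ht
  rw [← hq] at hYcard
  have het : e + 1 ≤ t := by
    by_contra hlt
    push Not at hlt
    have : e * t ≤ n * n := Nat.mul_le_mul hen (by omega)
    have : n * n = n ^ 2 := (sq n).symm
    omega
  have hXa : (1 : ℤ) ≤ ∑ᶠ θ ∈ D.X, D.a θ ^ 2 ∧ ∀ θ ∈ D.X, D.a θ ^ 2 ≤ ∑ᶠ θ ∈ D.X, D.a θ ^ 2 := by
    rw [finsum_mem_eq_toFinset_sum]
    refine ⟨?_, fun θ hθ => ?_⟩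
    · refine le_trans ?_ (Finset.single_le_sum (f := fun θ => D.a θ ^ 2) (fun _ _ => sq_nonneg _)
        (Set.mem_toFinset.mpr D.triv_mem))
      simp [D.a_triv]
    · exact Finset.single_le_sum (f := fun θ => D.a θ ^ 2) (fun _ _ => sq_nonneg _) (Set.mem_toFinset.mpr hθ)
  have hδ2 : D.δ * D.δ = 1 := by rcases D.sign with h' | h' <;> simp [h']
  have hd0 : D.d = 0 := by
    by_contra hd
    have hsq := D.square_sum
    have hd1 : 1 ≤ D.d ^ 2 := by have := sq_pos_of_ne_zero hd; omega
    have hdd := sq_nonneg (D.d - D.δ)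
    have ht' : (e : ℤ) + 1 ≤ t := by exact_mod_cast het
    rw [← ht] at hsq
    have hmul : ((t : ℤ) - 1) * 1 ≤ ((t : ℤ) - 1) * D.d ^ 2 := Int.mul_le_mul_of_nonneg_left hd1 (by omega)
    have hXone := hXa.1
    have hdz : (D.d - D.δ) ^ 2 = 0 := le_antisymm (by linarith) hdd
    have hd_eq : D.d = D.δ := sub_eq_zero.mp (pow_eq_zero_iff two_ne_zero |>.mp hdz)
    have hte : (t : ℤ) = e + 1 := le_antisymm (by linarith) ht'
    have hXeq : ∑ᶠ θ ∈ D.X, D.a θ ^ 2 = 1 := le_antisymm (by linarith) hXone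
    have honly : ∀ θ ∈ D.X, θ = trivIrr G := by
      intro θ hθ
      by_contra hne
      rw [finsum_mem_eq_toFinset_sum] at hXeq
      have h2 := Finset.sum_le_sum_of_subset_of_nonneg (f := fun θ => D.a θ ^ 2)
        (s := {θ, trivIrr G}) (t := D.X.toFinset) (by
          intro z hz
          simp only [Finset.mem_insert, Finset.mem_singleton] at hz
          rcases hz with rfl | rfl
          · exact Set.mem_toFinset.mpr hθ
          · exact Set.mem_toFinset.mpr D.triv_mem) (fun _ _ _ => sq_nonneg _)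
      rw [Finset.sum_pair hne, hXeq, D.a_triv] at h2
      have := sq_pos_of_ne_zero (D.a_ne θ hθ)
      omega
    obtain ⟨η, hη⟩ : D.Y.Nonempty := by
      have h0 : 0 < Nat.card D.Y := by omega
      obtain ⟨⟨η, hη⟩⟩ := (Nat.card_pos_iff.mp h0).1
      exact ⟨η, hη⟩
    have hrel := D.relation η hη 1 (not_dvd_orderOf_one hM)
    rw [show D.X = {trivIrr G} from Set.eq_singleton_iff_unique_mem.mpr ⟨D.triv_mem, honly⟩,
      finsum_mem_singleton, D.a_triv, ← ht, hd_eq, irr_apply_one,
      show ((trivIrr G : IrrCharacter G) : G → ℂ) 1 = 1 from rfl] at hrel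
    have hrel' : ((t : ℤ) * D.δ - D.δ) * (charDegree (η : G → ℂ) : ℤ) + 1 = 0 := by
      have : ((((t : ℤ) * D.δ - D.δ) * (charDegree (η : G → ℂ) : ℤ) + 1 : ℤ) : ℂ) = 0 := by
        push_cast
        linear_combination hrel
      exact_mod_cast this
    have hdvd : ((t : ℤ) - 1) ∣ 1 := ⟨-(D.δ * (charDegree (η : G → ℂ) : ℤ)), by linear_combination hrel'⟩
    have ht1 := Int.le_of_dvd one_pos hdvd
    have : e * t ≤ 1 * 2 := Nat.mul_le_mul (by omega) (by omega)
    have : 4 ≤ n ^ 2 := Nat.pow_le_pow_left hn2 2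
    omega
  -- exceptional sums
  have hSY : ∀ θ ∈ D.Y, S θ = -(D.δ * e) := by
    intro θ hθ
    obtain ⟨ξ, hξ, rfl⟩ := D.ζ_surj θ hθ
    haveI : Finite ((P : Subgroup G) →* ℂˣ) := FS.finite_dual
    haveI : Fintype ((P : Subgroup G) →* ℂˣ) := Fintype.ofFinite _
    have hval : ∀ x ∈ Finset.univ.filter (fun x : (P : Subgroup G) => x ≠ 1),
        (D.ζ ξ : G → ℂ) (x : G) = (D.δ : ℂ) *
          ∑ φ ∈ Finset.univ.filter (· ∈ FS.orbSet P ξ), ((φ x : ℂˣ) : ℂ) := by
      intro x hx
      have hx1 : (x : G) ≠ 1 := fun e' => (Finset.mem_filter.mp hx).2 (Subtype.ext e')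
      obtain ⟨k, hk⟩ := IsPGroup.iff_orderOf.mp P.2 x
      rw [D.valueY ξ hξ (x : G) x ⟨1, mul_one _, Commute.one_right _,
        ⟨k, by rw [Subgroup.orderOf_coe, hk]⟩, not_dvd_orderOf_one hM⟩ hx1, hd0, Int.cast_zero,
        zero_add, finsum_mem_eq_toFinset_sum]
      congr 1
      exact Finset.sum_congr (by ext φ; simp) fun _ _ => rfl
    apply Int.cast_injective (α := ℂ)
    rw [← hS, Finset.sum_congr rfl hval, ← Finset.mul_sum, Finset.sum_comm]
    have hφ : ∀ φ ∈ Finset.univ.filter (· ∈ FS.orbSet P ξ),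
        ∑ x ∈ Finset.univ.filter (fun x : (P : Subgroup G) => x ≠ 1), ((φ x : ℂˣ) : ℂ) = -1 := by
      intro φ hφ'
      have h1 := FS.hom_sum φ
      rw [if_neg (FS.one_notMem_orbSet hξ (Finset.mem_filter.mp hφ').2),
        ← Finset.add_sum_erase Finset.univ _ (Finset.mem_univ (1 : (P : Subgroup G))), map_one,
        Units.val_one] at h1
      rw [Finset.filter_ne' Finset.univ (1 : (P : Subgroup G))]
      linear_combination h1
    rw [Finset.sum_congr rfl hφ, Finset.sum_const, nsmul_eq_mul]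
    have hc' : (Finset.univ.filter (· ∈ FS.orbSet P ξ)).card = e := by
      rw [← Fintype.card_subtype, ← Nat.card_eq_fintype_card, he, ← FS.card_orbSet hF hξ]
    rw [hc']
    push_cast
    ring
  -- non-exceptional sums
  have hSX : ∀ θ ∈ D.X, θ ≠ trivIrr G → c θ ≠ 0 → S θ ≤ 0 := by
    intro θ hθ hne hc0
    have hSv : S θ = D.a θ * ((q : ℤ) - 1) := by
      apply Int.cast_injective (α := ℂ)
      rw [← hS, Finset.sum_congr rfl (g := fun _ => (D.a θ : ℂ)) fun x hx => ?_, Finset.sum_const,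
        Finset.filter_ne' Finset.univ (1 : (P : Subgroup G)), Finset.card_erase_of_mem (Finset.mem_univ _),
        Finset.card_univ, ← Nat.card_eq_fintype_card, ← hq, nsmul_eq_mul, Nat.cast_sub (by omega)]
      · push_cast; ring
      · obtain ⟨k, hk⟩ := IsPGroup.iff_orderOf.mp P.2 x
        exact D.valueX θ hθ (x : G) x ⟨1, mul_one _, Commute.one_right _,
          ⟨k, by rw [Subgroup.orderOf_coe, hk]⟩, not_dvd_orderOf_one hM⟩ x.2
          (fun e' => (Finset.mem_filter.mp hx).2 (Subtype.ext e'))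
    by_contra hpos
    push Not at hpos
    have hapos : 0 < D.a θ := by
      by_contra h0
      push Not at h0
      have := Int.mul_nonpos_of_nonpos_of_nonneg h0 (by omega : (0 : ℤ) ≤ (q : ℤ) - 1)
      omega
    have hsq := D.square_sum
    rw [hd0] at hsq
    have hae : D.a θ ≤ (e : ℤ) + 1 := by
      have h1 := hXa.2 θ hθ
      have h2 : D.a θ ≤ D.a θ ^ 2 := Int.le_self_sq _
      simp only [zero_sub, neg_sq, ne_eq, OfNat.ofNat_ne_zero, not_false_eq_true, zero_pow, mul_zero,
        add_zero] at hsq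
      linarith [sq_nonneg D.δ]
    have hθq := hcle θ hne hc0
    have hdiv : (q : ℤ) ∣ (charDegree (θ : G → ℂ) : ℤ) - D.a θ := by
      obtain ⟨k, hk⟩ := hSdvd θ
      exact ⟨k - D.a θ, by rw [hSv] at hk; linear_combination hk⟩
    have hnq : (n * n : ℕ) + 2 ≤ q := by rw [← sq]; exact hq2
    have heq : (charDegree (θ : G → ℂ) : ℤ) - D.a θ = 0 := by
      refine Int.eq_zero_of_abs_lt_dvd hdiv (abs_lt.mpr ⟨?_, ?_⟩)
      · omega
      · omega
    refine hne (Subtype.ext ?_)
    have hall := hker (θ : G → ℂ) (isCharacter_irr θ) fun x hx => by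
      by_cases hx1 : x = 1
      · rw [hx1]
      obtain ⟨k, hk⟩ := IsPGroup.iff_orderOf.mp P.2 (⟨x, hx⟩ : (P : Subgroup G))
      rw [D.valueX θ hθ x x ⟨1, mul_one _, Commute.one_right _,
        ⟨k, by rw [← hk, Subgroup.orderOf_mk]⟩, not_dvd_orderOf_one hM⟩ hx hx1, irr_apply_one,
        show D.a θ = (charDegree (θ : G → ℂ) : ℤ) by linarith]
      push_cast; rfl
    have hs := sum_mul_conj_irr θ (trivIrr G)
    rw [if_neg hne] at hs
    simp only [trivIrr, map_one, mul_one] at hs
    rw [Finset.sum_congr rfl (fun g _ => hall g), Finset.sum_const, Finset.card_univ, nsmul_eq_mul] at hs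
    rcases mul_eq_zero.mp hs with e' | e'
    · simp [Fintype.card_ne_zero] at e'
    · exact absurd e' (irr_one_ne_zero θ)
  -- the total
  have hStriv : S (trivIrr G) = (q : ℤ) - 1 := by
    apply Int.cast_injective (α := ℂ)
    rw [← hS]
    simp only [trivIrr, Finset.sum_const, Finset.filter_ne' Finset.univ (1 : (P : Subgroup G)),
      Finset.card_erase_of_mem (Finset.mem_univ _), Finset.card_univ, ← Nat.card_eq_fintype_card,
      nsmul_eq_mul, mul_one, ← hq]
    rw [Nat.cast_sub (by omega)]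
    push_cast; ring
  set M' := ∑ θ ∈ Finset.univ.filter (fun θ => θ ∈ D.Y ∧ D.δ = -1), c θ with hM'
  have hTle : Tot ≤ ((q : ℤ) - 1) + (M' : ℤ) * e := by
    rw [hTot, ← Finset.add_sum_erase _ _ (Finset.mem_filter.mpr
      ⟨Finset.mem_univ (trivIrr G),
        (show trivIrr G ∈ principalBlock M G from self_mem_blockOf hM (trivIrr G))⟩), hc1, hStriv, Nat.cast_one, one_mul]
    refine add_le_add_right ?_ _
    rw [hM', Nat.cast_sum, Finset.sum_mul, Finset.sum_filter (s := (Finset.univ : Finset (IrrCharacter G)))]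
    refine le_trans (Finset.sum_le_sum (g := fun θ => if θ ∈ D.Y ∧ D.δ = -1 then (c θ : ℤ) * e else 0)
      fun θ hθ => ?_) (Finset.sum_le_sum_of_subset_of_nonneg (Finset.subset_univ _) fun θ _ _ => by
        split_ifs <;> positivity)
    have hθB := (Finset.mem_filter.mp (Finset.mem_of_mem_erase hθ)).2
    rw [D.union_eq] at hθB
    by_cases hc0 : c θ = 0
    · simp [hc0]
    rcases hθB with hX | hY
    · have hS0 := hSX θ hX (Finset.ne_of_mem_erase hθ) hc0
      rw [if_neg fun hh => Set.disjoint_left.mp D.disjoint hX hh.1]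
      exact Int.mul_nonpos_of_nonneg_of_nonpos (Int.natCast_nonneg _) hS0
    · rw [hSY θ hY]
      rcases D.sign with hh | hh
      · rw [if_neg (fun h2 => by omega), hh]
        exact Int.mul_nonpos_of_nonneg_of_nonpos (Int.natCast_nonneg _) (by omega)
      · rw [if_pos ⟨hY, hh⟩, hh]; simp
  have hM'le : (M' : ℤ) * ((q : ℤ) - e) + 1 ≤ (n : ℤ) * n := by
    have h1 : (M' : ℤ) * ((q : ℤ) - e) ≤
        ∑ θ ∈ Finset.univ.filter (fun θ => θ ∈ D.Y ∧ D.δ = -1), (c θ : ℤ) * charDegree (θ : G → ℂ) := by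
      rw [hM', Nat.cast_sum, Finset.sum_mul]
      refine Finset.sum_le_sum fun θ hθ => mul_le_mul_of_nonneg_left ?_ (Int.natCast_nonneg _)
      obtain ⟨hY, hh⟩ := (Finset.mem_filter.mp hθ).2
      obtain ⟨k, hk⟩ := hSdvd θ
      rw [hSY θ hY, hh] at hk
      have hpos : (0 : ℤ) < (q : ℤ) * k := by
        rw [← hk]
        have := charDegree_pos θ
        omega
      have hk1 : 1 ≤ k := by
        by_contra h0
        push Not at h0
        have := Int.mul_nonpos_of_nonneg_of_nonpos (Int.natCast_nonneg q) (by omega : k ≤ 0)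
        omega
      have := Int.mul_le_mul_of_nonneg_left hk1 (Int.natCast_nonneg q)
      omega
    have h2 := Finset.sum_le_sum_of_subset (f := fun θ => c θ * charDegree (θ : G → ℂ))
      (Finset.subset_univ (insert (trivIrr G) (Finset.univ.filter (fun θ => θ ∈ D.Y ∧ D.δ = -1))))
    rw [Finset.sum_insert (fun hh => Set.disjoint_left.mp D.disjoint D.triv_mem
      (Finset.mem_filter.mp hh).2.1), hcdeg, hc1, one_mul,
      show charDegree ((trivIrr G : IrrCharacter G) : G → ℂ) = 1 by simp [charDegree, trivIrr]] at h2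
    have h3 : ((∑ θ ∈ Finset.univ.filter (fun θ => θ ∈ D.Y ∧ D.δ = -1),
        c θ * charDegree (θ : G → ℂ) : ℕ) : ℤ) + 1 ≤ ((n * n : ℕ) : ℤ) := by omega
    push_cast at h3
    linarith
  -- conclusion
  have hqn : (n : ℤ) * n + 2 ≤ q := by rw [← sq]; exact_mod_cast hq2
  have henZ : (e : ℤ) ≤ n := by exact_mod_cast hen
  have heRZ : (e : ℤ) ≤ R := by exact_mod_cast heR
  have hR2Z : (2 : ℤ) ≤ R := by exact_mod_cast hR2
  have hn2Z : (2 : ℤ) ≤ n := by exact_mod_cast hn2
  rcases (by omega : M' = 0 ∨ M' = 1 ∨ 2 ≤ M') with h0 | h0 | h0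
  · rw [h0] at hTle
    push_cast at hTle
    linarith [mul_le_mul_of_nonneg_left hR2Z (Int.natCast_nonneg q)]
  · rw [h0] at hTle hM'le
    push_cast at hTle hM'le
    have he3 : (3 : ℤ) ≤ R := by omega
    linarith [mul_le_mul_of_nonneg_left he3 (Int.natCast_nonneg q),
      mul_le_mul_of_nonneg_left hn2Z (Int.natCast_nonneg n)]
  · have h0' : (2 : ℤ) ≤ M' := by exact_mod_cast h0
    have hnn' := mul_le_mul_of_nonneg_left hn2Z (Int.natCast_nonneg n)
    linarith [mul_le_mul_of_nonneg_right h0' (by linarith : (0 : ℤ) ≤ (q : ℤ) - e)]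

end CfsgLib.Blocks.SD
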